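import Cfsg.Agent.H60.PauAl

/-! Pauli groups: idempotents, gates, controlled elements, splitting off a hyperbolic pair. -/

set_option autoImplicit false
set_option linter.unusedSectionVars false

namespace H60.Cl

open scoped commutatorElement

variable {K E : Type*} [Field K] [Ring E] [Algebra K E]
variable {τ : E →ₗ[K] K} {P : Subgroup Eˣ} {x y z d g j u v : Eˣ}

open Classical in
/-- the unit with a given value -/
noncomputable def un (a : E) : Eˣ := if h : IsUnit a then h.unit else 1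

theorem un_val {a b : E} (h1 : a * b = 1) (h2 : b * a = 1) : (un a : E) = a := by
  have : IsUnit a := ⟨⟨a, b, h1, h2⟩, rfl⟩
  rw [un, dif_pos this, IsUnit.unit_spec]

/-! ### gates -/

/-- the gate `1 + j` -/
noncomputable def ga (j : Eˣ) : Eˣ := un (1 + (j : E))

theorem nsq_val (h : j * j = -1) : (j : E) * j = -1 := congrArg Units.val h

theorem neg_nsq (h : j * j = -1) : -j * -j = -1 := by rwa [neg_mul_neg]

theorem Amb.ga_val (h : Amb τ) (hj : j * j = -1) : (ga j : E) = 1 + j := by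
  have e : (1 + j : E) * (1 - j) = (2 : K) • 1 := by
    rw [two_smul, mul_sub, add_mul, add_mul, nsq_val hj]; simp; abel
  have e' : (1 - j : E) * (1 + j) = (2 : K) • 1 := by
    rw [two_smul, sub_mul, mul_add, mul_add, nsq_val hj]; simp; abel
  refine un_val (b := (2 : K)⁻¹ • (1 - j : E)) ?_ ?_
  · rw [mul_smul_comm, e, inv_smul_smul₀ h.two]
  · rw [smul_mul_assoc, e', inv_smul_smul₀ h.two]

/-- the scalar two -/
def Amb.tw (h : Amb τ) : Eˣ := Cl.sc K E (Units.mk0 2 h.two)

theorem Amb.tw_val (h : Amb τ) : (h.tw : E) = 2 := by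
  rw [Amb.tw, sc_val]; exact map_ofNat _ 2

theorem Amb.tw_mem (h : Amb τ) : h.tw ∈ Zs K E := sc_mem _

theorem Amb.ga_comm (h : Amb τ) (hj : j * j = -1) (hc : y * j = j * y) : y * ga j = ga j * y :=
  Units.ext (by simp only [Units.val_mul, h.ga_val hj, mul_add, add_mul, comm_val hc]; simp)

theorem Amb.ga_anti (h : Amb τ) (hj : j * j = -1) (hc : j * y = -(y * j)) :
    ga j * y * (ga j)⁻¹ = j * y := by
  rw [mul_inv_eq_iff_eq_mul]
  refine Units.ext ?_
  simp only [Units.val_mul, h.ga_val hj, mul_add, add_mul, one_mul, mul_one]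
  rw [mul_assoc, anti_val (anti_symm hc), mul_neg, ← mul_assoc, nsq_val hj]
  simp [add_comm]

theorem Amb.ga_conj (h : Amb τ) (hj : j * j = -1) (g : Eˣ) :
    g * ga j * g⁻¹ = ga (g * j * g⁻¹) := by
  have : g * j * g⁻¹ * (g * j * g⁻¹) = -1 := by rw [conj_mul, hj]; simp
  refine Units.ext ?_
  simp only [Units.val_mul, h.ga_val hj, h.ga_val this, mul_add, add_mul]
  simp

theorem Amb.ga_neg (h : Amb τ) (hj : j * j = -1) : ga (-j) = -j * ga j :=
  Units.ext (by
    simp only [Units.val_mul, h.ga_val hj, h.ga_val (neg_nsq hj), Units.val_neg, mul_add, neg_mul,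
      nsq_val hj]
    simp [add_comm])

theorem Amb.ga_sq (h : Amb τ) (hj : j * j = -1) : ga j * ga j = h.tw * j :=
  Units.ext (by
    simp only [Units.val_mul, h.ga_val hj, h.tw_val, mul_add, add_mul, nsq_val hj]
    rw [two_mul]; simp; abel)

theorem Amb.ga_neg_mul (h : Amb τ) (hj : j * j = -1) : ga (-j) * ga j = h.tw := by
  rw [h.ga_neg hj, mul_assoc, h.ga_sq hj, Zs_comm h.tw_mem, ← mul_assoc, neg_mul, hj]; simp

variable [Finite E]

theorem Amb.ga_Un (h : Amb τ) (hj : j * j = -1) (hjP : j ∈ P) : ga j ∈ Un K P :=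
  mem_Un.2 (h.ga_val hj ▸ add_mem (one_mem _) (val_mem_Al hjP))

theorem Pau.ga_Nm (hP : Pau K P) (h : Amb τ) (hj : j * j = -1) (hjP : j ∈ P) : ga j ∈ Nm P :=
  mem_Nm fun y hy => by
    rcases hP.comm j hjP y hy with e | e
    · rwa [← h.ga_comm hj e.symm, mul_inv_cancel_right]
    · rw [h.ga_anti hj e]; exact P.mul_mem hjP hy

theorem move_sq (h1 : x * y = -(y * x)) (h2 : x * x = y * y) : y * x⁻¹ * (y * x⁻¹) = -1 := by
  rw [mul_assoc, ← mul_assoc x⁻¹, anti_symm (ainv (anti_symm h1)), neg_mul, mul_neg, mul_assoc,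
    ← mul_assoc y y, ← h2]
  simp

theorem Amb.move (h : Amb τ) (h1 : x * y = -(y * x)) (h2 : x * x = y * y) :
    ga (y * x⁻¹) * x * (ga (y * x⁻¹))⁻¹ = y := by
  rw [h.ga_anti (move_sq h1 h2) (anti_symm (ac h1 (cinv rfl))), inv_mul_cancel_right]

/-! ### idempotents -/

variable (K) in
/-- the projection on the fixed space of `d` -/
def ee (d : Eˣ) : E := (2 : K)⁻¹ • (1 + (d : E))

theorem Amb.ee_neg (h : Amb τ) (d : Eˣ) : ee K (-d) = 1 - ee K d := by
  rw [ee, ee, eq_sub_iff_add_eq, ← smul_add, Units.val_neg,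
    show (1 + -(d : E)) + (1 + d) = (2 : K) • 1 by rw [two_smul]; abel, inv_smul_smul₀ h.two]

theorem mul_ee (hd : d * d = 1) : (d : E) * ee K d = ee K d := by
  rw [ee, mul_smul_comm, mul_add, sq_val hd, mul_one, add_comm]

theorem Amb.ee_sq (h : Amb τ) (hd : d * d = 1) : ee K d * ee K d = ee K d := by
  nth_rw 1 [ee]
  rw [smul_mul_assoc, add_mul, mul_ee hd, one_mul, ← two_smul K, inv_smul_smul₀ h.two]

theorem ee_comm {a : E} (h : a * d = d * a) : a * ee K d = ee K d * a := by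
  simp only [ee, mul_smul_comm, smul_mul_assoc, mul_add, add_mul, h, mul_one, one_mul]

theorem Amb.ee_anti (h : Amb τ) {a : E} (h1 : a * d = -(d * a)) :
    a * ee K d = (1 - ee K d) * a := by
  rw [← h.ee_neg]
  simp only [ee, mul_smul_comm, smul_mul_assoc, mul_add, add_mul, h1, mul_one, one_mul,
    Units.val_neg, neg_mul]

theorem ee_mem (hd : d ∈ P) : ee K d ∈ Al K P :=
  (Al K P).smul_mem (add_mem (one_mem _) (val_mem_Al hd)) _

theorem Amb.ee_mul_compl (h : Amb τ) (hd : d * d = 1) : ee K d * (1 - ee K d) = 0 := by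
  rw [mul_sub, mul_one, h.ee_sq hd, sub_self]

theorem Amb.compl_mul_ee (h : Amb τ) (hd : d * d = 1) : (1 - ee K d) * ee K d = 0 := by
  rw [sub_mul, one_mul, h.ee_sq hd, sub_self]

theorem Amb.val_eq_ee (h : Amb τ) (d : Eˣ) : (d : E) = ee K d - (1 - ee K d) := by
  rw [← h.ee_neg, ee, ee, ← smul_sub, Units.val_neg,
    show (1 + (d : E)) - (1 + -d) = (2 : K) • (d : E) by rw [two_smul]; abel, inv_smul_smul₀ h.two]

theorem Amb.pair_mul (h : Amb τ) (hd : d * d = 1) {a b a' b' : E} (ha : a' * d = d * a')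
    (hb : b' * d = d * b') : (a * ee K d + b * (1 - ee K d)) * (a' * ee K d + b' * (1 - ee K d)) =
      a * a' * ee K d + b * b' * (1 - ee K d) := by
  have e1 := ee_comm (K := K) ha
  have e2 := ee_comm (K := K) hb
  have e3 := h.ee_sq hd
  set e := ee K d
  have f1 : e * (a' * e) = a' * e := by rw [← mul_assoc, ← e1, mul_assoc, e3]
  have f2 : e * (b' * e) = b' * e := by rw [← mul_assoc, ← e2, mul_assoc, e3]
  simp only [mul_add, add_mul, mul_sub, sub_mul, mul_assoc, f1, f2, ← e2, mul_one, one_mul]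
  abel

/-! ### controlled elements -/

variable (K) in
/-- `u` on the fixed space of `d`, the identity on the other eigenspace -/
noncomputable def ct (d u : Eˣ) : Eˣ := un (u * ee K d + (1 - ee K d))

theorem Amb.ct_val (h : Amb τ) (hd : d * d = 1) (hu : u * d = d * u) :
    (ct K d u : E) = u * ee K d + (1 - ee K d) := by
  have := fun (a b : Eˣ) (hb : b * d = d * b) => h.pair_mul hd (a := a) (b := 1) (b' := 1)
    (comm_val hb) (by simp)
  simp only [one_mul] at this
  refine un_val (b := ↑u⁻¹ * ee K d + (1 - ee K d)) ?_ ?_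
  · rw [this _ _ (cinv hu.symm).symm]; simp
  · rw [this _ _ hu]; simp

theorem Amb.ct_val' (h : Amb τ) (hd : d * d = 1) (hu : u * d = d * u) :
    (ct K d u : E) = u * ee K d + 1 * (1 - ee K d) := by rw [one_mul, h.ct_val hd hu]

theorem Amb.ct_mul (h : Amb τ) (hd : d * d = 1) (hu : u * d = d * u) (hv : v * d = d * v) :
    ct K d (u * v) = ct K d u * ct K d v := Units.ext (by
  have := h.pair_mul hd (a := u) (b := 1) (b' := 1) (comm_val hv) (by simp)
  simp only [one_mul] at this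
  rw [Units.val_mul, h.ct_val hd hu, h.ct_val hd hv, h.ct_val hd (cc hu.symm hv.symm).symm, this,
    Units.val_mul])

theorem Amb.ct_one (h : Amb τ) (hd : d * d = 1) : ct K d 1 = 1 :=
  Units.ext (by rw [h.ct_val hd (by simp)]; simp)

theorem Amb.ct_inv (h : Amb τ) (hd : d * d = 1) (hu : u * d = d * u) :
    ct K d u⁻¹ = (ct K d u)⁻¹ :=
  eq_inv_of_mul_eq_one_left (by rw [← h.ct_mul hd (cinv hu.symm).symm hu, inv_mul_cancel, h.ct_one hd])

theorem Amb.ct_comm (h : Amb τ) (hd : d * d = 1) (hu : u * d = d * u) (h1 : g * d = d * g)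
    (h2 : g * u = u * g) : g * ct K d u = ct K d u * g := Units.ext (by
  simp only [Units.val_mul, h.ct_val hd hu, mul_add, add_mul, mul_sub, sub_mul, mul_one, one_mul]
  rw [← mul_assoc, comm_val h2, mul_assoc, ee_comm (comm_val h1), mul_assoc])

theorem Amb.ct_conj (h : Amb τ) (hd : d * d = 1) (hu : u * d = d * u) (g : Eˣ) :
    g * ct K d u * g⁻¹ = ct K (g * d * g⁻¹) (g * u * g⁻¹) := Units.ext (by
  rw [h.ct_val (by rw [conj_mul, hd]; simp) (conj_comm g hu)]
  simp [h.ct_val hd hu, ee, mul_add, add_mul, mul_sub, sub_mul, mul_assoc])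

/-- conjugation by an element commuting with `d` only depends on its part on the fixed space -/
theorem Amb.ct_conj_of (h : Amb τ) (hd : d * d = 1) (hu : u * d = d * u) (hg : g * d = d * g)
    (hv : v * d = d * v) (e : (g : E) * ee K d = v * ee K d) :
    g * ct K d u * g⁻¹ = ct K d (v * u * v⁻¹) := by
  have e1 : (g : E) = v * ee K d + g * (1 - ee K d) := by rw [← e]; simp [mul_sub]
  have h3 := (cc (cc hv.symm hu.symm) (cinv hv.symm)).symm
  rw [mul_inv_eq_iff_eq_mul]
  refine Units.ext ?_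
  rw [Units.val_mul, Units.val_mul, h.ct_val' hd hu, h.ct_val' hd h3, e1,
    h.pair_mul hd (comm_val hu) (by simp), h.pair_mul hd (comm_val hv) (comm_val hg)]
  simp

theorem Amb.ct_eq_ga (h : Amb τ) (hd : d * d = 1) (hj : j * j = -1) (hc : j * d = d * j) :
    d * j * (d * j) = -1 ∧ ct K d j = h.tw⁻¹ * (ga j * ga (d * j)) := by
  have h1 : d * j * (d * j) = -1 := by
    rw [mul_assoc, ← mul_assoc j, hc, mul_assoc, ← mul_assoc d, hd, hj, one_mul]
  refine ⟨h1, eq_inv_mul_of_mul_eq (Units.ext ?_)⟩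
  have e2 : (2 : E) * ee K d = 1 + d := by
    rw [ee, two_mul, ← two_smul K, smul_inv_smul₀ h.two]
  have e3 : (j : E) * (d * j) = -d := by rw [← mul_assoc, comm_val hc, mul_assoc, nsq_val hj]; simp
  simp only [Units.val_mul, h.ct_val hd hc, h.tw_val, h.ga_val hj, h.ga_val h1, mul_add, add_mul,
    mul_sub, e2, e3, one_mul, mul_one]
  rw [two_mul, ← mul_add, ← two_mul, e2, mul_add, comm_val hc, ← one_add_one_eq_two, mul_one]
  abel

theorem Amb.ct_Un (h : Amb τ) (hd : d * d = 1) (hdP : d ∈ P) (hu : u * d = d * u)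
    (hu' : u ∈ Un K P) : ct K d u ∈ Un K P :=
  mem_Un.2 (h.ct_val hd hu ▸ add_mem (mul_mem hu'.1 (ee_mem hdP)) (sub_mem (one_mem _) (ee_mem hdP)))

end H60.Cl
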