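/- Maximality in `Ω` of the normaliser of a quadratic extension field of unitary type. -/
import Cfsg.Agent.H60.NonMax1

set_option autoImplicit false

namespace H60

open QuadraticMap H56 Module Submodule Cfsg.Geo

variable {F V : Type*} [Field F] [AddCommGroup V] [Module F V] {Q : QuadraticForm F V}

/-- `θ` generates a quadratic extension field acting by similarities, the adjoint being the
conjugate. -/
structure GUData (Q : QuadraticForm F V) (θ : V →ₗ[F] V) (τ ν : F) : Prop where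
  nondeg : Q.polarBilin.Nondegenerate
  pol : ∀ v, polar Q v (θ v) = τ * Q v
  nrm : ∀ v, Q (θ v) = ν * Q v
  aniso : ∀ s t : F, s * s + τ * s * t + ν * t * t = 0 → t = 0

namespace GUData

variable {θ : V →ₗ[F] V} {τ ν : F}

theorem adj (h : GUData Q θ τ ν) (u v : V) :
    polar Q (θ u) v = τ * polar Q u v - polar Q u (θ v) := by
  have h1 := h.pol (u + v)
  rw [map_add, Q_add] at h1
  simp only [polar_add_left, polar_add_right, h.pol] at h1
  rw [polar_comm]; linear_combination h1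

theorem polθ (h : GUData Q θ τ ν) (u v : V) : polar Q (θ u) (θ v) = ν * polar Q u v := by
  have h1 := h.nrm (u + v)
  rw [map_add, Q_add, Q_add, h.nrm, h.nrm] at h1
  linear_combination h1

theorem sq (h : GUData Q θ τ ν) (u : V) : θ (θ u) = τ • θ u - ν • u := by
  rw [← sub_eq_zero]
  refine eq_zero_of_polar h.nondeg fun y => ?_
  simp only [polar_sub_left, polar_smul_left, smul_eq_mul]
  rw [h.adj (θ u) y, h.polθ]; ring

theorem norm_ne (h : GUData Q θ τ ν) {s t : F} (hst : s ≠ 0 ∨ t ≠ 0) :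
    s * s + τ * s * t + ν * t * t ≠ 0 := fun e => by
  have ht := h.aniso s t e
  subst ht
  simp at hst e
  exact hst e

theorem mem_of_comb (h : GUData Q θ τ ν) {W : Submodule F V} {z : V} {s t : F}
    (hst : s ≠ 0 ∨ t ≠ 0) (h1 : s • z + t • θ z ∈ W) (h2 : θ (s • z + t • θ z) ∈ W) : z ∈ W := by
  have := W.sub_mem (W.smul_mem (s + t * τ) h1) (W.smul_mem t h2)
  rw [← Submodule.smul_mem_iff _ (h.norm_ne hst)]
  convert this using 1
  simp only [map_add, map_smul, h.sq]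
  module

theorem θ_mem_span (h : GUData Q θ τ ν) {u x : V} (hx : x ∈ span F ({u, θ u} : Set V)) :
    θ x ∈ span F ({u, θ u} : Set V) := by
  obtain ⟨a, b, rfl⟩ := Submodule.mem_span_pair.1 hx
  exact Submodule.mem_span_pair.2 ⟨-(b * ν), a + b * τ, by
    simp only [map_add, map_smul, h.sq]; module⟩

theorem θ_mem_ort (h : GUData Q θ τ ν) {u x : V} (hx : x ∈ ort Q u ⊓ ort Q (θ u)) :
    θ x ∈ ort Q u ⊓ ort Q (θ u) := by
  obtain ⟨h1, h2⟩ := hx
  simp only [SetLike.mem_coe, mem_ort] at h1 h2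
  refine ⟨?_, by simp [h.polθ, h1]⟩
  rw [h.adj, h1] at h2
  simpa using h2

theorem Q_comb (h : GUData Q θ τ ν) {z : V} (hz : Q z = 0) (s t : F) : Q (s • z + t • θ z) = 0 := by
  simp [Q_add, Q_smul, hz, h.nrm, h.pol]

theorem not_mem_span (h : GUData Q θ τ ν) {u : V} (hu : u ≠ 0) : θ u ∉ span F {u} := fun h' => by
  obtain ⟨c, hc⟩ := mem_span_singleton.1 h'
  refine hu (h.mem_of_comb (W := ⊥) (s := -c) (t := 1) (Or.inr one_ne_zero) ?_ ?_) <;>
    simp [← hc]

theorem eich_comm (h : GUData Q θ τ ν) (u : V) (c : F) (x : V) :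
    eich Q u (c • θ u) (θ x) = θ (eich Q u (c • θ u) x) := by
  by_cases hu : Q u = 0
  · have h1 : polar Q u (c • θ u) = 0 := by simp [h.pol, hu]
    rw [eich_apply hu h1, eich_apply hu h1]
    simp only [map_add, map_sub, map_smul, h.sq, polar_smul_left, h.polθ, h.adj u x, Q_smul,
      h.nrm, hu, smul_eq_mul]
    module
  · rw [eich_of_not fun h => hu h.1]; rfl

theorem perp_span (u : V) : perp Q (span F {u, θ u}) = ort Q u ⊓ ort Q (θ u) := by
  ext x; rw [mem_perp_span_pair]; rfl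

section extraction

variable {M : Subgroup (O Q)}

theorem θ_mem_AS (h : GUData Q θ τ ν) (hM : ∀ u (c : F), eich Q u (c • θ u) ∈ M) {u : V} (hu : Q u = 0) :
    θ u ∈ AS M u := ⟨by simp [h.pol, hu], hM u⟩

theorem span_le_AS (h : GUData Q θ τ ν) (hM : ∀ u (c : F), eich Q u (c • θ u) ∈ M) {u : V}
    (hu : Q u = 0) : span F {u, θ u} ≤ AS M u := by
  rw [span_le]
  rintro _ (rfl | rfl)
  exacts [self_mem_AS M hu, h.θ_mem_AS hM hu]

theorem comb_mem_AS (h : GUData Q θ τ ν) (hM : ∀ u (c : F), eich Q u (c • θ u) ∈ M) {u v z : V}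
    (hv : v ∈ AS M u) (hz : z ∈ ort Q u ⊓ ort Q (θ u)) (hQz : Q z = 0) :
    polar Q (θ z) v • z + (-polar Q z v) • θ z ∈ AS M u := by
  have h1 := apply_mem_AS_of_fix (hM z 1) (eich_apply_of_orth_orth (pc hz.1)
    (by simpa using pc (h.θ_mem_ort hz).1)) hv
  rw [one_smul, eich_apply hQz (by simp [h.pol, hQz]), h.nrm, hQz] at h1
  convert (AS M u).sub_mem h1 hv using 1
  module

variable [FiniteDimensional F V]

theorem exists_polar_ne (h : GUData Q θ τ ν) {u v : V} (hv : v ∉ span F ({u, θ u} : Set V)) :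
    ∃ y ∈ ort Q u ⊓ ort Q (θ u), polar Q v y = 1 := by
  rw [← perp_span]
  exact exists_orth_polar_eq_one h.nondeg hv

theorem θ_mem_AS_of_mem (h : GUData Q θ τ ν) (h9 : 9 ≤ finrank F V)
    (hM : ∀ u (c : F), eich Q u (c • θ u) ∈ M) {u v : V} (hu : Q u = 0)
    (hv : v ∈ AS M u) (hvP : v ∈ ort Q u ⊓ ort Q (θ u)) (hQv : Q v = 0) : θ v ∈ AS M u := by
  by_cases hvn : v ∈ span F ({u, θ u} : Set V)
  · exact h.span_le_AS hM hu (h.θ_mem_span hvn)
  obtain ⟨y, hy, hvy⟩ := h.exists_polar_ne hvn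
  obtain ⟨y, hy, hQy, hvy⟩ := exists_partner hvP hQv hy (by rw [hvy]; exact one_ne_zero)
  set β := polar Q v (θ y)
  have hN := h.norm_ne (s := -β) (t := 1) (Or.inr one_ne_zero)
  set N := -β * -β + τ * -β * 1 + ν * 1 * 1 with hNd
  set z := (β / N) • y + (-1 / N) • θ y with hz
  have hzP : z ∈ ort Q u ⊓ ort Q (θ u) := add_mem (smul_mem _ _ hy) (smul_mem _ _ (h.θ_mem_ort hy))
  have hQz : Q z = 0 := h.Q_comb hQy _ _
  have h1 : polar Q v z = 0 := by
    simp only [hz, polar_add_right, polar_smul_right, hvy, smul_eq_mul]; field_simp; ring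
  have h2 : polar Q v (θ z) = 1 := by
    simp only [hz, map_add, map_smul, h.sq, polar_add_right, polar_sub_right, polar_smul_right, hvy,
      smul_eq_mul]
    field_simp; rw [hNd]; ring
  have h3 : polar Q (θ v) z = -1 := by rw [h.adj, h1, h2]; ring
  have hY := ((nondeg_top h.nondeg).inf_ort_pair (e := v) (f := θ z) trivial trivial hQv
    (by rw [h.nrm, hQz, mul_zero]) h2).inf_ort_pair (e := z) (f := -θ v)
    ⟨⟨trivial, h1⟩, by simp [polar_comm Q (θ z), h.pol, hQz]⟩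
    ⟨⟨trivial, by simp [h.pol, hQv]⟩, by simp [h.polθ, pc h1]⟩ hQz
    (by simp [h.nrm, hQv]) (by simp [polar_comm Q z, h3])
  set Y := ⊤ ⊓ ort Q v ⊓ ort Q (θ z) ⊓ ort Q z ⊓ ort Q (-θ v) with hYd
  have key : ∀ w ∈ Y ⊓ ort Q u ⊓ ort Q (θ u), z + w + Q w • θ v ∈ AS M u := by
    rintro w ⟨⟨⟨⟨⟨⟨-, w1⟩, w2⟩, w3⟩, w4⟩, w5⟩, w6⟩
    simp only [SetLike.mem_coe, mem_ort, polar_neg_left, neg_eq_zero] at w1 w2 w3 w4
    have w7 : polar Q v (θ w) = 0 := by have := h.adj v w; rw [w4, w1] at this; simpa using this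
    have := h.comb_mem_AS hM hv (z := z + w + Q w • θ v)
      (add_mem (add_mem hzP ⟨w5, w6⟩) (smul_mem _ _ (h.θ_mem_ort hvP))) (by
        simp [Q_add, Q_smul, hQz, w3, h.nrm, hQv, polar_comm Q z (θ v), h3, pc w4])
    simpa [h.sq, polar_comm Q _ v, h1, h2, w1, w7, h.pol, hQv, pself hQv] using this
  have : ∃ w ∈ Y ⊓ ort Q u ⊓ ort Q (θ u), ∃ w' ∈ Y ⊓ ort Q u ⊓ ort Q (θ u), polar Q w w' ≠ 0 := by
    by_contra hc
    push Not at hc
    have := hY.two_mul_finrank_le h.nondeg (inf_le_left.trans inf_le_left) hc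
    have := finrank_le_inf_ort (Q := Q) Y u
    have := finrank_le_inf_ort (Q := Q) (Y ⊓ ort Q u) (θ u)
    have := finrank_le_inf_ort (Q := Q) ⊤ v
    have := finrank_le_inf_ort (Q := Q) (⊤ ⊓ ort Q v) (θ z)
    have := finrank_le_inf_ort (Q := Q) (⊤ ⊓ ort Q v ⊓ ort Q (θ z)) z
    have : _ ≤ finrank F Y + 1 :=
      finrank_le_inf_ort (Q := Q) (⊤ ⊓ ort Q v ⊓ ort Q (θ z) ⊓ ort Q z) (-θ v)
    simp only [finrank_top] at *
    omega
  obtain ⟨w, hw, w', hw', hww⟩ := this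
  have := (AS M u).sub_mem ((AS M u).add_mem (key _ (add_mem hw hw')) (key 0 (zero_mem _)))
    ((AS M u).add_mem (key w hw) (key w' hw'))
  rw [← Submodule.smul_mem_iff _ hww]
  convert this using 1
  rw [Q_add, map_zero]; module

theorem mem_AS_of_polar_ne (h : GUData Q θ τ ν) (h9 : 9 ≤ finrank F V)
    (hM : ∀ u (c : F), eich Q u (c • θ u) ∈ M) {u v z : V} (hu : Q u = 0)
    (hv : v ∈ AS M u) (hz : z ∈ ort Q u ⊓ ort Q (θ u)) (hQz : Q z = 0) (hzv : polar Q z v ≠ 0) :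
    z ∈ AS M u := by
  have h1 := h.comb_mem_AS hM hv hz hQz
  exact h.mem_of_comb (Or.inr (neg_ne_zero.2 hzv)) h1 (h.θ_mem_AS_of_mem h9 hM hu h1
    (add_mem (smul_mem _ _ hz) (smul_mem _ _ (h.θ_mem_ort hz))) (h.Q_comb hQz _ _))

variable [Finite F]

theorem hasHyp (h : GUData Q θ τ ν) (h9 : 9 ≤ finrank F V) (u u' : V) :
    HasHyp Q (ort Q u ⊓ ort Q u') := (nondeg_top h.nondeg).hasHyp_of_le h.nondeg le_top (by
  have := finrank_le_inf_ort (Q := Q) ⊤ u
  have := finrank_le_inf_ort (Q := Q) (⊤ ⊓ ort Q u) u'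
  rw [top_inf_eq] at *
  simp only [finrank_top] at *
  omega)

theorem exists_sing_orth (h9 : 9 ≤ finrank F V) (u u' a b c d : V) :
    ∃ z, polar Q u z = 0 ∧ polar Q u' z = 0 ∧ Q z = 0 ∧
      z ∉ span F ({a, b} : Set V) ∧ z ∉ span F ({c, d} : Set V) := by
  obtain ⟨z, hz, hQz, hn⟩ := exists_sing_not_mem_of_finrank (Q := Q) (⊤ ⊓ ort Q u ⊓ ort Q u')
    (span F {a, b} ⊔ span F {c, d}) (by
      have := finrank_le_inf_ort (Q := Q) ⊤ u
      have := finrank_le_inf_ort (Q := Q) (⊤ ⊓ ort Q u) u'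
      have := finrank_sup_le (span F ({a, b} : Set V)) (span F {c, d})
      have := finrank_span_pair_le (F := F) a b
      have := finrank_span_pair_le (F := F) c d
      simp only [finrank_top] at *
      omega)
  exact ⟨z, hz.1.2, hz.2, hQz, fun h => hn (mem_sup_left h), fun h => hn (mem_sup_right h)⟩

theorem ort_le_AS (h : GUData Q θ τ ν) (h9 : 9 ≤ finrank F V)
    (hM : ∀ u (c : F), eich Q u (c • θ u) ∈ M) {u v : V} (hu : Q u = 0)
    (hv : v ∈ AS M u) (hvn : v ∉ span F ({u, θ u} : Set V)) : ort Q u ⊓ ort Q (θ u) ≤ AS M u := by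
  obtain ⟨y, hy, hvy⟩ := h.exists_polar_ne hvn
  obtain ⟨z', hz', hQz', hvz'⟩ := (h.hasHyp h9 u (θ u)).exists_sing_polar_ne hy
    (by rw [hvy]; exact one_ne_zero)
  have hz'A := h.mem_AS_of_polar_ne h9 hM hu hv hz' hQz' (by rwa [polar_comm])
  refine (h.hasHyp h9 u (θ u)).le_of_sing fun z hz hQz => ?_
  by_cases h1 : polar Q z v = 0
  · by_cases h2 : polar Q z z' = 0
    · simpa using (AS M u).sub_mem (h.mem_AS_of_polar_ne h9 hM hu hv (add_mem hz hz')
        (by simp [Q_add, hQz, hQz', h2]) (by simpa [h1, polar_comm Q z'] using hvz')) hz'A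
    · exact h.mem_AS_of_polar_ne h9 hM hu hz'A hz hQz h2
  · exact h.mem_AS_of_polar_ne h9 hM hu hv hz hQz h1

omit [FiniteDimensional F V] [Finite F] in
theorem not_mem_symm (h : GUData Q θ τ ν) {u a : V} (hu : u ≠ 0)
    (ha : a ∉ span F ({u, θ u} : Set V)) : u ∉ span F ({a, θ a} : Set V) := fun h' => by
  obtain ⟨s, t, hst⟩ := Submodule.mem_span_pair.1 h'
  refine ha (h.mem_of_comb (s := s) (t := t) ?_ ?_ ?_)
  · by_contra hc
    push Not at hc
    exact hu (by rw [← hst, hc.1, hc.2]; simp)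
  · rw [hst]; exact subset_span (by simp)
  · rw [hst]; exact subset_span (by simp)

omit [FiniteDimensional F V] [Finite F] in
theorem not_mem_of_polar_ne {u a b : V} (hb : b ∈ ort Q u ⊓ ort Q (θ u)) (hab : polar Q a b ≠ 0) :
    a ∉ span F ({u, θ u} : Set V) := fun h' => by
  rw [← perp_span] at hb
  exact hab (hb a h')

theorem full (h : GUData Q θ τ ν) (h9 : 9 ≤ finrank F V)
    (hM : ∀ u (c : F), eich Q u (c • θ u) ∈ M) {u v : V} (hu0 : u ≠ 0) (hu : Q u = 0)
    (hv : v ∈ AS M u) (hvn : v ∉ span F ({u, θ u} : Set V)) : Full M u := by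
  have hP := h.ort_le_AS h9 hM hu hv hvn
  obtain ⟨a, ha, b, hb, hQa, -, hab⟩ := h.hasHyp h9 u (θ u)
  have han := not_mem_of_polar_ne hb (by rw [hab]; exact one_ne_zero)
  have hun := h.not_mem_symm hu0 han
  have ha0 : a ≠ 0 := by rintro rfl; exact han (zero_mem _)
  have hPa := h.ort_le_AS h9 hM hQa (AS_swap hu hQa (hP ha)) hun
  obtain ⟨y, hy, hyu⟩ := exists_orth_polar_eq_one h.nondeg (T := span F {a, θ a} ⊔ span F {u})
    (a := θ u) (fun h' => by
      obtain ⟨x, hx, _, hc, e⟩ := Submodule.mem_sup.1 h'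
      obtain ⟨c, rfl⟩ := mem_span_singleton.1 hc
      have : (-c) • u + (1 : F) • θ u = x := by rw [← e]; module
      exact hun (h.mem_of_comb (Or.inr one_ne_zero) (this ▸ hx) (this ▸ h.θ_mem_span hx)))
  rw [H58.perp_sup, perp_span] at hy
  have hT : HasHyp Q (ort Q a ⊓ ort Q (θ a) ⊓ ort Q u) :=
    (nondeg_top h.nondeg).hasHyp_of_le h.nondeg le_top (by
      have := finrank_le_inf_ort (Q := Q) ⊤ a
      have := finrank_le_inf_ort (Q := Q) (⊤ ⊓ ort Q a) (θ a)
      have := finrank_le_inf_ort (Q := Q) (⊤ ⊓ ort Q a ⊓ ort Q (θ a)) u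
      rw [top_inf_eq] at *
      simp only [finrank_top] at *
      omega)
  obtain ⟨z, ⟨hza, hzu⟩, hQz, hz⟩ := hT.exists_sing_polar_ne (a := θ u) (y := y)
    ⟨hy.1, mem_perp_span_singleton.1 hy.2⟩ (by rw [hyu]; exact one_ne_zero)
  simp only [SetLike.mem_coe, mem_ort] at hzu
  have hzn : z ∉ span F ({a, θ a} : Set V) := not_mem_of_polar_ne (b := θ u)
    (h.θ_mem_ort ⟨pc ha.1, pc (h.θ_mem_ort ha).1⟩) (by rwa [polar_comm])
  have hPz := h.ort_le_AS h9 hM hQz (AS_swap hQa hQz (hPa hza)) (h.not_mem_symm ha0 hzn)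
  have huz : polar Q u (θ z) ≠ 0 := by
    have := h.adj u z
    rw [hzu] at this
    intro e
    exact hz (by rw [this, e]; ring)
  obtain ⟨w, hw, haw⟩ := exists_orth_polar_eq_one h.nondeg (T := span F {z, θ z} ⊔ span F {u})
    (a := a) (fun h' => by
      obtain ⟨x, hx, _, hc, e⟩ := Submodule.mem_sup.1 h'
      obtain ⟨c, rfl⟩ := mem_span_singleton.1 hc
      obtain ⟨s, t, rfl⟩ := Submodule.mem_span_pair.1 hx
      have e1 : polar Q u a = 0 := ha.1
      have e2 : polar Q (θ u) a = 0 := ha.2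
      rw [← e] at e1 e2
      have ht : t = 0 := by simpa [hzu, pself hu, huz] using e1
      have hs : s = 0 := by simpa [ht, polar_comm Q (θ u) u, h.pol, hu, hz] using e2
      exact han (Submodule.mem_span_pair.2 ⟨c, 0, by rw [← e, hs, ht]; simp⟩))
  rw [H58.perp_sup, perp_span] at hw
  have h1 := apply_mem_AS_of_fix (eich_mem_of_AS (hPz hw.1))
    (eich_apply_of_orth_orth (pc hzu) (pc (mem_perp_span_singleton.1 hw.2))) (hP ha)
  rw [eich_apply_of_orth hQz hw.1.1 (pc hza.1), polar_comm Q w, haw, one_smul] at h1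
  have h2 : z ∈ AS M u := by simpa using (AS M u).sub_mem h1 (hP ha)
  refine full_of_ort_le fun x hx => ?_
  have : x - (polar Q (θ u) x / polar Q (θ u) z) • z ∈ AS M u :=
    hP ⟨by simpa [hzu] using hx, by simp [hz]⟩
  simpa using (AS M u).add_mem this ((AS M u).smul_mem (polar Q (θ u) x / polar Q (θ u) z) h2)

theorem commutator_le (h : GUData Q θ τ ν) (h9 : 9 ≤ finrank F V)
    (hM : ∀ u (c : F), eich Q u (c • θ u) ∈ M) {u v : V} (hu0 : u ≠ 0) (hu : Q u = 0)
    (hv : v ∈ AS M u) (hvn : v ∉ span F ({u, θ u} : Set V)) : commutator (O Q) ≤ M := by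
  have hP := h.ort_le_AS h9 hM hu hv hvn
  obtain ⟨a, ha, b, hb, hQa, hQb, hab⟩ := h.hasHyp h9 u (θ u)
  have hab' : polar Q a b ≠ 0 := by rw [hab]; exact one_ne_zero
  have key : ∀ {a b : V}, a ∈ ort Q u ⊓ ort Q (θ u) → b ∈ ort Q u ⊓ ort Q (θ u) → Q a = 0 →
      polar Q a b ≠ 0 → Full M a := fun {a b} ha hb hQa hab =>
    h.full h9 hM (by rintro rfl; simp at hab) hQa (AS_swap hu hQa (hP ha))
      (h.not_mem_symm hu0 (not_mem_of_polar_ne hb hab))
  exact commutator_le_of_full₂ h.nondeg (by omega) (key ha hb hQa hab')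
    (key hb ha hQb (by rwa [polar_comm])) hQa hQb hab'

end extraction

variable [FiniteDimensional F V] [Finite F]

omit [FiniteDimensional F V] [Finite F] in
theorem eq_of_orth (h : GUData Q θ τ ν) {φ : V →ₗ[F] V}
    (hφ : ∀ y, Q y = 0 → φ y ∈ span F ({y, θ y} : Set V)) {y z : V} (hy : Q y = 0) (hz : Q z = 0)
    (hyz : polar Q y z = 0) (hzy : z ∉ span F ({y, θ y} : Set V)) {s t : F}
    (hst : φ z = s • z + t • θ z) : φ y = s • y + t • θ y := by
  obtain ⟨s', t', h1⟩ := Submodule.mem_span_pair.1 (hφ (y + z) (by simp [Q_add, hy, hz, hyz]))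
  obtain ⟨s'', t'', h2⟩ := Submodule.mem_span_pair.1 (hφ y hy)
  have h3 : (s - s') • z + (t - t') • θ z = (s' - s'') • y + (t' - t'') • θ y := by
    rw [map_add, map_add, hst, ← h2] at h1
    linear_combination (norm := module) (-1 : F) • h1
  have h4 : s - s' = 0 ∧ t - t' = 0 := by
    by_contra hc
    rw [not_and_or] at hc
    have h5 : (s - s') • z + (t - t') • θ z ∈ span F ({y, θ y} : Set V) :=
      Submodule.mem_span_pair.2 ⟨_, _, h3.symm⟩
    exact hzy (h.mem_of_comb hc h5 (h.θ_mem_span h5))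
  rw [sub_eq_zero, sub_eq_zero] at h4
  rw [map_add, map_add, hst, h4.1, h4.2] at h1
  rw [h4.1, h4.2]
  linear_combination (norm := module) (-1 : F) • h1

theorem exists_eq_comb (h : GUData Q θ τ ν) (h9 : 9 ≤ finrank F V) {φ : V →ₗ[F] V}
    (hφ : ∀ y, Q y = 0 → φ y ∈ span F ({y, θ y} : Set V)) :
    ∃ s t : F, ∀ x, φ x = s • x + t • θ x := by
  obtain ⟨y, -, hy0, hy⟩ := exists_sing (Q := Q) ⊤ (by simp; omega)
  obtain ⟨s, t, hst⟩ := Submodule.mem_span_pair.1 (hφ y hy)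
  refine ⟨s, t, fun x => ?_⟩
  have : (⊤ : Submodule F V) ≤ LinearMap.eqLocus φ (s • LinearMap.id + t • θ) :=
    ((nondeg_top h.nondeg).hasHyp (by simp; omega)).le_of_sing fun x _ hx => by
      obtain ⟨z, h1, h2, hz, h3, h4⟩ := exists_sing_orth (Q := Q) h9 y x y (θ y) x (θ x)
      exact h.eq_of_orth hφ hx hz h2 h4
        (h.eq_of_orth hφ hz hy (pc h1) (h.not_mem_symm hy0 h3) hst.symm)
  exact this (mem_top (x := x))

theorem maximal (h : GUData Q θ τ ν) (h9 : 9 ≤ finrank F V) {S : Subgroup (O Q)}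
    (hS : ∀ g, g ∈ S ↔ ∃ s t : F, ∀ x, g (θ x) = s • g x + t • θ (g x)) :
    IsMaximalIn (commutator (O Q)) (S ⊓ commutator (O Q)) := by
  have h5 : 5 ≤ finrank F V := by omega
  refine isMaximalIn_of ?_ fun M hM _ g hg hgS => ?_
  · obtain ⟨u, -, hu0, hu⟩ := exists_sing (Q := Q) ⊤ (by simp; omega)
    obtain ⟨a, ha, b, hb, hQa, -, hab⟩ := h.hasHyp h9 u (θ u)
    have han := not_mem_of_polar_ne hb (by rw [hab]; exact one_ne_zero)
    obtain ⟨w, hw, hw1⟩ := exists_orth_polar_eq_one h.nondeg (T := span F {a, u}) (a := θ u)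
      (fun h' => by
        obtain ⟨s, t, hst⟩ := Submodule.mem_span_pair.1 h'
        by_cases hs : s = 0
        · exact h.not_mem_span hu0 (mem_span_singleton.2 ⟨t, by simpa [hs] using hst⟩)
        · exact han (Submodule.mem_span_pair.2 ⟨-(s⁻¹ * t), s⁻¹, by
            rw [← hst]; match_scalars <;> field_simp <;> ring⟩))
    rw [mem_perp_span_pair] at hw
    refine ⟨eich Q a w, eich_mem_commutator h.nondeg h5 _ _, fun hmem => han ?_⟩
    obtain ⟨s, t, hst⟩ := (hS _).1 hmem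
    have h1 := hst u
    rw [eich_apply_of_orth_orth (x := u) (pc ha.1) (pc hw.2), eich_apply_of_orth hQa hw.1 (pc ha.2),
      polar_comm Q w, hw1, one_smul] at h1
    exact Submodule.mem_span_pair.2 ⟨s, t - 1, by linear_combination (norm := module) (-1 : F) • h1⟩
  have hE : ∀ u (c : F), eich Q u (c • θ u) ∈ M := fun u c =>
    hM ⟨(hS _).2 ⟨0, 1, fun x => by simp [h.eich_comm]⟩, eich_mem_commutator h.nondeg h5 _ _⟩
  by_contra hc
  obtain ⟨s, t, hst⟩ := h.exists_eq_comb h9 (φ := g.lin ∘ₗ θ ∘ₗ (g⁻¹).lin) fun y hy => by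
    by_cases hy0 : y = 0
    · simp [hy0]
    by_contra hn
    have := apply_mem_AS hg (h.θ_mem_AS hE (u := g⁻¹ y) (by simpa using hy))
    rw [O.apply_inv_apply] at this
    exact hc (h.commutator_le h9 hE hy0 hy this hn)
  exact hgS ((hS g).2 ⟨s, t, fun x => by simpa using hst (g x)⟩)

end GUData

end H60
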