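/- Matrix form of the maximality of the unitary-type field extension subgroup of `Ω`. -/
import Cfsg.Agent.H60.GU

set_option autoImplicit false

namespace H60

open QuadraticMap H56 Module Submodule Matrix Cfsg Cfsg.Geo

variable {ι : Type} [Fintype ι] [DecidableEq ι] {F : Type*} [Field F]

theorem matrix_ext_mulVec {A B : Matrix ι ι F} (h : ∀ v, A *ᵥ v = B *ᵥ v) : A = B :=
  Matrix.toLin'.injective (LinearMap.ext h)

theorem mem_iff_of_finrank_two {K : Subalgebra F (Matrix ι ι F)} (h2 : finrank F K = 2)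
    {θ : Matrix ι ι F} (hθ : θ ∈ K) (hn : ∀ c : F, θ ≠ c • 1) [Nonempty ι] (k : Matrix ι ι F) :
    k ∈ K ↔ ∃ s t : F, s • 1 + t • θ = k := by
  have hli : LinearIndependent F ![(1 : Matrix ι ι F), θ] := by
    rw [LinearIndependent.pair_iff' one_ne_zero]
    exact fun c hc => hn c hc.symm
  have : span F {(1 : Matrix ι ι F), θ} = Subalgebra.toSubmodule K :=
    Submodule.eq_of_le_of_finrank_le (by
      rw [span_le]; rintro _ (rfl | rfl)
      exacts [K.one_mem, hθ]) (by rw [finrank_span_pair hli]; exact h2.le)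
  rw [← Submodule.mem_span_pair, this]; rfl

theorem gu_maximal_GL [Finite F] {Q : QuadraticForm F (ι → F)} (hQ : Q.polarBilin.Nondegenerate)
    (h9 : 9 ≤ Fintype.card ι) {K : Subalgebra F (Matrix ι ι F)} (hK : IsFieldSubalgebra 2 K)
    (hnsa : ¬ IsSelfAdjointFor (polar ⇑Q) K)
    (hsc : ∀ k ∈ K, ∃ c : F, ∀ v : ι → F, Q (k *ᵥ v) = c * Q v) :
    IsMaximalIn (omegaGL ⇑Q) (subalgebraNormalizer K ⊓ omegaGL ⇑Q) := by
  have : Nonempty ι := Fintype.card_pos_iff.1 (by omega)
  have h9' : 9 ≤ finrank F (ι → F) := by simpa using h9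
  obtain ⟨θ, hθ, hθn⟩ : ∃ θ ∈ K, ∀ c : F, θ ≠ c • 1 := by
    by_contra hc
    push Not at hc
    refine hnsa fun k hk u v => ?_
    obtain ⟨c, rfl⟩ := hc k hk
    simp [Matrix.smul_mulVec]
  have hmem := mem_iff_of_finrank_two hK.finrank_eq hθ hθn
  obtain ⟨ν, hν⟩ := hsc θ hθ
  obtain ⟨μ, hμ⟩ := hsc (1 + θ) (K.add_mem K.one_mem hθ)
  have hpol : ∀ v, polar Q v (θ *ᵥ v) = (μ - 1 - ν) * Q v := fun v => by
    have := hμ v
    rw [Matrix.add_mulVec, Matrix.one_mulVec, Q_add, hν] at this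
    linear_combination this
  have hd : GUData Q (Matrix.toLin' θ) (μ - 1 - ν) ν := by
    refine ⟨hQ, hpol, hν, fun s t hst => ?_⟩
    by_contra ht
    obtain ⟨y, -, hy⟩ := hK.inv (s • 1 + t • θ) ((hmem _).2 ⟨s, t, rfl⟩) (fun e => hθn (-(s / t)) (by
      have : θ = t⁻¹ • (t • θ) := by rw [inv_smul_smul₀ ht]
      rw [this, eq_neg_of_add_eq_zero_right e]
      match_scalars; field_simp))
    obtain ⟨v, -, hv⟩ := (nondeg_top hQ).exists_Q_ne (by
      intro e
      have := finrank_top F (ι → F)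
      rw [e, finrank_bot] at this
      omega)
    apply hv
    have e : v = s • (y *ᵥ v) + t • (θ *ᵥ (y *ᵥ v)) := by
      conv_lhs => rw [← Matrix.one_mulVec v, ← hy, ← Matrix.mulVec_mulVec]
      simp only [Matrix.add_mulVec, Matrix.smul_mulVec, Matrix.one_mulVec]
    rw [e, Q_add, Q_smul, Q_smul, hν, polar_smul_left, polar_smul_right, hpol]
    simp only [smul_eq_mul]
    linear_combination (Q (y *ᵥ v)) * hst
  apply isMaximalIn_GL
  refine hd.maximal h9' fun g => ?_
  simp only [Matrix.toLin'_apply]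
  set G := ((toGL Q g : GL ι F) : Matrix ι ι F) with hG
  set G' := (((toGL Q g)⁻¹ : GL ι F) : Matrix ι ι F) with hG'
  have hGG : G * G' = 1 := by rw [hG, hG', ← Units.val_mul, mul_inv_cancel, Units.val_one]
  have hGG' : G' * G = 1 := by rw [hG, hG', ← Units.val_mul, inv_mul_cancel, Units.val_one]
  change (∀ k, k ∈ K ↔ G * k * G' ∈ K) ↔ _
  constructor
  · intro h
    obtain ⟨s, t, hst⟩ := (hmem _).1 ((h θ).1 hθ)
    refine ⟨s, t, fun x => ?_⟩
    have := congrArg (· *ᵥ (g x)) hst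
    simp only [← Matrix.mulVec_mulVec, hG, hG', toGL_mulVec, toGL_inv_mulVec, O.inv_apply_apply,
      Matrix.add_mulVec, Matrix.smul_mulVec, Matrix.one_mulVec] at this
    exact this.symm
  · rintro ⟨s, t, hst⟩ k
    have e : G * θ * G' = s • 1 + t • θ := matrix_ext_mulVec fun v => by
      simp only [← Matrix.mulVec_mulVec, hG, hG', toGL_mulVec, toGL_inv_mulVec, hst,
        O.apply_inv_apply, Matrix.add_mulVec, Matrix.smul_mulVec, Matrix.one_mulVec]
    have ht : t ≠ 0 := by
      rintro rfl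
      refine hθn s ?_
      calc θ = G' * (G * θ * G') * G := by
            rw [← mul_assoc, ← mul_assoc, hGG', one_mul, mul_assoc, hGG', mul_one]
        _ = s • 1 := by rw [e]; simp [hGG']
    have e2 : ∀ a b : F, G * (a • 1 + b • θ) * G' = (a + b * s) • 1 + (b * t) • θ := fun a b => by
      rw [mul_add, add_mul, mul_smul_comm, mul_smul_comm, smul_mul_assoc, smul_mul_assoc, e,
        mul_one, hGG]
      module
    constructor
    · intro hk
      obtain ⟨a, b, rfl⟩ := (hmem _).1 hk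
      exact (hmem _).2 ⟨_, _, (e2 a b).symm⟩
    · intro hk
      obtain ⟨a, b, hab⟩ := (hmem _).1 hk
      refine (hmem _).2 ⟨a - b / t * s, b / t, ?_⟩
      have := e2 (a - b / t * s) (b / t)
      rw [sub_add_cancel, div_mul_cancel₀ _ ht, hab] at this
      have h2 := congrArg (fun x => G' * x * G) this
      simpa only [← mul_assoc, hGG', one_mul, mul_assoc _ G' G, mul_one] using h2

end H60
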