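/- The `SL₂` generated by two opposite long root subgroups of an orthogonal group. -/
import Cfsg.Agent.H60.EO
import Cfsg.Agent.H11.DicksonEmbed

set_option autoImplicit false

namespace H60

open QuadraticMap H56 Module Submodule MatrixGroups

variable {F V : Type*} [Field F] [AddCommGroup V] [Module F V] {Q : QuadraticForm F V}

/-- Two orthogonal hyperbolic pairs. -/
structure Hyp4 (Q : QuadraticForm F V) (e₁ e₂ f₁ f₂ : V) : Prop where
  q1 : Q e₁ = 0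
  q2 : Q e₂ = 0
  q3 : Q f₁ = 0
  q4 : Q f₂ = 0
  ee : polar Q e₁ e₂ = 0
  ff : polar Q f₁ f₂ = 0
  p11 : polar Q e₁ f₁ = 1
  p22 : polar Q e₂ f₂ = 1
  p12 : polar Q e₁ f₂ = 0
  p21 : polar Q e₂ f₁ = 0

/-- The linear map acting as the matrix `(a b; c d)` on `⟨e₁, f₂⟩` and on `⟨e₂, -f₁⟩`. -/
def rhoLin (Q : QuadraticForm F V) (e₁ e₂ f₁ f₂ : V) (a b c d : F) : V →ₗ[F] V :=
  LinearMap.id + ((a - 1) • Q.polarBilin f₁ + b • Q.polarBilin e₂).smulRight e₁ +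
    (c • Q.polarBilin f₁ + (d - 1) • Q.polarBilin e₂).smulRight f₂ +
    ((a - 1) • Q.polarBilin f₂ - b • Q.polarBilin e₁).smulRight e₂ +
    ((d - 1) • Q.polarBilin e₁ - c • Q.polarBilin f₂).smulRight f₁

theorem rhoLin_apply (e₁ e₂ f₁ f₂ : V) (a b c d : F) (x : V) : rhoLin Q e₁ e₂ f₁ f₂ a b c d x =
    x + ((a - 1) * polar Q f₁ x + b * polar Q e₂ x) • e₁ +
    (c * polar Q f₁ x + (d - 1) * polar Q e₂ x) • f₂ +
    ((a - 1) * polar Q f₂ x - b * polar Q e₁ x) • e₂ +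
    ((d - 1) * polar Q e₁ x - c * polar Q f₂ x) • f₁ := by
  simp [rhoLin]

namespace Hyp4

variable {e₁ e₂ f₁ f₂ : V}

theorem rhoLin_mul (h : Hyp4 Q e₁ e₂ f₁ f₂) (a b c d a' b' c' d' : F) (x : V) :
    rhoLin Q e₁ e₂ f₁ f₂ a b c d (rhoLin Q e₁ e₂ f₁ f₂ a' b' c' d' x) = rhoLin Q e₁ e₂ f₁ f₂
      (a * a' + b * c') (a * b' + b * d') (c * a' + d * c') (c * b' + d * d') x := by
  simp only [rhoLin_apply, polar_add_right, polar_smul_right, smul_eq_mul, pself h.q1, pself h.q2,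
    pself h.q3, pself h.q4, h.ee, h.ff, h.p11, h.p22, h.p12, h.p21, pc h.ee, pc h.ff, pc h.p12,
    pc h.p21, polar_comm Q f₁ e₁, polar_comm Q f₂ e₂]
  module

theorem Q_rhoLin (h : Hyp4 Q e₁ e₂ f₁ f₂) {a b c d : F} (hd : a * d - b * c = 1) (x : V) :
    Q (rhoLin Q e₁ e₂ f₁ f₂ a b c d x) = Q x := by
  simp only [rhoLin_apply, Q_add, Q_smul, polar_add_left, polar_smul_left, polar_smul_right,
    smul_eq_mul, h.q1, h.q2, h.q3, h.q4, h.ee, h.ff, h.p11, h.p22, h.p12, h.p21, pc h.ff,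
    polar_comm Q f₂ e₂, polar_comm Q x]
  linear_combination (polar Q f₁ x * polar Q e₁ x + polar Q f₂ x * polar Q e₂ x) * hd

theorem rhoLin_one (x : V) : rhoLin Q e₁ e₂ f₁ f₂ 1 0 0 1 x = x := by simp [rhoLin_apply]

/-- The homomorphism `SL₂(F) → O(Q)`. -/
def rho (h : Hyp4 Q e₁ e₂ f₁ f₂) : SL(2, F) →* O Q :=
  MonoidHom.mk' (fun g => O.ofInv (rhoLin Q e₁ e₂ f₁ f₂ (g 0 0) (g 0 1) (g 1 0) (g 1 1))
    (rhoLin Q e₁ e₂ f₁ f₂ (g 1 1) (-g 0 1) (-g 1 0) (g 0 0)) (h.Q_rhoLin (H11.sl_det g))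
    (fun x => by
      have := H11.sl_det g
      rw [h.rhoLin_mul]
      convert rhoLin_one x using 3 <;> first | ring1 | linear_combination this)
    (fun x => by
      have := H11.sl_det g
      rw [h.rhoLin_mul]
      convert rhoLin_one x using 3 <;> first | ring1 | linear_combination this))
    fun g k => O.ext fun x => by
      simp only [O.mul_apply, O.ofInv_apply, h.rhoLin_mul, H11.sl_mul_apply]

theorem rho_apply (h : Hyp4 Q e₁ e₂ f₁ f₂) (g : SL(2, F)) (x : V) :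
    h.rho g x = rhoLin Q e₁ e₂ f₁ f₂ (g 0 0) (g 0 1) (g 1 0) (g 1 1) x := rfl

theorem rho_uMat (h : Hyp4 Q e₁ e₂ f₁ f₂) (b : F) : h.rho (H11.uMat b) = eich Q e₁ (b • e₂) :=
  O.ext fun x => by
    rw [h.rho_apply, rhoLin_apply, eich_apply h.q1 (by simp [h.ee])]
    simp [Q_smul, h.q2]
    module

theorem rho_lMat (h : Hyp4 Q e₁ e₂ f₁ f₂) (c : F) : h.rho (H11.lMat c) = eich Q f₂ (c • f₁) :=
  O.ext fun x => by
    rw [h.rho_apply, rhoLin_apply, eich_apply h.q4 (by simp [pc h.ff])]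
    simp [Q_smul, h.q3]
    module

theorem rho_sub_mem (h : Hyp4 Q e₁ e₂ f₁ f₂) (g : SL(2, F)) (x : V) :
    h.rho g x - x ∈ span F ({e₁, e₂} : Set V) ⊔ span F {f₁, f₂} := by
  rw [h.rho_apply, rhoLin_apply]
  refine Submodule.mem_sup.2 ⟨_, Submodule.mem_span_pair.2
    ⟨(g 0 0 - 1) * polar Q f₁ x + g 0 1 * polar Q e₂ x,
      (g 0 0 - 1) * polar Q f₂ x - g 0 1 * polar Q e₁ x, rfl⟩, _,
    Submodule.mem_span_pair.2 ⟨(g 1 1 - 1) * polar Q e₁ x - g 1 0 * polar Q f₂ x,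
      g 1 0 * polar Q f₁ x + (g 1 1 - 1) * polar Q e₂ x, rfl⟩, by abel⟩

/-- Odd characteristic: two opposite root elements generate a group containing the involution
inverting the 4-space. -/
theorem exists_neg [Finite F] (h : Hyp4 Q e₁ e₂ f₁ f₂) (h2 : (2 : F) ≠ 0) {M : Subgroup (O Q)}
    {b c : F} (hb : b ≠ 0) (hc : c ≠ 0) (h1 : eich Q e₁ (b • e₂) ∈ M) (h3 : eich Q f₂ (c • f₁) ∈ M) :
    ∃ z ∈ M, z e₁ = -e₁ ∧ z e₂ = -e₂ ∧ z f₁ = -f₁ ∧
      ∀ x, z x - x ∈ span F ({e₁, e₂} : Set V) ⊔ span F {f₁, f₂} := by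
  obtain ⟨p, hp⟩ := CharP.exists F
  have : Fact p.Prime := ⟨CharP.char_is_prime F p⟩
  obtain ⟨N, hN⟩ := H11.dickson_embed p (by
      rintro rfl; exact h2 (by simpa using CharP.cast_eq_zero F 2)) (M.comap h.rho)
    (u := H11.uMat b) (l := H11.lMat c) (by rwa [Subgroup.mem_comap, h.rho_uMat])
    (by rwa [Subgroup.mem_comap, h.rho_lMat]) (H11.tr_uMat b) (H11.tr_lMat c)
    (by rw [H11.tr_uMat_mul, H11.tr_lMat]; simp [hb, hc])
  have h4 := hN (-1)
  have e : H11.conjSL N (Matrix.SpecialLinearGroup.map (ZMod.castHom (dvd_refl p) F) (-1)) = -1 := by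
    rw [H11.conjSL_eq_iff]
    have : ((Matrix.SpecialLinearGroup.map (n := Fin 2) (ZMod.castHom (dvd_refl p) F) (-1) : SL(2, F)) :
        Matrix (Fin 2) (Fin 2) F) = -1 := by
      ext i j; fin_cases i <;> fin_cases j <;> simp
    rw [this]; simp
  rw [e, Subgroup.mem_comap] at h4
  refine ⟨_, h4, ?_, ?_, ?_, h.rho_sub_mem _⟩ <;> rw [h.rho_apply, rhoLin_apply] <;>
    simp [pself h.q1, pself h.q2, pself h.q3, h.ee, h.p11, h.p21, pc h.ee, pc h.ff, pc h.p12,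
      pc h.p21, polar_comm Q f₁ e₁, polar_comm Q f₂ e₂, h.p22] <;> module

end Hyp4

theorem exists_conj_of_odd_order {G : Type*} [Group G] {v w : G} (hv : v * v = 1) (hw : w * w = 1)
    {k : ℕ} (hk : (v * w) ^ (2 * k + 1) = 1) :
    ∃ g ∈ Subgroup.closure {v, w}, (g * v * g⁻¹) * v * (g * v * g⁻¹) = w := by
  have hv' : v⁻¹ = v := inv_eq_of_mul_eq_one_right hv
  have hw' : w⁻¹ = w := inv_eq_of_mul_eq_one_right hw
  set r := v * w with hr
  have h1 : v * r * v⁻¹ = r⁻¹ := by rw [hr, mul_inv_rev, hv', hw', ← mul_assoc, hv, one_mul]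
  have h2 : ∀ n : ℤ, v * r ^ n = r ^ (-n) * v := fun n => by
    rw [zpow_neg, ← inv_zpow, ← h1, conj_zpow]; simp
  have hk' : r ^ (2 * (k : ℤ) + 1) = 1 := by exact_mod_cast hk
  have hm : r ∈ Subgroup.closure ({v, w} : Set G) :=
    mul_mem (Subgroup.subset_closure (by simp)) (Subgroup.subset_closure (by simp))
  refine ⟨r ^ (-((k : ℤ) * k)), zpow_mem hm _, ?_⟩
  have h3 : r ^ (-((k : ℤ) * k)) * v * (r ^ (-((k : ℤ) * k)))⁻¹ = v * r ^ (2 * ((k : ℤ) * k)) := by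
    rw [← h2, ← zpow_neg, neg_neg, mul_assoc, ← zpow_add]; congr 2; ring
  rw [h3, mul_assoc, ← mul_assoc v v, hv, one_mul, mul_assoc, ← zpow_add]
  have : 2 * ((k : ℤ) * k) + 2 * (k * k) = (2 * k + 1) * (2 * k - 1) + 1 := by ring
  rw [this, zpow_add, zpow_mul, hk', one_zpow, one_mul, zpow_one, hr, ← mul_assoc, hv, one_mul]

/-- Characteristic 2: two opposite root elements are interchanged by a root element in the group
they generate. -/
theorem Hyp4.exists_swap [Finite F] {e₁ e₂ f₁ f₂ : V} (h : Hyp4 Q e₁ e₂ f₁ f₂) (h2 : (2 : F) = 0)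
    {M : Subgroup (O Q)} {b c : F} (hb : b ≠ 0) (hc : c ≠ 0) (h1 : eich Q e₁ (b • e₂) ∈ M)
    (h3 : eich Q f₂ (c • f₁) ∈ M) :
    ∃ g ∈ M, (g * eich Q f₂ (c • f₁) * g⁻¹) * eich Q f₂ (c • f₁) * (g * eich Q f₂ (c • f₁) * g⁻¹) =
      eich Q e₁ (b • e₂) := by
  set v := H11.lMat c with hv
  set w := H11.uMat b with hw
  have hv2 : v * v = 1 := by rw [hv, ← H11.lMat_add, ← two_mul, h2, zero_mul, H11.lMat_zero]
  have hw2 : w * w = 1 := by rw [hw, ← H11.uMat_add, ← two_mul, h2, zero_mul, H11.uMat_zero]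
  obtain ⟨k, hk⟩ : Odd (orderOf (v * w)) := by
    rw [← Nat.not_even_iff_odd]
    rintro ⟨k, hk⟩
    have hpos := orderOf_pos (v * w)
    set z := (v * w) ^ k with hz
    have hz2 : z * z = 1 := by rw [hz, ← pow_add, ← hk, pow_orderOf_eq_one]
    have hv' : v⁻¹ = v := inv_eq_of_mul_eq_one_right hv2
    have hw' : w⁻¹ = w := inv_eq_of_mul_eq_one_right hw2
    have e1 : v * z * v⁻¹ = z := by
      rw [hz, ← conj_pow, show v * (v * w) * v⁻¹ = (v * w)⁻¹ by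
        rw [mul_inv_rev, hv', hw', ← mul_assoc, hv2, one_mul], inv_pow]
      exact inv_eq_of_mul_eq_one_right hz2
    have e2 : w * z * w⁻¹ = z := by
      rw [hz, ← conj_pow, show w * (v * w) * w⁻¹ = (v * w)⁻¹ by
        rw [mul_inv_rev, hv', mul_assoc, mul_assoc, mul_inv_cancel, mul_one, hw'], inv_pow]
      exact inv_eq_of_mul_eq_one_right hz2
    rw [mul_inv_eq_iff_eq_mul] at e1 e2
    have a1 := congrArg (fun g : SL(2, F) => g 0 0) e1
    have a2 := congrArg (fun g : SL(2, F) => g 0 0) e2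
    have a3 := congrArg (fun g : SL(2, F) => g 0 1) e2
    have a4 := congrArg (fun g : SL(2, F) => g 0 0) hz2
    simp only [H11.sl_mul_apply, hv, hw] at a1 a2 a3 a4
    simp [hb, hc] at a1 a2 a3 a4
    have a5 : z 1 1 = z 0 0 := mul_left_cancel₀ hb (by linear_combination a3)
    have a6 : z 0 0 = 1 := by
      have : (z 0 0 - 1) ^ 2 = 0 := by rw [a1] at a4; linear_combination a4 + (1 - z 0 0) * h2
      exact sub_eq_zero.1 (pow_eq_zero_iff two_ne_zero |>.1 this)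
    have : z = 1 := H11.sl_ext (by simp [a6]) (by simp [a1]) (by simp [a2]) (by simp [a5, a6])
    exact pow_ne_one_of_lt_orderOf (n := k) (by omega) (by omega) this
  obtain ⟨g, hg, e⟩ := exists_conj_of_odd_order hv2 hw2 (hk ▸ pow_orderOf_eq_one _)
  refine ⟨h.rho g, ?_, ?_⟩
  · refine (Subgroup.closure_le (M.comap h.rho)).2 ?_ hg
    rintro _ (rfl | rfl)
    · rwa [SetLike.mem_coe, Subgroup.mem_comap, h.rho_lMat]
    · rwa [SetLike.mem_coe, Subgroup.mem_comap, h.rho_uMat]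
  · rw [← h.rho_lMat, ← h.rho_uMat, ← map_inv, ← map_mul, ← map_mul, ← map_mul, ← map_mul, e]

end H60
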