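/- Subfield subgroups of `Ω`: stabilisers of rational singular points and lines in an overgroup
without irrational Eichler transformations. -/
import Cfsg.Agent.H60.SubfExtract

set_option autoImplicit false

namespace H60

open QuadraticMap H56 Module Submodule

section general

variable {F V : Type*} [Field F] [AddCommGroup V] [Module F V] {Q : QuadraticForm F V}

theorem eich_det {p y : V} (hp : Q p = 0) (hy : Q y = 0) (hpy : polar Q p y = 0) (a b c d : F) :
    eich Q (a • p + b • y) (c • p + d • y) = eich Q p ((a * d - b * c) • y) := O.ext fun x => by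
  rw [eich_apply (by simp [Q_add, Q_smul, hp, hy, hpy]) (by simp [pself hp, pself hy, hpy, pc hpy]),
    eich_apply hp (by simp [hpy])]
  simp only [Q_add, Q_smul, hp, hy, hpy, polar_add_left, polar_smul_left, polar_smul_right,
    smul_eq_mul]
  module

theorem eich_rebase {p y : V} (hp : Q p = 0) (hy : Q y = 0) (hpy : polar Q p y = 0) {a b : F}
    (hab : a ≠ 0 ∨ b ≠ 0) : ∃ y', eich Q p y = eich Q (a • p + b • y) y' ∧
      span F {a • p + b • y, y'} = span F ({p, y} : Set V) := by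
  by_cases ha : a = 0
  · have hb : b ≠ 0 := hab.resolve_left (not_not.2 ha)
    refine ⟨(-b⁻¹) • p + (0 : F) • y, by rw [eich_det hp hy hpy]; simp [hb], le_antisymm ?_ ?_⟩
    all_goals rw [span_le]; rintro _ (rfl | rfl)
    · exact mem_span_pair.2 ⟨_, _, rfl⟩
    · exact mem_span_pair.2 ⟨_, _, rfl⟩
    · exact mem_span_pair.2 ⟨0, -b, by match_scalars <;> field_simp <;> ring⟩
    · exact mem_span_pair.2 ⟨b⁻¹, 0, by subst ha; match_scalars <;> field_simp <;> ring⟩
  · refine ⟨(0 : F) • p + a⁻¹ • y, by rw [eich_det hp hy hpy]; simp [ha], le_antisymm ?_ ?_⟩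
    all_goals rw [span_le]; rintro _ (rfl | rfl)
    · exact mem_span_pair.2 ⟨_, _, rfl⟩
    · exact mem_span_pair.2 ⟨_, _, rfl⟩
    · exact mem_span_pair.2 ⟨a⁻¹, -b, by match_scalars <;> field_simp <;> ring⟩
    · exact mem_span_pair.2 ⟨0, a, by match_scalars <;> field_simp <;> ring⟩

theorem eich_rebase' {p y p' : V} (hp : Q p = 0) (hy : Q y = 0) (hpy : polar Q p y = 0)
    (hp' : p' ∈ span F ({p, y} : Set V)) (h0 : p' ≠ 0) : ∃ y', eich Q p y = eich Q p' y' ∧
      span F {p', y'} = span F ({p, y} : Set V) := by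
  obtain ⟨a, b, rfl⟩ := mem_span_pair.1 hp'
  refine eich_rebase hp hy hpy ?_
  by_contra hc
  push Not at hc
  exact h0 (by simp [hc.1, hc.2])

theorem ts_span_pair {p y : V} (hp : Q p = 0) (hy : Q y = 0) (hpy : polar Q p y = 0) :
    ∀ x ∈ span F ({p, y} : Set V), Q x = 0 := fun x hx => by
  obtain ⟨a, b, rfl⟩ := mem_span_pair.1 hx
  simp [Q_add, Q_smul, hp, hy, hpy]

theorem polar_eq_zero_of_mem_span {p y x z : V} (hp : polar Q p z = 0) (hy : polar Q y z = 0)
    (hx : x ∈ span F ({p, y} : Set V)) : polar Q x z = 0 := by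
  obtain ⟨a, b, rfl⟩ := mem_span_pair.1 hx
  simp [hp, hy]

theorem img_span_pair (g : O Q) (a b : V) : img g (span F {a, b}) = span F {g a, g b} := by
  rw [img, Submodule.map_span, Set.image_pair]; rfl

theorem range_eich [FiniteDimensional F V] (hQ : Q.polarBilin.Nondegenerate) {p y : V}
    (hp : Q p = 0) (hpy : polar Q p y = 0) (hp0 : p ≠ 0) (hy : y ∉ span F {p}) :
    LinearMap.range ((eich Q p y).lin - LinearMap.id) = span F {p, y} := by
  refine le_antisymm ?_ ?_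
  · rintro _ ⟨x, rfl⟩
    exact eich_sub_mem (subset_span (by simp)) (subset_span (by simp)) x
  obtain ⟨z, hz, hyz⟩ := exists_orth_polar_eq_one hQ hy
  obtain ⟨z', -, hz'⟩ := (nondeg_top hQ).exists_polar_one (x := p) trivial hp0
  have h1 : p ∈ LinearMap.range ((eich Q p y).lin - LinearMap.id) := ⟨z, by
    simp [eich_apply_of_orth hp hpy (mem_perp_span_singleton.1 hz), hyz]⟩
  rw [span_le, Set.insert_subset_iff, Set.singleton_subset_iff]
  refine ⟨h1, SetLike.mem_coe.2 ?_⟩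
  have := sub_mem (smul_mem _ (polar Q y z' - Q y) h1) (LinearMap.mem_range_self _ z')
  convert this using 1
  simp only [LinearMap.sub_apply, O.lin_apply, eich_apply hp hpy, hz', LinearMap.id_apply]
  module

theorem exists_ker_two {a b c d : F} (h : a * d - b * c = 0) :
    ∃ s t : F, (s ≠ 0 ∨ t ≠ 0) ∧ s * a + t * b = 0 ∧ s * c + t * d = 0 := by
  by_cases h1 : a = 0 ∧ b = 0
  · by_cases h2 : c = 0 ∧ d = 0
    · exact ⟨1, 0, Or.inl one_ne_zero, by simp [h1.1], by simp [h2.1]⟩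
    · exact ⟨d, -c, by rw [neg_ne_zero]; tauto, by simp [h1.1, h1.2], by ring⟩
  · exact ⟨b, -a, by rw [neg_ne_zero]; tauto, by ring, by linear_combination -h⟩

end general

variable {F₀ F V₀ V : Type*} [Field F₀] [Field F] [AddCommGroup V₀] [Module F₀ V₀]
  [AddCommGroup V] [Module F V] {σ : F₀ →+* F}
  {Q₀ : QuadraticForm F₀ V₀} {Q : QuadraticForm F V} {j : V₀ →ₛₗ[σ] V} {M : Subgroup (O Q)}

theorem RatStr.isRat_range (h : RatStr Q₀ Q j) {g : O Q} (hg : g ∈ sstab Q (Set.range j)) :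
    IsRat j (LinearMap.range (g.lin - LinearMap.id)) := by
  rw [LinearMap.range_eq_map, ← h.span_top, Submodule.map_span]
  refine IsRat.of_span ?_
  rintro _ ⟨x, hx, rfl⟩
  exact range_sub (apply_mem_of_sstab hg hx) hx

variable [FiniteDimensional F₀ V₀] [Finite F₀] [FiniteDimensional F V]

/-- The situation of an overgroup `M` of the subfield group without irrational Eichler
transformations at rational points. -/
structure SubfHyp (Q₀ : QuadraticForm F₀ V₀) (j : V₀ →ₛₗ[σ] V) (M : Subgroup (O Q)) : Prop where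
  rat : RatStr Q₀ Q j
  h7 : 7 ≤ finrank F₀ V₀
  le : subf Q j ⊓ commutator (O Q) ≤ M
  le' : M ≤ commutator (O Q)
  small : ∀ u, u ≠ 0 → Q₀ u = 0 → ∀ w ∈ AA M (j u), ∃ c : F, w - c • j u ∈ Set.range j

namespace RatStr

omit [Finite F₀] in
theorem exists_fixed [Finite F₀] (h : RatStr Q₀ Q j) {z : O Q} (hz : z ∈ sstab Q (Set.range j))
    {W : Submodule F V} (hW : ∀ x, z x - x ∈ W) (hd : finrank F W + 3 ≤ finrank F₀ V₀) :
    ∃ x, x ≠ 0 ∧ Q₀ x = 0 ∧ z (j x) = j x := by
  obtain ⟨x, hx, hx0, hQx⟩ := exists_sing (Q := Q₀) (perp Q₀ (W.comap j)) (by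
    have := finrank_perp h.nondeg₀ (W.comap j)
    have := h.finrank_comap_le W
    omega)
  refine ⟨x, hx0, hQx, ?_⟩
  rw [eq_comm, ← O.inv_apply_eq, ← sub_eq_zero]
  refine h.eq_zero fun y => ?_
  obtain ⟨y', hy'⟩ := range_sub (apply_mem_of_sstab hz ⟨y, rfl⟩) ⟨y, rfl⟩
  have := mem_perp.1 hx y' (by rw [mem_comap, hy']; exact hW _)
  rw [polar_sub_right, ← O.polar_apply_left, ← polar_sub_left, ← hy', h.pol, this, map_zero]

theorem isRat_of_eich (h : RatStr Q₀ Q j) {p y : V} (hp : Q p = 0) (hpy : polar Q p y = 0)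
    (hy : y ∉ span F {p}) (he : eich Q p y ∈ sstab Q (Set.range j))
    (hirr : ∀ c : F, c ≠ 0 → c • p ∉ Set.range j) : Q y = 0 ∧ IsRat j (span F {p, y}) := by
  have hp0 : p ≠ 0 := by rintro rfl; exact hirr 1 one_ne_zero ⟨0, by simp⟩
  refine ⟨?_, range_eich h.nondeg hp hpy hp0 hy ▸ h.isRat_range he⟩
  by_contra hQy
  have hn : ∀ x ∈ Set.range j, eich Q p y x - x ∈ Set.range j := fun x hx =>
    range_sub (apply_mem_of_sstab he hx) hx
  obtain ⟨x₀, hx₀⟩ : ∃ x₀, polar Q p (j x₀) ≠ 0 := by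
    by_contra hc
    push Not at hc
    exact hp0 (h.eq_zero fun y => pc (hc y))
  have h2 : (2 : F) = 0 := by
    by_contra h2
    refine hirr (-(2 * Q y * polar Q p (j x₀))) (by simp [h2, hQy, hx₀]) ?_
    convert hn _ (hn _ ⟨x₀, rfl⟩) using 1
    rw [eich_apply (x := j x₀) hp hpy, eich_apply_of_orth hp hpy (by simp [pself hp, hpy])]
    simp only [polar_sub_right, polar_add_right, polar_smul_right, pc hpy, polar_self', smul_eq_mul]
    module
  have hQn : ∀ x, polar Q p (j x) * polar Q p (j x) * Q y ∈ σ.range := fun x => by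
    obtain ⟨x', hx'⟩ := hn _ ⟨x, rfl⟩
    refine ⟨Q₀ x', ?_⟩
    have : j x' = (polar Q y (j x) - Q y * polar Q p (j x)) • p - polar Q p (j x) • y := by
      rw [hx', eich_apply hp hpy]; module
    rw [← h.map_Q, this]
    simp [Q_sub, Q_smul, hp, hpy]
  refine hirr (polar Q p (j x₀))⁻¹ (inv_ne_zero hx₀) (h.mem_range fun x => mem_range_of_sq h2 ?_)
  obtain ⟨a, ha⟩ := hQn x
  obtain ⟨b, hb⟩ := hQn x₀
  refine ⟨a / b, ?_⟩
  rw [map_div₀, ha, hb, polar_smul_right, polar_comm Q (j x) p, smul_eq_mul]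
  field_simp

omit [FiniteDimensional F V] in
theorem exists_Q_ne (h : RatStr Q₀ Q j) (h7 : 7 ≤ finrank F₀ V₀) : ∃ x, Q₀ x ≠ 0 := by
  obtain ⟨x, -, -, hx⟩ := (h.hasHyp_ort (by omega) 0).exists_Q_eq 1
  exact ⟨x, by rw [hx]; exact one_ne_zero⟩

omit [FiniteDimensional F V] in
theorem mem_sstab_of_two (h : RatStr Q₀ Q j) (h7 : 7 ≤ finrank F₀ V₀) (h2 : (2 : F) = 0) {g : O Q}
    (hg : g ∈ subf Q j) : g ∈ sstab Q (Set.range j) := by
  obtain ⟨x, hx⟩ := h.exists_Q_ne h7
  refine h.mem_sstab_of_smul hg (x := x) (by rintro rfl; simp at hx) ?_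
  obtain ⟨c, hc, hg⟩ := hg
  obtain ⟨d, rfl⟩ := mem_range_of_sq h2 (h.sq_mem_range ⟨x, hx⟩ hg)
  have := range_smul d⁻¹ ((hg _).1 ⟨x, rfl⟩)
  rwa [map_inv₀, inv_smul_smul₀ hc] at this

omit [FiniteDimensional F V] in
theorem eich_mem_sstab_of_subf (h : RatStr Q₀ Q j) (h7 : 7 ≤ finrank F₀ V₀) {p y : V}
    (hp : Q p = 0) (hy : Q y = 0) (hpy : polar Q p y = 0) (hg : eich Q p y ∈ subf Q j) :
    eich Q p y ∈ sstab Q (Set.range j) := by
  by_cases h2 : (2 : F) = 0
  · exact h.mem_sstab_of_two h7 h2 hg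
  obtain ⟨x, hx⟩ := h.exists_Q_ne h7
  have hx0 : x ≠ 0 := by rintro rfl; simp at hx
  refine h.mem_sstab_of_smul hg hx0 ?_
  obtain ⟨c, hc, hg⟩ := hg
  obtain ⟨d, hd⟩ := h.sq_mem_range ⟨x, hx⟩ hg
  obtain ⟨x₁, h1⟩ := (hg _).1 ⟨x, rfl⟩
  have h3 := range_add ((hg _).1 ⟨x₁, rfl⟩) (range_smul d ⟨x, rfl⟩)
  have h4 : c • eich Q p y (j x₁) + σ d • j x = (2 * c) • j x₁ := by
    rw [h1, hd, map_smul, eich_apply hp hpy (j x), eich_apply hp hpy]
    simp only [polar_sub_right, polar_add_right, polar_smul_right, pc hpy, pself hp, pself hy, hy,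
      hpy, smul_eq_mul]
    module
  rw [h4] at h3
  obtain ⟨e, he⟩ := h.mem_range_of_smul (by
    rintro rfl
    rw [map_zero, eq_comm, smul_eq_zero, O.apply_eq_zero] at h1
    exact h.ne_zero.2 hx0 (h1.resolve_left hc)) h3
  have := range_smul (2 / e) ⟨x₁, h1⟩
  rwa [map_div₀, he, map_ofNat, smul_smul, show 2 / (2 * c) * c = 1 by field_simp, one_smul] at this

end RatStr

namespace SubfHyp

omit [Finite F₀] in
theorem eich_mem (h : SubfHyp Q₀ j M) (u w : V₀) : eich Q (j u) (j w) ∈ M :=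
  h.le ⟨sstab_le_subf (h.rat.eich_mem_sstab u w), eich_mem_commutator h.rat.nondeg
    (by rw [h.rat.finrank_eq]; have := h.h7; omega) _ _⟩

theorem mem_of_fix (h : SubfHyp Q₀ j M) {g : O Q} (hg : g ∈ M) {u : V₀} (hu0 : u ≠ 0)
    (hu : Q₀ u = 0) {c : F} (hgu : g (j u) = c • j u) : g ∈ subf Q j := by
  have r := h.rat
  have h7 := h.h7
  have hc : c ≠ 0 := by
    rintro rfl; rw [zero_smul, O.apply_eq_zero] at hgu; exact r.ne_zero.2 hu0 hgu
  have hQu : Q (j u) = 0 := by simp [r.map_Q, hu]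
  obtain ⟨v, -, hv, huv⟩ := (nondeg_top r.nondeg₀).exists_partner (x := u) trivial hu0 hu
  have h1 : polar Q (j u) (g (j v)) = c⁻¹ := by
    have := g.map_polar (j u) (j v)
    rw [hgu, polar_smul_left, r.pol, huv, map_one] at this
    exact eq_inv_of_mul_eq_one_right this
  have h2 := eich_apply_eq (a := g (j v)) (b := c⁻¹ • j v) hQu (by simp [Q_smul, r.map_Q, hv])
    (by simp [h1, r.pol, huv]) (by simp [h1, hc])
  set y := (polar Q (j u) (g (j v)))⁻¹ • (g (j v) - c⁻¹ • j v) with hy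
  have huy : polar Q (j u) y = 0 := by simp [hy, h1, r.pol, huv]
  have h3 : ∀ w, polar Q₀ u w = 0 → ∃ x, ∃ d : F, polar Q₀ u x = 0 ∧ c • g (j w) = j x + d • j u := by
    intro w hw
    have h4 : c • g (j w) ∈ AA M (j u) := smul_mem_AA_of_smul hc (hgu ▸ apply_mem_AA hg
      ⟨by simp [r.pol, hw], h.eich_mem u w⟩)
    obtain ⟨d, x, hx⟩ := h.small u hu0 hu _ h4
    refine ⟨x, d, σ.injective ?_, by rw [hx]; abel⟩
    rw [← r.pol, hx, polar_sub_right, h4.1]; simp [pself hQu]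
  obtain ⟨s, hs⟩ : c * c ∈ σ.range := by
    obtain ⟨w, hw, -, hQw⟩ := (r.hasHyp_ort (by omega) u).exists_Q_eq 1
    obtain ⟨x, d, hx, e⟩ := h3 w hw
    have := congrArg Q e
    exact ⟨Q₀ x, by simpa [Q_add, Q_smul, r.map_Q, hQw, hu, r.pol, pc hx] using this.symm⟩
  have hl : eich Q (j u) y * g ∈ subf Q j := r.mem_subf_of hc fun x => by
    set x' := x - polar Q₀ v x • u - polar Q₀ u x • v with hx'
    have e : x = x' + polar Q₀ v x • u + polar Q₀ u x • v := by rw [hx']; abel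
    obtain ⟨x₁, d, hx₁, e₁⟩ := h3 x' (by simp [hx', pself hu, huv])
    have h5 : polar Q (j v) (c • (eich Q (j u) y * g) (j x')) = 0 := by
      have := (eich Q (j u) y * g).map_polar (j v) (j x')
      rw [O.mul_apply, h2, r.pol, polar_smul_left] at this
      simpa [hc, hx', pself hv, polar_comm Q₀ v u, huv, -map_sub] using this
    have h6 : c • (eich Q (j u) y * g) (j x') = j x₁ + (d + polar Q y (j x₁)) • j u := by
      rw [O.mul_apply, ← map_smul, e₁, map_add, map_smul, eich_apply_self hQu huy,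
        eich_apply_of_orth hQu huy (by simp [r.pol, hx₁])]
      module
    rw [h6, polar_add_right, polar_smul_right, r.pol, r.pol, polar_comm Q₀ v u, huv, map_one,
      smul_eq_mul, mul_one, ← neg_eq_iff_add_eq_zero, ← map_neg] at h5
    rw [e, map_add, map_add, map_add, map_add, smul_add, smul_add, h6, ← h5, map_smulₛₗ j,
      map_smulₛₗ j, map_smul, map_smul, O.mul_apply, O.mul_apply, h2, hgu, map_smul,
      eich_apply_self hQu huy]
    refine range_add (range_add (range_add ⟨_, rfl⟩ (range_smul _ ⟨_, rfl⟩)) ?_) ?_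
    · convert range_smul (s * polar Q₀ v x) ⟨u, rfl⟩ using 1
      rw [map_mul, hs]; module
    · convert range_smul (polar Q₀ u x) ⟨v, rfl⟩ using 1
      match_scalars; field_simp
  have he : eich Q (j u) y ∈ M := by
    simpa using mul_mem (h.le ⟨hl, mul_mem (eich_mem_commutator r.nondeg
      (by rw [r.finrank_eq]; omega) _ _) (h.le' hg)⟩) (inv_mem hg)
  obtain ⟨d, x, hx⟩ := h.small u hu0 hu y ⟨huy, he⟩
  have : eich Q (j u) y = eich Q (j u) (j x) := by
    rw [← eich_add_smul_self d (v := j x) hQu (by rw [hx]; simp [huy, pself hQu]), hx, sub_add_cancel]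
  have := mul_mem (inv_mem (this ▸ sstab_le_subf (r.eich_mem_sstab u x))) hl
  rwa [inv_mul_cancel_left] at this

theorem mem_of_point (h : SubfHyp Q₀ j M) {g : O Q} (hg : g ∈ M) {u : V₀} (hu0 : u ≠ 0)
    (hu : Q₀ u = 0) {c : F} (hc : c ≠ 0) (hgu : c • g (j u) ∈ Set.range j) : g ∈ subf Q j := by
  have r := h.rat
  have h7 := h.h7
  obtain ⟨u', hu'⟩ := hgu
  obtain ⟨k, hk, hku⟩ := exists_EOin_apply_eq r.nondeg₀ (nondeg_top r.nondeg₀)
    (by simp; omega) (a := u') (b := u) trivial trivial (by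
      rw [← r.ne_zero, hu']; simp [hc, r.ne_zero.2 hu0]) hu0 (σ.injective (by
      rw [← r.map_Q, hu', Q_smul, O.map_Q, r.map_Q, hu]; simp))
  obtain ⟨k', hk', e⟩ := r.exists_lift hk
  have hk'' := sstab_le_subf (r.EOin_le_sstab hk')
  have := h.mem_of_fix (mul_mem (h.le ⟨hk'', EOin_le_commutator r.nondeg
    (by rw [r.finrank_eq]; omega) _ hk'⟩) hg) hu0 hu (c := c⁻¹) (by
      have := e u'
      rw [hku, hu', map_smul] at this
      rw [O.mul_apply, eq_inv_smul_iff₀ hc, this])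
  simpa using mul_mem (inv_mem hk'') this

theorem mem_of_fix' (h : SubfHyp Q₀ j M) {g : O Q} (hg : g ∈ M) {p : V} (hp0 : p ≠ 0) (hp : Q p = 0)
    (hgp : g p = p) {c : F} (hc : c ≠ 0) (hcp : c • p ∈ Set.range j) : g ∈ subf Q j := by
  obtain ⟨u, hu⟩ := hcp
  exact h.mem_of_fix hg (u := u) (c := 1) (by rw [← h.rat.ne_zero, hu]; simp [hc, hp0])
    (σ.injective (by rw [← h.rat.map_Q, hu, Q_smul, hp]; simp)) (by rw [hu, map_smul, hgp, one_smul])

theorem mem_of_line (h : SubfHyp Q₀ j M) {g : O Q} (hg : g ∈ M) {L : Submodule F V} (hL0 : L ≠ ⊥)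
    (hL : ∀ x ∈ L, Q x = 0) (hd : finrank F L ≤ 2) (hr : IsRat j L) (hr' : IsRat j (img g L)) :
    g ∈ subf Q j := by
  have r := h.rat
  have h7 := h.h7
  have q : ∀ {x}, Q (j x) = 0 → Q₀ x = 0 := fun hx => by simpa [r.map_Q] using hx
  obtain ⟨u, hu, hu0⟩ := hr.exists_ne hL0
  obtain ⟨u', hu', hu0'⟩ := hr'.exists_ne (fun e => hu0 (by
    have := (apply_mem_img (g := g)).2 hu
    simpa [e] using this))
  have hL' := ts_img hL g
  have hp := (apply_mem_img (g := g)).2 hu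
  by_contra hn
  have hirr : ∀ c : F, c • g (j u) ∈ Set.range j → c = 0 := fun c hc => by
    by_contra h0
    exact hn (h.mem_of_point hg (r.ne_zero.1 hu0) (q (hL _ hu)) h0 hc)
  have : perp Q L ≤ L := (r.isRat_perp hr).trans (span_le.2 (by
    rintro _ ⟨x, hx, rfl⟩
    have hy : g (j x) ∈ perp Q (img g L) := by rw [← img_perp]; exact apply_mem_img.2 hx
    have he := eich_conj_mem hg (h.eich_mem u x)
    have hfix : eich Q (g (j u)) (g (j x)) (j u') = j u' := eich_apply_of_orth_orth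
      (polar_eq_zero_of_ts hL' _ hp _ hu') (pc (mem_perp.1 hy _ hu'))
    have hs := r.mem_sstab_of_smul (h.mem_of_fix he (r.ne_zero.1 hu0') (q (hL' _ hu'))
      (c := 1) (by rw [hfix, one_smul])) (r.ne_zero.1 hu0') ⟨_, hfix.symm⟩
    have : g (j x) ∈ perp Q (perp Q (img g L)) := (r.isRat_perp hr').mem_perp fun z hz => by
      have h1 := range_sub (apply_mem_of_sstab hs ⟨z, rfl⟩) ⟨z, rfl⟩
      rw [eich_apply_of_orth (hL' _ hp) (mem_perp.1 hy _ hp) (mem_perp.1 hz _ hp),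
        add_sub_cancel_left] at h1
      exact pc (hirr _ h1)
    rwa [perp_perp r.nondeg, apply_mem_img] at this))
  have := Submodule.finrank_mono this
  have := finrank_perp r.nondeg L
  have := r.finrank_eq
  omega

end SubfHyp

end H60
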