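/- Maximality of the subfield subgroups (prime index) of `Ω`, dimension at least 7. -/
import Cfsg.Agent.H60.SubfStab
import Cfsg.Agent.H60.RootSL2

set_option autoImplicit false

namespace H60

open QuadraticMap H56 Module Submodule Cfsg.Geo

variable {F₀ F V₀ V : Type*} [Field F₀] [Field F] [AddCommGroup V₀] [Module F₀ V₀]
  [AddCommGroup V] [Module F V] {σ : F₀ →+* F}
  {Q₀ : QuadraticForm F₀ V₀} {Q : QuadraticForm F V} {j : V₀ →ₛₗ[σ] V} {M : Subgroup (O Q)}
  [FiniteDimensional F₀ V₀] [Finite F₀] [FiniteDimensional F V]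

/-- A rational totally singular line, given by a basis. -/
structure RatLine (Q₀ : QuadraticForm F₀ V₀) (a b : V₀) : Prop where
  qa : Q₀ a = 0
  qb : Q₀ b = 0
  ab : polar Q₀ a b = 0
  li : LinearIndependent F₀ ![a, b]

omit [Finite F₀] [FiniteDimensional F V] in
theorem RatStr.li (h : RatStr Q₀ Q j) {a b : V₀} (l : RatLine Q₀ a b) {s t : F}
    (hst : s • j a + t • j b = 0) : s = 0 ∧ t = 0 := by
  have := h.linearIndependent l.li
  rw [Fintype.linearIndependent_iff] at this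
  have := this ![s, t] (by simpa using hst)
  exact ⟨this 0, this 1⟩

namespace SubfHyp

theorem mem_of_ratLine (h : SubfHyp Q₀ j M) {g : O Q} (hg : g ∈ M) {a b : V₀} (l : RatLine Q₀ a b)
    (hr : IsRat j (span F {g (j a), g (j b)})) : g ∈ subf Q j := by
  have r := h.rat
  refine h.mem_of_line hg (L := span F {j a, j b}) (fun e => ?_) (ts_span_pair
    (by simp [r.map_Q, l.qa]) (by simp [r.map_Q, l.qb]) (by simp [r.pol, l.ab]))
    (finrank_span_pair_le _ _) (IsRat.of_span (by rintro _ (rfl | rfl) <;> exact ⟨_, rfl⟩))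
    (by rwa [img_span_pair])
  have : j a ∈ span F ({j a, j b} : Set V) := subset_span (by simp)
  rw [e, mem_bot] at this
  simpa using (r.li l (s := 1) (t := 0) (by simp [this])).1

theorem isRat_of_mem (h : SubfHyp Q₀ j M) (g : O Q) {a b : V₀} (l : RatLine Q₀ a b)
    (hm : eich Q (g (j a)) (g (j b)) ∈ subf Q j) : IsRat j (span F {g (j a), g (j b)}) := by
  have r := h.rat
  have q1 : Q (g (j a)) = 0 := by simp [r.map_Q, l.qa]
  have q3 : polar Q (g (j a)) (g (j b)) = 0 := by simp [r.pol, l.ab]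
  rw [← range_eich r.nondeg q1 q3 (fun e => by
    simpa using (r.li l (s := 1) (t := 0) (by simpa using e)).1) (fun hm => by
    obtain ⟨c, hc⟩ := mem_span_singleton.1 hm
    rw [← map_smul, O.apply_inj] at hc
    simpa using (r.li l (s := c) (t := -1) (by simp [hc])).2)]
  exact r.isRat_range (r.eich_mem_sstab_of_subf h.h7 q1 (by simp [r.map_Q, l.qb]) q3 hm)

theorem not_mem (h : SubfHyp Q₀ j M) {g : O Q} (hg : g ∈ M) (hn : g ∉ subf Q j) {a b : V₀}
    (l : RatLine Q₀ a b) : eich Q (g (j a)) (g (j b)) ∉ subf Q j := fun hm =>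
  hn (h.mem_of_ratLine hg l (h.isRat_of_mem g l hm))

/-- A root element of `M` outside the subfield group is opposite to every rational line. -/
theorem exists_hyp4 (h : SubfHyp Q₀ j M) {p y : V} (hp : Q p = 0) (hy : Q y = 0)
    (hpy : polar Q p y = 0) (ht : eich Q p y ∈ M) (hn : eich Q p y ∉ subf Q j) {a b : V₀}
    (l : RatLine Q₀ a b) : ∃ e₁ e₂, ∃ c : F, c ≠ 0 ∧ Hyp4 Q e₁ e₂ (j a) (j b) ∧
      eich Q p y = eich Q e₁ (c • e₂) := by
  have r := h.rat
  have qa : Q (j a) = 0 := by simp [r.map_Q, l.qa]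
  have qb : Q (j b) = 0 := by simp [r.map_Q, l.qb]
  have qab : polar Q (j a) (j b) = 0 := by simp [r.pol, l.ab]
  set D := polar Q p (j a) * polar Q y (j b) - polar Q y (j a) * polar Q p (j b) with hD
  by_cases hD0 : D = 0
  swap
  · refine ⟨(polar Q y (j b) / D) • p + (-polar Q p (j b) / D) • y,
      (-polar Q y (j a) / D) • p + (polar Q p (j a) / D) • y, D, hD0,
      ⟨by simp [Q_add, Q_smul, hp, hy, hpy], by simp [Q_add, Q_smul, hp, hy, hpy], qa, qb,
        by simp [pself hp, pself hy, hpy, pc hpy], qab, ?_, ?_, ?_, ?_⟩, ?_⟩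
    rotate_right
    · rw [smul_add, smul_smul, smul_smul, eich_det hp hy hpy]
      congr 1
      rw [eq_comm]
      convert one_smul F y using 2
      field_simp; rw [hD]; ring
    all_goals simp only [polar_add_left, polar_smul_left, smul_eq_mul]; field_simp
    all_goals first | ring1 | (rw [hD]; ring1)
  exfalso
  obtain ⟨s, t, hst, h1, h2⟩ := exists_ker_two hD0
  obtain ⟨s', t', hst', h3, h4⟩ := exists_ker_two (a := polar Q p (j a)) (b := polar Q p (j b))
    (c := polar Q y (j a)) (d := polar Q y (j b)) (by rw [← hD0, hD]; ring)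
  obtain ⟨y₁, e₁, hs₁⟩ := eich_rebase hp hy hpy hst
  obtain ⟨b₁, e₂, hs₂⟩ := eich_rebase qa qb qab hst'
  set p₁ := s • p + t • y with hp₁
  set z := s' • j a + t' • j b with hz
  set m := span F ({j a, j b} : Set V) with hm
  have hzm : z ∈ m := mem_span_pair.2 ⟨_, _, rfl⟩
  have hb₁ : b₁ ∈ m := hs₂ ▸ subset_span (by simp)
  have hp₁l : p₁ ∈ span F ({p, y} : Set V) := mem_span_pair.2 ⟨_, _, rfl⟩
  have hy₁l : y₁ ∈ span F ({p, y} : Set V) := hs₁ ▸ subset_span (by simp)
  have hl := ts_span_pair hp hy hpy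
  have hmts := ts_span_pair qa qb qab
  have hpm : ∀ x ∈ m, polar Q p₁ x = 0 := fun x hx => pc (polar_eq_zero_of_mem_span
    (pc (by simpa [hp₁] using h1)) (pc (by simpa [hp₁] using h2)) hx)
  have hzl : ∀ x ∈ span F ({p, y} : Set V), polar Q x z = 0 := fun x hx =>
    polar_eq_zero_of_mem_span (by simpa [hz] using h3) (by simpa [hz] using h4) hx
  have hz0 : z ≠ 0 := fun e => by have := r.li l e; tauto
  have ht' : ∀ x ∈ m, eich Q p y x = x + polar Q y₁ x • p₁ := fun x hx => by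
    rw [e₁, eich_apply_of_orth (hl _ hp₁l) (polar_eq_zero_of_ts hl _ hp₁l _ hy₁l) (hpm x hx)]
  have htz : eich Q p y z = z := by rw [ht' z hzm, hzl _ hy₁l, zero_smul, add_zero]
  have hrm : IsRat j m := IsRat.of_span (by rintro _ (rfl | rfl) <;> exact ⟨_, rfl⟩)
  set q := polar Q y₁ b₁ • p₁ with hq
  have hqm : q ∉ m := fun hqm => hn (h.mem_of_ratLine ht l (by
    rw [← img_span_pair, ← hm, img_eq_iff.2 (mem_sstab_of_le fun x hx => ?_)]
    · exact hrm
    rw [← hs₂] at hx
    obtain ⟨c, d, rfl⟩ := mem_span_pair.1 hx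
    rw [map_add, map_smul, map_smul, htz, ht' b₁ hb₁]
    exact add_mem (smul_mem _ _ hzm) (smul_mem _ _ (add_mem hb₁ hqm))))
  have hzq : polar Q z q = 0 := by simp [hq, pc (hpm z hzm)]
  have hx : eich Q z q ∈ M := by
    have h5 := eich_conj_mem ht (e₂ ▸ h.eich_mem a b)
    rw [htz, ht' b₁ hb₁, eich_add (hmts z hzm) (polar_eq_zero_of_ts hmts _ hzm _ hb₁) hzq,
      ← e₂] at h5
    simpa using mul_mem (inv_mem (h.eich_mem a b)) h5
  have ha0 : a ≠ 0 := l.li.ne_zero 0
  have ham : j a ∈ m := subset_span (by simp)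
  have hfix : eich Q z q (j a) = j a := eich_apply_of_orth_orth
    (polar_eq_zero_of_ts hmts _ hzm _ ham) (by simp [hq, hpm _ ham])
  have hirr : ∀ c : F, c ≠ 0 → c • z ∉ Set.range j := fun c hc hcz =>
    hn (h.mem_of_fix' ht hz0 (hmts z hzm) htz hc hcz)
  obtain ⟨-, h6⟩ := r.isRat_of_eich (hmts z hzm) hzq (fun h' => hqm ((span_le.2 (by simpa)) h'))
    (r.mem_sstab_of_smul (h.mem_of_fix hx ha0 l.qa (c := 1) (by rw [hfix, one_smul])) ha0
      ⟨_, hfix.symm⟩) hirr
  obtain ⟨x, ⟨hx1, hx2⟩, hx0⟩ := (r.isRat_inf h6 hrm).exists_ne ((Submodule.ne_bot_iff _).2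
    ⟨z, ⟨subset_span (by simp), hzm⟩, hz0⟩)
  obtain ⟨c, d, e⟩ := mem_span_pair.1 hx1
  have hd : d = 0 := by
    by_contra hd
    refine hqm ((Submodule.smul_mem_iff _ hd).1 ?_)
    rw [eq_sub_of_add_eq' e]
    exact sub_mem hx2 (smul_mem _ _ hzm)
  rw [hd, zero_smul, add_zero] at e
  exact hirr c (by rintro rfl; exact hx0 (by simp [← e])) ⟨x, e.symm⟩

omit [FiniteDimensional F V] in
theorem exists_ratLine (h : SubfHyp Q₀ j M) : ∃ a b b', RatLine Q₀ a b ∧ RatLine Q₀ a b' ∧
    b' ∉ span F₀ ({a, b} : Set V₀) := by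
  have h7 := h.h7
  obtain ⟨a, -, ha0, ha⟩ := exists_sing (Q := Q₀) ⊤ (by simp; omega)
  have key : ∀ x y : V₀, ∃ b, polar Q₀ a b = 0 ∧ Q₀ b = 0 ∧ b ∉ span F₀ ({x, y} : Set V₀) :=
    fun x y => exists_sing_not_mem_of_finrank (Q := Q₀) (ort Q₀ a) (span F₀ {x, y}) (by
      have := finrank_le_inf_ort (Q := Q₀) ⊤ a
      have := finrank_span_pair_le (F := F₀) x y
      rw [top_inf_eq] at *
      simp only [finrank_top] at *
      omega)
  obtain ⟨b, h1, h2, h3⟩ := key a a
  obtain ⟨b', h4, h5, h6⟩ := key a b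
  refine ⟨a, b, b', ⟨ha, h2, h1, (LinearIndependent.pair_iff' ha0).2 fun c hc => h3 ?_⟩,
    ⟨ha, h5, h4, (LinearIndependent.pair_iff' ha0).2 fun c hc => h6 ?_⟩, h6⟩
  all_goals exact mem_span_pair.2 ⟨c, 0, by simp [hc]⟩

variable [Finite F]

theorem le_of_odd (h : SubfHyp Q₀ j M) (h2 : (2 : F) ≠ 0) : M ≤ subf Q j := fun g hg => by
  by_contra hn
  have r := h.rat
  obtain ⟨a, b, -, l, -⟩ := h.exists_ratLine
  have ht := eich_conj_mem hg (h.eich_mem a b)
  have htn := h.not_mem hg hn l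
  obtain ⟨e₁, e₂, c, hc, h4, e⟩ := h.exists_hyp4 (by simp [r.map_Q, l.qa]) (by simp [r.map_Q, l.qb])
    (by simp [r.pol, l.ab]) ht htn l
  rw [e] at ht htn
  obtain ⟨z, hz, z1, z2, z3, z4⟩ := h4.exists_neg h2 hc one_ne_zero ht (by simpa using h.eich_mem b a)
  have ha0 : a ≠ 0 := l.li.ne_zero 0
  obtain ⟨x, hx0, hQx, hx⟩ := r.exists_fixed (r.mem_sstab_of_smul
    (h.mem_of_fix hz ha0 l.qa (c := -1) (by simp [z3])) ha0 ⟨-a, by simp [z3]⟩) z4 (by
      have := finrank_sup_le (span F ({e₁, e₂} : Set V)) (span F {j a, j b})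
      have := finrank_span_pair_le (F := F) e₁ e₂
      have := finrank_span_pair_le (F := F) (j a) (j b)
      have := h.h7
      omega)
  have key : ∀ e, z e = -e → polar Q e (j x) = 0 := fun e he => by
    have := z.map_polar e (j x)
    rw [he, hx, polar_neg_left] at this
    exact (mul_eq_zero.1 (by linear_combination -this)).resolve_left h2
  exact htn (h.mem_of_fix ht hx0 hQx (c := 1) (by
    rw [one_smul, eich_apply_of_orth_orth (key _ z1) (by simp [key _ z2])]))

omit [Finite F₀] [FiniteDimensional F₀ V₀] [FiniteDimensional F V] [Finite F] in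
theorem eich_inv_of_two (h2 : (2 : F) = 0) (p y : V) : (eich Q p y)⁻¹ = eich Q p y := by
  rw [← eich_neg]
  congr 1
  rw [neg_eq_iff_add_eq_zero, ← two_smul F, h2, zero_smul]

theorem le_of_two (h : SubfHyp Q₀ j M) (h2 : (2 : F) = 0) : M ≤ subf Q j := fun g hg => by
  by_contra hn
  have r := h.rat
  obtain ⟨a, b, b', l, l', hb'⟩ := h.exists_ratLine
  have qa : Q (j a) = 0 := by simp [r.map_Q, l.qa]
  have qb : Q (j b) = 0 := by simp [r.map_Q, l.qb]
  have qab : polar Q (j a) (j b) = 0 := by simp [r.pol, l.ab]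
  have ht := eich_conj_mem hg (h.eich_mem a b)
  have htn := h.not_mem hg hn l
  set p := g (j a)
  set y := g (j b)
  have hp : Q p = 0 := by simp [p, qa]
  have hy : Q y = 0 := by simp [y, qb]
  have hpy : polar Q p y = 0 := by simp [p, y, qab]
  set t := eich Q p y with htd
  have hti : t⁻¹ = t := eich_inv_of_two h2 _ _
  have hw := eich_conj_mem ht (h.eich_mem a b')
  obtain ⟨e₁, e₂, c, hc, h4, e⟩ := h.exists_hyp4 (by simp [qa]) (by simp [r.map_Q, l'.qb])
    (by simp [r.pol, l'.ab]) hw (h.not_mem ht htn l') l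
  obtain ⟨k, hk, hs⟩ := h4.exists_swap h2 hc one_ne_zero (e ▸ hw) (by simpa using h.eich_mem b a)
  rw [← e, one_smul, conj_eich, ← conj_eich t] at hs
  have hsM := eich_conj_mem hk (h.eich_mem b a)
  set p' := k (j b)
  set y' := k (j a)
  have hp' : Q p' = 0 := by simp [p', qb]
  have hy' : Q y' = 0 := by simp [y', qa]
  have hpy' : polar Q p' y' = 0 := by simp [p', y', pc qab]
  set s := eich Q p' y' with hsd
  have hsi : s⁻¹ = s := eich_inv_of_two h2 _ _
  have hd : eich Q ((t * s) (j b)) ((t * s) (j a)) = eich Q (j a) (j b') := by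
    rw [← conj_eich, mul_inv_rev, hsi]
    calc t * s * eich Q (j b) (j a) * (s * t⁻¹) = t * (s * eich Q (j b) (j a) * s) * t⁻¹ := by group
      _ = _ := by rw [hs]; nth_rewrite 1 [← hti]; nth_rewrite 4 [← hti]; rw [inv_inv]; group
  have lba : RatLine Q₀ b a := ⟨l.qb, l.qa, pc l.ab, LinearIndependent.pair_symm_iff.1 l.li⟩
  have hdS : t * s ∈ sstab Q (Set.range j) := r.mem_sstab_of_two h.h7 h2
    (h.mem_of_ratLine (mul_mem ht hsM) lba (h.isRat_of_mem _ lba
      (hd ▸ sstab_le_subf (r.eich_mem_sstab a b'))))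
  have hd1 : t * s ≠ 1 := fun e1 => by
    obtain ⟨x, hx, hbx⟩ := exists_orth_polar_eq_one r.nondeg₀ hb'
    rw [mem_perp_span_pair] at hx
    have := congrArg (fun g : O Q => g (j x)) hd
    simp only [e1, O.one_apply, r.eich_j, eich_apply_of_orth_orth hx.2 hx.1,
      eich_apply_of_orth l.qa l'.ab hx.1, hbx, one_smul] at this
    exact l.li.ne_zero 0 (by simpa using r.inj this)
  by_cases hI : span F ({p, y} : Set V) ⊓ span F {p', y'} = ⊥
  · obtain ⟨x, hx0, hQx, hx⟩ := r.exists_fixed hdS (W := span F {p, y} ⊔ span F {p', y'})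
      (fun x => by
        have : (t * s) x - x = (t (s x) - s x) + (s x - x) := by simp
        rw [this]
        exact add_mem_sup (eich_sub_mem (subset_span (by simp)) (subset_span (by simp)) _)
          (eich_sub_mem (subset_span (by simp)) (subset_span (by simp)) _)) (by
        have := finrank_sup_le (span F ({p, y} : Set V)) (span F {p', y'})
        have := finrank_span_pair_le (F := F) p y
        have := finrank_span_pair_le (F := F) p' y'
        have := h.h7
        omega)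
    rw [O.mul_apply, ← hti, O.inv_apply_eq] at hx
    have : t (j x) - j x ∈ span F ({p, y} : Set V) ⊓ span F {p', y'} :=
      ⟨eich_sub_mem (subset_span (by simp)) (subset_span (by simp)) _,
        hx ▸ eich_sub_mem (subset_span (by simp)) (subset_span (by simp)) _⟩
    rw [hI, mem_bot, sub_eq_zero] at this
    exact htn (h.mem_of_fix ht hx0 hQx (c := 1) (by rw [this, one_smul]))
  obtain ⟨q, ⟨hq, hq'⟩, hq0⟩ := (Submodule.ne_bot_iff _).1 hI
  obtain ⟨y₁, e₁, hs₁⟩ := eich_rebase' hp hy hpy hq hq0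
  obtain ⟨y₂, e₂, hs₂⟩ := eich_rebase' hp' hy' hpy' hq' hq0
  have hQq := ts_span_pair hp hy hpy q hq
  have hq1 : polar Q q y₁ = 0 := polar_eq_zero_of_ts (ts_span_pair hp hy hpy) _ hq _
    (hs₁ ▸ subset_span (by simp))
  have hq2 : polar Q q y₂ = 0 := polar_eq_zero_of_ts (ts_span_pair hp' hy' hpy') _ hq' _
    (hs₂ ▸ subset_span (by simp))
  have hq3 : polar Q q (y₁ + y₂) = 0 := by simp [hq1, hq2]
  have e₃ : t * s = eich Q q (y₁ + y₂) := by rw [eich_add hQq hq1 hq2, ← e₁, ← e₂]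
  have htq : t q = q := by rw [htd, e₁, eich_apply_self hQq hq1]
  obtain ⟨h5, h6⟩ := r.isRat_of_eich hQq hq3 (fun hm => by
    obtain ⟨c, hc⟩ := mem_span_singleton.1 hm
    exact hd1 (by rw [e₃, ← hc, eich_smul_self c hQq])) (e₃ ▸ hdS)
    fun c hc hcq => htn (h.mem_of_fix' ht hq0 hQq htq hc hcq)
  refine htn (h.mem_of_line ht (L := span F {q, y₁ + y₂}) ((Submodule.ne_bot_iff _).2
    ⟨q, subset_span (by simp), hq0⟩) (ts_span_pair hQq h5 hq3) (finrank_span_pair_le _ _) h6 ?_)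
  rw [img_eq_iff.2 (mem_sstab_of_le fun x hx => ?_)]
  · exact h6
  rw [htd, e₁, eich_apply_of_orth hQq hq1 (pc (polar_eq_zero_of_mem_span (pself hQq) (pc hq3) hx))]
  exact add_mem hx (smul_mem _ _ (subset_span (by simp)))

end SubfHyp

/-- **Subfield subgroups of prime index are maximal in `Ω`** (dimension at least 7). -/
theorem subf_maximal [Finite F] (r : RatStr Q₀ Q j) (h7 : 7 ≤ finrank F₀ V₀)
    (hσ : ∀ R : Subring F, σ.range ≤ R → R = σ.range ∨ R = ⊤) (hσ' : σ.range ≠ ⊤) :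
    IsMaximalIn (commutator (O Q)) (subf Q j ⊓ commutator (O Q)) := by
  have h5 : 5 ≤ finrank F V := by rw [r.finrank_eq]; omega
  refine isMaximalIn_of ?_ fun M hM hM' g hg hgS => ?_
  · obtain ⟨c, hc⟩ : ∃ c, c ∉ σ.range := by
      by_contra hc
      push Not at hc
      exact hσ' (eq_top_iff.2 fun c _ => hc c)
    obtain ⟨a, -, ha0, ha⟩ := exists_sing (Q := Q₀) ⊤ (by simp; omega)
    obtain ⟨b, hb, hba⟩ := exists_mem_not_mem_of_finrank_lt (A := span F₀ {a}) (B := ⊤ ⊓ ort Q₀ a)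
      (by
        have := finrank_le_inf_ort (Q := Q₀) ⊤ a
        have := finrank_span_singleton_le (F := F₀) a
        simp only [finrank_top] at *
        omega)
    obtain ⟨x, hx, hbx⟩ := exists_orth_polar_eq_one r.nondeg₀ hba
    have qa : Q (j a) = 0 := by simp [r.map_Q, ha]
    have qab : polar Q (j a) (c • j b) = 0 := by simp [r.pol, mem_ort.1 hb.2]
    refine ⟨eich Q (j a) (c • j b), eich_mem_commutator r.nondeg h5 _ _, fun hm => hc ?_⟩
    have h1 := r.mem_sstab_of_smul hm ha0 ⟨a, (eich_apply_self qa qab).symm⟩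
    have h2 := range_sub (apply_mem_of_sstab h1 ⟨x, rfl⟩) ⟨x, rfl⟩
    rw [eich_apply_of_orth qa qab (by simp [r.pol, mem_perp_span_singleton.1 hx]),
      add_sub_cancel_left] at h2
    simpa [r.pol, hbx] using r.mem_range_of_smul ha0 h2
  by_contra hc
  have h : SubfHyp Q₀ j M := ⟨r, h7, hM, hM', fun u hu0 hu w hw => by
    by_contra hn
    push Not at hn
    exact hc (r.commutator_le_of_irr h7 hσ (fun u w => hM ⟨sstab_le_subf (r.eich_mem_sstab u w),
      eich_mem_commutator r.nondeg h5 _ _⟩) hu0 hu hw hn)⟩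
  by_cases h2 : (2 : F) = 0
  · exact hgS (h.le_of_two h2 hg)
  · exact hgS (h.le_of_odd h2 hg)

end H60
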