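/- Matrix form of the maximality of subfield subgroups of `Ω`. -/
import Cfsg.Agent.H60.SubfMax
import Cfsg.Agent.H60.GUMat

set_option autoImplicit false

namespace H60

open QuadraticMap H56 Module Submodule Matrix Cfsg Cfsg.Geo

theorem subring_eq_or {F : Type*} [Field F] [Fintype F] (F₀ : Subfield F) {r : ℕ} (hr : r.Prime)
    (hcard : Fintype.card F = Nat.card F₀ ^ r) :
    (∀ R : Subring F, F₀.subtype.range ≤ R → R = F₀.subtype.range ∨ R = ⊤) ∧
      F₀.subtype.range ≠ ⊤ := by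
  classical
  have hf : finrank F₀ F = r := by
    have := Module.card_eq_pow_finrank (K := F₀) (V := F)
    rw [hcard, Nat.card_eq_fintype_card] at this
    exact (Nat.pow_right_injective Fintype.one_lt_card this).symm
  have hs := Subalgebra.isSimpleOrder_of_finrank_prime F₀ F (hf ▸ hr)
  refine ⟨fun R hR => ?_, fun e => ?_⟩
  · let A : Subalgebra F₀ F := { R with algebraMap_mem' := fun c => hR ⟨c, rfl⟩ }
    rcases eq_bot_or_eq_top A with h | h
    · left
      refine le_antisymm (fun x hx => ?_) hR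
      have : x ∈ A := hx
      rw [h] at this
      exact this
    · right
      refine eq_top_iff.2 fun x _ => ?_
      have : x ∈ A := by rw [h]; trivial
      exact this
  · refine (bot_ne_top : (⊥ : Subalgebra F₀ F) ≠ ⊤) (eq_top_iff.2 fun x _ => ?_)
    have : x ∈ F₀.subtype.range := by rw [e]; trivial
    exact this

variable {ι : Type} [Fintype ι] [DecidableEq ι] {F : Type*} [Field F]

theorem omegaGL_smul {ζ : F} (hζ : ζ ≠ 0) (q : (ι → F) → F) :
    omegaGL (fun v => ζ * q v) = omegaGL q := by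
  have : isometryGroup F (fun v => ζ * q v) = isometryGroup F q := by
    ext g
    exact forall_congr' fun u => forall_congr' fun v => mul_right_inj' hζ
  rw [omegaGL, omegaGL, Subgroup.map_subtype_commutator, Subgroup.map_subtype_commutator, this]

/-- The embedding of the `F₀`-structure given by the columns of `P`. -/
def ratEmb (F₀ : Subfield F) (P : GL ι F) : (ι → F₀) →ₛₗ[F₀.subtype] (ι → F) where
  toFun x := (P : Matrix ι ι F) *ᵥ fun i => (x i : F)
  map_add' x y := by rw [← Matrix.mulVec_add]; rfl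
  map_smul' c x := by rw [← Matrix.mulVec_smul]; rfl

theorem ratEmb_apply (F₀ : Subfield F) (P : GL ι F) (x : ι → F₀) :
    ratEmb F₀ P x = (P : Matrix ι ι F) *ᵥ fun i => (x i : F) := rfl

theorem ratEmb_single (F₀ : Subfield F) (P : GL ι F) (k : ι) :
    ratEmb F₀ P (Pi.single k 1) = (P : Matrix ι ι F) *ᵥ Pi.single k 1 := by
  rw [ratEmb_apply]
  congr 1
  ext i
  by_cases h : i = k <;> simp [Pi.single_apply, h]

theorem gl_mulVec_injective (P : GL ι F) : Function.Injective ((P : Matrix ι ι F) *ᵥ ·) :=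
  Matrix.mulVec_injective_of_isUnit P.isUnit

theorem exists_ratStr {Q : QuadraticForm F (ι → F)} (hQ : Q.polarBilin.Nondegenerate)
    {F₀ : Subfield F} {P : GL ι F} (hP : IsQuadFormRationalStructure ⇑Q F₀ P) :
    ∃ Q₀ : QuadraticForm F₀ (ι → F₀), RatStr Q₀ Q (ratEmb F₀ P) := by
  let q : (ι → F₀) → F₀ := fun x => ⟨Q (ratEmb F₀ P x), hP _ fun i => (x i).2⟩
  have hq : ∀ x y, ((polar q x y : F₀) : F) = polar Q (ratEmb F₀ P x) (ratEmb F₀ P y) :=
    fun x y => by simp [polar, q]
  refine ⟨QuadraticMap.ofPolar q (fun a x => Subtype.ext (by simp [q, map_smulₛₗ, Q_smul]))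
    (fun x x' y => Subtype.ext (by simp [hq])) (fun a x y => Subtype.ext (by
      simp [hq, map_smulₛₗ])), hQ, fun _ => rfl, fun x y e => ?_, ?_⟩
  · ext i
    exact congrFun (gl_mulVec_injective P e) i
  · refine eq_top_iff.2 fun v _ => ?_
    have : v = ∑ k, (((P⁻¹ : GL ι F) : Matrix ι ι F) *ᵥ v) k • ratEmb F₀ P (Pi.single k 1) := by
      simp only [ratEmb_single, ← Matrix.mulVec_smul, ← Matrix.mulVec_sum, ← Pi.single_smul,
        smul_eq_mul, mul_one, Finset.univ_sum_single, Matrix.mulVec_mulVec]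
      rw [← Units.val_mul, mul_inv_cancel, Units.val_one, Matrix.one_mulVec]
    rw [this]
    exact sum_mem fun k _ => smul_mem _ _ (subset_span ⟨_, rfl⟩)

theorem comap_subfieldSubgroup [Finite F] {Q : QuadraticForm F (ι → F)} {F₀ : Subfield F}
    {P : GL ι F} {Q₀ : QuadraticForm F₀ (ι → F₀)} (r : RatStr Q₀ Q (ratEmb F₀ P)) :
    (subfieldSubgroup F₀ P).comap (toGL Q) = subf Q (ratEmb F₀ P) := by
  ext g
  rw [Subgroup.mem_comap, subfieldSubgroup, Subgroup.mem_map]
  constructor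
  · rintro ⟨h, hh, e⟩
    obtain ⟨_, ⟨a, rfl⟩, z, hz, rfl⟩ := Subgroup.mem_sup_of_normal_right.1 hh
    obtain ⟨c, hc⟩ := (mem_scalars_iff z).1 hz
    refine r.mem_subf_of (c := (c⁻¹ : Fˣ)) (Units.ne_zero _) fun x =>
      ⟨(a : Matrix ι ι F₀) *ᵥ x, ?_⟩
    rw [← toGL_mulVec, ← e, ratEmb_apply, ratEmb_apply]
    simp only [MulEquiv.coe_toMonoidHom, MulAut.conj_apply, Units.val_mul, Matrix.mulVec_mulVec,
      Units.inv_mul_cancel_right, hc]
    rw [← Matrix.mulVec_mulVec, ← Matrix.mulVec_smul]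
    congr 1
    ext i
    simp [Matrix.mulVec, dotProduct, Finset.mul_sum, ← mul_assoc]
  · rintro ⟨c, hc, hg⟩
    choose φ hφ using fun k => (hg _).1 ⟨Pi.single k 1, rfl⟩
    let A : Matrix ι ι F₀ := Matrix.of fun i k => φ k i
    have hA : (P : Matrix ι ι F) * A.map F₀.subtype =
        c • (((toGL Q g : GL ι F) : Matrix ι ι F) * P) := by
      ext i k
      have := congrFun (hφ k) i
      rw [ratEmb_single, ← toGL_mulVec, Matrix.mulVec_mulVec, ratEmb_apply] at this
      simpa [Matrix.mulVec, dotProduct, Matrix.mul_apply, Pi.single_apply, A] using this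
    have hdet : A.det ≠ 0 := fun e => by
      have := congrArg Matrix.det hA
      rw [Matrix.det_mul, ← RingHom.mapMatrix_apply, ← RingHom.map_det, e, map_zero, mul_zero,
        Matrix.det_smul, ← Units.val_mul] at this
      exact mul_ne_zero (pow_ne_zero _ hc) (Matrix.GeneralLinearGroup.det_ne_zero _) this.symm
    refine ⟨Matrix.GeneralLinearGroup.map F₀.subtype (Matrix.GeneralLinearGroup.mkOfDetNeZero A hdet)
      * Units.map (Matrix.scalar ι : F →+* Matrix ι ι F).toMonoidHom (Units.mk0 c hc)⁻¹,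
      mul_mem (Subgroup.mem_sup_left ⟨_, rfl⟩) (Subgroup.mem_sup_right ⟨_, rfl⟩), ?_⟩
    rw [MulEquiv.coe_toMonoidHom, MulAut.conj_apply, mul_inv_eq_iff_eq_mul]
    refine Units.ext ?_
    simp only [Units.val_mul]
    rw [← mul_assoc]
    erw [hA]
    simp [← Matrix.smul_one_eq_diagonal, smul_smul, hc]

theorem subfield_maximal_GL [Fintype F] {Q : QuadraticForm F (ι → F)}
    (hQ : Q.polarBilin.Nondegenerate) (h7 : 7 ≤ Fintype.card ι) {F₀ : Subfield F} {r : ℕ}
    (hr : r.Prime) (hcard : Fintype.card F = Nat.card F₀ ^ r) {P : GL ι F} {ζ : F} (hζ : ζ ≠ 0)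
    (hP : IsQuadFormRationalStructure (fun v => ζ * Q v) F₀ P) :
    IsMaximalIn (omegaGL ⇑Q) (subfieldSubgroup F₀ P ⊓ omegaGL ⇑Q) := by
  rw [← omegaGL_smul hζ]
  obtain ⟨Q₀, h⟩ := exists_ratStr (Q := ζ • Q) (H58.nondeg_smul Q hζ hQ) hP
  obtain ⟨h1, h2⟩ := subring_eq_or F₀ hr hcard
  apply isMaximalIn_GL (Q := ζ • Q)
  rw [comap_subfieldSubgroup h]
  exact subf_maximal h (by simpa using h7) h1 h2

end H60
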