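/- The stabiliser in `Ω` of a pair of complementary maximal totally singular subspaces. -/
import Cfsg.Agent.H60.NonMax1

set_option autoImplicit false

namespace H60

open QuadraticMap H56 Module Submodule Cfsg.Geo

variable {F V : Type*} [Field F] [AddCommGroup V] [Module F V] {Q : QuadraticForm F V}

/-- A pair of complementary totally singular subspaces of the same dimension. -/
structure TsPair (Q : QuadraticForm F V) (k : ℕ) (W₁ W₂ : Submodule F V) : Prop where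
  ts₁ : ∀ x ∈ W₁, Q x = 0
  ts₂ : ∀ x ∈ W₂, Q x = 0
  compl : IsCompl W₁ W₂
  dim₁ : finrank F W₁ = k
  dim₂ : finrank F W₂ = k

namespace TsPair

variable {k : ℕ} {W₁ W₂ : Submodule F V}

theorem symm (h : TsPair Q k W₁ W₂) : TsPair Q k W₂ W₁ :=
  ⟨h.ts₂, h.ts₁, h.compl.symm, h.dim₂, h.dim₁⟩

theorem decomp (h : TsPair Q k W₁ W₂) (x : V) : ∃ a ∈ W₁, ∃ b ∈ W₂, x = a + b := by
  have : x ∈ W₁ ⊔ W₂ := by rw [h.compl.sup_eq_top]; trivial
  obtain ⟨a, ha, b, hb, e⟩ := Submodule.mem_sup.1 this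
  exact ⟨a, ha, b, hb, e.symm⟩

theorem eq_zero (h : TsPair Q k W₁ W₂) {x : V} (h1 : x ∈ W₁) (h2 : x ∈ W₂) : x = 0 :=
  (Submodule.disjoint_def.1 h.compl.disjoint) x h1 h2

theorem orth (h : TsPair Q k W₁ W₂) {x y : V} (hx : x ∈ W₁) (hy : y ∈ W₁) : polar Q x y = 0 :=
  polar_eq_zero_of_ts h.ts₁ x hx y hy

theorem eich_mem (h : TsPair Q k W₁ W₂) [FiniteDimensional F V] {u w : V} (hu : u ∈ W₁)
    (hw : w ∈ W₂) : eich Q u w ∈ sstab Q (W₁ : Set V) ⊓ sstab Q (W₂ : Set V) := by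
  refine ⟨eich_mem_sstab_of_ts h.ts₁ hu w, ?_⟩
  by_cases huw : polar Q u w = 0
  · rw [eich_swap (h.ts₂ w hw) (h.ts₁ u hu) (pc huw)]
    exact (sstab Q (W₂ : Set V)).inv_mem (eich_mem_sstab_of_ts h.ts₂ hw u)
  · rw [eich_of_not fun h => huw h.2]; exact one_mem _

variable [FiniteDimensional F V]

theorem finrank_eq (h : TsPair Q k W₁ W₂) : finrank F V = 2 * k := by
  have := Submodule.finrank_add_eq_of_isCompl h.compl
  rw [h.dim₁, h.dim₂] at this; omega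

theorem exists_dual (h : TsPair Q k W₁ W₂) (hQ : Q.polarBilin.Nondegenerate) {T : Submodule F V}
    (hT : T ≤ W₁) {a : V} (ha : a ∈ W₁) (haT : a ∉ T) :
    ∃ w ∈ W₂, (∀ t ∈ T, polar Q t w = 0) ∧ polar Q a w = 1 := by
  obtain ⟨y, hy, hay⟩ := exists_orth_polar_eq_one hQ haT
  obtain ⟨y₁, h1, y₂, h2, rfl⟩ := h.decomp y
  refine ⟨y₂, h2, fun t ht => ?_, by simpa [h.orth ha h1] using hay⟩
  simpa [h.orth (hT ht) h1] using mem_perp.1 hy t ht

theorem exists_dual_pair (h : TsPair Q k W₁ W₂) (hQ : Q.polarBilin.Nondegenerate) {x y a : V}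
    (hx : x ∈ W₁) (hy : y ∈ W₁) (ha : a ∈ W₁) (haT : a ∉ span F ({x, y} : Set V)) :
    ∃ w ∈ W₂, polar Q x w = 0 ∧ polar Q y w = 0 ∧ polar Q a w = 1 := by
  obtain ⟨w, hw, h1, h2⟩ := h.exists_dual hQ (T := span F {x, y}) (by
    rw [span_le]; rintro _ (rfl | rfl) <;> assumption) ha haT
  exact ⟨w, hw, h1 x (subset_span (by simp)), h1 y (subset_span (by simp)), h2⟩

section extraction

variable {M : Subgroup (O Q)}

omit [FiniteDimensional F V] in
theorem mem_AS (hM : ∀ u ∈ W₁, ∀ w ∈ W₂, eich Q u w ∈ M) {u w : V} (hu : u ∈ W₁) (hw : w ∈ W₂)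
    (huw : polar Q u w = 0) : w ∈ AS M u := ⟨huw, fun c => hM u hu _ (W₂.smul_mem c hw)⟩

omit [FiniteDimensional F V] in
theorem hM_symm (h : TsPair Q k W₁ W₂) (hM : ∀ u ∈ W₁, ∀ w ∈ W₂, eich Q u w ∈ M) :
    ∀ u ∈ W₂, ∀ w ∈ W₁, eich Q u w ∈ M := fun u hu w hw => by
  by_cases huw : polar Q u w = 0
  · rw [eich_swap (h.ts₁ w hw) (h.ts₂ u hu) (pc huw)]
    exact inv_mem (hM w hw u hu)
  · rw [eich_of_not fun h => huw h.2]; exact one_mem _

theorem le_AS (h : TsPair Q k W₁ W₂) (hQ : Q.polarBilin.Nondegenerate)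
    (hM : ∀ u ∈ W₁, ∀ w ∈ W₂, eich Q u w ∈ M) {u v : V} (hu : u ∈ W₁) (hv : v ∈ W₁)
    (hvA : v ∈ AS M u) (hvu : v ∉ span F {u}) : W₁ ≤ AS M u := by
  intro x hx
  by_cases hvx : v ∈ span F ({u, x} : Set V)
  · obtain ⟨a, b, rfl⟩ := Submodule.mem_span_pair.1 hvx
    have hb : b ≠ 0 := by
      rintro rfl
      exact hvu (mem_span_singleton.2 ⟨a, by simp⟩)
    have := (AS M u).sub_mem hvA ((AS M u).smul_mem a (self_mem_AS M (h.ts₁ u hu)))
    rwa [add_sub_cancel_left, Submodule.smul_mem_iff _ hb] at this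
  · obtain ⟨w, hw, h1, h2, h3⟩ := h.exists_dual_pair hQ hu hx hv hvx
    have h4 := apply_mem_AS_of_fix (hM x hx w hw)
      (eich_apply_of_orth_orth (h.orth hx hu) (pc h1)) hvA
    rw [eich_apply_of_orth (h.ts₁ x hx) h2 (h.orth hx hv), polar_comm Q w v, h3, one_smul] at h4
    simpa using (AS M u).sub_mem h4 hvA

theorem full_of_le_AS (h : TsPair Q k W₁ W₂) (hM : ∀ u ∈ W₁, ∀ w ∈ W₂, eich Q u w ∈ M) {u : V}
    (hu : u ∈ W₁) (hle : W₁ ≤ AS M u) : Full M u := by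
  refine full_of_ort_le fun w hw => ?_
  obtain ⟨a, ha, b, hb, rfl⟩ := h.decomp w
  exact add_mem (hle ha) (mem_AS hM hu hb (by simpa [h.orth hu ha] using hw))

/-- Extraction: if `AS M u` is larger than expected for one `u ∈ W₁`, all of `W₁` is full. -/
theorem full_of_AS (h : TsPair Q k W₁ W₂) (hQ : Q.polarBilin.Nondegenerate)
    (hM : ∀ u ∈ W₁, ∀ w ∈ W₂, eich Q u w ∈ M) {u v : V} (hu : u ∈ W₁) (hu0 : u ≠ 0)
    (hvA : v ∈ AS M u) (hv : v ∉ W₂ ⊔ span F {u}) {x : V} (hx : x ∈ W₁) : Full M x := by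
  obtain ⟨a, ha, b, hb, rfl⟩ := h.decomp v
  have h1 : a ∈ AS M u := by
    simpa using (AS M u).sub_mem hvA (mem_AS hM hu hb (by simpa [h.orth hu ha] using hvA.1))
  have h2 : a ∉ span F {u} := fun h' => hv (by
    rw [add_comm]; exact Submodule.add_mem_sup hb h')
  have h3 := h.le_AS hQ hM hu ha h1 h2
  by_cases hx0 : x = 0
  · intro w; rw [hx0, eich_zero_left]; exact one_mem _
  by_cases hux : u ∈ span F {x}
  · obtain ⟨c, rfl⟩ := mem_span_singleton.1 hux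
    have hc : c ≠ 0 := by rintro rfl; exact hu0 (zero_smul _ _)
    have := (h.full_of_le_AS hM hu h3).smul (inv_ne_zero hc)
    rwa [inv_smul_smul₀ hc] at this
  · exact h.full_of_le_AS hM hx
      (h.le_AS hQ hM hx hu (AS_swap (h.ts₁ u hu) (h.ts₁ x hx) (h3 hx)) hux)

/-- If `AS M x ≤ W₂ + ⟨x⟩` for all `x ∈ W₁`, then for `y = y₁ + y₂` and a singular
`t₁ + t₂ ∈ AS M y`, `t₁` is a multiple of `y₁`. -/
theorem mem_span_of_AS (h : TsPair Q k W₁ W₂) (hQ : Q.polarBilin.Nondegenerate) (hk : 5 ≤ k)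
    (hM : ∀ u ∈ W₁, ∀ w ∈ W₂, eich Q u w ∈ M)
    (hA : ∀ u ∈ W₁, u ≠ 0 → AS M u ≤ W₂ ⊔ span F {u}) {y₁ y₂ t₁ t₂ : V} (hy₁ : y₁ ∈ W₁)
    (hy₂ : y₂ ∈ W₂) (ht₁ : t₁ ∈ W₁) (ht₂ : t₂ ∈ W₂) (hy0 : y₁ ≠ 0) (hQy : Q (y₁ + y₂) = 0)
    (hQt : Q (t₁ + t₂) = 0) (ht : t₁ + t₂ ∈ AS M (y₁ + y₂)) : t₁ ∈ span F {y₁} := by
  by_contra hn
  obtain ⟨x, ⟨⟨hx, hxy⟩, hxt⟩, hxn⟩ := exists_mem_not_mem_of_finrank_lt (A := span F {y₁, t₁})
    (B := W₁ ⊓ ort Q y₂ ⊓ ort Q t₂) (by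
      have := finrank_le_inf_ort (Q := Q) W₁ y₂
      have := finrank_le_inf_ort (Q := Q) (W₁ ⊓ ort Q y₂) t₂
      have := finrank_span_pair_le (F := F) y₁ t₁
      have := h.dim₁
      omega)
  simp only [SetLike.mem_coe, mem_ort] at hx hxy hxt
  have hx0 : x ≠ 0 := by rintro rfl; exact hxn (zero_mem _)
  obtain ⟨w, hw, h1, h2, h3⟩ := h.exists_dual_pair hQ hx hy₁ ht₁ (fun h' => by
    obtain ⟨a, b, hab⟩ := Submodule.mem_span_pair.1 h'
    by_cases ha : a = 0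
    · exact hn (mem_span_singleton.2 ⟨b, by simpa [ha] using hab⟩)
    · exact hxn (Submodule.mem_span_pair.2 ⟨-(a⁻¹ * b), a⁻¹, by
        rw [← hab]; match_scalars <;> field_simp <;> ring⟩))
  have h4 := hA x hx hx0 (apply_mem_AS_of_fix (eich_mem_of_AS ht) (eich_apply_of_orth_orth
    (by simp [h.orth hy₁ hx, hxy]) (by simp [h.orth ht₁ hx, hxt])) (mem_AS hM hx hw h1))
  rw [eich_apply_of_orth hQy ht.1 (by simp [h2, h.symm.orth hy₂ hw]), polar_add_left, h3,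
    h.symm.orth ht₂ hw, add_zero, one_smul] at h4
  obtain ⟨b, hb, c, hc, hbc⟩ := Submodule.mem_sup.1 h4
  obtain ⟨c, rfl⟩ := mem_span_singleton.1 hc
  have h5 : y₁ - c • x = 0 := h.eq_zero (W₁.sub_mem hy₁ (W₁.smul_mem _ hx)) (by
    have : y₁ - c • x = b - w - y₂ := by
      rw [sub_eq_iff_eq_add, sub_sub, sub_add_eq_add_sub, hbc]; abel
    rw [this]; exact W₂.sub_mem (W₂.sub_mem hb hw) hy₂)
  have hc : c ≠ 0 := by rintro rfl; exact hy0 (by simpa using h5)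
  exact hxn (Submodule.mem_span_pair.2 ⟨c⁻¹, 0, by
    rw [sub_eq_zero.1 h5, inv_smul_smul₀ hc]; simp⟩)

theorem apply_mem_or (h : TsPair Q k W₁ W₂) (hQ : Q.polarBilin.Nondegenerate) (hk : 5 ≤ k)
    (hM : ∀ u ∈ W₁, ∀ w ∈ W₂, eich Q u w ∈ M)
    (hA : ∀ u ∈ W₁, u ≠ 0 → AS M u ≤ W₂ ⊔ span F {u})
    (hA' : ∀ u ∈ W₂, u ≠ 0 → AS M u ≤ W₁ ⊔ span F {u}) {g : O Q} (hg : g ∈ M) {u : V}
    (hu : u ∈ W₁) : g u ∈ W₁ ∨ g u ∈ W₂ := by
  by_cases hu0 : u = 0
  · left; simp [hu0]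
  obtain ⟨y₁, hy₁, y₂, hy₂, hy⟩ := h.decomp (g u)
  by_contra hc
  have h1 : y₁ ≠ 0 := by rintro rfl; exact hc (Or.inr (by simpa [hy] using hy₂))
  have h2 : y₂ ≠ 0 := by rintro rfl; exact hc (Or.inl (by simpa [hy] using hy₁))
  have hQy : Q (y₁ + y₂) = 0 := by rw [← hy, O.map_Q, h.ts₁ u hu]
  have hle : img g (W₂ ⊓ ort Q u) ≤ span F {y₁, y₂} := by
    rintro _ ⟨t, ht, rfl⟩
    have htA := apply_mem_AS hg (mem_AS hM hu ht.1 ht.2)
    have hQt : Q (g t) = 0 := by rw [O.map_Q, h.ts₂ t ht.1]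
    obtain ⟨t₁, ht₁, t₂, ht₂, htt⟩ := h.decomp (g t)
    rw [O.lin_apply, htt]
    rw [htt, hy] at htA
    rw [htt] at hQt
    obtain ⟨a, ha⟩ := mem_span_singleton.1
      (h.mem_span_of_AS hQ hk hM hA hy₁ hy₂ ht₁ ht₂ h1 hQy hQt htA)
    rw [add_comm y₁, add_comm t₁] at htA
    rw [add_comm] at hQy hQt
    obtain ⟨b, hb⟩ := mem_span_singleton.1
      (h.symm.mem_span_of_AS hQ hk (h.hM_symm hM) hA' hy₂ hy₁ ht₂ ht₁ h2 hQy hQt htA)
    exact Submodule.mem_span_pair.2 ⟨a, b, by rw [ha, hb]⟩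
  have h3 := Submodule.finrank_mono hle
  rw [finrank_img] at h3
  have := finrank_le_inf_ort (Q := Q) W₂ u
  have := finrank_span_pair_le (F := F) y₁ y₂
  have := h.dim₂
  omega

theorem img_eq_or (h : TsPair Q k W₁ W₂) (hQ : Q.polarBilin.Nondegenerate) (hk : 5 ≤ k)
    (hM : ∀ u ∈ W₁, ∀ w ∈ W₂, eich Q u w ∈ M)
    (hA : ∀ u ∈ W₁, u ≠ 0 → AS M u ≤ W₂ ⊔ span F {u})
    (hA' : ∀ u ∈ W₂, u ≠ 0 → AS M u ≤ W₁ ⊔ span F {u}) {g : O Q} (hg : g ∈ M) :
    img g W₁ = W₁ ∨ img g W₁ = W₂ := by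
  have : img g W₁ ≤ W₁ ∨ img g W₁ ≤ W₂ := by
    by_contra hc
    obtain ⟨_, ⟨u, hu, rfl⟩, h1, h2⟩ := exists_not_mem_two (fun h' => hc (Or.inl h'))
      (fun h' => hc (Or.inr h'))
    exact (h.apply_mem_or hQ hk hM hA hA' hg hu).elim h1 h2
  exact this.imp (fun h' => Submodule.eq_of_le_of_finrank_le h' (finrank_img g W₁).ge)
    fun h' => Submodule.eq_of_le_of_finrank_le h' (by rw [finrank_img, h.dim₁, h.dim₂])

end extraction

omit [FiniteDimensional F V] in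
theorem ne (h : TsPair Q k W₁ W₂) (hk : 0 < k) : W₁ ≠ W₂ := fun e => by
  have h1 := h.compl.disjoint
  rw [← e, disjoint_self] at h1
  have := h.dim₁
  rw [h1, finrank_bot] at this
  omega

theorem exists_frame (h : TsPair Q k W₁ W₂) (hQ : Q.polarBilin.Nondegenerate) :
    ∃ e f : Fin k → V, H58.IsHypFrame Q e f ∧ span F (Set.range e) = W₁ ∧
      span F (Set.range f) = W₂ := by
  obtain ⟨e, f, hef, he⟩ := H58.exists_frame_of_subspace hQ h.ts₁ h.dim₁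
  choose a ha b hb hab using fun i => h.decomp (f i)
  have heW : ∀ i, e i ∈ W₁ := fun i => he ▸ subset_span ⟨i, rfl⟩
  have hef' : H58.IsHypFrame Q e b := ⟨hef.qe, fun i => h.ts₂ _ (hb i), fun i j => by
    rw [← hef.ef i j, hab j, polar_add_right, h.orth (heW i) (ha j), zero_add], hef.ee,
    fun i j => h.symm.orth (hb i) (hb j)⟩
  refine ⟨e, b, hef', he, Submodule.eq_of_le_of_finrank_le (by
    rw [span_le]; rintro _ ⟨i, rfl⟩; exact hb i) ?_⟩
  have : LinearIndependent F b := Fintype.linearIndependent_iff.2 fun c hc i => by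
    have := congrArg (Q.polarBilin (e i)) hc
    simpa [hef'.ef] using this
  rw [finrank_span_eq_card this, h.dim₂, Fintype.card_fin]

end TsPair

variable [FiniteDimensional F V] [Finite F]

theorem exists_swap_aux (hQ : Q.polarBilin.Nondegenerate) (h5 : 5 ≤ finrank F V) {k : ℕ}
    {e f : Fin k → V} (h : H58.IsHypFrame Q e f) {a : V} (ha : Q a = -1) (s : Finset (Fin k)) :
    ∃ g : O Q, (∀ i ∈ s, g (e i) = f i ∧ g (f i) = e i) ∧ (∀ i ∉ s, g (e i) = e i ∧ g (f i) = f i) ∧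
      (Even s.card → g ∈ commutator (O Q)) ∧ (Odd s.card → refl Q a * g ∈ commutator (O Q)) := by
  induction s using Finset.induction_on with
  | empty => exact ⟨1, by simp, by simp, fun _ => one_mem _, by simp⟩
  | insert j s hj ih =>
    obtain ⟨g, h1, h2, h3, h4⟩ := ih
    have hQj : Q (e j - f j) = -1 := by simp [Q_sub, h.qe, h.qf, h.ef]
    have he : ∀ i, i ≠ j → refl Q (e j - f j) (e i) = e i := fun i hi =>
      refl_apply_of_orth (by simp [h.ee, polar_comm Q (f j), h.ef, hi])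
    have hf : ∀ i, i ≠ j → refl Q (e j - f j) (f i) = f i := fun i hi =>
      refl_apply_of_orth (by simp [h.ff, h.ef, hi.symm])
    have hej : refl Q (e j - f j) (e j) = f j :=
      refl_sub_apply (by rw [h.qe, h.qf]) (by simp [hQj])
    have hr : refl Q a * refl Q (e j - f j) ∈ commutator (O Q) :=
      refl_mul_refl_mem_commutator hQ h5 one_ne_zero (by simp [hQj, ha])
    refine ⟨refl Q (e j - f j) * g, fun i hi => ?_, fun i hi => ?_, fun hs => ?_, fun hs => ?_⟩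
    · rcases Finset.mem_insert.1 hi with rfl | hi
      · simp only [O.mul_apply, (h2 i hj).1, (h2 i hj).2, hej, true_and]
        exact (congrArg _ hej.symm).trans (refl_refl _ _)
      · have : i ≠ j := fun e => hj (e ▸ hi)
        simp only [O.mul_apply, (h1 i hi).1, (h1 i hi).2, he i this, hf i this, and_self]
    · rw [Finset.mem_insert, not_or] at hi
      simp only [O.mul_apply, (h2 i hi.2).1, (h2 i hi.2).2, he i hi.1, hf i hi.1, and_self]
    · rw [Finset.card_insert_of_notMem hj, Nat.even_add_one, Nat.not_even_iff_odd] at hs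
      have := mul_mem (inv_mem hr) (h4 hs)
      rwa [mul_inv_rev, refl_inv, refl_inv, mul_assoc, ← mul_assoc (refl Q a), refl_mul_self,
        one_mul] at this
    · rw [Finset.card_insert_of_notMem hj, Nat.odd_add_one, Nat.not_odd_iff_even] at hs
      rw [← mul_assoc]
      exact mul_mem hr (h3 hs)

theorem img_span_range {ι : Type*} (g : O Q) (e : ι → V) :
    img g (span F (Set.range e)) = span F (Set.range fun i => g (e i)) := by
  rw [img, Submodule.map_span, ← Set.range_comp]; rfl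

namespace TsPair

variable {k : ℕ} {W₁ W₂ : Submodule F V}

theorem exists_swap (h : TsPair Q k W₁ W₂) (hQ : Q.polarBilin.Nondegenerate) (h3 : 3 ≤ k)
    (hk : Even k) : ∃ s ∈ commutator (O Q), img s W₁ = W₂ ∧ img s W₂ = W₁ := by
  obtain ⟨e, f, hef, rfl, rfl⟩ := h.exists_frame hQ
  obtain ⟨g, h1, -, h2, -⟩ := exists_swap_aux hQ (by rw [h.finrank_eq]; omega) hef
    (a := e ⟨0, by omega⟩ - f ⟨0, by omega⟩) (by simp [Q_sub, hef.qe, hef.qf, hef.ef]) Finset.univ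
  refine ⟨g, h2 (by simpa using hk), ?_, ?_⟩
  · simp only [img_span_range, (h1 _ (Finset.mem_univ _)).1]
  · simp only [img_span_range, (h1 _ (Finset.mem_univ _)).2]

omit [Finite F] in
theorem exists_not_mem (h : TsPair Q k W₁ W₂) (hQ : Q.polarBilin.Nondegenerate) (h3 : 3 ≤ k) :
    ∃ g ∈ commutator (O Q), g ∈ sstab Q (W₁ : Set V) ∧ img g W₂ ≠ W₂ := by
  obtain ⟨u, hu, hu0⟩ := exists_mem_not_mem_of_finrank_lt (A := ⊥) (B := W₁) (by
    rw [h.dim₁, finrank_bot]; omega)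
  obtain ⟨v, hv, hvu⟩ := exists_mem_not_mem_of_finrank_lt (A := span F {u}) (B := W₁) (by
    have := finrank_span_singleton_le (F := F) u
    rw [h.dim₁]; omega)
  obtain ⟨w, hw, h1, h2⟩ := h.exists_dual hQ (T := span F {u}) (by simpa using hu) hv hvu
  refine ⟨eich Q u v, eich_mem_commutator hQ (by rw [h.finrank_eq]; omega) _ _,
    eich_mem_sstab hu hv, fun e => hu0 ?_⟩
  have h4 := apply_mem_of_sstab (img_eq_iff.1 e) hw
  rw [eich_apply_of_orth (h.ts₁ u hu) (h.orth hu hv) (h1 u (mem_span_singleton_self u)), h2,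
    one_smul] at h4
  exact h.eq_zero hu (by simpa using W₂.sub_mem h4 hw)

end TsPair

omit [FiniteDimensional F V] [Finite F] in
theorem mem_dstab_two {D : Fin 2 → Submodule F V} {g : O Q} : g ∈ dstab Q D ↔
    (img g (D 0) = D 0 ∧ img g (D 1) = D 1) ∨ (img g (D 0) = D 1 ∧ img g (D 1) = D 0) := by
  constructor
  · rintro ⟨σ, hσ⟩
    have : σ = 1 ∨ σ = Equiv.swap 0 1 := by clear hσ; revert σ; decide
    rcases this with rfl | rfl
    · exact Or.inl ⟨hσ 0, hσ 1⟩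
    · exact Or.inr ⟨hσ 0, hσ 1⟩
  · rintro (⟨h1, h2⟩ | ⟨h1, h2⟩)
    · exact ⟨1, fun i => by fin_cases i <;> assumption⟩
    · exact ⟨Equiv.swap 0 1, fun i => by fin_cases i <;> assumption⟩

theorem tsPair_maximal (hQ : Q.polarBilin.Nondegenerate) {k : ℕ} (hk : 5 ≤ k) (hke : Even k)
    {D : Fin 2 → Submodule F V} (h : TsPair Q k (D 0) (D 1)) :
    IsMaximalIn (commutator (O Q)) (dstab Q D ⊓ commutator (O Q)) := by
  have h5 : 5 ≤ finrank F V := by rw [h.finrank_eq]; omega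
  have hne := h.ne (by omega)
  refine isMaximalIn_of ?_ fun M hM _ g hg hgS => ?_
  · obtain ⟨g, hg, h1, h2⟩ := h.exists_not_mem hQ (by omega)
    refine ⟨g, hg, fun h' => ?_⟩
    rcases mem_dstab_two.1 h' with h' | h'
    · exact h2 h'.2
    · exact hne ((img_eq_iff.2 h1).symm.trans h'.1)
  have hE : ∀ u ∈ D 0, ∀ w ∈ D 1, eich Q u w ∈ M := fun u hu w hw =>
    hM ⟨mem_dstab_two.2 (Or.inl ⟨img_eq_iff.2 (h.eich_mem hu hw).1,
      img_eq_iff.2 (h.eich_mem hu hw).2⟩), eich_mem_commutator hQ h5 _ _⟩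
  obtain ⟨s, hs, hs1, hs2⟩ := h.exists_swap hQ (by omega) hke
  have hsM : s ∈ M := hM ⟨mem_dstab_two.2 (Or.inr ⟨hs1, hs2⟩), hs⟩
  have key : ∀ {W₁ W₂ : Submodule F V}, TsPair Q k W₁ W₂ → img s W₁ = W₂ →
      (∀ u ∈ W₁, ∀ w ∈ W₂, eich Q u w ∈ M) → ¬ commutator (O Q) ≤ M →
      ∀ u ∈ W₁, u ≠ 0 → AS M u ≤ W₂ ⊔ span F {u} := by
    intro W₁ W₂ h hs hE hc u hu hu0 v hv
    by_contra hn
    have hf := fun x hx => h.full_of_AS hQ hE hu hu0 hv hn (x := x) hx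
    obtain ⟨w, hw, -, huw⟩ := h.exists_dual hQ (T := ⊥) bot_le hu (by simpa using hu0)
    have hw' := (hf _ (mem_img.1 (hs ▸ hw))).conj hsM
    rw [O.apply_inv_apply] at hw'
    exact hc (commutator_le_of_full₂ hQ h5 (hf u hu) hw' (h.ts₁ u hu) (h.ts₂ w hw)
      (by rw [huw]; exact one_ne_zero))
  by_contra hc
  have hA := key h hs1 hE hc
  have hA' := key h.symm hs2 (h.hM_symm hE) hc
  have hinj : img g (D 0) ≠ img g (D 1) := fun e => hne (by
    rw [← img_one (D 0), ← img_one (D 1), ← inv_mul_cancel g, img_mul, img_mul, e])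
  refine hgS (mem_dstab_two.2 ?_)
  rcases h.img_eq_or hQ hk hE hA hA' hg with h1 | h1 <;>
    rcases h.symm.img_eq_or hQ hk (h.hM_symm hE) hA' hA hg with h2 | h2
  · exact Or.inl ⟨h1, h2⟩
  · exact absurd (h1.trans h2.symm) hinj
  · exact absurd (h1.trans h2.symm) hinj
  · exact Or.inr ⟨h1, h2⟩

theorem tsPair_not_maximal (hQ : Q.polarBilin.Nondegenerate) {k : ℕ} (hk : 3 ≤ k) (hko : Odd k)
    {D : Fin 2 → Submodule F V} (h : TsPair Q k (D 0) (D 1)) :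
    ∃ L, dstab Q D ⊓ commutator (O Q) < L ∧ L < commutator (O Q) := by
  have h5 : 5 ≤ finrank F V := by rw [h.finrank_eq]; omega
  refine exists_between_of (K := sstab Q (D 0 : Set V)) (fun g hg => ?_) ?_
    (not_le_of_maximal (parabolic_maximal hQ h5 (fun e => by
      have := h.dim₁; rw [e, finrank_bot] at this; omega) h.ts₁ (Or.inl (by
      rw [h.finrank_eq, h.dim₁]; omega))))
  · rcases mem_dstab_two.1 hg.1 with h' | h'
    · exact img_eq_iff.1 h'.1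
    · have := even_of_mem_commutator hQ h.finrank_eq h.dim₁ h.ts₁ hg.2
      rw [h'.1, h.compl.inf_eq_bot, finrank_bot, add_zero] at this
      exact absurd this (Nat.not_even_iff_odd.2 hko)
  · obtain ⟨g, hg, h1, h2⟩ := h.exists_not_mem hQ hk
    refine ⟨g, hg, h1, fun h' => ?_⟩
    rcases mem_dstab_two.1 h' with h' | h'
    · exact h2 h'.2
    · exact h.ne (by omega) ((img_eq_iff.2 h1).symm.trans h'.1)

omit [FiniteDimensional F V] [Finite F] in
theorem isCompl_of_two {D : Fin 2 → Submodule F V} (h1 : iSupIndep D) (h2 : iSup D = ⊤) :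
    IsCompl (D 0) (D 1) := by
  refine ⟨h1.pairwiseDisjoint (by decide), codisjoint_iff.2 (eq_top_iff.2 ?_)⟩
  rw [← h2]
  exact iSup_le fun i => by fin_cases i <;> simp

end H60
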