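/- Tensor-induced subgroups (class C7): definitions and the algebraic tool kit. -/
import Cfsg.Agent.H19.AschPowForm
import Cfsg.Agent.H56.TenMat

set_option autoImplicit false

namespace H60.Wr
open Cfsg Cfsg.Geo Matrix H19 Module
open scoped MatrixGroups

/-- Matrices of one factor. -/
abbrev Mk (k : ℕ) (F : Type*) := Matrix (Fin k) (Fin k) F
/-- Matrices of the tensor power. -/
abbrev EE (k t : ℕ) (F : Type*) := Matrix (Fin t → Fin k) (Fin t → Fin k) F
/-- The tensor power. -/
abbrev VV (k t : ℕ) (F : Type*) := (Fin t → Fin k) → F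
/-- The general linear group of the tensor power. -/
abbrev GG (k t : ℕ) (F : Type*) [Field F] := GL (Fin t → Fin k) F
/-- The stabiliser of the decomposition. -/
abbrev TT (k t : ℕ) (F : Type*) [Field F] : Subgroup (GG k t F) := tensorWreathStandard k t F
/-- The product of the factors other than the `i`-th. -/
abbrev UU (k : ℕ) {t : ℕ} (F : Type*) (i : Fin t) := ({j : Fin t // j ≠ i} → Fin k) → F

variable {F : Type*} [Field F] {k t : ℕ}

/-- The embedding of the `i`-th factor. -/
abbrev em (i : Fin t) : Mk k F →ₐ[F] EE k t F := tl F k i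
/-- `X` lies in the `i`-th factor algebra `A_i`. -/
def InA (i : Fin t) (X : EE k t F) : Prop := ∃ a, X = em i a
/-- `X` lies in the centraliser `C_i` of `A_i`. -/
def InC (i : Fin t) (X : EE k t F) : Prop := ∀ a, em i a * X = X * em i a
/-- Scalar matrices. -/
def Sc {ι : Type} [DecidableEq ι] (X : Matrix ι ι F) : Prop := ∃ c : F, X = c • 1
/-- The rank one map `y ↦ (φ ⬝ᵥ y) • x`. -/
abbrev ro (x φ : Fin k → F) : Mk k F := vecMulVec x φ
/-- The matrix `X` is an element of `M`. -/
def In {ι : Type} [Fintype ι] [DecidableEq ι] (M : Subgroup (GL ι F)) (X : Matrix ι ι F) : Prop :=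
  ∃ m ∈ M, (m : Matrix ι ι F) = X
/-- The embedding of `GL` of the `i`-th factor. -/
def emG (i : Fin t) : GL (Fin k) F →* GG k t F :=
  Units.map ((em i : Mk k F →ₐ[F] EE k t F) : Mk k F →* EE k t F)
/-- The elements of `GL_k` which lie in `M` in every factor. -/
def Gam (M : Subgroup (GG k t F)) : Subgroup (GL (Fin k) F) := ⨅ j : Fin t, M.comap (emG j)
/-- Image of a matrix. -/
abbrev rg {ι : Type} [Fintype ι] [DecidableEq ι] (X : Matrix ι ι F) : Submodule F (ι → F) :=
  LinearMap.range (toLin' X)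
/-- Kernel of a matrix. -/
abbrev kn {ι : Type} [Fintype ι] [DecidableEq ι] (X : Matrix ι ι F) : Submodule F (ι → F) :=
  LinearMap.ker (toLin' X)
/-- Pure tensors. -/
def pv (x : Fin t → Fin k → F) : VV k t F := fun p => ∏ i, x i (p i)

/-- The decomposition `V = U_i ⊗ W`. -/
noncomputable def ten (k : ℕ) (F : Type*) [Field F] (i : Fin t) :
    H56.Ten F (UU k F i) (Fin k → F) (VV k t F) :=
  ⟨((Pi.basisFun F ({j : Fin t // j ≠ i} → Fin k)).tensorProduct (Pi.basisFun F (Fin k))).equivFun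
    ≪≫ₗ LinearEquiv.funCongrLeft F F ((Equiv.funSplitAt i (Fin k)).trans (Equiv.prodComm _ _))⟩
/-- The subspace `U_i ⊗ J`. -/
noncomputable abbrev LS (i : Fin t) (J : Submodule F (Fin k → F)) : Submodule F (VV k t F) :=
  (ten k F i).LS J
/-- `g` maps `U_i ⊗ w` onto `U_j ⊗ w'`. -/
def Maps (g : GG k t F) (i : Fin t) (w : Fin k → F) (j : Fin t) (w' : Fin k → F) : Prop :=
  (LS i (F ∙ w)).map (toLin' (g : EE k t F)) = LS j (F ∙ w')
/-- `g A_i g⁻¹ ⊆ A_j`. -/
def Nm (g : GG k t F) (i j : Fin t) : Prop := ∀ a, InA j (cj g (em i a))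
/-- The contraction of `Z` with respect to the `i`-th factor. -/
def ct (i : Fin t) (φ x : Fin k → F) (Z : EE k t F) : EE k t F :=
  ∑ c : Fin k, em i (ro (Pi.single c 1) φ) * Z * em i (ro x (Pi.single c 1))
/-- The functional `f(·, v)` as a vector: `x ⬝ᵥ ph B v = f x v`. -/
def ph (B : Frm (Fin k) F) (v : Fin k → F) : Fin k → F := gramMatrix B.f *ᵥ (B.σ ∘ v)
/-- The rank one map `z ↦ f(z, y) x`. -/
abbrev rf (B : Frm (Fin k) F) (x y : Fin k → F) : Mk k F := ro x (ph B y)
/-- The orthogonal complement of a vector. -/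
abbrev pp (B : Frm (Fin k) F) (w : Fin k → F) : Submodule F (Fin k → F) := LinearMap.ker (B.left w)

end H60.Wr
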