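/- Tensor-induced subgroups (class C7): the job statements. Proofs: blueprints/C7.md. -/
import Cfsg.Agent.H60.WrDef

set_option autoImplicit false

namespace H60.Wr
open Cfsg Cfsg.Geo Matrix H19 Module
open scoped MatrixGroups commutatorElement

universe u

section defs
variable {F : Type u} [Field F] {k t : ℕ}

/-- A rank one root element `1 + w φ` of the `i`-th factor lies in `M`. -/
def Rt (M : Subgroup (GG k t F)) (i : Fin t) (w φ : Fin k → F) : Prop :=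
  w ≠ 0 ∧ φ ≠ 0 ∧ φ ⬝ᵥ w = 0 ∧ In M (1 + em i (ro w φ))

/-- `1 + N'` is an `M`-conjugate of a rank one root element and lies outside `TT`. -/
def Out (M : Subgroup (GG k t F)) (N' : EE k t F) : Prop :=
  ∃ g ∈ M, ∃ i w φ, Rt M i w φ ∧ N' = cj g (em i (ro w φ)) ∧ ¬ In (TT k t F) (1 + N')

/-- Context of the characteristic two core. -/
structure C2 (M : Subgroup (GG k t F)) : Prop where
  two : (2 : F) = 0
  k3 : 3 ≤ k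
  rig : ∀ g ∈ M, ∀ i w φ, Rt M i w φ → In (TT k t F) (1 + cj g (em i (ro w φ))) →
    ∃ j a, cj g (em i (ro w φ)) = em j a
  h1 : ∀ g ∈ M, ∀ i w φ j w', Rt M i w φ → w' ≠ 0 → Maps g i w j w' → g ∈ TT k t F

/-- The pair (`w` in factor `i`, `N'`) is critical. -/
def E1 (M : Subgroup (GG k t F)) (N' : EE k t F) (i : Fin t) (w : Fin k → F) : Prop :=
  ∀ j v χ, Rt M j v χ →
    finrank F ↥(rg N' ⊓ kn (em j (ro v χ))) ≤ finrank F ↥(LS i (F ∙ w) ⊓ rg N')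

/-- The involution `τ` of an odd dihedral group interchanging `1 + N` and `1 + N'`. -/
structure Sw (N N' : EE k t F) (τ : GG k t F) : Prop where
  sq : τ * τ = 1
  conj : cj τ N = N'
  mv : ∀ v, (τ : EE k t F) *ᵥ v - v ∈ rg N ⊔ rg N'
  fix : ∀ v, N *ᵥ v = 0 → N' *ᵥ v = 0 → (τ : EE k t F) *ᵥ v = v
  ker : kn N ≤ rg N ⊔ (kn N ⊓ kn N')
  inf : rg N' ⊓ kn N ≤ rg N
  inf' : rg N ⊓ kn N' ≤ rg N'

def CaseA (M : Subgroup (GG k t F)) : Prop :=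
  ∃ c : F, c ≠ 0 ∧ c ≠ 1 ∧ ∀ i w φ, Rt M i w φ → Rt M i w (c • φ)

def CaseB (M : Subgroup (GG k t F)) : Prop :=
  (∀ c : F, c = 0 ∨ c = 1) ∧ ∀ i w φ ψ, Rt M i w φ → ψ ≠ 0 → ψ ⬝ᵥ w = 0 → Rt M i w ψ

def CaseC (M : Subgroup (GG k t F)) : Prop :=
  ∃ B : Frm (Fin k) F, M ≤ (B.pow t).Iso ∧ 4 ≤ k ∧ (∀ c, B.σ c = c → c = 0 ∨ c = 1) ∧
    (∀ i w φ, Rt M i w φ → ∀ v, v ≠ 0 → B.f v v = 0 → ∃ c : F, Rt M i v (c • ph B v)) ∧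
    ∀ w, w ≠ 0 → B.f w w = 0 → ∃ v v', (∀ z ∈ ({v, v', v + v'} : Set (Fin k → F)),
      B.f z z = 0 ∧ B.f z w = 0 ∧ z ∉ F ∙ w)

/-- The extra elements needed for `k = 3` in characteristic two. -/
def S3 (M : Subgroup (GG k t F)) : Prop :=
  (∃ (w φ : Fin k → F) (c : F), w ≠ 0 ∧ φ ≠ 0 ∧ φ ⬝ᵥ w = 0 ∧ c ≠ 0 ∧ c ≠ 1 ∧
    In (Gam M) (1 + ro w φ) ∧ In (Gam M) (1 + c • ro w φ)) ∨
  ∀ w φ : Fin k → F, φ ⬝ᵥ w = 0 → In (Gam M) (1 + ro w φ)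

/-- Property (Q): `1 + ν ⊗ γ ∈ M` forces `γ` to be a scalar. -/
def QQ (M : Subgroup (GG k t F)) (R : Set (Mk k F)) : Prop :=
  ∀ i, ∀ ν ∈ R, ∀ γ, InC i γ → In M (1 + em i ν * γ) → Sc γ

/-- Property (QL): elements trivial on the flag `U ⊗ w ≤ U ⊗ W₁ ≤ V` lie in the factor. -/
def QL (M : Subgroup (GG k t F)) (i : Fin t) (w : Fin k → F) (W₁ : Submodule F (Fin k → F)) :
    Prop :=
  ∀ m ∈ M, (∀ y ∈ LS i (F ∙ w), (m : EE k t F) *ᵥ y = y) →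
    (∀ y ∈ LS i W₁, (m : EE k t F) *ᵥ y - y ∈ LS i (F ∙ w)) →
    (∀ y, (m : EE k t F) *ᵥ y - y ∈ LS i W₁) → InA i (m : EE k t F)

/-- The isolation property of a group `Γ` with shapes `S` (`Λ` are the allowed scalars). -/
def IsoP (t : ℕ) (Γ : Subgroup (GL (Fin k) F)) (Λ : Set F) (S : Set (Mk k F)) : Prop :=
  ∀ (j : Fin t) (ℬ : AddSubgroup (EE k t F)), (∀ s ∈ Γ, ∀ X ∈ ℬ, cj (emG j s) X ∈ ℬ) →
    (∀ c ∈ Λ, ∀ X ∈ ℬ, c • X ∈ ℬ) → ∀ γ ∈ ℬ, ¬ InC j γ →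
      ∃ ν ∈ S, ∃ δ, InC j δ ∧ δ ≠ 0 ∧ em j ν * δ ∈ ℬ

/-- All elements of `Γ` stabilising the point `w` lie in `𝔅`. -/
def StIn (Γ : Subgroup (GL (Fin k) F)) (w : Fin k → F) (𝔅 : Subalgebra F (Mk k F)) : Prop :=
  ∀ s ∈ Γ, (∃ c : F, (s : Mk k F) *ᵥ w = c • w) → (s : Mk k F) ∈ 𝔅

/-- The type dependent facts used by the generic argument: points `P`, root `ν`, flags
`w ∈ W w`. -/
structure Cx (M : Subgroup (GG k t F)) (P : Set (Fin k → F)) (ν : Mk k F)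
    (W : (Fin k → F) → Submodule F (Fin k → F)) : Prop where
  nz : ∀ w ∈ P, w ≠ 0
  tr : ∀ w ∈ P, ∀ w' ∈ P, ∃ h ∈ Gam M, ∃ c : F, (h : Mk k F) *ᵥ w = c • w'
  cl : ∀ g ∈ M, ∀ i j, ∀ w ∈ P, ∀ w', w' ≠ 0 →
    LS j (F ∙ w') ≤ (LS i (F ∙ w)).map (toLin' (g : EE k t F)) → w' ∈ P
  cl' : ∀ g ∈ M, ∀ i j w', w' ≠ 0 →
    LS j (F ∙ w') ≤ (LS i (rg ν)).map (toLin' (g : EE k t F)) → w' ∈ P
  zs : ∀ w ∈ P, ∀ 𝔅 : Subalgebra F (Mk k F), StIn (Gam M) w 𝔅 →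
    (∀ v ∈ P, ∀ φ, φ ≠ 0 → ro v φ ∈ 𝔅 → StIn (Gam M) v 𝔅) →
    ∀ X, (∀ b ∈ 𝔅, X * b = b * X) → Sc X
  sq : ν * ν = 0
  ne : ν ≠ 0
  mem : In (Gam M) (1 + ν)
  mid : ∃ u ψ : Fin k → F, ψ ⬝ᵥ u = 1 ∧ ν *ᵥ u = 0 ∧ ψ ᵥ* ν = 0
  lk : ∀ 𝔅 : Subalgebra F (Mk k F), (∀ s ∈ Gam M, (s : Mk k F) * ν = ν → (s : Mk k F) ∈ 𝔅) →
    ∃ w ∈ P, ∃ φ, φ ≠ 0 ∧ ro w φ ∈ 𝔅
  gen : ∀ X, (∀ s ∈ Gam M, X * cj s ν = cj s ν * X) → Sc X
  w1 : ∀ w ∈ P, w ∈ W w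
  pa : ∀ i, ∀ w ∈ P, ∀ m ∈ M, (∀ y ∈ LS i (F ∙ w), (m : EE k t F) *ᵥ y = y) →
    ∀ y, (m : EE k t F) *ᵥ y - y ∈ LS i (W w)
  pb : ∀ w ∈ P, ∀ ψ, ψ ⬝ᵥ w = 0 → ∃ h ∈ Gam M, ∀ v ∈ W w, (h : Mk k F) *ᵥ v = v + (ψ ⬝ᵥ v) • w

/-- Involutions of a factor centralising the root and trivial on `ker ν / im ν`. -/
def Hr (M : Subgroup (GG k t F)) (ν : Mk k F) : Prop :=
  ∀ i b, In M (em i b) → b * b = 1 → b * ν = ν * b → b ≠ 1 →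
    (∀ u, ν *ᵥ u = 0 → b *ᵥ u - u ∈ rg ν) → b * ν = -ν

/-- The additional facts in characteristic two, in terms of `Gam M`. -/
structure Cx2 (M : Subgroup (GG k t F)) (P : Set (Fin k → F)) (ν : Mk k F) : Prop where
  rk : ∃ w φ, ν = ro w φ
  rp : ∀ i w φ, Rt M i w φ → w ∈ P
  s3 : k = 3 → S3 M
  abc : (∃ c : F, c ≠ 0 ∧ c ≠ 1 ∧ ∀ i w φ, Rt M i w φ → In (Gam M) (1 + ro w (c • φ))) ∨
    ((∀ c : F, c = 0 ∨ c = 1) ∧ ∀ w φ : Fin k → F, φ ⬝ᵥ w = 0 → In (Gam M) (1 + ro w φ)) ∨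
    ∃ B : Frm (Fin k) F, M ≤ (B.pow t).Iso ∧ 4 ≤ k ∧ (∀ c, B.σ c = c → c = 0 ∨ c = 1) ∧
      (∀ v, v ≠ 0 → B.f v v = 0 → ∃ c : F, c ≠ 0 ∧ In (Gam M) (1 + c • rf B v v)) ∧
      ∀ w, w ≠ 0 → B.f w w = 0 → ∃ v v', (∀ z ∈ ({v, v', v + v'} : Set (Fin k → F)),
        B.f z z = 0 ∧ B.f z w = 0 ∧ z ∉ F ∙ w)

/-- Everything the generic argument needs. -/
def Gd (M : Subgroup (GG k t F)) : Prop :=
  ∃ P ν W, Cx M P ν W ∧ (∀ i, ∀ w ∈ P, QL M i w (W w)) ∧ ((2 : F) ≠ 0 → Hr M ν) ∧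
    ((2 : F) = 0 → Cx2 M P ν)

/-- The three-cycles of the factors lie in `M`. -/
def Cyc (M : Subgroup (GG k t F)) : Prop :=
  ∀ σ : Equiv.Perm (Fin t), σ.IsThreeCycle → fperm F k σ ∈ M

/-- Non-zero isotropic vectors. -/
def IsoV (B : Frm (Fin k) F) : Set (Fin k → F) := {w | w ≠ 0 ∧ B.f w w = 0}
/-- The maps `N_w`. -/
def RN (B : Frm (Fin k) F) : Set (Mk k F) := {ν | ∃ w ∈ IsoV B, ν = rf B w w}
/-- The maps `x φ_y - y φ_x` for a totally isotropic line. -/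
def RM (B : Frm (Fin k) F) : Set (Mk k F) :=
  {ν | ∃ x ∈ IsoV B, ∃ y ∈ IsoV B, B.f x y = 0 ∧ x ∉ F ∙ y ∧ ν = rf B x y - rf B y x}
/-- The transvection roots. -/
def RT (k : ℕ) (F : Type u) [Field F] : Set (Mk k F) :=
  {ν | ∃ w φ : Fin k → F, w ≠ 0 ∧ φ ≠ 0 ∧ φ ⬝ᵥ w = 0 ∧ ν = ro w φ}

/-- Facts on a classical group `Γ` of the factor. -/
structure GF (B : Frm (Fin k) F) (Γ : Subgroup (GL (Fin k) F)) : Prop where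
  iso : Γ ≤ B.Iso
  ex : (IsoV B).Nonempty
  tr : ∀ x ∈ IsoV B, ∀ y ∈ IsoV B, ∃ h ∈ Γ, (h : Mk k F) *ᵥ x = y
  eich : ∀ w v, B.f w w = 0 → B.f v w = 0 →
    ∃ c : F, In Γ (1 + rf B w v - B.ε • rf B v w - c • rf B w w)
  hyp : ∀ w ∈ IsoV B, ∃ w' ∈ IsoV B, B.f w w' = 1
  av : ∀ u v, u ≠ 0 → v ≠ 0 → ∃ y ∈ IsoV B, B.f u y ≠ 0 ∧ B.f v y ≠ 0
  sp : ∀ u, u ≠ 0 → Submodule.span F {y | y ∈ IsoV B ∧ B.f u y ≠ 0} = ⊤

/-- Additional facts for Witt index at least two. -/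
structure GF2 (B : Frm (Fin k) F) : Prop where
  pp : ∀ w ∈ IsoV B, pp B w ≤ Submodule.span F {y | y ∈ IsoV B ∧ B.f y w = 0 ∧ y ∉ F ∙ w}
  two : ∀ x ∈ IsoV B, ∀ y ∈ IsoV B, ∃ z ∈ IsoV B, B.f z x = 0 ∧ B.f z y = 0
  opp : ∀ x ∈ IsoV B, ∀ y ∈ IsoV B, B.f x y = 0 → x ∉ F ∙ y →
    ∃ x' ∈ IsoV B, B.f x x' = 1 ∧ B.f y x' = 0

/-- Linear context. -/
structure SLC (M : Subgroup (GG k t F)) : Prop where
  k3 : 3 ≤ k
  t2 : 2 ≤ t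
  sl : ∀ s : GL (Fin k) F, (s : Mk k F).det = 1 → s ∈ Gam M
  cyc : Cyc M

/-- Unitary context. -/
structure UC (B : Frm (Fin k) F) (M : Subgroup (GG k t F)) : Prop where
  sig : ∃ a, B.σ a ≠ a
  eps : B.ε = 1
  big : 4 ≤ k ∨ (k = 3 ∧ ∃ τ, B.σ τ = τ ∧ τ ≠ 0 ∧ τ ≠ 1)
  t2 : 2 ≤ t
  le : M ≤ (B.pow t).Iso
  cyc : Cyc M
  gf : GF B (Gam M)
  gf2 : 4 ≤ k → GF2 B
  tv : ∀ x, B.f x x = 0 → ∀ c, c + B.σ c = 0 → In (Gam M) (1 + c • rf B x x)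

/-- Bilinear context: symplectic factors of dimension at least four (six in characteristic two)
or orthogonal factors of dimension at least five. -/
structure BC (B : Frm (Fin k) F) (M : Subgroup (GG k t F)) : Prop where
  sig : ∀ a, B.σ a = a
  t2 : 2 ≤ t
  le : M ≤ (B.pow t).Iso
  cyc : Cyc M
  gf : GF B (Gam M)
  gf2 : GF2 B
  kind : ((∀ v, B.f v v = 0) ∧ B.ε = -1 ∧ (∀ x (c : F), In (Gam M) (1 + c • rf B x x)) ∧ 4 ≤ k ∧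
    ((2 : F) = 0 → 6 ≤ k)) ∨ (B.ε = 1 ∧ (2 : F) ≠ 0 ∧ 5 ≤ k)

/-- Symplectic factors of dimension two. -/
structure K2C (B : Frm (Fin 2) F) (M : Subgroup (GG 2 t F)) : Prop where
  sig : ∀ a, B.σ a = a
  alt : ∀ v, B.f v v = 0
  two : (2 : F) ≠ 0
  big : ∃ a : F, a ≠ 0 ∧ a ^ 2 ≠ 1
  t3 : 3 ≤ t
  le : M ≤ (B.pow t).Iso
  sp : B.Iso ≤ Gam M
  cyc : Cyc M

/-- The elements `1 + c N_{x_1} ⊗ ⋯ ⊗ N_{x_t}`, `c ∈ Λ`, lie in `M`. -/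
def AllN (B : Frm (Fin k) F) (M : Subgroup (GG k t F)) (Λ : Set F) : Prop :=
  ∀ x : Fin t → Fin k → F, (∀ j, x j ∈ IsoV B) → ∀ c ∈ Λ,
    In M (1 + c • pure fun j => rf B (x j) (x j))

/-- The elements `1 + c N ⊗ ⋯ ⊗ (x φ_y + s y φ_x) ⊗ ⋯ ⊗ N` lie in `M`. -/
def AllR (B : Frm (Fin k) F) (M : Subgroup (GG k t F)) (s : F) : Prop :=
  ∀ (d : Fin t) (x : Fin t → Fin k → F), (∀ j, x j ∈ IsoV B) → ∀ y, B.f y (x d) = 0 → ∀ c : F,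
    In M (1 + c • pure (Function.update (fun j => rf B (x j) (x j)) d
      (rf B (x d) y + s • rf B y (x d))))

/-- The elements `1 + c N ⊗ ⋯ ⊗ 1 ⊗ ⋯ ⊗ N` lie in `M`. -/
def AllO (B : Frm (Fin k) F) (M : Subgroup (GG k t F)) : Prop :=
  ∀ (d : Fin t) (x : Fin t → Fin k → F) (c : F),
    In M (1 + c • pure (Function.update (fun j => rf B (x j) (x j)) d 1))

/-- A quadratic form on the tensor power which belongs to the tensor power of `B`. -/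
structure QF (B : Frm (Fin k) F) (Q : QuadraticForm F (VV k t F)) : Prop where
  pol : ∃ c : F, c ≠ 0 ∧ ∀ u v, QuadraticMap.polar Q u v = c * (B.pow t).f u v
  sing : ∀ (x : Fin t → Fin k → F) (j : Fin t), B.f (x j) (x j) = 0 → Q (pv x) = 0

end defs

/-! ### Rigidity -/

def JobRigOdd : Prop := ∀ (F : Type u) [Field F] [Finite F] (k t : ℕ), (2 : F) ≠ 0 → 2 ≤ k →
  0 < t → ∀ y ∈ TT k t F, ((y : EE k t F) - 1) * ((y : EE k t F) - 1) = 0 → ∃ j, InA j (y : EE k t F)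

def JobRigP : Prop := ∀ (F : Type u) [Field F] [Finite F] (k t : ℕ) (y : GG k t F) (i : Fin t)
  (b : Mk k F) (c : EE k t F), InC i c → (y : EE k t F) = em i b * c →
  ((y : EE k t F) - 1) * ((y : EE k t F) - 1) = 0 →
  ((2 : F) ≠ 0 ∨ (3 ≤ k ∧ finrank F (rg ((y : EE k t F) - 1)) ≤ k ^ (t - 1))) → Sc b ∨ Sc c

def JobRig2 : Prop := JobRigP.{u} → ∀ (F : Type u) [Field F] [Finite F] (k t : ℕ)
  (M : Subgroup (GG k t F)), (2 : F) = 0 → 3 ≤ k → (k = 3 → S3 M) →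
  (∀ h ∈ M, ∀ i w φ, Rt M i w φ → Maps h i w i w → Nm h i i) →
  ∀ g ∈ M, ∀ i w φ, Rt M i w φ → In (TT k t F) (1 + cj g (em i (ro w φ))) →
    ∃ j a, cj g (em i (ro w φ)) = em j a

/-! ### The core for odd characteristic -/

def JobOdd : Prop := ∀ (F : Type u) [Field F] [Finite F] (k t : ℕ) (M : Subgroup (GG k t F))
  (ν : Mk k F) (i₁ i₂ : Fin t), (2 : F) ≠ 0 → i₁ ≠ i₂ → ν * ν = 0 → ν ≠ 0 →
  (∃ u ψ : Fin k → F, ψ ⬝ᵥ u = 1 ∧ ν *ᵥ u = 0 ∧ ψ ᵥ* ν = 0) → Hr M ν →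
  (∀ i, i = i₁ ∨ i = i₂ → In M (1 + em i ν) ∧
    ∀ g ∈ M, In (TT k t F) (1 + cj g (em i ν)) → g ∈ TT k t F) → M ≤ TT k t F

/-! ### The core for characteristic two -/

def JobPair : Prop := ∀ (F : Type u) [Field F] [Finite F] (k t : ℕ) (N N' : EE k t F)
  (x x' : GG k t F), (2 : F) = 0 → N * N = 0 → N' * N' = 0 → (x : EE k t F) = 1 + N →
  (x' : EE k t F) = 1 + N' → Odd (orderOf (x * x')) →
  ∃ τ ∈ Subgroup.closure ({x, x'} : Set (GG k t F)), Sw N N' τ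

def JobEven : Prop := ∀ (F : Type u) [Field F] [Finite F] (k t : ℕ) (M : Subgroup (GG k t F))
  (N' : EE k t F) (i : Fin t) (v χ w : Fin k → F) (x x' : GG k t F), C2 M → Out M N' →
  Rt M i v χ → w ≠ 0 → rg N' ⊓ kn (em i (ro v χ)) ≤ LS i (F ∙ w) → (w ∈ F ∙ v ∨ 4 ≤ k) →
  (x : EE k t F) = 1 + em i (ro v χ) → (x' : EE k t F) = 1 + N' → Odd (orderOf (x * x'))

/-- `JobPair` and `JobEven` combined. -/
def JobT : Prop := ∀ (F : Type u) [Field F] [Finite F] (k t : ℕ) (M : Subgroup (GG k t F))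
  (N' : EE k t F) (i : Fin t) (v χ w : Fin k → F), C2 M → Out M N' → Rt M i v χ → w ≠ 0 →
  rg N' ⊓ kn (em i (ro v χ)) ≤ LS i (F ∙ w) → (w ∈ F ∙ v ∨ 4 ≤ k) →
  ∃ τ ∈ M, Sw (em i (ro v χ)) N' τ

def JobCrit : Prop := ∀ (F : Type u) [Field F] [Finite F] (k t : ℕ) (M : Subgroup (GG k t F)),
  C2 M → (∃ i w φ, Rt M i w φ) → ¬ M ≤ TT k t F →
  ∃ N' i w φ, Out M N' ∧ Rt M i w φ ∧ E1 M N' i w

def JobE3 : Prop := JobT.{u} → ∀ (F : Type u) [Field F] [Finite F] (k t : ℕ)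
  (M : Subgroup (GG k t F)) (N' : EE k t F) (i : Fin t) (w φ : Fin k → F), C2 M → CaseA M →
  Out M N' → Rt M i w φ → E1 M N' i w → False

def JobE4B : Prop := JobT.{u} → ∀ (F : Type u) [Field F] [Finite F] (k t : ℕ)
  (M : Subgroup (GG k t F)) (N' : EE k t F) (i : Fin t) (w φ : Fin k → F), C2 M → CaseB M →
  Out M N' → Rt M i w φ → E1 M N' i w → False

def JobE4C : Prop := JobT.{u} → ∀ (F : Type u) [Field F] [Finite F] (k t : ℕ)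
  (M : Subgroup (GG k t F)) (N' : EE k t F) (i : Fin t) (w φ : Fin k → F), C2 M → CaseC M →
  Out M N' → Rt M i w φ → E1 M N' i w → False

/-! ### Linear factors -/

def JobSLQ : Prop := ∀ (F : Type u) [Field F] [Finite F] (k t : ℕ) (M : Subgroup (GG k t F)),
  SLC M → ¬ QQ M (RT k F) → specialLinear (Fin t → Fin k) F ≤ M

def JobSLG : Prop := ∀ (F : Type u) [Field F] [Finite F] (k t : ℕ) (M : Subgroup (GG k t F)),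
  SLC M → QQ M (RT k F) → Gd M

/-! ### Facts on the classical groups of one factor -/

def JobGFU : Prop := ∀ (F : Type u) [Field F] [Finite F] (k : ℕ) (B : Frm (Fin k) F)
  (Γ : Subgroup (GL (Fin k) F)), (∃ a, B.σ a ≠ a) → B.ε = 1 → 3 ≤ k → Γ ≤ B.Iso →
  (∀ s ∈ B.Iso, (s : Mk k F).det = 1 → s ∈ Γ) → GF B Γ ∧ (4 ≤ k → GF2 B) ∧
    ∀ x, B.f x x = 0 → ∀ c, c + B.σ c = 0 → In Γ (1 + c • rf B x x)

def JobGFSp : Prop := ∀ (F : Type u) [Field F] [Finite F] (k : ℕ) (B : Frm (Fin k) F),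
  (∀ a, B.σ a = a) → (∀ v, B.f v v = 0) → B.ε = -1 → 0 < k →
  GF B B.Iso ∧ (4 ≤ k → GF2 B) ∧ (∀ x (c : F), In B.Iso (1 + c • rf B x x)) ∧
    ((6 ≤ k ∨ (4 ≤ k ∧ (2 : F) ≠ 0) ∨ ∃ a : F, a ≠ 0 ∧ a ^ 2 ≠ 1) → B.Iso ≤ ⁅B.Iso, B.Iso⁆)

def JobGFO : Prop := ∀ (F : Type u) [Field F] [Finite F] (k : ℕ) (B : Frm (Fin k) F)
  (Γ : Subgroup (GL (Fin k) F)), (∀ a, B.σ a = a) → B.ε = 1 → (2 : F) ≠ 0 → 5 ≤ k →
  Γ ≤ B.Iso → ⁅B.Iso, B.Iso⁆ ≤ Γ → GF B Γ ∧ GF2 B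

/-! ### Unitary factors -/

def JobUQ : Prop := ∀ (F : Type u) [Field F] [Finite F] (k t : ℕ) (B : Frm (Fin k) F)
  (M : Subgroup (GG k t F)), UC B M → ¬ QQ M (RN B) → AllN B M {c | c + B.σ c = 0}

def JobUEnd : Prop := ∀ (F : Type u) [Field F] [Finite F] (k t : ℕ) (B : Frm (Fin k) F)
  (M : Subgroup (GG k t F)), UC B M → AllN B M {c | c + B.σ c = 0} →
  (B.pow t).Iso ⊓ specialLinear (Fin t → Fin k) F ≤ M

def JobUG : Prop := ∀ (F : Type u) [Field F] [Finite F] (k t : ℕ) (B : Frm (Fin k) F)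
  (M : Subgroup (GG k t F)), UC B M → QQ M (RN B) → Gd M

/-! ### Symplectic and orthogonal factors -/

def JobBIso : Prop := ∀ (F : Type u) [Field F] [Finite F] (k t : ℕ) (B : Frm (Fin k) F)
  (M : Subgroup (GG k t F)), BC B M → IsoP t (Gam M) ∅ (RN B ∪ RM B)

def JobBQ : Prop := JobBIso.{u} → ∀ (F : Type u) [Field F] [Finite F] (k t : ℕ)
  (B : Frm (Fin k) F) (M : Subgroup (GG k t F)), BC B M → ¬ QQ M (RN B) → AllR B M (-B.ε ^ t)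

def JobBQL : Prop := JobBIso.{u} → ∀ (F : Type u) [Field F] [Finite F] (k t : ℕ)
  (B : Frm (Fin k) F) (M : Subgroup (GG k t F)), BC B M → QQ M (RN B) →
  ∀ i, ∀ w ∈ IsoV B, QL M i w (pp B w)

def JobBG : Prop := ∀ (F : Type u) [Field F] [Finite F] (k t : ℕ) (B : Frm (Fin k) F)
  (M : Subgroup (GG k t F)), BC B M → (∀ i, ∀ w ∈ IsoV B, QL M i w (pp B w)) → Gd M

def JobSpEnd : Prop := ∀ (F : Type u) [Field F] [Finite F] (k t : ℕ) (B : Frm (Fin k) F)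
  (M : Subgroup (GG k t F)), (∀ a, B.σ a = a) → (∀ v, B.f v v = 0) → (2 : F) ≠ 0 → Odd t →
  AllN B M Set.univ → (B.pow t).Iso ≤ M

def JobOEnd : Prop := ∀ (F : Type u) [Field F] [Finite F] (k t : ℕ) (B : Frm (Fin k) F)
  (M : Subgroup (GG k t F)) (Q : QuadraticForm F (VV k t F)), BC B M → QF B Q →
  M ≤ isometryGroup F Q → AllR B M (-1) → omegaGL ⇑Q ≤ M

/-! ### Symplectic factors of dimension two -/

def JobK2Q : Prop := ∀ (F : Type u) [Field F] [Finite F] (t : ℕ) (B : Frm (Fin 2) F)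
  (M : Subgroup (GG 2 t F)), K2C B M → ¬ QQ M (RN B) →
  (Odd t ∧ AllN B M Set.univ) ∨ (Even t ∧ AllO B M)

def JobK2R : Prop := ∀ (F : Type u) [Field F] [Finite F] (t : ℕ) (B : Frm (Fin 2) F)
  (M : Subgroup (GG 2 t F)), K2C B M → QQ M (RN B) → M ≤ TT 2 t F

def JobK2End : Prop := ∀ (F : Type u) [Field F] [Finite F] (t : ℕ) (B : Frm (Fin 2) F)
  (M : Subgroup (GG 2 t F)) (Q : QuadraticForm F (VV 2 t F)), K2C B M → Even t → QF B Q →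
  M ≤ isometryGroup F Q → AllO B M → omegaGL ⇑Q ≤ M

end H60.Wr
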