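/- Tensor-induced subgroups: the algebra of the factors. -/
import Cfsg.Agent.H60.WrSpec

set_option autoImplicit false

namespace H60.Wr
open Cfsg Cfsg.Geo Matrix H19 Module
open scoped MatrixGroups

variable {F : Type*} [Field F] {k t : ℕ} {i j : Fin t} {a b : Mk k F} {X Y Z c : EE k t F}
  {x y w φ ψ : Fin k → F}

theorem ro_mulVec (x φ y : Fin k → F) : ro x φ *ᵥ y = (φ ⬝ᵥ y) • x := by
  rw [vecMulVec_mulVec]; simp
theorem mul_ro (a : Mk k F) (x φ : Fin k → F) : a * ro x φ = ro (a *ᵥ x) φ := mul_vecMulVec _ _ _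
theorem ro_mul (x φ : Fin k → F) (a : Mk k F) : ro x φ * a = ro x (φ ᵥ* a) := vecMulVec_mul _ _ _
theorem ro_smul_left (c : F) (x φ : Fin k → F) : ro (c • x) φ = c • ro x φ := smul_vecMulVec _ _ _
theorem ro_smul_right (c : F) (x φ : Fin k → F) : ro x (c • φ) = c • ro x φ := vecMulVec_smul _ _ _
theorem ro_add_left (x y φ : Fin k → F) : ro (x + y) φ = ro x φ + ro y φ := add_vecMulVec _ _ _
theorem ro_add_right (x φ ψ : Fin k → F) : ro x (φ + ψ) = ro x φ + ro x ψ := vecMulVec_add _ _ _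
theorem ro_sub_left (x y φ : Fin k → F) : ro (x - y) φ = ro x φ - ro y φ := sub_vecMulVec _ _ _
theorem ro_sub_right (x φ ψ : Fin k → F) : ro x (φ - ψ) = ro x φ - ro x ψ := vecMulVec_sub _ _ _
theorem ro_mul_ro (x φ y ψ : Fin k → F) : ro x φ * ro y ψ = (φ ⬝ᵥ y) • ro x ψ := by
  rw [mul_ro, ro_mulVec, ro_smul_left]
theorem ro_ne_zero (hx : x ≠ 0) (hφ : φ ≠ 0) : ro x φ ≠ 0 := by
  simp [vecMulVec_eq_zero, hx, hφ]
theorem ro_single (r s : Fin k) : ro (Pi.single r (1 : F)) (Pi.single s 1) = single r s 1 := by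
  ext p q; simp [vecMulVec_apply, Pi.single_apply, single_apply, eq_comm, ite_and]
  split_ifs <;> rfl
theorem sum_ro : ∑ r : Fin k, ro (Pi.single r (1 : F)) (Pi.single r 1) = 1 := by
  simp only [ro_single]; exact sum_single_one
theorem exists_dot_one (hx : x ≠ 0) : ∃ φ, φ ⬝ᵥ x = 1 := by
  obtain ⟨r, hr⟩ := Function.ne_iff.1 hx
  exact ⟨Pi.single r (x r)⁻¹, by simpa using inv_mul_cancel₀ hr⟩
theorem exists_dot_one' (hφ : φ ≠ 0) : ∃ x, φ ⬝ᵥ x = 1 := by
  obtain ⟨y, h⟩ := exists_dot_one hφ; exact ⟨y, by rwa [dotProduct_comm]⟩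
/-- Every linear functional is a dot product. -/
theorem exists_dot (l : (Fin k → F) →ₗ[F] F) : ∃ φ, ∀ v, φ ⬝ᵥ v = l v :=
  ⟨fun r => l (Pi.single r 1), fun v => by
    conv_rhs => rw [pi_eq_sum_univ' v]
    simp [dotProduct, map_sum, mul_comm]⟩
theorem exists_dot_of_notMem {J : Submodule F (Fin k → F)} (hx : x ∉ J) :
    ∃ φ, φ ⬝ᵥ x = 1 ∧ ∀ v ∈ J, φ ⬝ᵥ v = 0 := by
  obtain ⟨l, h1, h2⟩ := H62.exists_dual_eq_one hx
  obtain ⟨φ, h⟩ := exists_dot l
  exact ⟨φ, by rw [h, h1], fun v hv => by rw [h, h2 v hv]⟩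
theorem mem_of_forall_dot {J : Submodule F (Fin k → F)}
    (h : ∀ φ, (∀ v ∈ J, φ ⬝ᵥ v = 0) → φ ⬝ᵥ x = 0) : x ∈ J := by
  by_contra hx
  obtain ⟨φ, h1, h2⟩ := exists_dot_of_notMem hx
  exact one_ne_zero (h1.symm.trans (h φ h2))
theorem sc_of_eigen (h : ∀ v, a *ᵥ v ∈ F ∙ v) : Sc a := by
  by_contra hs
  obtain ⟨u, hu⟩ := H56.exists_notMem_span_of_ne (α := toLin' a) fun c hc => hs ⟨c, by
    apply toLin'.injective; rw [hc]; ext; simp⟩
  exact hu (h u)

theorem Sc.one {ι : Type} [DecidableEq ι] : Sc (1 : Matrix ι ι F) := ⟨1, (one_smul _ _).symm⟩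
theorem Sc.zero {ι : Type} [DecidableEq ι] : Sc (0 : Matrix ι ι F) := ⟨0, (zero_smul _ _).symm⟩
theorem Sc.smul {ι : Type} [DecidableEq ι] {X : Matrix ι ι F} (h : Sc X) (r : F) : Sc (r • X) := by
  obtain ⟨c, rfl⟩ := h; exact ⟨r * c, smul_smul _ _ _⟩
theorem Sc.of_smul {ι : Type} [DecidableEq ι] {X : Matrix ι ι F} {r : F} (hr : r ≠ 0)
    (h : Sc (r • X)) : Sc X := by simpa [smul_smul, hr] using h.smul r⁻¹
theorem Sc.add {ι : Type} [DecidableEq ι] {X Y : Matrix ι ι F} (h : Sc X) (h' : Sc Y) :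
    Sc (X + Y) := by
  obtain ⟨c, rfl⟩ := h; obtain ⟨d, rfl⟩ := h'; exact ⟨c + d, (add_smul _ _ _).symm⟩
theorem Sc.neg {ι : Type} [DecidableEq ι] {X : Matrix ι ι F} (h : Sc X) : Sc (-X) := by
  simpa using h.smul (-1)
theorem Sc.sub {ι : Type} [DecidableEq ι] {X Y : Matrix ι ι F} (h : Sc X) (h' : Sc Y) :
    Sc (X - Y) := by rw [sub_eq_add_neg]; exact h.add h'.neg
theorem Sc.eq_zero {ι : Type} [DecidableEq ι] [Fintype ι] {X : Matrix ι ι F} (h : Sc X)
    (h2 : X * X = 0) : X = 0 := by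
  obtain ⟨c, rfl⟩ := h
  by_cases hc : c = 0
  · simp [hc]
  · have : (c * c) • (1 : Matrix ι ι F) = 0 := by simpa [smul_smul] using h2
    rw [(smul_eq_zero.1 this).resolve_left (mul_ne_zero hc hc), smul_zero]
theorem Sc.cj {ι : Type} [DecidableEq ι] [Fintype ι] {X : Matrix ι ι F} (h : Sc X) (g : GL ι F) :
    cj g X = X := by obtain ⟨c, rfl⟩ := h; rw [map_smul, map_one]
theorem sc_cj {ι : Type} [DecidableEq ι] [Fintype ι] {X : Matrix ι ι F} {g : GL ι F} :
    Sc (cj g X) ↔ Sc X :=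
  ⟨fun h => by have := h.cj g⁻¹; rw [cj_inv_cj] at this; rwa [this], fun h => by rwa [h.cj]⟩

theorem em_comm (h : i ≠ j) (a b : Mk k F) : (em i a * em j b : EE k t F) = em j b * em i a :=
  tl_commute h a b
theorem InC.one : InC i (1 : EE k t F) := fun _ => by simp
theorem InC.zero : InC i (0 : EE k t F) := fun _ => by simp
theorem InC.add (h : InC i X) (h' : InC i Y) : InC i (X + Y) := fun a => by
  rw [mul_add, add_mul, h, h']
theorem InC.sub (h : InC i X) (h' : InC i Y) : InC i (X - Y) := fun a => by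
  rw [mul_sub, sub_mul, h, h']
theorem InC.neg (h : InC i X) : InC i (-X) := fun a => by rw [mul_neg, neg_mul, h]
theorem InC.smul (h : InC i X) (r : F) : InC i (r • X) := fun a => by
  rw [mul_smul_comm, smul_mul_assoc, h]
theorem InC.mul (h : InC i X) (h' : InC i Y) : InC i (X * Y) := fun a => by
  rw [← mul_assoc, h, mul_assoc, h', mul_assoc]
theorem InC.sum {α : Type*} {s : Finset α} {f : α → EE k t F} (h : ∀ p ∈ s, InC i (f p)) :
    InC i (∑ p ∈ s, f p) := Finset.sum_induction _ _ (fun _ _ => InC.add) InC.zero h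
theorem InC.em (h : i ≠ j) (a : Mk k F) : InC i (em j a : EE k t F) := fun b => em_comm h b a
theorem Sc.inC (h : Sc X) (i : Fin t) : InC i X := by obtain ⟨c, rfl⟩ := h; exact InC.one.smul c
theorem InC.inv {g : GG k t F} (h : InC i (g : EE k t F)) : InC i ((g⁻¹ : GG k t F) : EE k t F) :=
  fun a => (Commute.units_inv_right (h a))
theorem InC.cj {g : GG k t F} (hg : InC i (g : EE k t F)) (h : InC i X) : InC i (cj g X) :=
  (hg.mul h).mul hg.inv
theorem InC.cj_em {g : GG k t F} (hg : InC i (g : EE k t F)) (a : Mk k F) :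
    H19.cj g (Wr.em i a) = Wr.em i a := by rw [cj_eq_iff, hg]
theorem InC.pure {s : Fin t → Mk k F} (h : s i = 1) : InC i (pure s) := fun a =>
  (pure_mul_tl s i (by rw [h, one_mul, mul_one])).symm
theorem em_mul_pure (i : Fin t) (a : Mk k F) (s : Fin t → Mk k F) :
    em i a * pure s = pure (Function.update s i (a * s i)) := by
  rw [tl_apply, ← pure_mul]; congr 1; funext j
  by_cases h : j = i
  · subst h; simp
  · simp [Function.update_of_ne h]
theorem pure_eq (i : Fin t) (s : Fin t → Mk k F) :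
    pure s = em i (s i) * pure (Function.update s i 1) := by rw [em_mul_pure]; simp
theorem pure_eq_zero {s : Fin t → Mk k F} (h : s i = 0) : pure s = 0 := by
  rw [pure_eq i, h, map_zero, zero_mul]
theorem pure_update_add (s : Fin t → Mk k F) (i : Fin t) (a b : Mk k F) :
    pure (Function.update s i (a + b)) = pure (Function.update s i a) + pure (Function.update s i b) :=
  (pureM F k t).map_update_add s i a b
theorem pure_update_smul (s : Fin t → Mk k F) (i : Fin t) (r : F) (a : Mk k F) :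
    pure (Function.update s i (r • a)) = r • pure (Function.update s i a) :=
  (pureM F k t).map_update_smul s i r a
theorem pure_update_sub (s : Fin t → Mk k F) (i : Fin t) (a b : Mk k F) :
    pure (Function.update s i (a - b)) = pure (Function.update s i a) - pure (Function.update s i b) :=
  (pureM F k t).map_update_sub s i a b

theorem InA.em (i : Fin t) (a : Mk k F) : InA i (em i a : EE k t F) := ⟨a, rfl⟩
theorem Sc.inA (h : Sc X) (i : Fin t) : InA i X := by
  obtain ⟨c, rfl⟩ := h; exact ⟨c • 1, by simp⟩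
theorem InA.add (h : InA i X) (h' : InA i Y) : InA i (X + Y) := by
  obtain ⟨a, rfl⟩ := h; obtain ⟨b, rfl⟩ := h'; exact ⟨a + b, by simp⟩
theorem InA.sub (h : InA i X) (h' : InA i Y) : InA i (X - Y) := by
  obtain ⟨a, rfl⟩ := h; obtain ⟨b, rfl⟩ := h'; exact ⟨a - b, by simp⟩
theorem InA.mul (h : InA i X) (h' : InA i Y) : InA i (X * Y) := by
  obtain ⟨a, rfl⟩ := h; obtain ⟨b, rfl⟩ := h'; exact ⟨a * b, by simp⟩
theorem InA.smul (h : InA i X) (r : F) : InA i (r • X) := by
  obtain ⟨a, rfl⟩ := h; exact ⟨r • a, by simp⟩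
theorem InA.inC (h : InA j X) (hij : i ≠ j) : InC i X := by
  obtain ⟨a, rfl⟩ := h; exact InC.em hij a
theorem InA.comm (h : InA i X) (h' : InC i Y) : X * Y = Y * X := by
  obtain ⟨a, rfl⟩ := h; exact h' a

/-! ### Contraction -/

theorem ct_spec (i : Fin t) (w φ x ψ : Fin k → F) (Z : EE k t F) :
    em i (ro w φ) * Z * em i (ro x ψ) = em i (ro w ψ) * ct i φ x Z := by
  simp only [ct, Finset.mul_sum, ← mul_assoc, ← map_mul, ro_mul_ro, map_smul, smul_mul_assoc]
  simp only [← mul_smul_comm, ← Finset.mul_sum, ← map_smul, ← map_sum, ← ro_smul_right]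
  congr 2
  ext p q; simp [Matrix.sum_apply, vecMulVec_apply, Pi.single_apply, mul_comm]
theorem ct_spec' (i : Fin t) (w φ x ψ : Fin k → F) (Z : EE k t F) :
    em i (ro w φ) * Z * em i (ro x ψ) = ct i φ x Z * em i (ro w ψ) := by
  simp only [ct, Finset.sum_mul, mul_assoc, ← map_mul, ro_mul_ro, map_smul, mul_smul_comm]
  simp only [← smul_mul_assoc, ← Finset.sum_mul, ← map_smul, ← map_sum, ← ro_smul_left]
  congr 2
  ext p q; simp [Matrix.sum_apply, vecMulVec_apply, Pi.single_apply, mul_comm]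
theorem ct_inC (i : Fin t) (φ x : Fin k → F) (Z : EE k t F) : InC i (ct i φ x Z) := fun a => by
  rw [matrix_eq_sum_single a]
  simp only [map_sum, Finset.sum_mul, Finset.mul_sum]
  refine Finset.sum_congr rfl fun r _ => Finset.sum_congr rfl fun s _ => ?_
  rw [show single r s (a r s) = a r s • ro (Pi.single r (1 : F)) (Pi.single s 1) by
    rw [ro_single, smul_single, smul_eq_mul, mul_one], map_smul, smul_mul_assoc, mul_smul_comm,
    ← ct_spec, ct_spec']
theorem ct_add (i : Fin t) (φ x : Fin k → F) (Y Z : EE k t F) :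
    ct i φ x (Y + Z) = ct i φ x Y + ct i φ x Z := by
  simp [ct, mul_add, add_mul, Finset.sum_add_distrib]
theorem ct_sub (i : Fin t) (φ x : Fin k → F) (Y Z : EE k t F) :
    ct i φ x (Y - Z) = ct i φ x Y - ct i φ x Z := by
  simp [ct, mul_sub, sub_mul, Finset.sum_sub_distrib]
theorem ct_smul (i : Fin t) (φ x : Fin k → F) (r : F) (Z : EE k t F) :
    ct i φ x (r • Z) = r • ct i φ x Z := by simp [ct, Finset.smul_sum]
@[simp] theorem ct_zero (i : Fin t) (φ x : Fin k → F) : ct i φ x (0 : EE k t F) = 0 := by simp [ct]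
theorem ct_neg (i : Fin t) (φ x : Fin k → F) (Z : EE k t F) : ct i φ x (-Z) = -ct i φ x Z := by
  simp [ct]
theorem ct_add_left (i : Fin t) (φ ψ x : Fin k → F) (Z : EE k t F) :
    ct i (φ + ψ) x Z = ct i φ x Z + ct i ψ x Z := by
  simp [ct, ro_add_right, add_mul, Finset.sum_add_distrib]
theorem ct_smul_left (i : Fin t) (r : F) (φ x : Fin k → F) (Z : EE k t F) :
    ct i (r • φ) x Z = r • ct i φ x Z := by simp [ct, ro_smul_right, Finset.smul_sum]
theorem ct_add_right (i : Fin t) (φ x y : Fin k → F) (Z : EE k t F) :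
    ct i φ (x + y) Z = ct i φ x Z + ct i φ y Z := by
  simp [ct, ro_add_left, mul_add, Finset.sum_add_distrib]
theorem ct_smul_right (i : Fin t) (r : F) (φ x : Fin k → F) (Z : EE k t F) :
    ct i φ (r • x) Z = r • ct i φ x Z := by simp [ct, ro_smul_left, Finset.smul_sum]
theorem ct_em_left (i : Fin t) (φ x : Fin k → F) (a : Mk k F) (Z : EE k t F) :
    ct i φ x (em i a * Z) = ct i (φ ᵥ* a) x Z := by
  simp only [ct, ← mul_assoc, ← map_mul, ro_mul]
theorem ct_em_right (i : Fin t) (φ x : Fin k → F) (a : Mk k F) (Z : EE k t F) :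
    ct i φ x (Z * em i a) = ct i φ (a *ᵥ x) Z := by
  simp only [ct, mul_assoc, ← map_mul, mul_ro]
theorem ct_inC_left (hc : InC i c) (φ x : Fin k → F) (Z : EE k t F) :
    ct i φ x (c * Z) = c * ct i φ x Z := by
  simp only [ct, Finset.mul_sum, ← mul_assoc, hc _]
theorem ct_inC_right (hc : InC i c) (φ x : Fin k → F) (Z : EE k t F) :
    ct i φ x (Z * c) = ct i φ x Z * c := by
  simp only [ct, Finset.sum_mul, mul_assoc, hc _]
theorem ct_one (i : Fin t) (φ x : Fin k → F) : ct i φ x (1 : EE k t F) = (φ ⬝ᵥ x) • 1 := by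
  simp only [ct, mul_one, ← map_mul, ro_mul_ro, ← map_sum, ← Finset.smul_sum, sum_ro, map_smul,
    map_one]
theorem ct_of_inC (hc : InC i c) (φ x : Fin k → F) : ct i φ x c = (φ ⬝ᵥ x) • c := by
  have := ct_inC_left hc φ x 1
  rwa [mul_one, ct_one, mul_smul_comm, mul_one] at this
theorem ct_em_mul (hc : InC i c) (φ x : Fin k → F) (b : Mk k F) :
    ct i φ x (em i b * c) = (φ ⬝ᵥ b *ᵥ x) • c := by
  rw [ct_em_left, ct_of_inC hc, dotProduct_mulVec]
theorem ct_em (i : Fin t) (φ x : Fin k → F) (b : Mk k F) :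
    ct i φ x (em i b : EE k t F) = (φ ⬝ᵥ b *ᵥ x) • 1 := by
  rw [← ct_em_mul InC.one, mul_one]
theorem mul_ro_eq (i : Fin t) (Z : EE k t F) (x ψ : Fin k → F) : Z * em i (ro x ψ) =
    ∑ r, em i (ro (Pi.single r 1) ψ) * ct i (Pi.single r 1) x Z := by
  simp only [← ct_spec, ← Finset.sum_mul, ← map_sum, sum_ro, map_one, one_mul]
theorem eq_sum_ct (i : Fin t) (Z : EE k t F) : Z = ∑ r, ∑ s, em i (single r s 1) *
    ct i (Pi.single r 1) (Pi.single s 1) Z := by
  rw [Finset.sum_comm]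
  simp only [← ro_single, ← mul_ro_eq, ← Finset.mul_sum, ← map_sum, sum_ro, map_one, mul_one]
theorem eq_zero_of_ct (h : ∀ φ x, ct i φ x Z = 0) : Z = 0 := by
  rw [eq_sum_ct i Z]; simp [h]
/-- If all components are scalars then `Z ∈ A_i`. -/
theorem InA.of_ct (h : ∀ φ x, Sc (ct i φ x Z)) : InA i Z := by
  choose f hf using h
  refine ⟨∑ r, ∑ s, f (Pi.single r 1) (Pi.single s 1) • single r s 1, ?_⟩
  conv_lhs => rw [eq_sum_ct i Z]
  simp only [map_sum, map_smul, hf, mul_smul_comm, mul_one]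
/-- The matrix of the values of a functional on the components. -/
def cpt (i : Fin t) (l : EE k t F →ₗ[F] F) (Z : EE k t F) : Mk k F :=
  Matrix.of fun r s => l (ct i (Pi.single r 1) (Pi.single s 1) Z)
theorem cpt_spec (i : Fin t) (l : EE k t F →ₗ[F] F) (Z : EE k t F) (φ x : Fin k → F) :
    φ ⬝ᵥ cpt i l Z *ᵥ x = l (ct i φ x Z) := by
  conv_rhs => rw [eq_sum_ct i Z]
  have : ∀ s : Finset (Fin k), ∀ f : Fin k → EE k t F,
      ct i φ x (∑ r ∈ s, f r) = ∑ r ∈ s, ct i φ x (f r) := fun s f => by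
    simp only [ct, Finset.mul_sum, Finset.sum_mul]; exact Finset.sum_comm
  simp only [this, ct_em_mul (ct_inC _ _ _ _), map_sum, map_smul, smul_eq_mul, single_mulVec,
    cpt, dotProduct, mulVec, of_apply, Finset.mul_sum]
  refine Finset.sum_congr rfl fun r _ => Finset.sum_congr rfl fun s _ => ?_
  simp [single_apply, ite_and]; ring
/-- If all component matrices are scalars then `Z ∈ C_i`. -/
theorem InC.of_cpt (h : ∀ l, Sc (cpt i l Z)) : InC i Z := by
  have key : ∀ r s r' : Fin k, ct i (Pi.single r 1) (Pi.single s 1) Z =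
      if r = s then ct i (Pi.single r' 1) (Pi.single r' 1) Z else 0 := fun r s r' => by
    rw [← sub_eq_zero, ← Module.forall_dual_apply_eq_zero_iff F]
    intro l
    obtain ⟨c, hc⟩ := h l
    have h1 := congrFun (congrFun hc r) s
    have h2 := congrFun (congrFun hc r') r'
    simp only [cpt, of_apply, Matrix.smul_apply, one_apply, if_true, smul_eq_mul, mul_one] at h1 h2
    rw [map_sub, h1]; split_ifs <;> simp [h2]
  rcases isEmpty_or_nonempty (Fin k) with h0 | ⟨⟨r'⟩⟩
  · intro a; rw [Subsingleton.elim a 0]; simp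
  have h1 := ct_inC i (Pi.single r' 1) (Pi.single r' 1) Z
  replace key := fun r s => key r s r'
  generalize ct i (Pi.single r' 1) (Pi.single r' 1) Z = D at key h1
  rw [eq_sum_ct i Z]
  simpa only [key, mul_ite, mul_zero, Finset.sum_ite_eq, Finset.mem_univ, if_true,
    ← Finset.sum_mul, ← map_sum, sum_single_one, map_one, one_mul] using h1
theorem InC.of_ct (h : ∀ φ x, φ ⬝ᵥ x = 0 → ct i φ x Z = 0) : InC i Z :=
  InC.of_cpt fun l => sc_of_eigen fun v => mem_of_forall_dot fun φ hφ => by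
    rw [cpt_spec, h φ v (hφ v (Submodule.mem_span_singleton_self v)), map_zero]
/-- Commuting with a set of factor elements whose centraliser is scalar. -/
theorem InC.of_comm {S : Set (Mk k F)} (hS : ∀ X, (∀ b ∈ S, X * b = b * X) → Sc X)
    (h : ∀ b ∈ S, Wr.em i b * Z = Z * Wr.em i b) : InC i Z :=
  InC.of_cpt fun l => hS _ fun b hb => by
    ext r s
    have h1 := cpt_spec i l Z (Pi.single r 1) (b *ᵥ Pi.single s 1)
    have h2 := cpt_spec i l Z (Pi.single r 1 ᵥ* b) (Pi.single s 1)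
    rw [← ct_em_right, ← h b hb, ct_em_left, ← h2, ← dotProduct_mulVec, mulVec_mulVec,
      mulVec_mulVec] at h1
    simpa using h1

theorem T2 (hc : InC i c) (h : em i b * c = 0) : b = 0 ∨ c = 0 := by
  by_contra! h0
  obtain ⟨r, s, hrs⟩ : ∃ r s, b r s ≠ 0 := by
    by_contra! h1; exact h0.1 (by ext r s; simp [h1])
  have := ct_em_mul hc (Pi.single r 1) (Pi.single s 1) b
  rw [h, ct_zero] at this
  exact h0.2 ((smul_eq_zero.1 this.symm).resolve_left (by simpa using hrs))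
theorem em_cancel (hb : b ≠ 0) (hX : InC i X) (hY : InC i Y) (h : em i b * X = em i b * Y) :
    X = Y := sub_eq_zero.1 ((T2 (hX.sub hY) (by rw [mul_sub, h, sub_self])).resolve_left hb)
theorem em_eq_zero : (em i a : EE k t F) = 0 ↔ a = 0 := by
  refine ⟨fun h => ?_, fun h => by simp [h]⟩
  rcases isEmpty_or_nonempty (Fin k) with h0 | h0
  · exact Subsingleton.elim _ _
  · exact (T2 (i := i) InC.one (by rw [mul_one, h])).resolve_right one_ne_zero
theorem em_inj : (em i a : EE k t F) = em i b ↔ a = b := by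
  rw [← sub_eq_zero, ← map_sub, em_eq_zero, sub_eq_zero]
theorem sc_em : Sc (em i a : EE k t F) ↔ Sc a :=
  ⟨fun ⟨c, h⟩ => ⟨c, (em_inj (i := i)).1 (by simpa using h)⟩, fun ⟨c, h⟩ => ⟨c, by simp [h]⟩⟩
theorem pure_ne_zero {s : Fin t → Mk k F} (h : ∀ j, s j ≠ 0) : pure s ≠ 0 := by
  have : ∀ j, ∃ p : Fin k × Fin k, s j p.1 p.2 ≠ 0 := fun j => by
    by_contra! h1; exact h j (by ext r q; simpa using h1 (r, q))
  choose p hp using this
  intro h0
  have := congrFun (congrFun h0 fun j => (p j).1) fun j => (p j).2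
  rw [pure_apply] at this
  exact Finset.prod_ne_zero_iff.2 (fun j _ => hp j) this
theorem sc_of_inC (h : ∀ i, InC i X) : Sc X := exists_smul_of_commute_tl fun i x => (h i x).symm
theorem T4 (h : ∀ j, j ≠ i → InC j Z) : InA i Z :=
  InA.of_ct fun φ x => sc_of_inC fun j => by
    by_cases hj : j = i
    · subst hj; exact ct_inC _ _ _ _
    · exact InC.sum fun r _ => ((InC.em hj _).mul (h j hj)).mul (InC.em hj _)
theorem InA.sc (h : InA i X) (h' : InC i X) : Sc X := sc_of_inC fun j => by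
  by_cases hj : j = i
  · rwa [hj]
  · exact h.inC hj
theorem InA.sc_of_ne (h : InA i X) (h' : InA j X) (hij : i ≠ j) : Sc X := h.sc (h'.inC hij)
/-- The functional trick. -/
theorem exists_lam (i : Fin t) (l : Mk k F →ₗ[F] F) : ∃ L : EE k t F →ₗ[F] EE k t F,
    (∀ Z, InC i (L Z)) ∧ ∀ b c, InC i c → L (em i b * c) = l b • c := by
  refine ⟨⟨⟨fun Z => ∑ r, ∑ s, l (single r s 1) • ct i (Pi.single r 1) (Pi.single s 1) Z,
    fun Y Z => by simp [ct_add, Finset.sum_add_distrib]⟩,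
    fun r Z => by simp [ct_smul, Finset.smul_sum, smul_comm r]⟩,
    fun Z => ?_, fun b c hc => ?_⟩
  · simp only [LinearMap.coe_mk, AddHom.coe_mk]
    exact InC.sum fun r _ => InC.sum fun s _ => (ct_inC _ _ _ _).smul _
  simp only [LinearMap.coe_mk, AddHom.coe_mk, ct_em_mul hc, smul_smul, ← Finset.sum_smul]
  congr 1
  conv_rhs => rw [matrix_eq_sum_single b]
  simp only [map_sum]
  refine Finset.sum_congr rfl fun r _ => Finset.sum_congr rfl fun s _ => ?_
  rw [show single r s (b r s) = b r s • single r s (1 : F) by simp, map_smul]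
  simp [mul_comm]
theorem exists_fun_of_not_sc (h : ¬ Sc b) : ∃ l : Mk k F →ₗ[F] F, l 1 = 0 ∧ l b = 1 := by
  obtain ⟨l, h1, h2⟩ := H62.exists_dual_eq_one (W := F ∙ (1 : Mk k F)) (x := b) fun hb => by
    obtain ⟨c, hc⟩ := Submodule.mem_span_singleton.1 hb; exact h ⟨c, hc.symm⟩
  exact ⟨l, h2 _ (Submodule.mem_span_singleton_self _), h1⟩
/-- A non-zero scalar of the form `em b * c`. -/
theorem sc_of_em_mul (hc : InC i c) {r : F} (hr : r ≠ 0) (h : em i b * c = r • 1) :
    Sc b ∧ Sc c := by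
  rcases isEmpty_or_nonempty (Fin k) with h0 | h0
  · haveI : IsEmpty (Fin t → Fin k) := ⟨fun f => h0.false (f i)⟩
    exact ⟨⟨0, Subsingleton.elim _ _⟩, ⟨0, Subsingleton.elim _ _⟩⟩
  have h1 : Sc b := by
    by_contra hb
    obtain ⟨l, l1, l2⟩ := exists_fun_of_not_sc hb
    obtain ⟨L, -, hL⟩ := exists_lam i l
    have h2 := hL b c hc
    have h3 := hL 1 1 InC.one
    rw [map_one, mul_one, l1, zero_smul] at h3
    rw [h, map_smul, h3, l2, one_smul, smul_zero] at h2
    rw [← h2, mul_zero] at h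
    exact one_ne_zero ((smul_eq_zero.1 h.symm).resolve_left hr)
  refine ⟨h1, ?_⟩
  obtain ⟨d, rfl⟩ := h1
  rw [map_smul, map_one, smul_mul_assoc, one_mul] at h
  have hd : d ≠ 0 := by
    rintro rfl
    exact one_ne_zero ((smul_eq_zero.1 (h.symm.trans (zero_smul _ _))).resolve_left hr)
  exact Sc.of_smul hd ⟨r, h⟩

end H60.Wr
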