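/- Tensor-induced subgroups: groups and subspaces. -/
import Cfsg.Agent.H60.WrKit1

set_option autoImplicit false

namespace H60.Wr
open Cfsg Cfsg.Geo Matrix H19 Module
open scoped MatrixGroups

variable {F : Type*} [Field F] {k t : ℕ} {i j : Fin t} {a b : Mk k F} {c : EE k t F}
  {x y w φ ψ : Fin k → F}

section In
variable {ι : Type} [Fintype ι] [DecidableEq ι] {M : Subgroup (GL ι F)} {X Y : Matrix ι ι F}

theorem In.coe {g : GL ι F} : In M (g : Matrix ι ι F) ↔ g ∈ M :=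
  ⟨fun ⟨_, hm, h⟩ => Units.ext h ▸ hm, fun h => ⟨g, h, rfl⟩⟩
theorem In.one : In M 1 := ⟨1, M.one_mem, rfl⟩
theorem In.mul (h : In M X) (h' : In M Y) : In M (X * Y) := by
  obtain ⟨m, hm, rfl⟩ := h; obtain ⟨n, hn, rfl⟩ := h'; exact ⟨m * n, M.mul_mem hm hn, rfl⟩
theorem In.mono {M' : Subgroup (GL ι F)} (hM : M ≤ M') (h : In M X) : In M' X := by
  obtain ⟨m, hm, rfl⟩ := h; exact ⟨m, hM hm, rfl⟩
theorem In.cj {g : GL ι F} (hg : g ∈ M) (h : In M X) : In M (cj g X) := by
  obtain ⟨m, hm, rfl⟩ := h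
  exact ⟨g * m * g⁻¹, M.mul_mem (M.mul_mem hg hm) (M.inv_mem hg), rfl⟩
theorem In.cj_one_add {g : GL ι F} (hg : g ∈ M) (h : In M (1 + X)) : In M (1 + H19.cj g X) := by
  simpa using h.cj hg
theorem In.of_mul_eq_one (h : In M X) (e : X * Y = 1) : In M Y := by
  obtain ⟨m, hm, rfl⟩ := h
  exact ⟨m⁻¹, M.inv_mem hm, Units.inv_eq_of_mul_eq_one_right e⟩
theorem In.neg (h : In M (1 + X)) (e : X * X = 0) : In M (1 - X) :=
  h.of_mul_eq_one (by rw [add_mul, mul_sub, mul_sub, e]; simp)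
theorem In.add_one (h : In M (1 + X)) (h' : In M (1 + Y)) (e : X * Y = 0) : In M (1 + (X + Y)) := by
  convert h.mul h' using 1
  rw [add_mul, mul_add, mul_add, e]; simp; abel
theorem In.comm (h : In M (1 + X)) (h' : In M (1 + Y)) (e1 : X * X = 0) (e2 : Y * Y = 0)
    (e3 : X * Y * X = 0) (e4 : Y * X * Y = 0) : In M (1 + (X * Y - Y * X)) := by
  convert ((h.mul h').mul (h.neg e1)).mul (h'.neg e2) using 1
  have e5 : X * (Y * X) = 0 := by rw [← mul_assoc, e3]
  have e6 : Y * (X * Y) = 0 := by rw [← mul_assoc, e4]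
  have e7 : X * (X * Y) = 0 := by rw [← mul_assoc, e1, zero_mul]
  have e8 : X * (Y * (X * Y)) = 0 := by rw [e6, mul_zero]
  simp only [add_mul, mul_sub, mul_add, sub_mul, one_mul, mul_one, mul_assoc, e1, e2, e5, e6, e7,
    e8, mul_zero, zero_mul]
  abel
/-- The unit with a given square zero part. -/
def un (X : Matrix ι ι F) (h : X * X = 0) : GL ι F :=
  ⟨1 + X, 1 - X, by rw [add_mul, mul_sub, mul_sub, h]; simp,
    by rw [sub_mul, mul_add, mul_add, h]; simp⟩
@[simp] theorem un_val (h : X * X = 0) : (un X h : Matrix ι ι F) = 1 + X := rfl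
@[simp] theorem un_inv (h : X * X = 0) : ((un X h)⁻¹ : GL ι F) = (1 - X : Matrix ι ι F) := rfl
theorem inv_val_of {g : GL ι F} (e : (g : Matrix ι ι F) = 1 + X) (h : X * X = 0) :
    ((g⁻¹ : GL ι F) : Matrix ι ι F) = 1 - X := by rw [show g = un X h from Units.ext e]; rfl
theorem cj_of_val {g : GL ι F} (e : (g : Matrix ι ι F) = 1 + X) (h : X * X = 0) (Z : Matrix ι ι F) :
    H19.cj g Z = Z + (X * Z - Z * X - X * Z * X) := by
  rw [cj_apply, inv_val_of e h, e]; noncomm_ring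
theorem rg_cj (g : GL ι F) (X : Matrix ι ι F) :
    rg (H19.cj g X) = (rg X).map (toLin' (g : Matrix ι ι F)) := by
  rw [cj_apply, rg, toLin'_mul, toLin'_mul, LinearMap.range_comp_of_range_eq_top,
    LinearMap.range_comp]
  exact LinearMap.range_eq_top.2 fun v => ⟨(g : Matrix ι ι F) *ᵥ v, by simp⟩
theorem toLin'_inj (g : GL ι F) : Function.Injective (toLin' (g : Matrix ι ι F)) := fun u v h => by
  have := congrArg (((g⁻¹ : GL ι F) : Matrix ι ι F) *ᵥ ·) h
  simpa using this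
theorem finrank_map_unit (g : GL ι F) (S : Submodule F (ι → F)) :
    finrank F (S.map (toLin' (g : Matrix ι ι F))) = finrank F S :=
  (Submodule.equivMapOfInjective _ (toLin'_inj g) S).finrank_eq.symm
theorem finrank_rg_cj (g : GL ι F) (X : Matrix ι ι F) :
    finrank F (rg (H19.cj g X)) = finrank F (rg X) := by rw [rg_cj, finrank_map_unit]
theorem mem_rg {v : ι → F} : v ∈ rg X ↔ ∃ u, X *ᵥ u = v := by simp [LinearMap.mem_range]
theorem mem_kn {v : ι → F} : v ∈ kn X ↔ X *ᵥ v = 0 := by simp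
theorem ext_mulVec (h : ∀ v, X *ᵥ v = Y *ᵥ v) : X = Y :=
  toLin'.injective (LinearMap.ext fun v => by simpa using h v)
end In

variable {M : Subgroup (GG k t F)} {X Y Z : EE k t F} {g : GG k t F}

@[simp] theorem coe_emG (i : Fin t) (s : GL (Fin k) F) :
    (emG i s : EE k t F) = em i (s : Mk k F) := rfl
theorem mem_Gam {s : GL (Fin k) F} : s ∈ Gam M ↔ ∀ j, emG j s ∈ M := by simp [Gam]
theorem In.em (h : In (Gam M) a) (j : Fin t) : In M (em j a) := by
  obtain ⟨s, hs, rfl⟩ := h; exact ⟨emG j s, mem_Gam.1 hs j, rfl⟩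
theorem In.em_one_add (h : In (Gam M) (1 + a)) (j : Fin t) : In M (1 + Wr.em j a) := by
  simpa using h.em j
theorem cj_emG_em (i : Fin t) (s : GL (Fin k) F) (a : Mk k F) :
    cj (emG i s) (em i a : EE k t F) = em i (cj s a) := by
  rw [cj_apply, cj_apply, ← map_inv, coe_emG, coe_emG, map_mul, map_mul]
theorem InC.cj_emG (h : InC i X) (s : GL (Fin k) F) : H19.cj (emG i s) X = X := by
  rw [cj_eq_iff, coe_emG, h]
theorem InC.emG (h : i ≠ j) (s : GL (Fin k) F) : InC i (emG j s : EE k t F) := InC.em h _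
theorem cj_emG_pure (i : Fin t) (s : GL (Fin k) F) (p : Fin t → Mk k F) :
    cj (emG i s) (pure p) = pure (Function.update p i (cj s (p i))) := by
  rw [pure_eq i p, map_mul, cj_emG_em, (InC.pure (by simp)).cj_emG, em_mul_pure]; simp
theorem cj_ro (s : GL (Fin k) F) (x φ : Fin k → F) :
    cj s (ro x φ) = ro ((s : Mk k F) *ᵥ x) (φ ᵥ* ((s⁻¹ : GL (Fin k) F) : Mk k F)) := by
  rw [cj_apply, mul_ro, ro_mul]

theorem Nm.mul {h : GG k t F} {l : Fin t} (hg : Nm g j l) (hh : Nm h i j) : Nm (g * h) i l :=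
  fun a => by obtain ⟨b, hb⟩ := hh a; rw [cj_mul, hb]; exact hg b
theorem InC.nm (h : InC i (g : EE k t F)) : Nm g i i := fun a => ⟨a, h.cj_em a⟩
theorem InA.nm (h : InA i (g : EE k t F)) (j : Fin t) : Nm g j j := by
  by_cases hj : j = i
  · subst hj
    exact fun a => T4 fun l hl => (h.inC hl).cj (InC.em hl a)
  · exact (h.inC hj).nm
theorem Nm.exists_cj (h : Nm g i j) : ∃ s : GL (Fin k) F, ∀ a, cj g (em i a) = em j (cj s a) := by
  rcases isEmpty_or_nonempty (Fin k) with h0 | h0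
  · exact ⟨1, fun a => by rw [Subsingleton.elim a 0]; simp⟩
  exact exists_cj_of_range_le (em j) ((cj g : EE k t F →ₐ[F] EE k t F).comp (em i)) fun a => by
    obtain ⟨b, hb⟩ := h a; exact ⟨b, hb.symm⟩
theorem Nm.inv (h : Nm g i j) : Nm g⁻¹ j i := fun a => by
  obtain ⟨s, hs⟩ := h.exists_cj
  exact ⟨cj s⁻¹ a, by rw [← cj_inv_cj g (em i _), hs, cj_cj_inv]⟩
theorem Nm.inC (h : Nm g i j) (hc : InC i c) : InC j (cj g c) := fun a => by
  obtain ⟨b, hb⟩ := h.inv a
  rw [← cj_cj_inv g (em j a), hb, ← map_mul, hc, map_mul]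
/-- An element normalising `A_i` is a product `em b * c`. -/
theorem Nm.exists_eq (h : Nm g i i) : ∃ (s : GL (Fin k) F) (d : GG k t F),
    InC i (d : EE k t F) ∧ g = emG i s * d := by
  obtain ⟨s, hs⟩ := h.exists_cj
  refine ⟨s, (emG i s)⁻¹ * g, fun a => ((cj_eq_iff _ _ _).1 ?_).symm, by simp⟩
  rw [cj_mul, hs, ← map_inv, cj_emG_em, cj_inv_cj]
theorem exists_perm (hg : g ∈ TT k t F) : ∃ σ : Equiv.Perm (Fin t), ∀ i, Nm g i (σ i) := by
  induction hg using Subgroup.closure_induction with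
  | mem g h =>
    rcases h with ⟨s, h⟩ | ⟨σ, h⟩
    · exact ⟨1, fun i a => ⟨_, by
        rw [show g = pureGL s from Units.ext (by ext p q; exact h p q)]; exact cj_pureGL_tl _ _ _⟩⟩
    · exact ⟨σ, fun i a => ⟨_, by
        rw [show g = fperm F k σ from Units.ext (by ext p q; exact h p q)]; exact cj_fperm_tl _ _ _⟩⟩
  | one => exact ⟨1, fun i a => ⟨a, by simp⟩⟩
  | mul g h _ _ hg hh =>
    obtain ⟨σ, hσ⟩ := hg; obtain ⟨τ, hτ⟩ := hh
    exact ⟨σ * τ, fun i => (hσ _).mul (hτ i)⟩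
  | inv g _ hg =>
    obtain ⟨σ, hσ⟩ := hg
    exact ⟨σ⁻¹, fun i => by simpa using (hσ (σ⁻¹ i)).inv⟩
theorem mem_T_of (hk : 2 ≤ k) (ht : 0 < t) (h : ∀ i, ∃ j, Nm g i j) : g ∈ TT k t F := by
  obtain ⟨a, σ, rfl⟩ := exists_eq_pure_mul_fperm hk ht g fun i => by
    obtain ⟨j, hj⟩ := h i
    exact ⟨j, fun a => by obtain ⟨b, hb⟩ := hj a; exact ⟨b, hb.symm⟩⟩
  exact pureGL_mul_fperm_mem a σ
theorem mem_T_iff (hk : 2 ≤ k) (ht : 0 < t) : g ∈ TT k t F ↔ ∀ i, ∃ j, Nm g i j :=
  ⟨fun h i => by obtain ⟨σ, hσ⟩ := exists_perm h; exact ⟨_, hσ i⟩, mem_T_of hk ht⟩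
theorem InA.mem_T (hk : 2 ≤ k) (h : InA i (g : EE k t F)) : g ∈ TT k t F :=
  mem_T_of hk i.pos fun j => ⟨j, h.nm j⟩
theorem In.of_inA (hk : 2 ≤ k) (h : In M X) (h' : InA i X) : In (TT k t F) X := by
  obtain ⟨m, -, rfl⟩ := h; exact ⟨m, h'.mem_T hk, rfl⟩
theorem nm_of_cj (hg : g ∈ TT k t F) (ha : ¬ Sc a) (h : InA j (cj g (em i a))) : Nm g i j := by
  obtain ⟨σ, hσ⟩ := exists_perm hg
  by_cases e : σ i = j
  · exact e ▸ hσ i
  · exact absurd (sc_em.1 (sc_cj.1 ((hσ i a).sc_of_ne h e))) ha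
theorem not_sc_of_sq (h0 : a ≠ 0) (h : a * a = 0) : ¬ Sc a := fun hs => h0 (hs.eq_zero h)
theorem Nm.unique (hk : 2 ≤ k) {l : Fin t} (h : Nm g i j) (h' : Nm g i l) : j = l := by
  by_contra e
  have : Nontrivial (Fin k) := Fin.nontrivial_iff_two_le.2 hk
  refine not_commute_of_two_le (κ := Fin k) (F := F) fun a b => ?_
  obtain ⟨r, hr⟩ := sc_em.1 (sc_cj.1 ((h a).sc_of_ne (h' a) e))
  simp [hr]

/-! ### Vectors -/

theorem ten_t (i : Fin t) (u : UU k F i) (w : Fin k → F) :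
    (ten k F i).t u w = fun p => u (fun j => p j) * w (p i) := by
  funext p
  rw [H56.Ten.t_def]
  simp [ten, LinearEquiv.funCongrLeft_apply, LinearMap.funLeft_apply, mul_comm]
theorem pv_eq (i : Fin t) (x : Fin t → Fin k → F) :
    pv x = (ten k F i).t (fun q => ∏ j : {j // j ≠ i}, x j (q j)) (x i) := by
  rw [ten_t]; funext p
  rw [pv, Fintype.prod_eq_mul_prod_subtype_ne _ i, mul_comm]
theorem pure_pv (s : Fin t → Mk k F) (x : Fin t → Fin k → F) :
    pure s *ᵥ pv x = pv fun j => s j *ᵥ x j := pure_mulVec_pure s x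
theorem pv_single (p : Fin t → Fin k) : pv (fun j => Pi.single (p j) (1 : F)) = Pi.single p 1 := by
  funext q
  simp only [pv, Pi.single_apply, Finset.prod_ite_zero, Finset.mem_univ, forall_const,
    Finset.prod_const_one, funext_iff]
theorem em_pv (i : Fin t) (a : Mk k F) (x : Fin t → Fin k → F) :
    em i a *ᵥ pv x = pv (Function.update x i (a *ᵥ x i)) := by
  rw [tl_apply, pure_pv]; congr 1; funext j
  by_cases h : j = i
  · subst h; simp
  · simp [Function.update_of_ne h]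
theorem pv_ne_zero {x : Fin t → Fin k → F} (h : ∀ j, x j ≠ 0) : pv x ≠ 0 := by
  choose p hp using fun j => Function.ne_iff.1 (h j)
  exact fun h0 => Finset.prod_ne_zero_iff.2 (fun j _ => hp j) (congrFun h0 p)
/-- `pv` as a multilinear map. -/
def pvM (k t : ℕ) (F : Type*) [Field F] : MultilinearMap F (fun _ : Fin t => Fin k → F) (VV k t F) where
  toFun := pv
  map_update_add' x i a b := by
    simp only [pv_eq i, Function.update_self, map_add]
    congr 3 <;> exact funext fun q => Finset.prod_congr rfl fun j _ => by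
      simp [Function.update_of_ne j.2]
  map_update_smul' x i r a := by
    simp only [pv_eq i, Function.update_self, map_smul]
    congr 3; exact funext fun q => Finset.prod_congr rfl fun j _ => by
      simp [Function.update_of_ne j.2]
theorem pv_update (i : Fin t) (x : Fin t → Fin k → F) (y : Fin k → F) :
    pv (Function.update x i y) = (ten k F i).t (fun q => ∏ j : {j // j ≠ i}, x j (q j)) y := by
  rw [pv_eq i, Function.update_self]
  congr 2; exact funext fun q => Finset.prod_congr rfl fun j _ => by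
    simp [Function.update_of_ne j.2]
/-- Pure tensors with entries in spanning sets span. -/
theorem pv_mem_of_span {L : Submodule F (VV k t F)} {S : Fin t → Set (Fin k → F)}
    (h : ∀ x, (∀ j, x j ∈ S j) → pv x ∈ L) (x : Fin t → Fin k → F)
    (hx : ∀ j, x j ∈ Submodule.span F (S j)) : pv x ∈ L := by
  have key : ∀ I : Finset (Fin t), ∀ x : Fin t → Fin k → F, (∀ j ∈ I, x j ∈ Submodule.span F (S j)) →
      (∀ j ∉ I, x j ∈ S j) → pv x ∈ L := fun I => by
    induction I using Finset.induction_on with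
    | empty => exact fun x _ h2 => h x fun j => h2 j (by simp)
    | insert i I hi ih =>
      intro x h1 h2
      have : Submodule.span F (S i) ≤ L.comap ((pvM k t F).toLinearMap x i) :=
        Submodule.span_le.2 fun y hy => ih (Function.update x i y) (fun j hj => by
          rw [Function.update_of_ne (by rintro rfl; exact hi hj)]; exact h1 j (by simp [hj]))
          fun j hj => by
            by_cases e : j = i
            · subst e; simpa using hy
            · rw [Function.update_of_ne e]; exact h2 j (by simp [e, hj])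
      have h3 := this (h1 i (by simp))
      simp only [Submodule.mem_comap, MultilinearMap.toLinearMap_apply,
        Function.update_eq_self] at h3
      exact h3
  exact key Finset.univ x (fun j _ => hx j) (by simp)
theorem span_pv {L : Submodule F (VV k t F)} {S : Fin t → Set (Fin k → F)}
    (hS : ∀ j, Submodule.span F (S j) = ⊤) (h : ∀ x, (∀ j, x j ∈ S j) → pv x ∈ L) : L = ⊤ := by
  refine eq_top_iff.2 fun v _ => ?_
  rw [pi_eq_sum_univ' v]
  exact L.sum_mem fun p _ => L.smul_mem _ (by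
    have := pv_mem_of_span h (fun j => Pi.single (p j) 1) fun j => by simp [hS]
    rw [pv_single] at this; convert this)
theorem em_t (i : Fin t) (a : Mk k F) (u : UU k F i) (w : Fin k → F) :
    em i a *ᵥ (ten k F i).t u w = (ten k F i).t u (a *ᵥ w) := by
  have key : ∀ q : {j : Fin t // j ≠ i} → Fin k, ∀ y,
      (ten k F i).t (Pi.single q 1) y = pv (Function.update
        (fun j => if h : j = i then 0 else Pi.single (q ⟨j, h⟩) 1) i y) := fun q y => by
    rw [pv_update]; congr 2; funext r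
    rw [Finset.prod_congr rfl fun j _ => by rw [dif_neg j.2]]
    simp only [Pi.single_apply, Finset.prod_ite_zero, Finset.mem_univ, forall_const,
      Finset.prod_const_one, funext_iff]
  rw [pi_eq_sum_univ' u]
  simp only [map_sum, map_smul, LinearMap.sum_apply, LinearMap.smul_apply, mulVec_sum, mulVec_smul]
  refine Finset.sum_congr rfl fun q _ => ?_
  have h1 := key q w
  have h2 := key q (a *ᵥ w)
  congr 1
  convert_to em i a *ᵥ (ten k F i).t (Pi.single q 1) w = (ten k F i).t (Pi.single q 1) (a *ᵥ w)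
  rw [h1, h2, em_pv]; simp
theorem toLin'_em (i : Fin t) (a : Mk k F) :
    toLin' (em i a : EE k t F) = (ten k F i).tl LinearMap.id (toLin' a) :=
  (ten k F i).hom_ext fun u w => by simp [em_t]
theorem em_ro_mulVec (i : Fin t) (x φ : Fin k → F) (l : Dual F (Fin k → F)) (h : ∀ v, φ ⬝ᵥ v = l v)
    (v : VV k t F) : em i (ro x φ) *ᵥ v = (ten k F i).t ((ten k F i).cR l v) x := by
  refine (ten k F i).induction v (by simp) (fun u w => ?_) fun y z hy hz => by
    simp [mulVec_add, hy, hz]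
  simp [em_t, ro_mulVec, h]
/-- Endomorphisms of `U_i` give elements of `C_i`. -/
theorem exists_inC (i : Fin t) (κ : UU k F i →ₗ[F] UU k F i) : ∃ c : EE k t F, InC i c ∧
    ∀ u w, c *ᵥ (ten k F i).t u w = (ten k F i).t (κ u) w := by
  have h : ∀ u w, LinearMap.toMatrix' ((ten k F i).tl κ LinearMap.id) *ᵥ (ten k F i).t u w =
      (ten k F i).t (κ u) w := fun u w => by rw [← toLin'_apply, toLin'_toMatrix']; simp
  refine ⟨_, fun a => toLin'.injective ((ten k F i).hom_ext fun u w => ?_), h⟩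
  simp only [toLin'_apply, ← mulVec_mulVec, h, em_t]
theorem InC.exists_end (hc : InC i c) : ∃ κ : UU k F i →ₗ[F] UU k F i,
    ∀ u w, c *ᵥ (ten k F i).t u w = (ten k F i).t (κ u) w := by
  rcases isEmpty_or_nonempty (Fin k) with h0 | ⟨⟨r⟩⟩
  · exact ⟨0, fun u w => by rw [Subsingleton.elim w 0]; simp⟩
  refine ⟨(ten k F i).cR (LinearMap.proj r) ∘ₗ toLin' c ∘ₗ (ten k F i).t.flip (Pi.single r 1),
    fun u w => ?_⟩
  have h := em_ro_mulVec i w (Pi.single r 1) (LinearMap.proj r) (fun v => by simp)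
  have h1 := h ((ten k F i).t u (Pi.single r 1))
  have h2 := h (c *ᵥ (ten k F i).t u (Pi.single r 1))
  rw [mulVec_mulVec, hc, ← mulVec_mulVec, h1] at h2
  simpa using h2
theorem InC.mem_LS (hc : InC i c) {J : Submodule F (Fin k → F)} {v : VV k t F} (hv : v ∈ LS i J) :
    c *ᵥ v ∈ LS i J := by
  obtain ⟨κ, h⟩ := hc.exists_end
  refine (ten k F i).LS_induction (p := fun v => c *ᵥ v ∈ LS i J) hv (by simp)
    (fun u w hw => by rw [h]; exact (ten k F i).t_mem_LS _ hw)
    fun y z hy hz => by rw [mulVec_add]; exact add_mem hy hz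
theorem rg_em (i : Fin t) (a : Mk k F) : rg (em i a : EE k t F) = LS i (rg a) := by
  refine le_antisymm ?_ ((ten k F i).LS_le.2 ?_)
  · rintro _ ⟨v, rfl⟩
    refine (ten k F i).induction v (by simp) (fun u w => ?_) fun y z hy hz => by
      rw [map_add]; exact add_mem hy hz
    rw [toLin'_apply, em_t]; exact (ten k F i).t_mem_LS _ ⟨w, rfl⟩
  · rintro u _ ⟨w, rfl⟩; exact ⟨(ten k F i).t u w, em_t _ _ _ _⟩
theorem rg_ro (hφ : φ ≠ 0) (x : Fin k → F) : rg (ro x φ) = F ∙ x := by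
  obtain ⟨y, hy⟩ := exists_dot_one' hφ
  refine le_antisymm ?_ ((Submodule.span_singleton_le_iff_mem _ _).2 ⟨y, by simp [ro_mulVec, hy]⟩)
  rintro _ ⟨v, rfl⟩
  rw [toLin'_apply, ro_mulVec]; exact Submodule.smul_mem _ _ (Submodule.mem_span_singleton_self x)
theorem rg_em_ro (i : Fin t) (hφ : φ ≠ 0) (x : Fin k → F) :
    rg (em i (ro x φ) : EE k t F) = LS i (F ∙ x) := by rw [rg_em, rg_ro hφ]
theorem finrank_U (i : Fin t) : finrank F (UU k F i) = k ^ (t - 1) := by
  simp [Fintype.card_subtype_compl]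
theorem finrank_LS' (i : Fin t) (J : Submodule F (Fin k → F)) :
    finrank F (LS i J) = k ^ (t - 1) * finrank F J := by rw [H56.Ten.finrank_LS, finrank_U]
theorem finrank_LS_pt (i : Fin t) (hw : w ≠ 0) : finrank F (LS i (F ∙ w)) = k ^ (t - 1) := by
  rw [finrank_LS', finrank_span_singleton hw, mul_one]
theorem finrank_V : finrank F (VV k t F) = k ^ t := by simp
theorem kn_em (i : Fin t) (a : Mk k F) : kn (em i a : EE k t F) = LS i (kn a) := by
  symm
  refine Submodule.eq_of_le_of_finrank_eq ((ten k F i).LS_le.2 fun u w hw => ?_) ?_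
  · rw [mem_kn, em_t, mem_kn.1 hw, map_zero]
  · have h1 := LinearMap.finrank_range_add_finrank_ker (toLin' (em i a : EE k t F))
    have h2 := LinearMap.finrank_range_add_finrank_ker (toLin' a)
    have h3 := finrank_LS' i (rg a)
    rw [← rg_em] at h3
    rw [h3, (ten k F i).finrank_eq, finrank_U, ← h2, mul_add] at h1
    rw [finrank_LS']; exact (Nat.add_left_cancel h1).symm
theorem nontrivial_U (i : Fin t) (hw : w ≠ 0) : Nontrivial (UU k F i) := by
  obtain ⟨r, -⟩ := Function.ne_iff.1 hw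
  haveI : Nonempty (Fin k) := ⟨r⟩
  infer_instance
theorem LS_le_LS {J J' : Submodule F (Fin k → F)} : LS i J ≤ LS i J' ↔ J ≤ J' := by
  refine ⟨fun h w hw => ?_, (ten k F i).LS_mono⟩
  by_cases h0 : w = 0
  · simp [h0]
  haveI := nontrivial_U i h0
  obtain ⟨u, hu⟩ := exists_ne (0 : UU k F i)
  exact ((ten k F i).t_mem_LS_iff hu).1 (h ((ten k F i).t_mem_LS _ hw))
/-- The rank of `em b * c`. -/
theorem rank_em_mul (hc : InC i c) (b : Mk k F) :
    finrank F (rg (em i b * c)) * k = finrank F (rg b) * finrank F (rg c) := by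
  obtain ⟨κ, h⟩ := hc.exists_end
  have key : ∀ b : Mk k F, finrank F (rg (em i b * c)) =
      finrank F (LinearMap.range κ) * finrank F (rg b) := fun b => by
    have e : toLin' (em i b * c) = (ten k F i).eqv.toLinearMap ∘ₗ TensorProduct.map κ (toLin' b) ∘ₗ
        (ten k F i).eqv.symm.toLinearMap := (ten k F i).hom_ext fun u w => by
      rw [toLin'_apply, ← mulVec_mulVec, h, em_t]; simp [H56.Ten.t_def]
    rw [rg, e, LinearMap.range_comp, LinearEquiv.finrank_map_eq,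
      LinearMap.range_comp_of_range_eq_top _ (LinearEquiv.range _), TensorProduct.range_map,
      ← TensorProduct.range_mapIncl, LinearMap.finrank_range_of_inj, Module.finrank_tensorProduct]
    exact TensorProduct.map_injective_of_flat_flat _ _ (Submodule.subtype_injective _)
      (Submodule.subtype_injective _)
  have h1 := key 1
  rw [map_one, one_mul, show rg (1 : Mk k F) = ⊤ by simp [rg], finrank_top] at h1
  rw [key, h1]; simp; ring
theorem pow_pred_mul (i : Fin t) (k : ℕ) : k ^ (t - 1) * k = k ^ t := by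
  rw [← pow_succ, Nat.sub_add_cancel i.pos]
theorem rank_em_ro (i : Fin t) (hx : x ≠ 0) (hφ : φ ≠ 0) :
    finrank F (rg (em i (ro x φ) : EE k t F)) = k ^ (t - 1) := by
  rw [rg_em_ro i hφ, finrank_LS_pt i hx]
/-- `U_i ⊗ x ∩ U_j ⊗ y` has dimension `a / k`. -/
theorem finrank_LS_inf (hij : i ≠ j) (hx : x ≠ 0) (hy : y ≠ 0) :
    finrank F ↥(LS i (F ∙ x) ⊓ LS j (F ∙ y)) * k = k ^ (t - 1) := by
  obtain ⟨φ, hφ⟩ := exists_dot_one hx
  obtain ⟨ψ, hψ⟩ := exists_dot_one hy
  have φ0 : φ ≠ 0 := by rintro rfl; simp at hφ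
  have ψ0 : ψ ≠ 0 := by rintro rfl; simp at hψ
  have h := rank_em_mul (InC.em hij (ro y ψ)) (ro x φ)
  rw [rank_em_ro j hy ψ0, rg_ro φ0, finrank_span_singleton hx, one_mul] at h
  rw [← h, ← rg_em_ro i φ0, ← rg_em_ro j ψ0]
  suffices e : rg (em i (ro x φ)) ⊓ rg (em j (ro y ψ)) = rg (em i (ro x φ) * em j (ro y ψ)) by
    rw [e]
  refine le_antisymm ?_ (le_inf ?_ ?_)
  · rintro _ ⟨⟨u, rfl⟩, v, hv⟩
    refine mem_rg.2 ⟨v, ?_⟩
    rw [← mulVec_mulVec, ← toLin'_apply (em j _), hv, toLin'_apply, mulVec_mulVec,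
      ← map_mul, ro_mul_ro, hφ, one_smul]
  · rw [rg, toLin'_mul]; exact LinearMap.range_comp_le_range _ _
  · rw [em_comm hij, rg, toLin'_mul]; exact LinearMap.range_comp_le_range _ _
theorem exists_ro_of_rank (h : finrank F (rg a) = 1) : ∃ x φ, x ≠ 0 ∧ φ ≠ 0 ∧ a = ro x φ := by
  obtain ⟨⟨x, hx⟩, x0, h1⟩ := finrank_eq_one_iff'.1 h
  have x1 : x ≠ 0 := fun e => x0 (Subtype.ext e)
  obtain ⟨ψ, hψ⟩ := exists_dot_one x1
  have e : a = ro x (ψ ᵥ* a) := ext_mulVec fun v => by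
    obtain ⟨r, hr⟩ := h1 ⟨a *ᵥ v, v, rfl⟩
    have hr' : r • x = a *ᵥ v := congrArg Subtype.val hr
    rw [ro_mulVec, ← dotProduct_mulVec, ← hr', dotProduct_smul, hψ, smul_eq_mul, mul_one]
  refine ⟨x, _, x1, fun h0 => ?_, e⟩
  obtain ⟨v, hv⟩ := mem_rg.1 hx
  rw [e, h0, ro_mulVec] at hv
  exact x1 (by simpa using hv.symm)
theorem rank_of_cj (h : cj g (em i a) = em j b) : finrank F (rg b) = finrank F (rg a) := by
  have h1 := finrank_rg_cj g (em i a)
  rw [h, rg_em, rg_em, finrank_LS', finrank_LS'] at h1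
  rcases Nat.eq_zero_or_pos k with rfl | hk
  · rw [Subsingleton.elim a b]
  · exact Nat.eq_of_mul_eq_mul_left (pow_pos hk _) h1
theorem maps_of_cj (hw : w ≠ 0) (hφ : φ ≠ 0) (h : cj g (em i (ro w φ)) = em j a) :
    ∃ w' φ', w' ≠ 0 ∧ φ' ≠ 0 ∧ a = ro w' φ' ∧ Maps g i w j w' := by
  obtain ⟨w', φ', h1, h2, rfl⟩ := exists_ro_of_rank (a := a) (by
    rw [rank_of_cj h, rg_ro hφ, finrank_span_singleton hw])
  exact ⟨w', φ', h1, h2, rfl, by rw [Maps, ← rg_em_ro i hφ, ← rg_cj, h, rg_em_ro j h2]⟩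
theorem Maps.inv {w' : Fin k → F} (h : Maps g i w j w') : Maps g⁻¹ j w' i w := by
  rw [Maps, ← h, ← Submodule.map_comp, ← toLin'_mul, Units.inv_mul, toLin'_one, Submodule.map_id]
theorem Maps.mem {w' : Fin k → F} (h : Maps g i w j w') {v : VV k t F} (hv : v ∈ LS i (F ∙ w)) :
    (g : EE k t F) *ᵥ v ∈ LS j (F ∙ w') := h ▸ Submodule.mem_map_of_mem hv
theorem maps_of_le {w' : Fin k → F} (hw : w ≠ 0) (hw' : w' ≠ 0)
    (h : ∀ v ∈ LS i (F ∙ w), (g : EE k t F) *ᵥ v ∈ LS j (F ∙ w')) : Maps g i w j w' :=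
  Submodule.eq_of_le_of_finrank_eq (Submodule.map_le_iff_le_comap.2 h) (by
    rw [finrank_map_unit, finrank_LS_pt i hw, finrank_LS_pt j hw'])
/-- Fixing `U_i ⊗ w` pointwise, in matrix terms. -/
theorem fix_iff : (∀ y ∈ LS i (F ∙ w), X *ᵥ y = Y *ᵥ y) ↔
    ∀ φ, X * em i (ro w φ) = Y * em i (ro w φ) := by
  refine ⟨fun h φ => ext_mulVec fun v => ?_, fun h v hv => ?_⟩
  · rw [← mulVec_mulVec, ← mulVec_mulVec]
    by_cases h0 : φ = 0
    · simp [h0]
    · exact h _ (rg_em_ro i h0 w ▸ mem_rg.2 ⟨v, rfl⟩)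
  · by_cases h0 : w = 0
    · obtain rfl : v = 0 := by simpa [h0] using hv
      simp
    obtain ⟨φ, hφ⟩ := exists_dot_one h0
    obtain ⟨u, rfl⟩ := mem_rg.1 (rg_em_ro i (φ := φ) (by rintro rfl; simp at hφ) w ▸ hv)
    rw [mulVec_mulVec, mulVec_mulVec, h]

end H60.Wr
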