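/- Tensor-induced subgroups: forms, the chain lemma, the basic facts on `C2`. -/
import Cfsg.Agent.H60.WrKit2

set_option autoImplicit false

namespace H60.Wr
open Cfsg Cfsg.Geo Matrix H19 Module
open scoped MatrixGroups

universe u

variable {F : Type u} [Field F] {k t : ℕ} {i j : Fin t} {a b : Mk k F} {c X Y Z : EE k t F}
  {x y z v w φ ψ : Fin k → F} {B : Frm (Fin k) F} {M : Subgroup (GG k t F)} {g : GG k t F}

/-! ### Forms -/

theorem ph_dot (B : Frm (Fin k) F) (v x : Fin k → F) : ph B v ⬝ᵥ x = B.f x v := by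
  rw [B.eq_dot, dotProduct_comm]; rfl
theorem dot_ext (h : ∀ x, φ ⬝ᵥ x = ψ ⬝ᵥ x) : φ = ψ := dotProduct_eq _ _ h
theorem ph_add (B : Frm (Fin k) F) (x y : Fin k → F) : ph B (x + y) = ph B x + ph B y :=
  dot_ext fun z => by rw [add_dotProduct, ph_dot, ph_dot, ph_dot, B.add_right]
theorem ph_sub (B : Frm (Fin k) F) (x y : Fin k → F) : ph B (x - y) = ph B x - ph B y :=
  dot_ext fun z => by rw [sub_dotProduct, ph_dot, ph_dot, ph_dot, B.sub_right]
theorem ph_neg (B : Frm (Fin k) F) (x : Fin k → F) : ph B (-x) = -ph B x :=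
  dot_ext fun z => by rw [neg_dotProduct, ph_dot, ph_dot, B.neg_right]
theorem ph_smul (B : Frm (Fin k) F) (r : F) (x : Fin k → F) : ph B (r • x) = B.σ r • ph B x :=
  dot_ext fun z => by rw [smul_dotProduct, ph_dot, ph_dot, B.smul_right, smul_eq_mul]
@[simp] theorem ph_zero (B : Frm (Fin k) F) : ph B 0 = 0 := dot_ext fun z => by simp [ph_dot]
theorem ph_ne_zero (hx : x ≠ 0) : ph B x ≠ 0 := fun h => hx (B.nondeg x fun z => by
  rw [← ph_dot, h, zero_dotProduct])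
theorem exists_ph (B : Frm (Fin k) F) (φ : Fin k → F) : ∃ v, ph B v = φ :=
  ⟨B.σ ∘ (((B.gram⁻¹ : GL (Fin k) F) : Mk k F) *ᵥ φ), by
    rw [ph, ← Function.comp_assoc, show (B.σ ∘ B.σ : F → F) = id from funext B.invol,
      Function.id_comp, ← B.coe_gram, mulVec_inv_mulVec]⟩
theorem exists_f_one (hx : x ≠ 0) : ∃ y, B.f y x = 1 := by
  obtain ⟨y, h⟩ := exists_dot_one' (ph_ne_zero (B := B) hx); exact ⟨y, by rwa [← ph_dot]⟩
theorem exists_f_of_notMem {J : Submodule F (Fin k → F)} (hx : x ∉ J) :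
    ∃ v, B.f x v = 1 ∧ ∀ y ∈ J, B.f y v = 0 := by
  obtain ⟨φ, h1, h2⟩ := exists_dot_of_notMem hx
  obtain ⟨v, rfl⟩ := exists_ph B φ
  exact ⟨v, by rwa [← ph_dot], fun y hy => by rw [← ph_dot, h2 y hy]⟩
theorem mem_pp : x ∈ pp B w ↔ B.f x w = 0 := Iff.rfl
theorem rf_mulVec (B : Frm (Fin k) F) (x y z : Fin k → F) : rf B x y *ᵥ z = B.f z y • x := by
  rw [ro_mulVec, ph_dot]
theorem rf_mul_ro (B : Frm (Fin k) F) (x y z ψ : Fin k → F) :
    rf B x y * ro z ψ = B.f z y • ro x ψ := by rw [ro_mul_ro, ph_dot]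
theorem rf_mul_rf (B : Frm (Fin k) F) (x y z v : Fin k → F) :
    rf B x y * rf B z v = B.f z y • rf B x v := rf_mul_ro B x y z _
theorem rf_add_right (B : Frm (Fin k) F) (x y z : Fin k → F) :
    rf B x (y + z) = rf B x y + rf B x z := by rw [rf, ph_add, ro_add_right]
theorem rf_sub_right (B : Frm (Fin k) F) (x y z : Fin k → F) :
    rf B x (y - z) = rf B x y - rf B x z := by rw [rf, ph_sub, ro_sub_right]
theorem rf_smul_right (B : Frm (Fin k) F) (r : F) (x y : Fin k → F) :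
    rf B x (r • y) = B.σ r • rf B x y := by rw [rf, ph_smul, ro_smul_right]
theorem rf_ne_zero (hx : x ≠ 0) (hy : y ≠ 0) : rf B x y ≠ 0 := ro_ne_zero hx (ph_ne_zero hy)
theorem kn_rf (hx : x ≠ 0) (w : Fin k → F) : kn (rf B x w) = pp B w := by
  ext v; rw [mem_kn, rf_mulVec, mem_pp]; simp [hx]
theorem adj_rf (B : Frm (Fin k) F) (x y : Fin k → F) : B.adj (rf B x y) = B.ε • rf B y x :=
  B.adj_eq_of fun u v => by
    rw [rf_mulVec, smul_mulVec, rf_mulVec, B.smul_left, B.smul_right, B.smul_right, B.map_eps,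
      B.symm x v, map_mul, B.map_eps, B.invol, ← mul_assoc, ← mul_assoc, B.eps_mul_eps, one_mul,
      mul_comm]
theorem ph_vecMul (B : Frm (Fin k) F) (y : Fin k → F) (a : Mk k F) :
    ph B y ᵥ* a = ph B (B.adj a *ᵥ y) :=
  dot_ext fun z => by rw [← dotProduct_mulVec, ph_dot, ph_dot, B.adj_left]
theorem rf_mul (B : Frm (Fin k) F) (x y : Fin k → F) (a : Mk k F) :
    rf B x y * a = rf B x (B.adj a *ᵥ y) := by rw [ro_mul, ph_vecMul]
theorem cj_rf {h : GL (Fin k) F} (hh : h ∈ B.Iso) (x y : Fin k → F) :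
    cj h (rf B x y) = rf B ((h : Mk k F) *ᵥ x) ((h : Mk k F) *ᵥ y) := by
  rw [cj_ro, ph_vecMul, B.mem_Iso_iff_adj.1 (B.Iso.inv_mem hh), inv_inv]
theorem adj_em (B : Frm (Fin k) F) (i : Fin t) (a : Mk k F) :
    (B.pow t).adj (em i a) = em i (B.adj a) := by
  rw [tl_apply, B.adj_pow_pure, tl_apply]; congr 1; funext j
  by_cases h : j = i
  · subst h; simp
  · simp [Function.update_of_ne h]
theorem InC.adj (h : InC i c) (B : Frm (Fin k) F) : InC i ((B.pow t).adj c) := fun a => by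
  rw [← B.adj_adj a, ← adj_em, ← Frm.adj_mul, ← h, Frm.adj_mul]
theorem pow_sig (B : Frm (Fin k) F) (t : ℕ) : (B.pow t).σ = B.σ := rfl
theorem pow_eps (B : Frm (Fin k) F) (t : ℕ) : (B.pow t).ε = B.ε ^ t := rfl
theorem Sc.adj {ι : Type} [Fintype ι] [DecidableEq ι] {X : Matrix ι ι F} (h : Sc X) (B : Frm ι F) :
    Sc (B.adj X) := by obtain ⟨r, rfl⟩ := h; exact ⟨B.σ r, by rw [B.adj_smul, B.adj_one]⟩
theorem In.adj_mul {ι : Type} [Fintype ι] [DecidableEq ι] {B : Frm ι F} {X : Matrix ι ι F}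
    (h : In B.Iso X) : B.adj X * X = 1 := by
  obtain ⟨m, hm, rfl⟩ := h; rw [B.mem_Iso_iff_adj.1 hm, Units.inv_mul]
theorem In.skew {ι : Type} [Fintype ι] [DecidableEq ι] {B : Frm ι F} {X : Matrix ι ι F}
    (h : In B.Iso (1 + X)) (h2 : X * X = 0) : B.adj X = -X := by
  obtain ⟨m, hm, e⟩ := h
  have := B.mem_Iso_iff_adj.1 hm
  rwa [inv_val_of e h2, e, B.adj_add, B.adj_one, sub_eq_add_neg, add_right_inj] at this
theorem f_pv (B : Frm (Fin k) F) (x y : Fin t → Fin k → F) :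
    (B.pow t).f (pv x) (pv y) = ∏ j, B.f (x j) (y j) := by
  rw [Frm.eq_dot, B.gram_pow, show (B.pow t).σ ∘ pv y = pv fun j => B.σ ∘ y j from
    funext fun p => map_prod B.σ _ _, pure_pv]
  simp only [B.eq_dot, dotProduct, pv, ← Finset.prod_mul_distrib]
  rw [Finset.prod_univ_sum, Fintype.piFinset_univ]
theorem pure_rf_mulVec (B : Frm (Fin k) F) (x y : Fin t → Fin k → F) (v : VV k t F) :
    (pure fun j => rf B (x j) (y j)) *ᵥ v = (B.pow t).f v (pv y) • pv x := by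
  have : LinearMap.eqLocus (toLin' (pure fun j => rf B (x j) (y j)))
      (((B.pow t).left (pv y)).smulRight (pv x)) = ⊤ :=
    span_pv (S := fun _ => Set.univ) (fun _ => by simp) fun z _ => by
      change toLin' _ _ = (B.pow t).f _ _ • _
      rw [toLin'_apply, pure_pv, f_pv]
      simp only [rf_mulVec]
      exact (pvM k t F).map_smul_univ _ _
  exact (this.ge Submodule.mem_top : toLin' _ v = _)
theorem iso_of_em {s : GL (Fin k) F} (h : emG i s ∈ (B.pow t).Iso) : s ∈ B.Iso := by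
  rw [Frm.mem_Iso_iff_adj] at h ⊢
  rwa [coe_emG, adj_em, ← map_inv, coe_emG, em_inj] at h
theorem emG_mem_Iso {s : GL (Fin k) F} (h : s ∈ B.Iso) (i : Fin t) : emG i s ∈ (B.pow t).Iso := by
  rw [Frm.mem_Iso_iff_adj] at h ⊢
  rw [coe_emG, adj_em, ← map_inv, coe_emG, h]
/-- `U ⊗ J` is orthogonal to `U ⊗ J'` when `J ⊥ J'`. -/
theorem f_LS {J J' : Submodule F (Fin k → F)} (h : ∀ x ∈ J, ∀ y ∈ J', B.f x y = 0)
    {u v : VV k t F} (hu : u ∈ LS i J) (hv : v ∈ LS i J') : (B.pow t).f u v = 0 := by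
  refine (ten k F i).LS_induction (p := fun v => (B.pow t).f u v = 0) hv (by simp)
    (fun e y hy => ?_) fun p q hp hq => by rw [Frm.add_right, hp, hq, add_zero]
  by_cases y0 : y = 0
  · simp [y0]
  obtain ⟨φ, hφ⟩ := exists_dot_one y0
  obtain ⟨z, rfl⟩ := exists_ph B φ
  have e1 : (ten k F i).t e y = em i (rf B y z) *ᵥ (ten k F i).t e y := by
    rw [em_t, ro_mulVec, hφ, one_smul]
  have e2 : u ∈ kn (em i (B.adj (rf B y z))) := by
    rw [kn_em]
    exact (ten k F i).LS_mono (fun x hx => by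
      rw [mem_kn, adj_rf, smul_mulVec, rf_mulVec, h x hx y hy, zero_smul, smul_zero]) hu
  rw [e1, Frm.adj_right, adj_em, mem_kn.1 e2, Frm.zero_left]
/-- The orthogonal complement of `U ⊗ w` is `U ⊗ w^⊥`. -/
theorem mem_LS_pp {v : VV k t F} (h : ∀ u ∈ LS i (F ∙ w), (B.pow t).f v u = 0) :
    v ∈ LS i (pp B w) := by
  by_cases h0 : w = 0
  · rw [show pp B w = ⊤ from eq_top_iff.2 fun x _ => by rw [mem_pp, h0]; simp]; simp
  rw [← kn_rf h0, ← kn_em, mem_kn]
  refine (B.pow t).nondeg' _ fun u => ?_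
  rw [Frm.adj_left, adj_em, adj_rf, map_smul, smul_mulVec, Frm.smul_right,
    h _ (rg_em_ro i (ph_ne_zero h0) w ▸ mem_rg.2 ⟨u, rfl⟩), mul_zero]
/-- An isometry fixing `U ⊗ w` pointwise moves vectors inside `U ⊗ w^⊥`. -/
theorem sub_mem_LS_pp (hg : g ∈ (B.pow t).Iso) (h : ∀ y ∈ LS i (F ∙ w), (g : EE k t F) *ᵥ y = y)
    (y : VV k t F) : (g : EE k t F) *ᵥ y - y ∈ LS i (pp B w) :=
  mem_LS_pp fun u hu => by
    rw [Frm.sub_left, sub_eq_zero]
    conv_lhs => rw [← h u hu]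
    exact (B.pow t).mem_Iso.1 hg _ _
theorem root_iso (hM : M ≤ (B.pow t).Iso) (h : Rt M i w φ) :
    B.f w w = 0 ∧ ∃ r : F, r ≠ 0 ∧ φ = r • ph B w := by
  obtain ⟨h1, h2, h3, h4⟩ := h
  obtain ⟨y, rfl⟩ := exists_ph B φ
  have h5 := (h4.mono hM).skew (by rw [← map_mul, ro_mul_ro, h3, zero_smul, map_zero])
  rw [adj_em, adj_rf, ← map_neg, em_inj] at h5
  obtain ⟨z, hz⟩ := exists_f_one (B := B) h1
  have h6 := congrArg (· *ᵥ z) h5
  simp only [smul_mulVec, neg_mulVec, rf_mulVec, hz, one_smul] at h6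
  have h7 : y = (B.ε * -B.f z y) • w := by
    rw [mul_smul, neg_smul, ← h6, smul_smul, B.eps_mul_eps, one_smul]
  generalize B.ε * -B.f z y = r at h7
  subst h7
  rw [ph_smul] at h2 h3 ⊢
  have r0 : B.σ r ≠ 0 := fun e => h2 (by rw [e, zero_smul])
  rw [smul_dotProduct, ph_dot, smul_eq_mul] at h3
  exact ⟨(mul_eq_zero.1 h3).resolve_left r0, _, r0, rfl⟩

/-! ### Commutators of pure elements and the chain lemma -/

theorem pure_smul_mul (r s : F) (p q : Fin t → Mk k F) :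
    (r • pure p) * (s • pure q) = (r * s) • pure (p * q) := by
  rw [pure_mul, smul_mul_smul_comm]
theorem In.comm_pure {p q : Fin t → Mk k F} {r s : F} (h : In M (1 + r • pure p))
    (h' : In M (1 + s • pure q)) (e1 : ∃ j, p j * p j = 0) (e2 : ∃ j, q j * q j = 0)
    (e3 : ∃ j, p j * q j * p j = 0) (e4 : ∃ j, q j * p j * q j = 0) :
    In M (1 + (r * s) • (pure (p * q) - pure (q * p))) := by
  obtain ⟨j1, e1⟩ := e1; obtain ⟨j2, e2⟩ := e2; obtain ⟨j3, e3⟩ := e3; obtain ⟨j4, e4⟩ := e4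
  have := h.comm h' (by rw [pure_smul_mul, pure_eq_zero (i := j1) e1, smul_zero])
    (by rw [pure_smul_mul, pure_eq_zero (i := j2) e2, smul_zero])
    (by rw [pure_smul_mul, pure_smul_mul, pure_eq_zero (i := j3) e3, smul_zero])
    (by rw [pure_smul_mul, pure_smul_mul, pure_eq_zero (i := j4) e4, smul_zero])
  rwa [pure_smul_mul, pure_smul_mul, mul_comm s r, ← smul_sub] at this
/-- The matrices allowed at the index `d`, when another index carries a square zero shape. -/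
def slot (M : Subgroup (GG k t F)) (r : F) (p : Fin t → Mk k F) (d : Fin t)
    (h : ∃ e, e ≠ d ∧ p e * p e = 0) : AddSubgroup (Mk k F) where
  carrier := {β | In M (1 + r • pure (Function.update p d β))}
  zero_mem' := by simpa [pure_eq_zero (s := Function.update p d 0) (i := d)] using In.one
  add_mem' {β γ} h1 h2 := by
    obtain ⟨e, he, h⟩ := h
    have := In.add_one h1 h2 (by
      rw [pure_smul_mul, pure_eq_zero (i := e) (by simp [Function.update_of_ne he, h]), smul_zero])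
    rwa [← smul_add, ← pure_update_add] at this
  neg_mem' {β} h1 := by
    obtain ⟨e, he, h⟩ := h
    have := In.neg h1 (by
      rw [pure_smul_mul, pure_eq_zero (i := e) (by simp [Function.update_of_ne he, h]), smul_zero])
    rwa [sub_eq_add_neg, ← smul_neg, ← neg_one_smul F (H19.pure _), ← pure_update_smul,
      neg_one_smul] at this
theorem mem_slot {r : F} {p : Fin t → Mk k F} {d : Fin t} {h : ∃ e, e ≠ d ∧ p e * p e = 0} :
    b ∈ slot M r p d h ↔ In M (1 + r • pure (Function.update p d b)) := Iff.rfl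
theorem In.cj_pure {r : F} {p : Fin t → Mk k F} (h : In M (1 + r • pure p)) (d : Fin t)
    {s : GL (Fin k) F} (hs : s ∈ Gam M) :
    In M (1 + r • pure (Function.update p d (H19.cj s (p d)))) := by
  simpa [cj_emG_pure] using h.cj_one_add (mem_Gam.1 hs d)
theorem cj_mem_slot {r : F} {p : Fin t → Mk k F} {d : Fin t} {h : ∃ e, e ≠ d ∧ p e * p e = 0}
    {s : GL (Fin k) F} (hs : s ∈ Gam M) (hb : b ∈ slot M r p d h) : cj s b ∈ slot M r p d h := by
  simpa [mem_slot] using (mem_slot.1 hb).cj_pure d hs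
theorem In.perm_pure {r : F} {p : Fin t → Mk k F} (h : In M (1 + r • pure p)) (hc : Cyc M)
    {σ : Equiv.Perm (Fin t)} (hσ : σ.IsThreeCycle) : In M (1 + r • pure (p ∘ σ.symm)) := by
  simpa [cj_fperm_pure] using h.cj_one_add (hc σ hσ)
/-- The three-cycle `d → e → u → d`. -/
theorem exists_cyc {d e u : Fin t} (h1 : d ≠ e) (h2 : e ≠ u) (h3 : d ≠ u) :
    ∃ σ : Equiv.Perm (Fin t), σ.IsThreeCycle ∧ σ.symm e = d ∧ σ.symm u = e ∧ σ.symm d = u ∧
      ∀ j, j ≠ d → j ≠ e → j ≠ u → σ.symm j = j := by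
  refine ⟨Equiv.swap d u * Equiv.swap d e,
    Equiv.Perm.isThreeCycle_swap_mul_swap_same h3 h1 h2.symm, ?_, ?_, ?_, fun j a b c => ?_⟩ <;>
    rw [Equiv.symm_apply_eq] <;> simp [Equiv.swap_apply_def, *, h1.symm, h2.symm, h3.symm]
/-- The set `𝒜` of the blueprint. -/
def AA (M : Subgroup (GG k t F)) (i : Fin t) (ν : Mk k F) (h : ν * ν = 0) :
    AddSubgroup (EE k t F) where
  carrier := {γ | InC i γ ∧ In M (1 + em i ν * γ)}
  zero_mem' := ⟨InC.zero, by simpa using In.one⟩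
  add_mem' {β γ} h1 h2 := ⟨h1.1.add h2.1, mul_add (em i ν) β γ ▸ In.add_one h1.2 h2.2 (by
    rw [mul_assoc, ← mul_assoc β, ← h1.1, ← mul_assoc, ← mul_assoc, ← map_mul, h]; simp)⟩
  neg_mem' {β} h1 := ⟨h1.1.neg, by
    simpa [sub_eq_add_neg] using h1.2.neg (by
      rw [mul_assoc, ← mul_assoc β, ← h1.1, ← mul_assoc, ← mul_assoc, ← map_mul, h]; simp)⟩
theorem mem_AA {ν : Mk k F} {h : ν * ν = 0} :
    X ∈ AA M i ν h ↔ InC i X ∧ In M (1 + em i ν * X) := Iff.rfl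
theorem cj_mem_AA {ν : Mk k F} {h : ν * ν = 0} (hg : g ∈ M) (hc : InC i (g : EE k t F))
    (hX : X ∈ AA M i ν h) : cj g X ∈ AA M i ν h :=
  ⟨hc.cj hX.1, by simpa [hc.cj_em] using hX.2.cj_one_add hg⟩
theorem smul_mem_AA {ν : Mk k F} {h : ν * ν = 0} {s : GL (Fin k) F} (hs : s ∈ Gam M) {r : F}
    (e : cj s ν = r • ν) (hX : X ∈ AA M i ν h) : r • X ∈ AA M i ν h :=
  ⟨hX.1.smul r, by simpa [cj_emG_em, e, hX.1.cj_emG] using hX.2.cj_one_add (mem_Gam.1 hs i)⟩

theorem chain {Γ : Subgroup (GL (Fin k) F)} {Λ : Set F} {S : Set (Mk k F)} (hI : IsoP t Γ Λ S)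
    (h0 : (0 : Mk k F) ∉ S) (i : Fin t) (ℬ : AddSubgroup (EE k t F))
    (h1 : ∀ j, j ≠ i → ∀ s ∈ Γ, ∀ X ∈ ℬ, cj (emG j s) X ∈ ℬ) (h2 : ∀ c ∈ Λ, ∀ X ∈ ℬ, c • X ∈ ℬ)
    (h3 : ∀ X ∈ ℬ, InC i X) {γ : EE k t F} (hγ : γ ∈ ℬ) (hs : ¬ Sc γ) :
    ∃ (J : Finset (Fin t)) (p : Fin t → Mk k F) (r : F), J.Nonempty ∧ i ∉ J ∧ (∀ j ∈ J, p j ∈ S) ∧
      (∀ j ∉ J, p j = 1) ∧ r ≠ 0 ∧ r • pure p ∈ ℬ := by
  have key : ∀ n, ∀ (J : Finset (Fin t)) (p : Fin t → Mk k F) (δ : EE k t F), Jᶜ.card = n → i ∉ J →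
      (∀ j ∈ J, p j ∈ S) → (∀ j ∉ J, p j = 1) → (∀ j ∈ J, InC j δ) → InC i δ → δ ≠ 0 →
      pure p * δ ∈ ℬ → (J.Nonempty ∨ ¬ Sc δ) → ∃ (J : Finset (Fin t)) (p : Fin t → Mk k F) (r : F),
        J.Nonempty ∧ i ∉ J ∧ (∀ j ∈ J, p j ∈ S) ∧ (∀ j ∉ J, p j = 1) ∧ r ≠ 0 ∧ r • pure p ∈ ℬ := by
    intro n
    induction n using Nat.strong_induction_on with
    | _ n ih =>
    intro J p δ hn hi hp hp' hδ hδi δ0 hm hne
    by_cases hsc : Sc δ
    · obtain ⟨r, rfl⟩ := id hsc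
      exact ⟨J, p, r, hne.resolve_right (not_not.2 hsc), hi, hp, hp', fun e => δ0 (by simp [e]),
        by simpa using hm⟩
    obtain ⟨j, hj⟩ : ∃ j, ¬ InC j δ := by by_contra! h; exact hsc (sc_of_inC h)
    have jJ : j ∉ J := fun e => hj (hδ j e)
    have ji : j ≠ i := by rintro rfl; exact hj hδi
    let ℬ' : AddSubgroup (EE k t F) :=
      { carrier := {X | (∀ l ∈ J, InC l X) ∧ InC i X ∧ pure p * X ∈ ℬ}
        zero_mem' := ⟨fun _ _ => InC.zero, InC.zero, by simp⟩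
        add_mem' := fun a b => ⟨fun l hl => (a.1 l hl).add (b.1 l hl), a.2.1.add b.2.1,
          by rw [mul_add]; exact add_mem a.2.2 b.2.2⟩
        neg_mem' := fun a => ⟨fun l hl => (a.1 l hl).neg, a.2.1.neg,
          by rw [mul_neg]; exact neg_mem a.2.2⟩ }
    obtain ⟨ν, hν, δ', c1, c2, c3, c4, c5⟩ := hI j ℬ' (fun s hs X hX =>
      ⟨fun l hl => (InC.emG (by rintro rfl; exact jJ hl) s).cj (hX.1 l hl),
        (InC.emG ji.symm s).cj hX.2.1, by
          have := h1 j ji s hs _ hX.2.2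
          rwa [map_mul, (InC.pure (hp' j jJ)).cj_emG] at this⟩)
      (fun c hc X hX => ⟨fun l hl => (hX.1 l hl).smul c, hX.2.1.smul c, by
        rw [mul_smul_comm]; exact h2 c hc _ hX.2.2⟩) δ ⟨hδ, hδi, hm⟩ hj
    have ν0 : ν ≠ 0 := fun e => h0 (e ▸ hν)
    have tr : ∀ l, l ≠ j → InC l (em j ν * δ') → InC l δ' := fun l hl h a =>
      em_cancel ν0 ((InC.em hl.symm a).mul c1) (c1.mul (InC.em hl.symm a)) (by
        rw [← mul_assoc, em_comm hl.symm, mul_assoc, h, mul_assoc])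
    refine ih _ ?_ (insert j J) (Function.update p j ν) δ' rfl (by simp [hi, ji.symm])
      (fun l hl => ?_) (fun l hl => ?_) (fun l hl => ?_) (tr i ji.symm c4) c2 ?_ (Or.inl (by simp))
    · rw [← hn, Finset.compl_insert]; exact Finset.card_erase_lt_of_mem (by simpa)
    · by_cases e : l = j
      · subst e; simpa
      · rw [Function.update_of_ne e]; exact hp l (by simpa [e] using hl)
    · rw [Finset.mem_insert, not_or] at hl
      rw [Function.update_of_ne hl.1, hp' l hl.2]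
    · by_cases e : l = j
      · rwa [e]
      · exact tr l e (c3 l (by simpa [e] using hl))
    · rwa [← mul_assoc, ← InC.pure (hp' j jJ), em_mul_pure, hp' j jJ, mul_one] at c5
  exact key _ ∅ 1 γ rfl (by simp) (by simp) (by simp) (by simp) (h3 γ hγ)
    (by rintro rfl; exact hs Sc.zero) (by simpa [pure_one]) (Or.inr hs)

/-! ### Rank one roots -/

theorem hr_ro (h2 : (2 : F) ≠ 0) (hφ : φ ⬝ᵥ w = 0) : Hr M (ro w φ) := by
  intro i b _ hb hc h1 hk
  by_cases h0 : w = 0 ∨ φ = 0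
  · rcases h0 with rfl | rfl <;> simp
  rw [not_or] at h0
  obtain ⟨z, hz⟩ := exists_dot_one' h0.2
  have e1 : b *ᵥ w = (φ ⬝ᵥ b *ᵥ z) • w := by
    have := congrArg (· *ᵥ z) hc
    simpa only [← mulVec_mulVec, ro_mulVec, hz, one_smul] using this
  generalize hl : φ ⬝ᵥ b *ᵥ z = l at e1
  have e2 : l * l = 1 := by
    have := congrArg (b *ᵥ ·) e1
    simp only [mulVec_mulVec, hb, one_mulVec, mulVec_smul] at this
    rw [e1, smul_smul] at this
    exact (smul_left_injective F h0.1 (by simpa using this : (1 : F) • w = (l * l) • w)).symm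
  rcases mul_self_eq_one_iff.1 e2 with rfl | rfl
  · refine absurd (ext_mulVec fun v => ?_) h1
    have e3 : ∀ u, φ ⬝ᵥ u = 0 → b *ᵥ (b *ᵥ u - u) = b *ᵥ u - u := fun u hu => by
      obtain ⟨y, hy⟩ := mem_rg.1 (hk u (by rw [ro_mulVec, hu, zero_smul]))
      rw [← hy, ro_mulVec, mulVec_smul, e1, one_smul]
    have e4 : ∀ u, φ ⬝ᵥ u = 0 → b *ᵥ u = u := fun u hu => by
      have := e3 u hu
      rw [mulVec_sub, mulVec_mulVec, hb, one_mulVec] at this
      exact smul_right_injective _ h2 (by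
        change (2 : F) • _ = (2 : F) • _
        linear_combination (norm := module) -this)
    have e5 : φ ⬝ᵥ (b *ᵥ v - v) = 0 := by
      have := congrArg (· *ᵥ v) hc
      simp only [← mulVec_mulVec, ro_mulVec, mulVec_smul, e1, one_smul] at this
      rw [dotProduct_sub, sub_eq_zero]
      exact (smul_left_injective F h0.1 this).symm
    have := e4 _ e5
    rw [mulVec_sub, mulVec_mulVec, hb, one_mulVec] at this
    rw [one_mulVec]
    exact smul_right_injective _ h2 (by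
      change (2 : F) • _ = (2 : F) • _
      linear_combination (norm := module) -this)
  · rw [mul_ro, e1, ro_smul_left, neg_one_smul]
theorem Rt.sq (h : Rt M i w φ) : ro w φ * ro w φ = 0 := by rw [ro_mul_ro, h.2.2.1, zero_smul]
theorem Rt.em_sq (h : Rt M i w φ) : (em i (ro w φ) * em i (ro w φ) : EE k t F) = 0 := by
  rw [← map_mul, h.sq, map_zero]
theorem Rt.not_sc (h : Rt M i w φ) : ¬ Sc (ro w φ) := not_sc_of_sq (ro_ne_zero h.1 h.2.1) h.sq
theorem C2.R (H : C2 M) (hg : g ∈ M) (h : Rt M i w φ)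
    (h' : In (TT k t F) (1 + cj g (em i (ro w φ)))) : g ∈ TT k t F := by
  obtain ⟨j, a, e⟩ := H.rig g hg i w φ h h'
  obtain ⟨w', -, h1, -, -, h2⟩ := maps_of_cj h.1 h.2.1 e
  exact H.h1 g hg i w φ j w' h h1 h2
theorem C2.root_mem (H : C2 M) (h : Rt M i w φ) : In (TT k t F) (1 + em i (ro w φ)) :=
  h.2.2.2.of_inA (by have := H.k3; omega) ((Sc.one.inA i).add (InA.em i _))
theorem Out.mem {N' : EE k t F} (h : Out M N') : In M (1 + N') := by
  obtain ⟨g, hg, i, w, φ, h1, rfl, -⟩ := h; exact h1.2.2.2.cj_one_add hg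
theorem Out.sq {N' : EE k t F} (h : Out M N') : N' * N' = 0 := by
  obtain ⟨g, -, i, w, φ, h1, rfl, -⟩ := h; rw [← map_mul, h1.em_sq, map_zero]
theorem Out.rank {N' : EE k t F} (h : Out M N') : finrank F (rg N') = k ^ (t - 1) := by
  obtain ⟨g, -, i, w, φ, h1, rfl, -⟩ := h; rw [finrank_rg_cj, rank_em_ro i h1.1 h1.2.1]
theorem Out.not_mem {N' : EE k t F} (h : Out M N') : ¬ In (TT k t F) (1 + N') := by
  obtain ⟨g, -, i, w, φ, -, -, h⟩ := h; exact h
theorem E1.le {N' : EE k t F} {χ : Fin k → F} (h : E1 M N' i w) (hr : Rt M i v χ)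
    (h0 : χ ⬝ᵥ w = 0) : rg N' ⊓ kn (em i (ro v χ)) ≤ LS i (F ∙ w) := by
  have e : LS i (F ∙ w) ⊓ rg N' ≤ rg N' ⊓ kn (em i (ro v χ)) := le_inf inf_le_right
    (inf_le_left.trans (by
      rw [kn_em, LS_le_LS, Submodule.span_singleton_le_iff_mem, mem_kn, ro_mulVec, h0, zero_smul]))
  rw [← Submodule.eq_of_le_of_finrank_le e (h i v χ hr)]
  exact inf_le_left
theorem jobT (hP : JobPair.{u}) (hE : JobEven.{u}) : JobT.{u} := by
  intro F _ _ k t M N' i v χ w H hO hr hw h1 h2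
  obtain ⟨x, hx, ex⟩ := hr.2.2.2
  obtain ⟨x', hx', ex'⟩ := hO.mem
  obtain ⟨τ, h3, h4⟩ := hP F k t _ _ x x' H.two hr.em_sq hO.sq ex ex'
    (hE F k t M N' i v χ w x x' H hO hr hw h1 h2 ex ex')
  exact ⟨τ, (Subgroup.closure_le M).2 (by rintro _ (rfl | rfl) <;> assumption) h3, h4⟩

end H60.Wr
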