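/- Tensor-induced subgroups: elements trivial on the flag `U ⊗ w ≤ U ⊗ w^⊥ ≤ V`. -/
import Cfsg.Agent.H60.WrKit

set_option autoImplicit false

namespace H60.Wr
open Cfsg Cfsg.Geo Matrix H19 Module
open scoped MatrixGroups

universe u

variable {F : Type u} [Field F] {k t : ℕ} {i : Fin t} {κ κ' : EE k t F}
  {u u' v w w' : Fin k → F} {B : Frm (Fin k) F} {M : Subgroup (GG k t F)} {g m m' : GG k t F}

/-- The group `𝒬` of the blueprint. -/
structure InQ (M : Subgroup (GG k t F)) (i : Fin t) (w : Fin k → F) (W : Submodule F (Fin k → F))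
    (m : GG k t F) : Prop where
  mem : m ∈ M
  f1 : ∀ y ∈ LS i (F ∙ w), (m : EE k t F) *ᵥ y = y
  f2 : ∀ y ∈ LS i W, (m : EE k t F) *ᵥ y - y ∈ LS i (F ∙ w)
  f3 : ∀ y, (m : EE k t F) *ᵥ y - y ∈ LS i W

/-- `Φ_m(v)`; here `φ ⬝ᵥ w = 1`. -/
def phi (i : Fin t) (φ : Fin k → F) (m : GG k t F) (v : Fin k → F) : EE k t F :=
  ct i φ v ((m : EE k t F) - 1)

variable {W : Submodule F (Fin k → F)} {φ : Fin k → F}

theorem phi_inC (i : Fin t) (φ : Fin k → F) (m : GG k t F) (v : Fin k → F) : InC i (phi i φ m v) :=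
  ct_inC _ _ _ _
theorem phi_add (i : Fin t) (φ : Fin k → F) (m : GG k t F) (u v : Fin k → F) :
    phi i φ m (u + v) = phi i φ m u + phi i φ m v := ct_add_right _ _ _ _ _
theorem phi_smul (i : Fin t) (φ : Fin k → F) (m : GG k t F) (r : F) (v : Fin k → F) :
    phi i φ m (r • v) = r • phi i φ m v := ct_smul_right _ _ _ _ _
theorem phi_sub (i : Fin t) (φ : Fin k → F) (m : GG k t F) (u v : Fin k → F) :
    phi i φ m (u - v) = phi i φ m u - phi i φ m v := by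
  rw [sub_eq_add_neg, phi_add, ← neg_one_smul F v, phi_smul, neg_one_smul, sub_eq_add_neg]
theorem em_ro_mem (i : Fin t) (hv : v ∈ W) (ψ : Fin k → F) (y : VV k t F) :
    em i (ro v ψ) *ᵥ y ∈ LS i W := by
  by_cases h0 : ψ = 0
  · simp [h0]
  · exact (ten k F i).LS_mono ((Submodule.span_singleton_le_iff_mem _ _).2 hv)
      (rg_em_ro i h0 v ▸ mem_rg.2 ⟨y, rfl⟩ : _ ∈ LS i (F ∙ v))
theorem em_ro_fix (hφ : φ ⬝ᵥ w = 1) {y : VV k t F} (hy : y ∈ LS i (F ∙ w)) :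
    em i (ro w φ) *ᵥ y = y := by
  obtain ⟨e, rfl⟩ := (ten k F i).mem_LS_span.1 hy
  rw [em_t, ro_mulVec, hφ, one_smul]
theorem ro_ne_of_dot (hφ : φ ⬝ᵥ w = 1) : ro w φ ≠ 0 :=
  ro_ne_zero (fun e => by simp [e] at hφ) (fun e => by simp [e] at hφ)
theorem inv_mulVec_sub (g : GG k t F) (y : VV k t F) :
    ((g⁻¹ : GG k t F) : EE k t F) *ᵥ y - y =
      -((g : EE k t F) *ᵥ (((g⁻¹ : GG k t F) : EE k t F) *ᵥ y) - ((g⁻¹ : GG k t F) : EE k t F) *ᵥ y) := by
  simp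

namespace InQ

theorem one : InQ M i w W 1 := ⟨M.one_mem, by simp, by simp, by simp⟩
theorem stab (h : InQ M i w W m) {y : VV k t F} (hy : y ∈ LS i W) : (m : EE k t F) *ᵥ y ∈ LS i W := by
  simpa using add_mem (h.f3 y) hy
theorem mul (h : InQ M i w W m) (h' : InQ M i w W m') : InQ M i w W (m * m') := by
  have e : ∀ y, ((m * m' : GG k t F) : EE k t F) *ᵥ y - y = ((m : EE k t F) *ᵥ ((m' : EE k t F) *ᵥ y) -
    (m' : EE k t F) *ᵥ y) + ((m' : EE k t F) *ᵥ y - y) := fun y => by simp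
  exact ⟨M.mul_mem h.mem h'.mem, fun y hy => by rw [Units.val_mul, ← mulVec_mulVec, h'.f1 y hy, h.f1 y hy],
    fun y hy => e y ▸ add_mem (h.f2 _ (h'.stab hy)) (h'.f2 y hy),
    fun y => e y ▸ add_mem (h.f3 _) (h'.f3 y)⟩
theorem inv (h : InQ M i w W m) : InQ M i w W m⁻¹ := by
  have e3 : ∀ y, ((m⁻¹ : GG k t F) : EE k t F) *ᵥ y - y ∈ LS i W := fun y =>
    inv_mulVec_sub m y ▸ neg_mem (h.f3 _)
  exact ⟨M.inv_mem h.mem, fun y hy => by
    conv_lhs => rw [← h.f1 y hy]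
    simp, fun y hy => inv_mulVec_sub m y ▸ neg_mem (h.f2 _ (by simpa using add_mem (e3 y) hy)), e3⟩
/-- Conjugation by an element stabilising the flag. -/
theorem conj (h : InQ M i w W m) (hg : g ∈ M)
    (h1 : ∀ y, y ∈ LS i (F ∙ w) ↔ (g : EE k t F) *ᵥ y ∈ LS i (F ∙ w))
    (h2 : ∀ y, y ∈ LS i W ↔ (g : EE k t F) *ᵥ y ∈ LS i W) : InQ M i w W (g * m * g⁻¹) := by
  have e : ∀ y, ((g * m * g⁻¹ : GG k t F) : EE k t F) *ᵥ y - y = (g : EE k t F) *ᵥ
      ((m : EE k t F) *ᵥ (((g⁻¹ : GG k t F) : EE k t F) *ᵥ y) - ((g⁻¹ : GG k t F) : EE k t F) *ᵥ y) :=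
    fun y => by simp [mulVec_sub, mul_assoc]
  refine ⟨M.mul_mem (M.mul_mem hg h.mem) (M.inv_mem hg), fun y hy => ?_,
    fun y hy => e y ▸ (h1 _).1 (h.f2 _ ((h2 _).2 (by simpa))), fun y => e y ▸ (h2 _).1 (h.f3 _)⟩
  rw [← sub_eq_zero, e, h.f1 _ ((h1 _).2 (by simpa)), sub_self, mulVec_zero]
theorem conj_inC (h : InQ M i w W m) (hg : g ∈ M) (hc : InC i (g : EE k t F)) :
    InQ M i w W (g * m * g⁻¹) :=
  h.conj hg (fun y => ⟨hc.mem_LS, fun hy => by simpa using hc.inv.mem_LS hy⟩)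
    fun y => ⟨hc.mem_LS, fun hy => by simpa using hc.inv.mem_LS hy⟩
theorem phi_conj_inC (hc : InC i (g : EE k t F)) (m : GG k t F) (v : Fin k → F) :
    phi i φ (g * m * g⁻¹) v = cj g (phi i φ m v) := by
  rw [phi, phi, cj_apply, ← ct_inC_left hc, ← ct_inC_right hc.inv]
  simp [mul_sub, sub_mul]
theorem spec (h : InQ M i w W m) (hφ : φ ⬝ᵥ w = 1) (hv : v ∈ W) (ψ : Fin k → F) :
    ((m : EE k t F) - 1) * em i (ro v ψ) = em i (ro w ψ) * phi i φ m v := by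
  rw [phi, ← ct_spec, mul_assoc]
  refine ext_mulVec fun y => ?_
  rw [← mulVec_mulVec y (em i (ro w φ)), em_ro_fix hφ]
  rw [← mulVec_mulVec, sub_mulVec, one_mulVec]
  exact h.f2 _ (em_ro_mem i hv ψ y)
theorem kill (h : InQ M i w W m) (ψ : Fin k → F) : ((m : EE k t F) - 1) * em i (ro w ψ) = 0 := by
  rw [sub_mul, (fix_iff (Y := 1)).1 (by simpa using h.f1), sub_self]
theorem phi_eq (h : InQ M i w W m) (hφ : φ ⬝ᵥ w = 1) (hv : v ∈ W) (hκ : InC i κ)
    (e : ((m : EE k t F) - 1) * em i (ro v φ) = em i (ro w φ) * κ) : phi i φ m v = κ :=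
  em_cancel (ro_ne_of_dot hφ) (phi_inC _ _ _ _) hκ (by rw [← h.spec hφ hv, e])
theorem phi_mul (h : InQ M i w W m) (h' : InQ M i w W m') (hφ : φ ⬝ᵥ w = 1) (hv : v ∈ W) :
    phi i φ (m * m') v = phi i φ m v + phi i φ m' v :=
  (h.mul h').phi_eq hφ hv ((phi_inC _ _ _ _).add (phi_inC _ _ _ _)) (by
    have : ((m * m' : GG k t F) : EE k t F) - 1 =
      ((m : EE k t F) - 1) * ((m' : EE k t F) - 1) + ((m : EE k t F) - 1) + ((m' : EE k t F) - 1) := by
      rw [Units.val_mul]; noncomm_ring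
    rw [this, add_mul, add_mul, mul_assoc, h'.spec hφ hv, ← mul_assoc, h.kill, h.spec hφ hv,
      zero_mul, zero_add, mul_add])
theorem phi_inv (h : InQ M i w W m) (hφ : φ ⬝ᵥ w = 1) (hv : v ∈ W) :
    phi i φ m⁻¹ v = -phi i φ m v := by
  have := h.phi_mul h.inv hφ hv
  rw [mul_inv_cancel, show phi i φ 1 v = 0 by simp [phi]] at this
  exact eq_neg_of_add_eq_zero_right this.symm
theorem mul_mul (h : InQ M i w W m) (h' : InQ M i w W m') {y : VV k t F} (hy : y ∈ LS i W) :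
    (((m : EE k t F) - 1) * ((m' : EE k t F) - 1)) *ᵥ y = 0 := by
  rw [← mulVec_mulVec, sub_mulVec _ _ y, one_mulVec, sub_mulVec, h.f1 _ (h'.f2 y hy), one_mulVec,
    sub_self]
theorem comm (h : InQ M i w W m) (h' : InQ M i w W m') :
    In M (1 + (((m : EE k t F) - 1) * ((m' : EE k t F) - 1) -
      ((m' : EE k t F) - 1) * ((m : EE k t F) - 1))) := by
  refine ⟨m * m' * (m' * m)⁻¹, M.mul_mem (h.mul h').mem (h'.mul h).inv.mem, ?_⟩
  set z := ((m : EE k t F) - 1) * ((m' : EE k t F) - 1) - ((m' : EE k t F) - 1) * ((m : EE k t F) - 1)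
  have e1 : ((m * m' : GG k t F) : EE k t F) = ((m' * m : GG k t F) : EE k t F) + z := by
    simp only [Units.val_mul, z]; noncomm_ring
  rw [Units.val_mul, e1, add_mul, Units.mul_inv, add_right_inj]
  refine ext_mulVec fun y => ?_
  rw [← mulVec_mulVec, ← sub_eq_zero, ← mulVec_sub, sub_mulVec, h.mul_mul h' ((h'.mul h).inv.f3 y),
    h'.mul_mul h ((h'.mul h).inv.f3 y), sub_self]
end InQ

theorem QL.of_inQ (h : ∀ m, InQ M i w W m → InA i (m : EE k t F)) : QL M i w W :=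
  fun m h1 h2 h3 h4 => h m ⟨h1, h2, h3, h4⟩
theorem QL.inA (h : QL M i w W) (h' : InQ M i w W m) : InA i (m : EE k t F) :=
  h m h'.1 h'.2 h'.3 h'.4
theorem emG_mem_LS {s : GL (Fin k) F} {J : Submodule F (Fin k → F)}
    (h : ∀ x, x ∈ J ↔ (s : Mk k F) *ᵥ x ∈ J) (y : VV k t F) :
    y ∈ LS i J ↔ (emG i s : EE k t F) *ᵥ y ∈ LS i J := by
  have key : ∀ s : GL (Fin k) F, (∀ x ∈ J, (s : Mk k F) *ᵥ x ∈ J) → ∀ y ∈ LS i J,
      (emG i s : EE k t F) *ᵥ y ∈ LS i J := fun s hs y hy =>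
    (ten k F i).LS_induction (p := fun y => (emG i s : EE k t F) *ᵥ y ∈ LS i J) hy (by simp)
      (fun e x hx => by rw [coe_emG, em_t]; exact (ten k F i).t_mem_LS _ (hs x hx))
      fun a b ha hb => by rw [mulVec_add]; exact add_mem ha hb
  refine ⟨key s (fun x => (h x).1) y, fun hy => ?_⟩
  have := key s⁻¹ (fun x hx => (h _).2 (by simpa)) _ hy
  rwa [map_inv, inv_mulVec_mulVec] at this
theorem mem_span_iff_of_fix {s : GL (Fin k) F} (h : (s : Mk k F) *ᵥ w = w) (x : Fin k → F) :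
    x ∈ F ∙ w ↔ (s : Mk k F) *ᵥ x ∈ F ∙ w := by
  simp only [Submodule.mem_span_singleton]
  refine ⟨fun ⟨r, hr⟩ => ⟨r, by rw [← hr, mulVec_smul, h]⟩, fun ⟨r, hr⟩ => ⟨r, toLin'_inj s ?_⟩⟩
  simp [← hr, mulVec_smul, h]
theorem mem_pp_iff_of_fix {s : GL (Fin k) F} (hs : s ∈ B.Iso) (h : (s : Mk k F) *ᵥ w = w)
    (x : Fin k → F) : x ∈ pp B w ↔ (s : Mk k F) *ᵥ x ∈ pp B w := by
  rw [mem_pp, mem_pp, ← B.mem_Iso.1 hs, h]

namespace InQ
/-- Conjugation by an element of the factor group fixing `w`. -/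
theorem conj_fix (h : InQ M i w W m) {s : GL (Fin k) F} (hs : s ∈ Gam M) (hw : (s : Mk k F) *ᵥ w = w)
    (hW : ∀ x, x ∈ W ↔ (s : Mk k F) *ᵥ x ∈ W) (hφ : φ ⬝ᵥ w = 1) :
    InQ M i w W ((emG i s)⁻¹ * m * emG i s) ∧
      ∀ v ∈ W, phi i φ ((emG i s)⁻¹ * m * emG i s) v = phi i φ m ((s : Mk k F) *ᵥ v) := by
  have hw' : ((s⁻¹ : GL (Fin k) F) : Mk k F) *ᵥ w = w := by
    conv_lhs => rw [← hw]
    simp
  have h1 := h.conj (mem_Gam.1 ((Gam M).inv_mem hs) i) (emG_mem_LS (mem_span_iff_of_fix hw'))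
    (emG_mem_LS fun x => by rw [hW (_ *ᵥ x)]; simp)
  rw [map_inv, inv_inv] at h1
  refine ⟨h1, fun v hv => h1.phi_eq hφ hv (phi_inC _ _ _ _) ?_⟩
  have e : (((emG i s)⁻¹ * m * emG i s : GG k t F) : EE k t F) - 1 =
      em i ((s⁻¹ : GL (Fin k) F) : Mk k F) * ((m : EE k t F) - 1) * em i (s : Mk k F) := by
    rw [← coe_emG, ← coe_emG, map_inv, mul_sub, sub_mul, mul_one, Units.inv_mul]; rfl
  rw [e, mul_assoc, ← map_mul, mul_ro, mul_assoc, h.spec hφ ((hW v).1 hv), ← mul_assoc, ← map_mul,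
    mul_ro, hw']

variable (hM : M ≤ (B.pow t).Iso)
include hM
theorem left (h : InQ M i w (pp B w) m) (hφ : φ ⬝ᵥ w = 1) (hv : B.f v w = 0) (x : Fin k → F) :
    em i (rf B x v) * ((m : EE k t F) - 1) = -(em i (rf B x w) * (B.pow t).adj (phi i φ m v)) := by
  have h1 := congrArg (B.pow t).adj (h.inv.spec hφ hv (ph B x))
  rw [h.phi_inv hφ hv, Frm.adj_mul, Frm.adj_mul, Frm.adj_sub, Frm.adj_one,
    (B.pow t).mem_Iso_iff_adj.1 (hM h.inv.mem), inv_inv, adj_em, adj_em, adj_rf, adj_rf, map_smul,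
    map_smul, smul_mul_assoc, mul_smul_comm, Frm.adj_neg, neg_mul,
    ← (phi_inC i φ m v).adj B] at h1
  exact smul_right_injective _ B.eps_ne_zero h1
/-- Product of an element with pure `Φ` and an arbitrary one. -/
theorem mul_of_pure (h : InQ M i w (pp B w) m) (h' : InQ M i w (pp B w) m') (hφ : φ ⬝ᵥ w = 1)
    (hu : B.f u w = 0) (hκ : InC i κ) (e : ∀ v, B.f v w = 0 → phi i φ m v = B.f v u • κ) :
    ((m : EE k t F) - 1) * ((m' : EE k t F) - 1) =
      -(em i (rf B w w) * (κ * (B.pow t).adj (phi i φ m' u))) := by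
  have e1 : ∀ y ∈ LS i (pp B w), ((m : EE k t F) - 1) *ᵥ y = (κ * em i (rf B w u)) *ᵥ y := fun y hy =>
    (ten k F i).LS_induction (p := fun y => ((m : EE k t F) - 1) *ᵥ y = (κ * em i (rf B w u)) *ᵥ y)
      hy (by simp) (fun a x hx => by
        by_cases x0 : x = 0
        · simp [x0]
        obtain ⟨ψ, hψ⟩ := exists_dot_one x0
        rw [← em_ro_fix hψ ((ten k F i).t_mem_LS a (Submodule.mem_span_singleton_self x)),
          mulVec_mulVec, mulVec_mulVec, h.spec hφ hx, e x hx, mul_assoc, ← map_mul, rf_mul_ro,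
          map_smul, mul_smul_comm, mul_smul_comm, hκ])
      fun a b ha hb => by rw [mulVec_add, mulVec_add, ha, hb]
  rw [← mul_assoc, hκ, mul_assoc, ← mul_neg, ← h'.left hM hφ hu, ← mul_assoc]
  refine ext_mulVec fun y => ?_
  rw [← mulVec_mulVec, ← mulVec_mulVec y]
  exact e1 _ (by simpa [sub_mulVec] using h'.f3 y)
theorem comm_pure (h : InQ M i w (pp B w) m) (h' : InQ M i w (pp B w) m') (hφ : φ ⬝ᵥ w = 1)
    (hu : B.f u w = 0) (hu' : B.f u' w = 0) (hκ : InC i κ) (hκ' : InC i κ')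
    (e : ∀ v, B.f v w = 0 → phi i φ m v = B.f v u • κ)
    (e' : ∀ v, B.f v w = 0 → phi i φ m' v = B.f v u' • κ') :
    In M (1 + em i (rf B w w) * (B.σ (B.f u' u) • (κ' * (B.pow t).adj κ) -
      B.σ (B.f u u') • (κ * (B.pow t).adj κ'))) := by
  have := h.comm h'
  rw [h.mul_of_pure hM h' hφ hu hκ e, h'.mul_of_pure hM h hφ hu' hκ' e', e u' hu', e' u hu,
    Frm.adj_smul, Frm.adj_smul] at this
  convert this using 2
  rw [mul_sub, pow_sig]; simp only [mul_smul_comm]; abel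
omit hM in
/-- Eichler elements lie in `𝒬`. -/
theorem eich (hw : B.f w w = 0) (hv : B.f v w = 0) {c : F} {s : GL (Fin k) F} (hs : s ∈ Gam M)
    (e : (s : Mk k F) = 1 + rf B w v - B.ε • rf B v w - c • rf B w w) (hφ : φ ⬝ᵥ w = 1) :
    InQ M i w (pp B w) (emG i s) ∧ ∀ x, B.f x w = 0 → phi i φ (emG i s) x = B.f x v • 1 := by
  have hv' := B.eq_zero_comm.1 hv
  have e1 : ∀ x, (s : Mk k F) *ᵥ x - x = B.f x v • w - (B.ε * B.f x w) • v - (c * B.f x w) • w :=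
    fun x => by
      simp only [e, sub_mulVec, add_mulVec, one_mulVec, smul_mulVec, rf_mulVec, smul_smul]; abel
  have e2 : ∀ a x, (emG i s : EE k t F) *ᵥ (ten k F i).t a x - (ten k F i).t a x =
      (ten k F i).t a ((s : Mk k F) *ᵥ x - x) := fun a x => by rw [coe_emG, em_t, map_sub]
  have e3 : ∀ (J J' : Submodule F (Fin k → F)), (∀ x ∈ J, (s : Mk k F) *ᵥ x - x ∈ J') →
      ∀ y ∈ LS i J, (emG i s : EE k t F) *ᵥ y - y ∈ LS i J' := fun J J' hJ y hy =>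
    (ten k F i).LS_induction (p := fun y => (emG i s : EE k t F) *ᵥ y - y ∈ LS i J') hy (by simp)
      (fun a x hx => e2 a x ▸ (ten k F i).t_mem_LS _ (hJ x hx)) fun a b ha hb => by
        rw [mulVec_add, add_sub_add_comm]; exact add_mem ha hb
  have hq : InQ M i w (pp B w) (emG i s) := by
    refine ⟨mem_Gam.1 hs i, fun y hy => ?_, e3 _ _ fun x hx => ?_,
      fun y => e3 ⊤ _ (fun x _ => ?_) y (by simp)⟩
    · simpa [sub_eq_zero] using e3 _ ⊥ (fun x hx => by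
        obtain ⟨r, rfl⟩ := Submodule.mem_span_singleton.1 hx
        simp [e1, B.smul_left, hw, hv']) y hy
    · rw [e1, mem_pp.1 hx]; simp [Submodule.smul_mem _ _ (Submodule.mem_span_singleton_self w)]
    · rw [e1]
      exact sub_mem (sub_mem (Submodule.smul_mem _ _ hw) (Submodule.smul_mem _ _ hv))
        (Submodule.smul_mem _ _ hw)
  refine ⟨hq, fun x hx => hq.phi_eq hφ hx (InC.one.smul _) ?_⟩
  rw [coe_emG, ← map_one (em i), ← map_sub, ← map_mul, mul_ro, sub_mulVec, one_mulVec, e1, hx]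
  simp [ro_smul_left]
/-- The commutator with an Eichler element. -/
theorem comm_eich (h : InQ M i w (pp B w) m) (G : GF B (Gam M)) (hw : B.f w w = 0)
    (hφ : φ ⬝ᵥ w = 1) (hv : B.f v w = 0) :
    In M (1 + em i (rf B w w) * ((B.pow t).adj (phi i φ m v) - B.ε • phi i φ m v)) := by
  obtain ⟨c, s, hs, e⟩ := G.eich w v hw hv
  obtain ⟨h1, h2⟩ := eich (i := i) hw hv hs e hφ
  have := h.comm h1
  rw [h1.mul_of_pure hM h hφ hv InC.one h2, coe_emG, e, ← map_one (em i), ← map_sub,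
    show 1 + rf B w v - B.ε • rf B v w - c • rf B w w - 1 =
      rf B w v - B.ε • rf B v w - c • rf B w w by abel, map_one] at this
  simp only [map_sub, map_smul, mul_sub, mul_smul_comm, h.kill, h.spec hφ hv] at this
  convert this using 2
  rw [mul_sub, mul_smul_comm]; simp; abel
/-- An isometry fixing `U ⊗ w^⊥` pointwise. -/
theorem eq_of_fix (hw : w ≠ 0) (hm : m ∈ M) (h : ∀ y ∈ LS i (pp B w), (m : EE k t F) *ᵥ y = y) :
    ∃ γ, InC i γ ∧ (m : EE k t F) = 1 + em i (rf B w w) * γ := by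
  obtain ⟨x, hx⟩ := exists_f_one (B := B) hw
  obtain ⟨ψ, hψ⟩ := exists_dot_one hw
  have e1 : ((m : EE k t F) - 1) * em i (rf B x w) = (m : EE k t F) - 1 := ext_mulVec fun y => by
    rw [← mulVec_mulVec, ← sub_eq_zero, ← mulVec_sub, sub_mulVec, one_mulVec, h, sub_self]
    rw [← kn_rf hw, ← kn_em, mem_kn, mulVec_sub, mulVec_mulVec, ← map_mul, rf_mul_rf, hx, one_smul,
      sub_self]
  have e2 : em i (ro w ψ) * ((m : EE k t F) - 1) = (m : EE k t F) - 1 := ext_mulVec fun y => by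
    rw [← mulVec_mulVec]
    refine em_ro_fix hψ ((ten k F i).mem_LS_of_cR fun l hl => ?_)
    obtain ⟨χ, hχ⟩ := exists_dot l
    obtain ⟨z, rfl⟩ := exists_ph B χ
    have hz : B.f z w = 0 := by
      rw [B.eq_zero_comm, ← ph_dot, hχ, hl w (Submodule.mem_span_singleton_self w)]
    have h3 := sub_mem_LS_pp (i := i) (w := z) (hM hm) (fun y hy => h y ((ten k F i).LS_mono
      ((Submodule.span_singleton_le_iff_mem _ _).2 hz) hy)) y
    rw [sub_mulVec, one_mulVec, ← (ten k F i).mem_LS_ker]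
    convert h3 using 2
    ext q; rw [LinearMap.mem_ker, ← hχ, ph_dot, mem_pp]
  exact ⟨_, ct_inC i ψ x ((m : EE k t F) - 1), by rw [← ct_spec, e2, e1]; simp⟩
/-- If all values of `Φ_m` are scalars then `m ∈ A_i`. -/
theorem inA_of_sc (h : InQ M i w (pp B w) m) (G : GF B (Gam M)) (hQ : QQ M (RN B))
    (hw : w ∈ IsoV B) (hφ : φ ⬝ᵥ w = 1) (hs : ∀ v, B.f v w = 0 → Sc (phi i φ m v)) :
    InA i (m : EE k t F) := by
  haveI : Nonempty (Fin t → Fin k) := by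
    obtain ⟨r, -⟩ := Function.ne_iff.1 hw.1; exact ⟨fun _ => r⟩
  obtain ⟨p⟩ := ‹Nonempty (Fin t → Fin k)›
  obtain ⟨x, hx⟩ := exists_f_one (B := B) hw.1
  obtain ⟨χ, hχ⟩ := exists_dot
    { toFun := fun v => phi i φ m (v - B.f v w • x) p p
      map_add' := fun a b => by
        rw [B.add_left, add_smul, add_sub_add_comm, phi_add, Matrix.add_apply]
      map_smul' := fun r a => by
        rw [B.smul_left, mul_smul, ← smul_sub, phi_smul, Matrix.smul_apply, RingHom.id_apply] }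
  obtain ⟨u, rfl⟩ := exists_ph B χ
  have e : ∀ v, B.f v w = 0 → phi i φ m v = B.f v u • 1 := fun v hv => by
    obtain ⟨r, hr⟩ := hs v hv
    rw [← ph_dot, hχ]; simp [hv, hr]
  have hu : B.f u w = 0 := by
    have h1 := h.spec hφ (v := w) hw.2 φ
    rw [h.kill, e w hw.2] at h1
    rw [B.eq_zero_comm]
    by_contra h0
    exact ro_ne_of_dot hφ ((em_eq_zero (i := i)).1
      ((smul_eq_zero.1 (by simpa using h1.symm)).resolve_left h0))
  obtain ⟨c, s, hs, es⟩ := G.eich w u hw.2 hu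
  obtain ⟨h1, h2⟩ := eich (i := i) hw.2 hu hs es hφ
  have h3 := h.mul h1.inv
  obtain ⟨γ, g1, g2⟩ := eq_of_fix hM (i := i) hw.1 h3.mem fun y hy =>
    (ten k F i).LS_induction (p := fun y => ((m * (emG i s)⁻¹ : GG k t F) : EE k t F) *ᵥ y = y) hy
      (by simp) (fun a z hz => by
        by_cases z0 : z = 0
        · simp [z0]
        obtain ⟨ψ, hψ⟩ := exists_dot_one z0
        have h4 := h3.spec hφ hz ψ
        rw [h.phi_mul h1.inv hφ hz, h1.phi_inv hφ hz, e z hz, h2 z hz, add_neg_cancel, mul_zero,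
          sub_mul, one_mul, sub_eq_zero] at h4
        rw [← em_ro_fix hψ ((ten k F i).t_mem_LS a (Submodule.mem_span_singleton_self z)),
          mulVec_mulVec, h4])
      fun a b ha hb => by rw [mulVec_add, ha, hb]
  have g3 := hQ i _ ⟨w, hw, rfl⟩ γ g1 ⟨_, h3.mem, g2⟩
  have g4 : InA i ((m * (emG i s)⁻¹ : GG k t F) : EE k t F) :=
    g2 ▸ (Sc.one.inA i).add ((InA.em i _).mul (g3.inA i))
  have g5 := g4.mul (InA.em i (s : Mk k F))
  rwa [← coe_emG, ← Units.val_mul, inv_mul_cancel_right] at g5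
end InQ

end H60.Wr
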