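/- Tensor-induced subgroups (class C7): the generic argument. -/
import Cfsg.Agent.H60.WrPhi

set_option autoImplicit false

namespace H60.Wr
open Cfsg Cfsg.Geo Matrix H19 Module
open scoped MatrixGroups

universe u

variable {F : Type u} [Field F] {k t : ℕ} {i j : Fin t} {M : Subgroup (GG k t F)}
  {P : Set (Fin k → F)} {ν : Mk k F} {W : (Fin k → F) → Submodule F (Fin k → F)}
  {w w' : Fin k → F} {g m c : GG k t F}

/-- Elements fixing `U_i ⊗ w` pointwise lie in the factor. -/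
def PW (M : Subgroup (GG k t F)) (P : Set (Fin k → F)) : Prop :=
  ∀ i, ∀ w ∈ P, ∀ m ∈ M, (∀ y ∈ LS i (F ∙ w), (m : EE k t F) *ᵥ y = y) → InA i (m : EE k t F)

theorem val_mulVec (g h : GG k t F) (y : VV k t F) :
    ((g * h : GG k t F) : EE k t F) *ᵥ y = (g : EE k t F) *ᵥ ((h : EE k t F) *ᵥ y) := by
  rw [Units.val_mul, mulVec_mulVec]

theorem fix_inv {y : VV k t F} (h : (m : EE k t F) *ᵥ y = y) :
    ((m⁻¹ : GG k t F) : EE k t F) *ᵥ y = y := by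
  conv_lhs => rw [← h]
  rw [inv_mulVec_mulVec]

theorem em_eq_on {a b : Mk k F} {J : Submodule F (Fin k → F)} (h : ∀ v ∈ J, a *ᵥ v = b *ᵥ v)
    {y : VV k t F} (hy : y ∈ LS i J) : em i a *ᵥ y = em i b *ᵥ y :=
  (ten k F i).LS_induction (p := fun y => em i a *ᵥ y = em i b *ᵥ y) hy (by simp)
    (fun e x hx => by rw [em_t, em_t, h x hx]) fun x y hx hy => by rw [mulVec_add, mulVec_add, hx, hy]

theorem mem_LS_pt (hw : w ≠ 0) {y : VV k t F} (h : ∀ ψ, ψ ⬝ᵥ w = 0 → em i (ro w ψ) *ᵥ y = 0) :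
    y ∈ LS i (F ∙ w) :=
  (ten k F i).mem_LS_of_cR fun l hl => by
    obtain ⟨ψ, hψ⟩ := exists_dot l
    have := h ψ (by rw [hψ, hl w (Submodule.mem_span_singleton_self w)])
    rw [em_ro_mulVec i w ψ l hψ] at this
    exact ((ten k F i).t_eq_zero.1 this).resolve_right hw

theorem exists_LS_ne (i : Fin t) (hw : w ≠ 0) : ∃ y ∈ LS i (F ∙ w), y ≠ 0 := by
  haveI := nontrivial_U i hw
  obtain ⟨e, he⟩ := exists_ne (0 : UU k F i)
  exact ⟨_, (ten k F i).t_mem_LS e (Submodule.mem_span_singleton_self w),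
    fun h => ((ten k F i).t_eq_zero.1 h).elim he hw⟩

/-- The commutator of an element fixing `U_i ⊗ w` with an element of `C_i` lies in `A_i`. -/
theorem pw0 (hw : w ≠ 0) {J : Submodule F (Fin k → F)} (w1 : w ∈ J)
    (pa : ∀ m ∈ M, (∀ y ∈ LS i (F ∙ w), (m : EE k t F) *ᵥ y = y) →
      ∀ y, (m : EE k t F) *ᵥ y - y ∈ LS i J)
    (pb : ∀ ψ, ψ ⬝ᵥ w = 0 → ∃ h ∈ Gam M, ∀ v ∈ J, (h : Mk k F) *ᵥ v = v + (ψ ⬝ᵥ v) • w)
    (ql : QL M i w J) (hm : m ∈ M) (hf : ∀ y ∈ LS i (F ∙ w), (m : EE k t F) *ᵥ y = y)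
    (hc : c ∈ M) (hc' : InC i (c : EE k t F)) :
    InA i ((m⁻¹ * c * m * c⁻¹ : GG k t F) : EE k t F) ∧
      ∀ y ∈ LS i (F ∙ w), ((m⁻¹ * c * m * c⁻¹ : GG k t F) : EE k t F) *ᵥ y = y := by
  have st : ∀ m ∈ M, (∀ y ∈ LS i (F ∙ w), (m : EE k t F) *ᵥ y = y) → ∀ y ∈ LS i J,
      (m : EE k t F) *ᵥ y ∈ LS i J := fun m hm hf y hy => by
    simpa using add_mem (pa m hm hf y) hy
  have hf' : ∀ y ∈ LS i (F ∙ w), ((m⁻¹ : GG k t F) : EE k t F) *ᵥ y = y :=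
    fun y hy => fix_inv (hf y hy)
  have hd : ∀ y ∈ LS i (F ∙ w), ((m⁻¹ * c * m * c⁻¹ : GG k t F) : EE k t F) *ᵥ y = y :=
    fun y hy => by
      rw [val_mulVec, val_mulVec, val_mulVec, hf _ (hc'.inv.mem_LS hy), mulVec_inv_mulVec, hf' y hy]
  have hM : m⁻¹ * c * m * c⁻¹ ∈ M := mul_mem (mul_mem (mul_mem (inv_mem hm) hc) hm) (inv_mem hc)
  refine ⟨ql _ hM hd (fun y hy => ?_) (pa _ hM hd), hd⟩
  have hz := st m hm hf _ (hc'.inv.mem_LS hy)
  refine mem_LS_pt hw fun ψ hψ => ?_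
  obtain ⟨h, hh, e⟩ := pb ψ hψ
  have e1 : ∀ y ∈ LS i J, (emG i h : EE k t F) *ᵥ y = y + em i (ro w ψ) *ᵥ y := fun y hy => by
    rw [coe_emG, em_eq_on (b := 1 + ro w ψ) (fun v hv => by
      rw [e v hv, add_mulVec, one_mulVec, ro_mulVec]) hy, map_add, map_one, add_mulVec, one_mulVec]
  have e0 : ∀ y ∈ LS i (F ∙ w), (emG i h : EE k t F) *ᵥ y = y := fun y hy => by
    rw [coe_emG, em_eq_on (b := 1) (fun v hv => by
      obtain ⟨r, rfl⟩ := Submodule.mem_span_singleton.1 hv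
      rw [mulVec_smul, e w w1, hψ]; simp) hy, map_one, one_mulVec]
  have e2 : ∀ y ∈ LS i J, ((m * emG i h * m⁻¹ : GG k t F) : EE k t F) *ᵥ y - y =
      em i (ro w ψ) *ᵥ (((m⁻¹ : GG k t F) : EE k t F) *ᵥ y) := fun y hy => by
    rw [val_mulVec, val_mulVec, e1 _ (st _ (inv_mem hm) hf' y hy), mulVec_add, mulVec_inv_mulVec,
      hf _ (em_ro_mem i (Submodule.mem_span_singleton_self w) _ _), add_sub_cancel_left]
  have hN : m * emG i h * m⁻¹ ∈ M := mul_mem (mul_mem hm (mem_Gam.1 hh i)) (inv_mem hm)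
  have e3 : ∀ y ∈ LS i (F ∙ w), ((m * emG i h * m⁻¹ : GG k t F) : EE k t F) *ᵥ y = y :=
    fun y hy => by rw [val_mulVec, val_mulVec, hf' y hy, e0 y hy, hf y hy]
  have e4 := (ql _ hN e3 (fun y hy => e2 y hy ▸ em_ro_mem i (Submodule.mem_span_singleton_self w) _ _)
    (pa _ hN e3)).comm hc'
  have e5 := e2 _ (hc'.mem_LS hz)
  rw [mulVec_mulVec, e4, ← mulVec_mulVec, ← mulVec_sub, e2 _ hz, inv_mulVec_mulVec,
    mulVec_mulVec, ← hc', ← mulVec_mulVec, mulVec_inv_mulVec] at e5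
  rw [mulVec_sub, val_mulVec, val_mulVec, val_mulVec, ← e5, sub_self]

/-- An element of `A_i` fixing `U_i ⊗ w` which is a scalar is trivial. -/
theorem eq_one_of_sc (hw : w ≠ 0) (h : Sc (m : EE k t F))
    (hf : ∀ y ∈ LS i (F ∙ w), (m : EE k t F) *ᵥ y = y) : m = 1 := by
  obtain ⟨r, e⟩ := h
  obtain ⟨y, hy, y0⟩ := exists_LS_ne i hw
  have := hf y hy
  rw [e, smul_mulVec, one_mulVec] at this
  have h1 : r = 1 := by
    by_contra h1
    exact y0 ((smul_eq_zero.1 (show (r - 1) • y = 0 by rw [sub_smul, this, one_smul, sub_self])).resolve_left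
      (sub_ne_zero.2 h1))
  exact Units.ext (by rw [e, h1, one_smul, Units.val_one])

variable [Finite F]

/-- Property (PW). -/
theorem Cx.pw (hP : JobRigP.{u}) (H : Cx M P ν W) (ql : ∀ i, ∀ w ∈ P, QL M i w (W w))
    (h2 : (2 : F) ≠ 0 ∨ (3 ≤ k ∧ ∃ w φ, ν = ro w φ)) : PW M P := fun i w hw m hm hf => by
  refine T4 fun j hj => InC.of_comm (S := {b | ∃ s ∈ Gam M, b = cj s ν})
    (fun X hX => H.gen X fun s hs => hX _ ⟨s, hs, rfl⟩) ?_
  rintro _ ⟨s, hs, rfl⟩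
  obtain ⟨c, hc, ec⟩ := (H.mem.cj_one_add hs).em_one_add j
  have hc' : InC i (c : EE k t F) := ec ▸ InC.one.add (InC.em hj.symm _)
  obtain ⟨⟨a, ha⟩, h3⟩ := pw0 (H.nz w hw) (H.w1 w hw) (H.pa i w hw) (H.pb w hw) (ql i w hw) hm hf hc hc'
  have sq : cj s ν * cj s ν = 0 := by rw [← map_mul, H.sq, map_zero]
  have ne : cj s ν ≠ 0 := by simpa using H.ne
  have e1 : ((m⁻¹ * c * m : GG k t F) : EE k t F) - 1 = cj m⁻¹ (em j (cj s ν)) := by
    have := cj_coe m⁻¹ c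
    rw [inv_inv] at this
    rw [← this, ec, map_add, map_one, add_sub_cancel_left]
  rcases hP F k t (m⁻¹ * c * m) i a c hc' (by rw [← ha, ← Units.val_mul, inv_mul_cancel_right])
    (by rw [e1, ← map_mul, ← map_mul, sq, map_zero, map_zero]) (h2.imp id fun ⟨h3, v, φ, e⟩ => ⟨h3, by
      have hv : v ≠ 0 := by rintro rfl; exact H.ne (by simp [e])
      have hφ : φ ≠ 0 := by rintro rfl; exact H.ne (by simp [e])
      rw [e1, finrank_rg_cj, ← cj_emG_em, finrank_rg_cj, e, rank_em_ro j hv hφ]⟩) with h | h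
  · have h4 := eq_one_of_sc (H.nz w hw) (ha ▸ sc_em.2 h) h3
    have h5 : c * m = m * c := by
      rw [mul_inv_eq_one, mul_assoc, inv_mul_eq_iff_eq_mul] at h4; exact h4
    have h6 := congrArg Units.val h5
    rw [Units.val_mul, Units.val_mul, ec, add_mul, mul_add, one_mul, mul_one] at h6
    exact add_left_cancel h6
  · exact absurd (sc_em.1 (by simpa [ec] using h.sub Sc.one)) (not_sc_of_sq ne sq)

omit [Finite F]

/-- The matrices which `g` conjugates from the `i`-th into the `j`-th factor. -/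
def BB (g : GG k t F) (i j : Fin t) : Subalgebra F (Mk k F) where
  carrier := {β | InA j (cj g (em i β))}
  mul_mem' ha hb := by simpa only [Set.mem_setOf_eq, map_mul] using ha.mul hb
  add_mem' ha hb := by simpa only [Set.mem_setOf_eq, map_add] using ha.add hb
  algebraMap_mem' r := by
    simpa only [Set.mem_setOf_eq, Algebra.algebraMap_eq_smul_one, map_smul, map_one]
      using (Sc.one.smul r).inA j

theorem mem_BB {β : Mk k F} : β ∈ BB g i j ↔ InA j (cj g (em i β)) := Iff.rfl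

/-- If `BB g i j` has trivial centraliser then it is everything. -/
theorem nm_of_BB (h : ∀ X, (∀ b ∈ BB g i j, X * b = b * X) → Sc X) : Nm g i j := fun a =>
  T4 fun l hl b => by
    have h1 : InC i (cj g⁻¹ (em l b)) := InC.of_comm h fun β hβ => by
      have := congrArg (cj g⁻¹) ((mem_BB.1 hβ).comm (InC.em hl.symm b))
      simpa only [map_mul, cj_inv_cj] using this
    simpa only [map_mul, cj_cj_inv] using (congrArg (cj g) (h1 a)).symm

theorem Maps.stIn (pw : PW M P) (tr : ∀ w ∈ P, ∀ w' ∈ P, ∃ h ∈ Gam M, ∃ c : F,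
      (h : Mk k F) *ᵥ w = c • w') (h : Maps g i w j w') (hg : g ∈ M) (hw : w ∈ P) (hw' : w' ∈ P)
    (w0 : w ≠ 0) : StIn (Gam M) w (BB g i j) := fun s hs ⟨r, hr⟩ => by
  obtain ⟨h₀, hh, c₀, e⟩ := tr w hw w' hw'
  have c0 : c₀ ≠ 0 := by rintro rfl; exact w0 (gl_mulVec_eq_zero (by rw [e, zero_smul]))
  have e1 : ((h₀ * s * h₀⁻¹ : GL (Fin k) F) : Mk k F) *ᵥ w' = r • w' := by
    have : w' = c₀⁻¹ • (h₀ : Mk k F) *ᵥ w := by rw [e, smul_smul, inv_mul_cancel₀ c0, one_smul]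
    rw [← cj_coe, this, mulVec_smul, cj_mulVec, hr, mulVec_smul, smul_comm]
  have e2 : ∀ (l : Fin t) (a : Mk k F) (v : Fin k → F), a *ᵥ v = r • v → ∀ y ∈ LS l (F ∙ v),
      em l a *ᵥ y = r • y := fun l a v hv y hy => by
    rw [em_eq_on (b := r • 1) (fun x hx => by
      obtain ⟨q, rfl⟩ := Submodule.mem_span_singleton.1 hx
      rw [mulVec_smul, hv, smul_mulVec, one_mulVec, smul_comm]) hy, map_smul, map_one, smul_mulVec,
      one_mulVec]
  have e3 := pw j w' hw' ((emG j (h₀ * s * h₀⁻¹))⁻¹ * (g * emG i s * g⁻¹))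
    (mul_mem (inv_mem (mem_Gam.1 (mul_mem (mul_mem hh hs) (inv_mem hh)) j))
      (mul_mem (mul_mem hg (mem_Gam.1 hs i)) (inv_mem hg))) fun y hy => by
    rw [val_mulVec, val_mulVec, val_mulVec, coe_emG, e2 i _ w hr _ (h.inv.mem hy), mulVec_smul,
      mulVec_inv_mulVec, ← e2 j _ w' e1 y hy, ← coe_emG, inv_mulVec_mulVec]
  have e4 := (InA.em j ((h₀ * s * h₀⁻¹ : GL (Fin k) F) : Mk k F)).mul e3
  rwa [← coe_emG, ← Units.val_mul, mul_inv_cancel_left, ← cj_coe, coe_emG] at e4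

/-- Property (H1). -/
theorem Cx.h1 (H : Cx M P ν W) (pw : PW M P) (h : Maps g i w j w') (hg : g ∈ M) (hw : w ∈ P)
    (hw' : w' ≠ 0) : Nm g i j := by
  refine nm_of_BB (H.zs w hw _ (h.stIn pw H.tr hg hw (H.cl g hg i j w hw w' hw' h.ge) (H.nz w hw))
    fun v hv φ hφ ⟨a, ha⟩ => ?_)
  obtain ⟨v', φ', h1, -, -, h2⟩ := maps_of_cj (H.nz v hv) hφ ha
  exact h2.stIn pw H.tr hg hv (H.cl g hg i j v hv v' h1 h2.ge) (H.nz v hv)

/-- Property (R'). -/
theorem Cx.r (H : Cx M P ν W) (pw : PW M P) (hg : g ∈ M) (h : InA j (cj g (em i ν))) :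
    Nm g i j := by
  obtain ⟨b, hb⟩ := h
  have b0 : b ≠ 0 := by rintro rfl; exact H.ne (em_eq_zero.1 (by simpa using hb))
  obtain ⟨w', h1, h2⟩ := (Submodule.ne_bot_iff (rg b)).1 (by
    rw [Ne, LinearMap.range_eq_bot]; simpa using b0)
  have h3 : LS j (F ∙ w') ≤ (LS i (rg ν)).map (toLin' (g : EE k t F)) := by
    rw [← rg_em, ← rg_cj, hb, rg_em, LS_le_LS, Submodule.span_singleton_le_iff_mem]; exact h1
  obtain ⟨v, hv, φ, hφ, a, ha⟩ := H.lk (BB g i j) fun s hs e => by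
    rw [mem_BB, ← coe_emG, cj_coe]
    refine pw j w' (H.cl' g hg i j w' h2 h3) _ (mul_mem (mul_mem hg (mem_Gam.1 hs i)) (inv_mem hg))
      fun y hy => ?_
    obtain ⟨z, hz, rfl⟩ := h3 hy
    rw [← rg_em] at hz
    obtain ⟨x, rfl⟩ := mem_rg.1 hz
    rw [toLin'_apply, ← cj_coe, cj_mulVec, coe_emG, mulVec_mulVec x, ← map_mul, e]
  obtain ⟨v', φ', h4, -, -, h5⟩ := maps_of_cj (H.nz v hv) hφ ha
  exact H.h1 pw h5 hg hv h4

/-- The elements of `M` centralising the factors outside `I`. -/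
def MI (M : Subgroup (GG k t F)) (I : Finset (Fin t)) : Subgroup (GG k t F) where
  carrier := {m | m ∈ M ∧ ∀ j ∉ I, InC j (m : EE k t F)}
  one_mem' := ⟨M.one_mem, fun _ _ => InC.one⟩
  mul_mem' ha hb := ⟨mul_mem ha.1 hb.1, fun j hj => (ha.2 j hj).mul (hb.2 j hj)⟩
  inv_mem' ha := ⟨inv_mem ha.1, fun j hj => (ha.2 j hj).inv⟩

variable {I : Finset (Fin t)}

theorem MI_le : MI M I ≤ M := fun _ h => h.1

theorem In.mi {a : Mk k F} (h : In M (1 + Wr.em i a)) (hi : i ∈ I) :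
    In (MI M I) (1 + Wr.em i a) := by
  obtain ⟨m, hm, e⟩ := h
  exact ⟨m, ⟨hm, fun j hj => e ▸ InC.one.add (InC.em (by rintro rfl; exact hj hi) a)⟩, e⟩

theorem In.mem_I {a : Mk k F} (h : In (MI M I) (1 + Wr.em i a)) (ha : ¬ Sc a) : i ∈ I := by
  obtain ⟨m, hm, e⟩ := h
  by_contra hi
  exact ha (sc_em.1 ((InA.em i a).sc (by simpa [e] using (hm.2 i hi).sub InC.one)))

/-- The induction on the set of factors. -/
theorem le_T_of (hk : 2 ≤ k) (ht : 0 < t) (hν : ∀ i, In M (1 + em i ν))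
    (hr : ∀ g ∈ M, ∀ i, In (TT k t F) (1 + cj g (em i ν)) → ∃ j, Nm g i j)
    (core : ∀ I : Finset (Fin t), (∃ i ∈ I, ∃ j ∈ I, i ≠ j) →
      (∀ g ∈ MI M I, ∀ i ∈ I, ∀ j, Nm g i j → g ∈ TT k t F) → MI M I ≤ TT k t F) :
    M ≤ TT k t F := by
  suffices h : ∀ I, MI M I ≤ TT k t F from fun g hg => h Finset.univ ⟨hg, by simp⟩
  intro I
  induction I using Finset.strongInduction with | H I ih => ?_
  by_cases h2 : ∃ i ∈ I, ∃ j ∈ I, i ≠ j
  · refine core I h2 fun g hg i hi j h => mem_T_of hk ht fun l => ?_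
    by_cases hl : l ∈ I
    swap
    · exact ⟨l, (hg.2 l hl).nm⟩
    by_cases e : l = i
    · exact ⟨j, e ▸ h⟩
    have hj : j ∈ I := by
      by_contra hj
      exact hj (h.inv.unique hk (hg.2 j hj).nm.inv ▸ hi)
    refine hr g hg.1 l (In.mono (ih (I.erase j) (Finset.erase_ssubset hj)) ?_)
    obtain ⟨m, hm, em⟩ := ((hν l).mi hl).cj_one_add hg
    refine ⟨m, ⟨hm.1, fun q hq => ?_⟩, em⟩
    by_cases e' : q = j
    · rw [em, e']; exact InC.one.add (h.inC (InC.em (Ne.symm e) ν))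
    · exact hm.2 q fun h => hq (Finset.mem_erase.2 ⟨e', h⟩)
  · obtain ⟨i, hi⟩ : ∃ i, ∀ j, j ≠ i → j ∉ I := by
      by_cases h0 : I.Nonempty
      · obtain ⟨i, hi⟩ := h0
        exact ⟨i, fun j hj h => h2 ⟨j, h, i, hi, hj⟩⟩
      · exact ⟨⟨0, ht⟩, fun j _ h => h0 ⟨j, h⟩⟩
    exact fun g hg => (T4 fun j hj => hg.2 j (hi j hj)).mem_T hk

/-- The type independent jobs. -/
structure Core : Prop where
  rigP : JobRigP.{u}
  rigOdd : JobRigOdd.{u}
  rig2 : JobRig2.{u}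
  odd : JobOdd.{u}
  jT : JobT.{u}
  crit : JobCrit.{u}
  e3 : JobE3.{u}
  e4b : JobE4B.{u}
  e4c : JobE4C.{u}

/-- The generic argument. -/
theorem Gd.le_T [Finite F] (C : Core.{u}) (h : Gd M) (hk : 3 ≤ k) (ht : 0 < t) : M ≤ TT k t F := by
  obtain ⟨P, ν, W, H, ql, hr, h2⟩ := h
  have hk2 : 2 ≤ k := by omega
  by_cases two : (2 : F) = 0
  swap
  · have pw := H.pw C.rigP ql (Or.inl two)
    have r : ∀ g ∈ M, ∀ i, In (TT k t F) (1 + cj g (em i ν)) → ∃ j, Nm g i j := by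
      rintro g hg i ⟨y, hy, e⟩
      obtain ⟨j, hj⟩ := C.rigOdd F k t two hk2 ht y hy (by
        rw [e, add_sub_cancel_left, ← map_mul, ← map_mul, H.sq, map_zero, map_zero])
      exact ⟨j, H.r pw hg (by simpa [e] using hj.sub (Sc.one.inA j))⟩
    refine le_T_of hk2 ht H.mem.em_one_add r fun I ⟨i, hi, j, hj, ij⟩ st => ?_
    refine C.odd F k t _ ν i j two ij H.sq H.ne H.mid
      (fun l b hb => hr two l b (hb.mono MI_le)) fun l hl => ?_
    have hl' : l ∈ I := by rcases hl with rfl | rfl <;> assumption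
    refine ⟨(H.mem.em_one_add l).mi hl', fun g hg h => ?_⟩
    obtain ⟨q, hq⟩ := r g hg.1 l h
    exact st g hg l hl' q hq
  have K := h2 two
  obtain ⟨w, φ, e⟩ := K.rk
  have pw := H.pw C.rigP ql (Or.inr ⟨hk, w, φ, e⟩)
  have hw : w ≠ 0 := by rintro rfl; exact H.ne (by simp [e])
  have hφ : φ ≠ 0 := by rintro rfl; exact H.ne (by simp [e])
  have h0 : φ ⬝ᵥ w = 0 := by
    have := H.sq
    rw [e, ro_mul_ro] at this
    exact (smul_eq_zero.1 this).resolve_right (ro_ne_zero hw hφ)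
  have rig := C.rig2 C.rigP F k t M two hk K.s3 fun h hh i w φ r m => H.h1 pw m hh (K.rp i w φ r) r.1
  have rt : ∀ i, Rt M i w φ := fun i => ⟨hw, hφ, h0, e ▸ H.mem.em_one_add i⟩
  refine le_T_of hk2 ht H.mem.em_one_add (fun g hg i h => ?_) fun I ⟨i, hi, _⟩ st => ?_
  · obtain ⟨j, a, ha⟩ := rig g hg i w φ (rt i) (e ▸ h)
    exact ⟨j, H.r pw hg ⟨a, e ▸ ha⟩⟩
  have mono : ∀ {l v χ}, Rt (MI M I) l v χ → Rt M l v χ := fun r =>
    ⟨r.1, r.2.1, r.2.2.1, r.2.2.2.mono MI_le⟩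
  have mem : ∀ {l v χ}, Rt (MI M I) l v χ → l ∈ I := fun r => r.2.2.2.mem_I r.not_sc
  have c2 : C2 (MI M I) := ⟨two, hk, fun g hg l v χ r => rig g hg.1 l v χ (mono r),
    fun g hg l v χ j v' r h1 h3 => st g hg l (mem r) j (H.h1 pw h3 hg.1 (K.rp l v χ (mono r)) h1)⟩
  by_contra hn
  obtain ⟨N', l, v, χ, h1, h3, h4⟩ := C.crit F k t _ c2 ⟨i, w, φ, hw, hφ, h0, (rt i).2.2.2.mi hi⟩ hn
  rcases K.abc with ⟨c, c0, c1, hc⟩ | ⟨hF, hc⟩ | ⟨B, hB, k4, hσ, hc, hv⟩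
  · exact C.e3 C.jT F k t _ N' l v χ c2 ⟨c, c0, c1, fun l v χ r => ⟨r.1, smul_ne_zero c0 r.2.1, by
      rw [smul_dotProduct, r.2.2.1, smul_zero], ((hc l v χ (mono r)).em_one_add l).mi (mem r)⟩⟩ h1 h3 h4
  · exact C.e4b C.jT F k t _ N' l v χ c2 ⟨hF, fun l v χ ψ r p0 p1 =>
      ⟨r.1, p0, p1, ((hc v ψ p1).em_one_add l).mi (mem r)⟩⟩ h1 h3 h4
  · refine C.e4c C.jT F k t _ N' l v χ c2 ⟨B, MI_le.trans hB, k4, hσ, fun l v χ r x x0 hx => ?_, hv⟩
      h1 h3 h4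
    obtain ⟨c, c0, h5⟩ := hc x x0 hx
    exact ⟨c, x0, smul_ne_zero c0 (ph_ne_zero x0), by rw [smul_dotProduct, ph_dot, hx, smul_zero],
      ro_smul_right c x (ph B x) ▸ (h5.em_one_add l).mi (mem r)⟩

end H60.Wr
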