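/- Tensor-induced subgroups (class C7): the maximality theorems, given the jobs. -/
import Cfsg.Agent.H60.WrGen
import Cfsg.Agent.H60.Bridge
import Cfsg.Agent.H59.UField
import Cfsg.Agent.H56.OmegaGen

set_option autoImplicit false

namespace H60.Wr
open Cfsg Cfsg.Geo Matrix H19 Module
open scoped MatrixGroups commutatorElement Kronecker

universe u

variable {F : Type u} [Field F] {k t : ℕ} {i j : Fin t} {M G : Subgroup (GG k t F)}
  {B : Frm (Fin k) F} {g : GG k t F} {Q : QuadraticForm F (VV k t F)}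

theorem mem_SL {ι : Type} [Fintype ι] [DecidableEq ι] {g : GL ι F} :
    g ∈ specialLinear ι F ↔ (g : Matrix ι ι F).det = 1 := Units.ext_iff

theorem det_one_add {ι : Type} [Fintype ι] [DecidableEq ι] {N : Matrix ι ι F} (h : N * N = 0) :
    (1 + N).det = 1 := by
  have := congrArg (Polynomial.eval 1) (sub_eq_zero.1
    (isNilpotent_charpoly_sub_pow_of_isNilpotent (M := -N) ⟨2, by simp [pow_two, h]⟩).eq_zero)
  simpa [eval_charpoly] using this

theorem det_em (i : Fin t) (a : Mk k F) : (em i a : EE k t F).det = a.det ^ k ^ (t - 1) := by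
  have : (em i a : EE k t F) = (a ⊗ₖ (1 : Matrix ({j // j ≠ i} → Fin k) _ F)).submatrix
      (Equiv.funSplitAt i (Fin k)) (Equiv.funSplitAt i (Fin k)) := by
    ext p q
    rw [tl_apply, pure_apply, Fintype.prod_eq_mul_prod_subtype_ne _ i, Function.update_self,
      Finset.prod_congr rfl fun j _ => by rw [Function.update_of_ne j.2]]
    simp [Matrix.one_apply, Finset.prod_ite_zero, funext_iff]
  rw [this, det_submatrix_equiv_self, det_kronecker]; simp

theorem fperm_mul (σ τ : Equiv.Perm (Fin t)) :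
    fperm F k (σ * τ) = fperm F k σ * fperm F k τ := Units.ext (by
  ext p q
  simp only [fperm, Units.val_mul, Matrix.mul_apply, of_apply, ite_mul, one_mul, zero_mul,
    Finset.sum_ite_eq', Finset.mem_univ, if_true]
  rfl)

theorem cyc_of {I : Subgroup (GG k t F)} (h : ∀ σ, fperm F k σ ∈ I) (hG : ⁅I, I⁆ ≤ G)
    (hM : TT k t F ⊓ G ≤ M) : Cyc M := fun σ hσ => by
  obtain ⟨τ, hτ⟩ := isConj_iff.1 (Equiv.Perm.isConj_iff_cycleType_eq.2 σ.cycleType_inv.symm)
  have e : σ = ⁅τ, σ⁆ := by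
    rw [commutatorElement_def, hτ, ← _root_.mul_inv_rev, eq_inv_iff_mul_eq_one, ← pow_three,
      ← hσ.orderOf, pow_orderOf_eq_one]
  refine hM ⟨Subgroup.subset_closure (Or.inr ⟨σ, fun _ _ => rfl⟩), hG ?_⟩
  rw [e, show fperm F k ⁅τ, σ⁆ = _ from map_commutatorElement (MonoidHom.mk' _ fperm_mul) τ σ]
  exact Subgroup.commutator_mem_commutator (h τ) (h σ)

theorem mem_Gam_of (hk : 2 ≤ k) (hM : TT k t F ⊓ G ≤ M) {s : GL (Fin k) F}
    (h : ∀ j, emG j s ∈ G) : s ∈ Gam M :=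
  mem_Gam.2 fun j => hM ⟨(InA.em j _).mem_T hk, h j⟩

theorem Gam_le (ht : 0 < t) (h : M ≤ (B.pow t).Iso) : Gam M ≤ B.Iso :=
  fun _ hs => iso_of_em (h (mem_Gam.1 hs ⟨0, ht⟩))

theorem commutator_le_SL {ι : Type} [Fintype ι] [DecidableEq ι] (I : Subgroup (GL ι F)) :
    ⁅I, I⁆ ≤ specialLinear ι F :=
  Subgroup.commutator_le.2 fun a _ b _ => by
    simp [specialLinear, commutatorElement_eq_one_iff_mul_comm, mul_comm]

theorem comm_le {H : Type*} [Group H] (I : Subgroup H) : ⁅I, I⁆ ≤ I :=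
  Subgroup.commutator_le.2 fun _ ha _ hb =>
    mul_mem (mul_mem (mul_mem ha hb) (inv_mem ha)) (inv_mem hb)

/-- Property (Q) holds for the stabiliser of the decomposition. -/
theorem sc_of_mem_T {p : Mk k F} {κ : EE k t F} (p0 : p ≠ 0) (hp : p * p = 0) (hκ : InC i κ)
    (h : In (TT k t F) (1 + em i p * κ)) : Sc κ := by
  obtain ⟨y, hy, e⟩ := h
  obtain ⟨σ, hσ⟩ := exists_perm hy
  have sq : (em i p * κ) * (em i p * κ) = 0 := by
    rw [mul_assoc, ← mul_assoc κ, ← hκ, ← mul_assoc, ← mul_assoc, ← map_mul, hp]; simp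
  have key : ∀ a, p * a = 0 → cj y (em i a) = em i a - em i (a * p) * κ := fun a ha => by
    have : em i p * κ * em i a = 0 := by rw [mul_assoc, ← hκ, ← mul_assoc, ← map_mul, ha]; simp
    rw [cj_of_val e sq, this, map_mul, mul_assoc]; simp [sub_eq_add_neg]
  have hi : σ i = i := by
    by_contra hi
    have := (hσ i p).inC (Ne.symm hi)
    rw [key p hp, hp, map_zero, zero_mul, sub_zero] at this
    exact not_sc_of_sq p0 hp (sc_em.1 ((InA.em i p).sc this))
  obtain ⟨u, hu⟩ : ∃ u, p *ᵥ u ≠ 0 := by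
    by_contra! h0; exact p0 (ext_mulVec fun v => by simp [h0 v])
  obtain ⟨ψ, hψ⟩ := exists_dot_one hu
  obtain ⟨b, hb⟩ := (InA.em i _).sub (hi ▸ hσ i (ro (p *ᵥ u) ψ))
  rw [key _ (by rw [mul_ro, mulVec_mulVec, hp]; simp), sub_sub_cancel] at hb
  have := congrArg (ct i ψ u) hb
  rw [ct_em_mul hκ, ct_em, ← mulVec_mulVec, ro_mulVec, hψ, one_smul, hψ, one_smul] at this
  exact ⟨_, this⟩

theorem sc_of_pure {p : Fin t → Mk k F} {r : F} (hr : r ≠ 0) (hp : ∀ l, p l ≠ 0)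
    (h : Sc (r • pure p)) (j : Fin t) : Sc (p j) := by
  obtain ⟨s, e⟩ := h.of_smul hr
  have s0 : s ≠ 0 := by rintro rfl; exact pure_ne_zero hp (by simpa using e)
  exact (sc_of_em_mul (InC.pure (Function.update_self j 1 p)) s0 (pure_eq j p ▸ e)).1

theorem not_mem_T {p : Fin t → Mk k F} {r : F} (hr : r ≠ 0) (hp : ∀ l, p l ≠ 0) (hi : p i * p i = 0)
    (hj : ¬ Sc (p j)) (ij : j ≠ i) : ¬ In (TT k t F) (1 + r • pure p) := fun h => by
  rw [pure_eq i, ← mul_smul_comm] at h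
  haveI : Nonempty (Fin k) := by
    by_contra h0; rw [not_nonempty_iff] at h0; exact hp i (Subsingleton.elim _ _)
  have := sc_of_pure hr (fun l => by
    by_cases e : l = i
    · simp [e]
    · simpa [e] using hp l) (sc_of_mem_T (hp i) hi ((InC.pure (Function.update_self i 1 p)).smul r) h) j
  rw [Function.update_of_ne ij] at this
  exact hj this

theorem max_of {X : EE k t F} (h1 : In G X) (h2 : ¬ In (TT k t F) X)
    (h : ∀ M, TT k t F ⊓ G ≤ M → M ≤ G → M ≤ TT k t F ∨ G ≤ M) :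
    IsMaximalIn G (TT k t F ⊓ G) := by
  obtain ⟨g, hg, rfl⟩ := h1
  exact isMaximalIn_of ⟨g, hg, fun h => h2 (In.coe.2 h)⟩ fun M h3 h4 m hm hm' =>
    (h M h3 h4).resolve_left fun h5 => hm' (h5 hm)

theorem pure_sq {p : Fin t → Mk k F} (r : F) (hi : p i * p i = 0) :
    (r • pure p) * (r • pure p) = 0 := by
  rw [pure_smul_mul, pure_eq_zero (i := i) hi, smul_zero]

theorem in_iso {ι : Type} [Fintype ι] [DecidableEq ι] {B : Frm ι F} {X : Matrix ι ι F}
    (h : X * X = 0) (h' : B.adj X = -X) : un X h ∈ B.Iso :=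
  B.mem_Iso_iff_adj.2 (by rw [un_val, un_inv, B.adj_add, B.adj_one, h', sub_eq_add_neg])

theorem N_sq {x : Fin k → F} (h : x ∈ IsoV B) : rf B x x * rf B x x = 0 := by
  rw [rf_mul_rf, h.2, zero_smul]

theorem N_not_mem (ht : 2 ≤ t) {x : Fin k → F} (h : x ∈ IsoV B) {r : F} (hr : r ≠ 0) :
    ¬ In (TT k t F) (1 + r • pure fun _ => rf B x x) :=
  not_mem_T (i := ⟨0, by omega⟩) (j := ⟨1, by omega⟩) hr (fun _ => rf_ne_zero h.1 h.1) (N_sq h)
    (not_sc_of_sq (rf_ne_zero h.1 h.1) (N_sq h)) (by simp)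

theorem adj_N (B : Frm (Fin k) F) (x : Fin k → F) (r : F) :
    (B.pow t).adj (r • pure fun _ => rf B x x) = (B.σ r * B.ε ^ t) • pure fun _ => rf B x x := by
  rw [Frm.adj_smul, Frm.adj_pow_pure, pow_sig, mul_smul]
  simp only [adj_rf]
  rw [pure_smul]; simp

variable [Finite F]

theorem max_SL (C : Core.{u}) (hQ : JobSLQ.{u}) (hG : JobSLG.{u}) (hk : 3 ≤ k) (ht : 2 ≤ t) :
    IsMaximalIn (specialLinear (Fin t → Fin k) F) (TT k t F ⊓ specialLinear (Fin t → Fin k) F) := by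
  let p : Mk k F := single ⟨0, by omega⟩ ⟨1, by omega⟩ 1
  have p0 : p ≠ 0 := fun h => by simpa [p] using congrFun (congrFun h ⟨0, by omega⟩) ⟨1, by omega⟩
  have hp : p * p = 0 := single_mul_single_of_ne _ _ _ _ (by simp) _
  have sq := pure_sq (p := fun _ : Fin t => p) (i := ⟨0, by omega⟩) 1 hp
  refine max_of ⟨un _ sq, mem_SL.2 (det_one_add sq), rfl⟩ (not_mem_T (i := ⟨0, by omega⟩)
    (j := ⟨1, by omega⟩) one_ne_zero (fun _ => p0) hp (not_sc_of_sq p0 hp) (by simp))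
    fun M h1 _ => ?_
  have c : SLC M := ⟨hk, ht, fun s hs => mem_Gam_of (by omega) h1 fun j => mem_SL.2 (by
    rw [coe_emG, det_em, hs, one_pow]), cyc_of (I := ⊤) (fun _ => trivial) (commutator_le_SL _) h1⟩
  by_cases q : QQ M (RT k F)
  · exact Or.inl ((hG F k t M c q).le_T C hk (by omega))
  · exact Or.inr (hQ F k t M c q)

theorem max_SU (C : Core.{u}) (hF : JobGFU.{u}) (hQ : JobUQ.{u}) (hE : JobUEnd.{u})
    (hG : JobUG.{u}) (sig : ∃ a, B.σ a ≠ a) (eps : B.ε = 1)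
    (big : 4 ≤ k ∨ (k = 3 ∧ ∃ τ, B.σ τ = τ ∧ τ ≠ 0 ∧ τ ≠ 1)) (ht : 2 ≤ t) :
    IsMaximalIn ((B.pow t).Iso ⊓ specialLinear (Fin t → Fin k) F)
      (TT k t F ⊓ ((B.pow t).Iso ⊓ specialLinear (Fin t → Fin k) F)) := by
  have hk : 3 ≤ k := by omega
  obtain ⟨x, hx⟩ := (hF F k B B.Iso sig eps hk le_rfl fun s hs _ => hs).1.ex
  obtain ⟨c, c0, hc⟩ := H59.exists_trace_zero_ne_zero (σ := (B.σ : F →+* F)) (fun e => by
    obtain ⟨a, ha⟩ := sig; exact ha (congrArg (fun f : F →+* F => f a) e)) B.invol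
  have sq := pure_sq (p := fun _ : Fin t => rf B x x) (i := ⟨0, by omega⟩) c (N_sq hx)
  refine max_of ⟨un _ sq, ⟨in_iso sq (by
      rw [adj_N, eps, one_pow, mul_one, ← neg_smul, ← eq_neg_of_add_eq_zero_right hc]; rfl),
    mem_SL.2 (det_one_add sq)⟩, rfl⟩ (N_not_mem ht hx c0) fun M h1 h2 => ?_
  have le : M ≤ (B.pow t).Iso := h2.trans inf_le_left
  obtain ⟨g1, g2, g3⟩ := hF F k B (Gam M) sig eps hk (Gam_le (by omega) le) fun s hs hd =>
    mem_Gam_of (by omega) h1 fun j => ⟨emG_mem_Iso hs j, mem_SL.2 (by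
      rw [coe_emG, det_em, hd, one_pow])⟩
  have c : UC B M := ⟨sig, eps, big, ht, le, cyc_of B.fperm_mem_Iso (le_inf
    (comm_le _) (commutator_le_SL _)) h1, g1, g2, g3⟩
  by_cases q : QQ M (RN B)
  · exact Or.inl ((hG F k t B M c q).le_T C hk (by omega))
  · exact Or.inr (hE F k t B M c (hQ F k t B M c q))

/-- The jobs for symplectic and orthogonal factors. -/
structure BJ : Prop where
  core : Core.{u}
  gfsp : JobGFSp.{u}
  gfo : JobGFO.{u}
  iso : JobBIso.{u}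
  q : JobBQ.{u}
  ql : JobBQL.{u}
  g : JobBG.{u}
  spEnd : JobSpEnd.{u}
  oEnd : JobOEnd.{u}
  k2q : JobK2Q.{u}
  k2r : JobK2R.{u}
  k2End : JobK2End.{u}

theorem BC.le_or (J : BJ.{u}) (c : BC B M) : M ≤ TT k t F ∨ AllR B M (-B.ε ^ t) := by
  by_cases q : QQ M (RN B)
  · exact Or.inl ((J.g F k t B M c (J.ql J.iso F k t B M c q)).le_T J.core
      (by rcases c.kind with h | h <;> omega) (by have := c.t2; omega))
  · exact Or.inr (J.q J.iso F k t B M c q)

/-- Context for symplectic factors of dimension at least four. -/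
theorem bc_sp (J : BJ.{u}) (sig : ∀ a, B.σ a = a) (alt : ∀ v, B.f v v = 0) (eps : B.ε = -1)
    (k4 : 4 ≤ k) (k6 : (2 : F) = 0 → 6 ≤ k) (ht : 2 ≤ t) (le : M ≤ (B.pow t).Iso) (cyc : Cyc M)
    (sp : B.Iso ≤ Gam M) : BC B M := by
  obtain ⟨g1, g2, g3, -⟩ := J.gfsp F k B sig alt eps (by omega)
  have e : Gam M = B.Iso := le_antisymm (Gam_le (by omega) le) sp
  exact ⟨sig, ht, le, cyc, e ▸ g1, g2 k4, Or.inl ⟨alt, eps, e ▸ g3, k4, k6⟩⟩

theorem max_Sp (J : BJ.{u}) (sig : ∀ a, B.σ a = a) (alt : ∀ v, B.f v v = 0) (eps : B.ε = -1)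
    (two : (2 : F) ≠ 0) (hk : 4 ≤ k ∨ (k = 2 ∧ ∃ a : F, a ≠ 0 ∧ a ^ 2 ≠ 1)) (odd : Odd t)
    (ht : 3 ≤ t) : IsMaximalIn (B.pow t).Iso (TT k t F ⊓ (B.pow t).Iso) := by
  obtain ⟨x, hx⟩ := (J.gfsp F k B sig alt eps (by omega)).1.ex
  have sq := pure_sq (p := fun _ : Fin t => rf B x x) (i := ⟨0, by omega⟩) 1 (N_sq hx)
  refine max_of ⟨un _ sq, in_iso sq (by rw [adj_N, eps, odd.neg_one_pow, sig]; simp), rfl⟩
    (N_not_mem (by omega) hx one_ne_zero) fun M h1 le => ?_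
  have cyc : Cyc M := cyc_of B.fperm_mem_Iso (comm_le _) h1
  have sp : B.Iso ≤ Gam M := fun s hs => mem_Gam_of (by omega) h1 (emG_mem_Iso hs)
  rcases hk with k4 | ⟨rfl, big⟩
  · refine ((bc_sp J sig alt eps k4 (fun h => absurd h two) (by omega) le cyc sp).le_or J).imp id
      fun h => J.spEnd F k t B M sig alt two odd fun x hx c _ => ?_
    have := h ⟨0, by omega⟩ x hx _ (alt _) (c / 2)
    rwa [eps, odd.neg_one_pow, neg_neg, one_smul, ← two_smul F, pure_update_smul, smul_smul,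
      div_mul_cancel₀ _ two, Function.update_eq_self] at this
  · have c : K2C B M := ⟨sig, alt, two, big, ht, le, sp, cyc⟩
    by_cases q : QQ M (RN B)
    · exact Or.inl (J.k2r F t B M c q)
    · rcases J.k2q F t B M c q with h | h
      · exact Or.inr (J.spEnd F 2 t B M sig alt two odd h.2)
      · exact absurd h.1 (Nat.not_even_iff_odd.2 odd)

omit [Finite F]

theorem omegaGL_comm {ι : Type} [Fintype ι] [DecidableEq ι] (q : (ι → F) → F) :
    omegaGL q = ⁅isometryGroup F q, isometryGroup F q⁆ := by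
  rw [omegaGL, Omega, commutator_def, Subgroup.map_commutator, ← MonoidHom.range_eq_map,
    Subgroup.range_subtype]

theorem omega_le {ι : Type} [Fintype ι] [DecidableEq ι] (q : (ι → F) → F) :
    omegaGL q ≤ isometryGroup F q := Subgroup.map_subtype_le _

theorem QF.iso_le (h : QF B Q) : isometryGroup F Q ≤ (B.pow t).Iso := fun g hg => by
  obtain ⟨c, c0, e⟩ := h.pol
  refine (B.pow t).mem_Iso.2 fun u v => mul_left_cancel₀ c0 ?_
  rw [← e, ← e, QuadraticMap.polar, QuadraticMap.polar, ← mulVec_add, mem_isometryGroup.1 hg,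
    mem_isometryGroup.1 hg, mem_isometryGroup.1 hg]

theorem QF.mem (h : QF B Q) (h2 : (2 : F) ≠ 0 ∨ ∀ v, B.f v v = 0) (ht : 0 < t)
    (hg : g ∈ (B.pow t).Iso) (hp : ∀ x, ∃ y, (g : EE k t F) *ᵥ pv x = pv y) :
    g ∈ isometryGroup F Q := by
  obtain ⟨c, -, e⟩ := h.pol
  have e1 : ∀ u v, QuadraticMap.polar Q ((g : EE k t F) *ᵥ u) ((g : EE k t F) *ᵥ v) =
      QuadraticMap.polar Q u v := fun u v => by rw [e, e, (B.pow t).mem_Iso.1 hg]
  refine mem_isometryGroup.2 fun v => ?_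
  rcases h2 with h2 | h2
  · have := e1 v v
    rw [QuadraticMap.polar_self, QuadraticMap.polar_self, two_nsmul, two_nsmul, ← two_mul,
      ← two_mul] at this
    exact mul_left_cancel₀ h2 this
  · let L : Submodule F (VV k t F) :=
      { carrier := {v | Q ((g : EE k t F) *ᵥ v) = Q v}
        zero_mem' := by simp
        add_mem' := fun {a b} ha hb => by
          simp only [Set.mem_setOf_eq] at *
          rw [mulVec_add, QuadraticMap.map_add Q, QuadraticMap.map_add Q, ha, hb, e1]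
        smul_mem' := fun r a ha => by
          simp only [Set.mem_setOf_eq] at *
          rw [mulVec_smul, Q.map_smul, Q.map_smul, ha] }
    have : L = ⊤ := span_pv (S := fun _ => Set.univ) (fun _ => Submodule.span_univ) fun x _ => by
      obtain ⟨y, hy⟩ := hp x
      change Q _ = Q _
      rw [hy, h.sing x ⟨0, ht⟩ (h2 _), h.sing y ⟨0, ht⟩ (h2 _)]
    exact (this.ge Submodule.mem_top : v ∈ L)

theorem QF.nondeg (h : QF B Q) : Q.polarBilin.Nondegenerate := by
  obtain ⟨c, c0, e⟩ := h.pol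
  exact H56.nondegenerate_of_polar fun x hx => (B.pow t).nondeg' x fun y =>
    (mul_eq_zero.1 (e x y ▸ hx y)).resolve_left c0

theorem QF.cyc (h : QF B Q) (h2 : (2 : F) ≠ 0 ∨ ∀ v, B.f v v = 0) (ht : 0 < t)
    (hM : TT k t F ⊓ omegaGL ⇑Q ≤ M) : Cyc M :=
  cyc_of (fun σ => h.mem h2 ht (B.fperm_mem_Iso σ) fun x => ⟨_, fperm_mulVec_pure σ x⟩)
    (omegaGL_comm _).ge hM

theorem QF.gam (h : QF B Q) (h2 : (2 : F) ≠ 0 ∨ ∀ v, B.f v v = 0) (hk : 2 ≤ k) (ht : 0 < t)
    (hM : TT k t F ⊓ omegaGL ⇑Q ≤ M) : ⁅B.Iso, B.Iso⁆ ≤ Gam M :=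
  Subgroup.commutator_le.2 fun a ha b hb => mem_Gam_of hk hM fun j => by
    rw [map_commutatorElement, omegaGL_comm]
    exact Subgroup.commutator_mem_commutator
      (h.mem h2 ht (emG_mem_Iso ha j) fun x => ⟨_, em_pv j _ x⟩)
      (h.mem h2 ht (emG_mem_Iso hb j) fun x => ⟨_, em_pv j _ x⟩)

/-- A Siegel element outside the stabiliser. -/
theorem QF.max_of (h : QF B Q) (sig : ∀ a, B.σ a = a) (ht : 2 ≤ t) (hk : 3 ≤ k ∨ (2 ≤ k ∧ 3 ≤ t))
    {x : Fin k → F} (hx : x ∈ IsoV B)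
    (H : ∀ M, TT k t F ⊓ omegaGL ⇑Q ≤ M → M ≤ omegaGL ⇑Q → M ≤ TT k t F ∨ omegaGL ⇑Q ≤ M) :
    IsMaximalIn (omegaGL ⇑Q) (TT k t F ⊓ omegaGL ⇑Q) := by
  obtain ⟨c, c0, e⟩ := h.pol
  let d : Fin t := ⟨1, by omega⟩
  let o : Fin t := ⟨0, by omega⟩
  have od : o ≠ d := by simp [o, d]
  obtain ⟨y, hy, hy'⟩ : ∃ y, y ∉ F ∙ x ∧ (3 ≤ k → B.f y x = 0) := by
    have h1 := finrank_span_singleton (K := F) hx.1
    by_cases k3 : 3 ≤ k
    · have h2 := (B.left x).finrank_range_add_finrank_ker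
      have h3 := (LinearMap.range (B.left x)).finrank_le
      obtain ⟨y, h4, h5⟩ := SetLike.not_le_iff_exists.1 fun hle : (B.left x).ker ≤ F ∙ x => by
        have := Submodule.finrank_mono hle
        simp only [finrank_self, finrank_fintype_fun_eq_card, Fintype.card_fin] at h2 h3
        omega
      exact ⟨y, h5, fun _ => h4⟩
    · obtain ⟨y, -, h5⟩ := SetLike.not_le_iff_exists.1 fun hle : ⊤ ≤ F ∙ x => by
        have := Submodule.finrank_mono hle
        simp only [finrank_top, finrank_fintype_fun_eq_card, Fintype.card_fin] at this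
        omega
      exact ⟨y, h5, fun h => absurd h k3⟩
  have r0 : rf B x y - rf B y x ≠ 0 := fun h0 => by
    obtain ⟨z, hz⟩ := exists_f_one (B := B) hx.1
    have := congrArg (· *ᵥ z) h0
    simp only [sub_mulVec, rf_mulVec, hz, one_smul, zero_mulVec, sub_eq_zero] at this
    exact hy (this ▸ Submodule.smul_mem _ _ (Submodule.mem_span_singleton_self x))
  let p := Function.update (fun _ : Fin t => rf B x x) d (rf B x y - rf B y x)
  have hp : ∀ l, p l ≠ 0 := fun l => by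
    by_cases e : l = d
    · simpa [p, e] using r0
    · simpa [p, e] using rf_ne_zero hx.1 hx.1
  obtain ⟨j, h1, h2⟩ : ∃ j, ¬ Sc (p j) ∧ j ≠ o := by
    rcases hk with k3 | ⟨-, t3⟩
    · refine ⟨d, fun ⟨r, hr⟩ => r0 ?_, od.symm⟩
      simp only [p, Function.update_self] at hr
      have := congrArg (· *ᵥ x) hr
      simp only [sub_mulVec, rf_mulVec, hx.2, B.eq_zero_comm.1 (hy' k3), zero_smul, sub_self,
        smul_mulVec, one_mulVec] at this
      rw [hr, (smul_eq_zero.1 this.symm).resolve_right hx.1, zero_smul]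
    · refine ⟨⟨2, by omega⟩, ?_, by simp [o]⟩
      rw [show p ⟨2, by omega⟩ = _ from Function.update_of_ne (by simp [d]) _ _]
      exact not_sc_of_sq (rf_ne_zero hx.1 hx.1) (N_sq hx)
  refine Wr.max_of ?_ (not_mem_T (i := o) c0 hp (by simpa [p, od] using N_sq hx) h1 h2) H
  have hX : Q (pv fun _ => x) = 0 := h.sing _ o hx.2
  have hY : Q (pv (Function.update (fun _ => x) d y)) = 0 := h.sing _ o (by simpa [od] using hx.2)
  have hXY : QuadraticMap.polar Q (pv fun _ => x) (pv (Function.update (fun _ => x) d y)) = 0 := by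
    rw [e, f_pv, Finset.prod_eq_zero (Finset.mem_univ o) (by simpa [od] using hx.2), mul_zero]
  have n4 : finrank F (VV k t F) ≠ 4 := by
    rw [finrank_V]
    rcases hk with h | ⟨h, h'⟩
    · have := (Nat.pow_le_pow_left h 2).trans (Nat.pow_le_pow_right (by omega) ht); omega
    · have := (Nat.pow_le_pow_left h 3).trans (Nat.pow_le_pow_right (by omega) h'); omega
  refine ⟨toGL Q (H56.eich Q (pv fun _ => x) (pv (Function.update (fun _ => x) d y))),
    (omegaGL_eq (Q := Q)).ge ⟨_, H56.eich_mem_commutator h.nondeg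
      (H56.not_isExc_of_finrank n4) _ _, rfl⟩,
    ext_mulVec fun v => ?_⟩
  have u : ∀ a b, Function.update (fun _ : Fin t => rf B x x) d (rf B a b) = fun j =>
      rf B (Function.update (fun _ => x) d a j) (Function.update (fun _ => x) d b j) := fun a b => by
    funext j; by_cases e : j = d <;> simp [e]
  rw [toGL_mulVec, H56.eich_apply hX hXY, hY, QuadraticMap.polar_comm Q _ v,
    QuadraticMap.polar_comm Q _ v, e, e, add_mulVec, one_mulVec, smul_mulVec, pure_update_sub, u, u,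
    sub_mulVec, pure_rf_mulVec, pure_rf_mulVec, Function.update_eq_self]
  module

variable [Finite F]

theorem max_OSp (J : BJ.{u}) (h : QF B Q) (sig : ∀ a, B.σ a = a) (alt : ∀ v, B.f v v = 0)
    (eps : B.ε = -1) (ht : 2 ≤ t) (ev : (2 : F) ≠ 0 → Even t) (k6 : (2 : F) = 0 → 6 ≤ k)
    (hk : 4 ≤ k ∨ (k = 2 ∧ 3 ≤ t ∧ ∃ a : F, a ≠ 0 ∧ a ^ 2 ≠ 1)) :
    IsMaximalIn (omegaGL ⇑Q) (TT k t F ⊓ omegaGL ⇑Q) := by
  obtain ⟨g1, -, -, g4⟩ := J.gfsp F k B sig alt eps (by omega)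
  obtain ⟨x, hx⟩ := g1.ex
  refine h.max_of sig ht (by omega) hx fun M h1 h2 => ?_
  have lq := h2.trans (omega_le _)
  have cyc := h.cyc (Or.inr alt) (by omega) h1
  have sp : B.Iso ≤ Gam M := (g4 (by
    by_cases two : (2 : F) = 0
    · exact Or.inl (k6 two)
    · exact Or.inr (hk.imp (⟨·, two⟩) fun h => h.2.2))).trans
      (h.gam (Or.inr alt) (by omega) (by omega) h1)
  rcases hk with k4 | ⟨rfl, t3, big⟩
  · have c := bc_sp J sig alt eps k4 k6 ht (lq.trans h.iso_le) cyc sp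
    refine (c.le_or J).imp id fun r => J.oEnd F k t B M Q c h lq ?_
    by_cases two : (2 : F) = 0
    · rwa [eps, show (-1 : F) = 1 by linear_combination -two, one_pow] at r
    · rwa [eps, (ev two).neg_one_pow] at r
  · have two : (2 : F) ≠ 0 := fun h => by have := k6 h; omega
    have c : K2C B M := ⟨sig, alt, two, big, t3, lq.trans h.iso_le, sp, cyc⟩
    by_cases q : QQ M (RN B)
    · exact Or.inl (J.k2r F t B M c q)
    · rcases J.k2q F t B M c q with r | r
      · exact absurd (ev two) (Nat.not_even_iff_odd.2 r.1)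
      · exact Or.inr (J.k2End F t B M Q c r.1 h lq r.2)

theorem max_OO (J : BJ.{u}) (h : QF B Q) (sig : ∀ a, B.σ a = a) (eps : B.ε = 1)
    (two : (2 : F) ≠ 0) (ht : 2 ≤ t) (hk : 5 ≤ k) :
    IsMaximalIn (omegaGL ⇑Q) (TT k t F ⊓ omegaGL ⇑Q) := by
  obtain ⟨x, hx⟩ := (J.gfo F k B B.Iso sig eps two hk le_rfl (comm_le _)).1.ex
  refine h.max_of sig ht (by omega) hx fun M h1 h2 => ?_
  have lq := h2.trans (omega_le _)
  have le := lq.trans h.iso_le
  obtain ⟨g1, g2⟩ := J.gfo F k B (Gam M) sig eps two hk (Gam_le (by omega) le)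
    (h.gam (Or.inl two) (by omega) (by omega) h1)
  have c : BC B M := ⟨sig, ht, le, h.cyc (Or.inl two) (by omega) h1, g1, g2, Or.inr ⟨eps, two, hk⟩⟩
  refine (c.le_or J).imp id fun r => J.oEnd F k t B M Q c h lq ?_
  rwa [eps, one_pow] at r

end H60.Wr
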