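/- Tensor-induced subgroups (class C7) with orthogonal factors of dimension three: the job
statements. Proofs: blueprints/C7-O3.md. -/
import Cfsg.Agent.H60.WrTop

set_option autoImplicit false

namespace H60.Wr
open Cfsg Cfsg.Geo Matrix H19 Module
open scoped MatrixGroups commutatorElement

universe u

section defs
variable {F : Type u} [Field F] {k t : ℕ}

/-- The group `Ω` of one factor. -/
abbrev G0 (B : Frm (Fin k) F) : Subgroup (GL (Fin k) F) := ⁅B.Iso, B.Iso⁆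
/-- The Eichler element `exp ρ`, `ρ = w φ_v - v φ_w`. -/
def eu (B : Frm (Fin k) F) (w v : Fin k → F) : Mk k F :=
  1 + (rf B w v - rf B v w) - (B.f v v / 2) • rf B w w
/-- The torus element `w ↦ l w`, `w' ↦ l⁻¹ w'`. -/
def hh (B : Frm (Fin k) F) (w w' : Fin k → F) (l : F) : Mk k F :=
  1 + (l - 1) • rf B w w' + (l⁻¹ - 1) • rf B w' w
/-- The negative of the reflection in `e`. -/
def zr (B : Frm (Fin k) F) (e : Fin k → F) : Mk k F := (2 / B.f e e) • rf B e e - 1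
/-- The maps `w φ_v - v φ_w`. -/
def RS (B : Frm (Fin k) F) : Set (Mk k F) :=
  {ν | ∃ w ∈ IsoV B, ∃ v, B.f v w = 0 ∧ v ∉ F ∙ w ∧ ν = rf B w v - rf B v w}

/-- A symmetric form in dimension three over a field of odd order at least five. -/
structure O3 (B : Frm (Fin 3) F) : Prop where
  sig : ∀ a, B.σ a = a
  eps : B.ε = 1
  two : (2 : F) ≠ 0
  big : ∃ a : F, a ≠ 0 ∧ a ^ 2 ≠ 1

/-- Linear algebra of one factor. -/
structure O3L (B : Frm (Fin 3) F) : Prop extends O3 B where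
  ex : (IsoV B).Nonempty
  hyp : ∀ w ∈ IsoV B, ∃ w' ∈ IsoV B, B.f w w' = 1
  frame : ∀ w ∈ IsoV B, ∀ w' ∈ IsoV B, B.f w w' = 1 → ∃ v, B.f v w = 0 ∧ B.f v w' = 0 ∧
    B.f v v ≠ 0 ∧ rf B w w' + rf B w' w + (B.f v v)⁻¹ • rf B v v = 1
  ns : ∀ w ∈ IsoV B, ∀ v, B.f v w = 0 → B.f v v = 0 → v ∈ F ∙ w
  sp : ∀ u, u ≠ 0 → Submodule.span F {y | y ∈ IsoV B ∧ B.f u y ≠ 0} = ⊤
  quad : ∀ X : Mk 3 F, (∀ w ∈ IsoV B, B.f (X *ᵥ w) w = 0) → Sc (X + B.adj X)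
  cent : ∀ X : Mk 3 F, (∀ w ∈ IsoV B, ∀ v, B.f v w = 0 → X * eu B w v = eu B w v * X) → Sc X
  unip : ∀ s ∈ B.Iso, IsNilpotent ((s : Mk 3 F) - 1) →
    ∃ w ∈ IsoV B, ∃ v, B.f v w = 0 ∧ (s : Mk 3 F) = eu B w v
  inv : ∀ s ∈ B.Iso, (s : Mk 3 F).det = 1 → s * s = 1 → s ≠ 1 →
    ∃ e, B.f e e ≠ 0 ∧ (s : Mk 3 F) = zr B e

/-- Facts on `Ω₃`. -/
structure O3F (B : Frm (Fin 3) F) : Prop extends O3L B where
  simple : IsSimpleGroup (G0 B)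
  nonab : ¬ IsMulCommutative (G0 B)
  eich : ∀ w ∈ IsoV B, ∀ v, B.f v w = 0 → In (G0 B) (eu B w v)
  tor : ∀ w ∈ IsoV B, ∀ w' ∈ IsoV B, B.f w w' = 1 → ∀ a : F, a ≠ 0 → In (G0 B) (hh B w w' (a ^ 2))
  tr : ∀ w ∈ IsoV B, ∀ w' ∈ IsoV B, ∃ h ∈ G0 B, ∃ c : F, (h : Mk 3 F) *ᵥ w = c • w'
  gen : ∀ N : Subgroup (GL (Fin 3) F), (∀ w ∈ IsoV B, ∀ v, B.f v w = 0 → In N (eu B w v)) →
    G0 B ≤ N
  exinv : ∃ z ∈ G0 B, z ≠ 1 ∧ z * z = 1

/-- The context for an overgroup. -/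
structure O3M (B : Frm (Fin 3) F) (M : Subgroup (GG 3 t F)) : Prop where
  f : O3F B
  t2 : 2 ≤ t
  le : M ≤ (B.pow t).Iso
  gam : G0 B ≤ Gam M
  cyc : Cyc M

/-- `y² = 1` and `y` is conjugate to an element of a factor. -/
def CI (y : GG k t F) : Prop := y * y = 1 ∧ ∃ g i b, (y : EE k t F) = cj g (em i b)

/-- Elements of `MI M I` centralising the stabiliser of an isotropic point centralise `A_m`. -/
def CB (B : Frm (Fin 3) F) (M : Subgroup (GG 3 t F)) (I : Finset (Fin t)) (m : Fin t) : Prop :=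
  ∀ w ∈ IsoV B, ∀ g ∈ MI M I, (∀ s ∈ G0 B, (∃ c : F, (s : Mk 3 F) *ᵥ w = c • w) →
    emG m s * g = g * emG m s) → InC m (g : EE 3 t F)

/-- `g` commutes with `N_e` in the `l`-th factor. -/
def Ce (B : Frm (Fin k) F) (l : Fin t) (e : Fin k → F) (g : GG k t F) : Prop :=
  em l (rf B e e) * (g : EE k t F) = g * em l (rf B e e)

/-- The group theoretic hypothesis. -/
structure GTH {G : Type u} [Group G] (H : Subgroup G) {ι : Type} (L : ι → Subgroup G) : Prop where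
  le : ∀ i, L i ≤ H
  simple : ∀ i, IsSimpleGroup (L i)
  nonab : ∀ i, ¬ IsMulCommutative (L i)
  comm : ∀ i j, i ≠ j → ∀ x ∈ L i, ∀ y ∈ L j, x * y = y * x
  perm : ∀ h ∈ H, ∀ i, ∃ j, ∀ x ∈ L i, h * x * h⁻¹ ∈ L j
  fix : ∀ i, ∀ z ∈ L i, z ≠ 1 → z * z = 1 → ∀ g : G, g * z * g⁻¹ ∈ H → g ∈ H

/-- Products of involutions of two factors fix only one coset. -/
def GTP {G : Type u} [Group G] (H : Subgroup G) {ι : Type} (L : ι → Subgroup G) : Prop :=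
  ∀ i j, i ≠ j → ∀ y ∈ L i, ∀ z ∈ L j, y ≠ 1 → y * y = 1 → z ≠ 1 → z * z = 1 →
    ∀ g : G, g * (y * z) * g⁻¹ ∈ H → g ∈ H

end defs

def JobO3L : Prop := ∀ (F : Type u) [Field F] [Finite F] (B : Frm (Fin 3) F), O3 B → O3L B

def JobO3G : Prop := ∀ (F : Type u) [Field F] [Finite F] (B : Frm (Fin 3) F), O3L B → O3F B

def JobO3Iso : Prop := ∀ (F : Type u) [Field F] [Finite F] (t : ℕ) (B : Frm (Fin 3) F),
  O3F B → IsoP t (G0 B) ∅ (RN B ∪ RS B)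

def JobO3Q : Prop := JobO3Iso.{u} → ∀ (F : Type u) [Field F] [Finite F] (t : ℕ)
  (B : Frm (Fin 3) F) (M : Subgroup (GG 3 t F)), O3M B M → ¬ QQ M (RN B) → AllR B M (-1)

def JobO3End : Prop := ∀ (F : Type u) [Field F] [Finite F] (t : ℕ) (B : Frm (Fin 3) F)
  (M : Subgroup (GG 3 t F)) (Q : QuadraticForm F (VV 3 t F)), O3M B M → QF B Q →
  M ≤ isometryGroup F Q → AllR B M (-1) → omegaGL ⇑Q ≤ M

def JobO3QL : Prop := JobO3Iso.{u} → ∀ (F : Type u) [Field F] [Finite F] (t : ℕ)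
  (B : Frm (Fin 3) F) (M : Subgroup (GG 3 t F)), O3M B M → QQ M (RN B) →
  ∀ i, ∀ w ∈ IsoV B, QL M i w (pp B w)

def JobO3PW : Prop := ∀ (F : Type u) [Field F] [Finite F] (t : ℕ) (B : Frm (Fin 3) F)
  (M : Subgroup (GG 3 t F)), O3M B M → (∀ i, ∀ w ∈ IsoV B, QL M i w (pp B w)) → PW M (IsoV B)

def JobO3Rig2 : Prop := ∀ (F : Type u) [Field F] (t : ℕ) (y : GG 3 t F), (2 : F) ≠ 0 → CI y →
  (∀ l, Nm y l l → InA l (y : EE 3 t F) ∨ InC l (y : EE 3 t F)) ∧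
    ∀ i j l, Nm y i j → i ≠ j → l ≠ i → l ≠ j → InC l (y : EE 3 t F)

def JobO3Rig3 : Prop := ∀ (F : Type u) [Field F] [Finite F] (t : ℕ) (B : Frm (Fin 3) F)
  (y : GG 3 t F), O3L B → (5 : F) = 0 → 0 < t → y ∈ TT 3 t F → y ∈ (B.pow t).Iso →
  ((y : EE 3 t F) - 1) ^ 3 = 0 → ∃ j, InA j (y : EE 3 t F)

def JobO3FL : Prop := JobO3Rig2.{u} → ∀ (F : Type u) [Field F] [Finite F] (t : ℕ)
  (B : Frm (Fin 3) F) (g : GG 3 t F) (l : Fin t), O3F B →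
  (∀ s ∈ G0 B, g * emG l s * g⁻¹ ∈ TT 3 t F) → ∃ l', Nm g l l'

def JobO3PE : Prop := ∀ (F : Type u) [Field F] [Finite F] (t : ℕ) (B : Frm (Fin 3) F)
  (g : GG 3 t F) (l : Fin t) (e : Fin 3 → F), O3L B → g ∈ (B.pow t).Iso →
  IsNilpotent ((g : EE 3 t F) - 1) → Nm g l l → B.f e e ≠ 0 → Ce B l e g → InC l (g : EE 3 t F)

def JobO3CB : Prop := JobO3Rig3.{u} → ∀ (F : Type u) [Field F] [Finite F] (t : ℕ)
  (B : Frm (Fin 3) F) (M : Subgroup (GG 3 t F)) (I : Finset (Fin t)) (m : Fin t), O3M B M →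
  PW M (IsoV B) → m ∈ I → MI M (I.erase m) ≤ TT 3 t F → CB B M I m

def JobO3KG : Prop := ∀ (F : Type u) [Field F] [Finite F] (ι : Type) [Fintype ι] [DecidableEq ι]
  (K C : Subgroup (GL ι F)) (U : F → GL ι F), (2 : F) ≠ 0 → (∃ a : F, a ≠ 0 ∧ a ^ 2 ≠ 1) →
  (∀ r s, U (r + s) = U r * U s) → (∀ s, U s = 1 → s = 0) →
  (∀ s, ((U s : Matrix ι ι F) - 1) ^ 3 = 0) → (∀ s, ∀ x ∈ K, U s * x * (U s)⁻¹ ∈ K) →
  (∀ s, s ≠ 0 → ∀ x ∈ K, U s * x = x * U s → x ∈ C) →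
  (∀ x ∈ K, x ∈ C → IsNilpotent ((x : Matrix ι ι F) - 1) → x = 1) → K ≤ C

def JobO3KL : Prop := JobO3KG.{u} → JobO3PE.{u} → ∀ (F : Type u) [Field F] [Finite F] (t : ℕ)
  (B : Frm (Fin 3) F) (M : Subgroup (GG 3 t F)) (I : Finset (Fin t)) (m : Fin t)
  (e : Fin t → Fin 3 → F) (g : GG 3 t F), O3M B M → PW M (IsoV B) → m ∈ I →
  MI M (I.erase m) ≤ TT 3 t F → CB B M I m → (∀ l, B.f (e l) (e l) ≠ 0) → g ∈ MI M I →
  (∀ l, l ≠ m → Ce B l (e l) g) → Nm g m m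

def JobGT1 : Prop := ∀ (G : Type u) [Group G] [Finite G] (H : Subgroup G) (ι : Type)
  (L : ι → Subgroup G), GTH H L → GTP H L

def JobGT2 : Prop := ∀ (G : Type u) [Group G] [Finite G] (H : Subgroup G) (ι : Type)
  (L : ι → Subgroup G), Nonempty ι → GTH H L → GTP H L → H = ⊤

end H60.Wr
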