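/- Tensor-induced subgroups (class C7) with factors of dimension four and Witt index one: the job
statements. Proofs: blueprints/C7-O4.md. -/
import Cfsg.Agent.H60.WrO3Spec

set_option autoImplicit false

namespace H60.Wr
open Cfsg Cfsg.Geo Matrix H19 Module
open scoped MatrixGroups commutatorElement

universe u

section defs
variable {F : Type u} [Field F] {t : ℕ}

/-- The reflection in `e`. -/
def rl (B : Frm (Fin 4) F) (e : Fin 4 → F) : Mk 4 F := 1 - (2 / B.f e e) • rf B e e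
/-- The projection onto the plane spanned by the orthogonal vectors `a`, `b`. -/
def pj (B : Frm (Fin 4) F) (a b : Fin 4 → F) : Mk 4 F :=
  (B.f a a)⁻¹ • rf B a a + (B.f b b)⁻¹ • rf B b b
/-- The rotation `a ↦ b`, `b ↦ -a` (for `f a a = f b b`), zero on the complement. -/
def jj (B : Frm (Fin 4) F) (a b : Fin 4 → F) : Mk 4 F := (B.f a a)⁻¹ • (rf B b a - rf B a b)
/-- The matrix of `α + β √-1`. -/
def bl (α β : Mk 4 F) : Matrix (Fin 4 ⊕ Fin 4) (Fin 4 ⊕ Fin 4) F := fromBlocks α (-β) β α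

/-- A symmetric form in dimension four without totally isotropic planes. -/
structure O4 (B : Frm (Fin 4) F) : Prop where
  sig : ∀ a, B.σ a = a
  eps : B.ε = 1
  two : (2 : F) ≠ 0
  ns : ∀ w ∈ IsoV B, ∀ v, B.f v w = 0 → B.f v v = 0 → v ∈ F ∙ w

/-- A hyperbolic pair and an orthogonal basis of its complement. -/
structure Fr4 (B : Frm (Fin 4) F) (w w' v v' : Fin 4 → F) : Prop where
  hw : w ∈ IsoV B
  hw' : w' ∈ IsoV B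
  ww : B.f w w' = 1
  vw : B.f v w = 0
  vw' : B.f v w' = 0
  uw : B.f v' w = 0
  uw' : B.f v' w' = 0
  vu : B.f v v' = 0
  vv : B.f v v ≠ 0
  uu : B.f v' v' ≠ 0
  one : rf B w w' + rf B w' w + pj B v v' = 1

/-- An orthogonal basis. -/
structure Ob (B : Frm (Fin 4) F) (a b c d : Fin 4 → F) : Prop where
  aa : B.f a a ≠ 0
  bb : B.f b b ≠ 0
  cc : B.f c c ≠ 0
  dd : B.f d d ≠ 0
  ab : B.f a b = 0
  ac : B.f a c = 0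
  ad : B.f a d = 0
  bc : B.f b c = 0
  bd : B.f b d = 0
  cd : B.f c d = 0
  one : pj B a b + pj B c d = 1

/-- The square roots in `Ω` of the involutions of `Ω`. -/
def Xi (B : Frm (Fin 4) F) (ξ : GL (Fin 4) F) : Prop :=
  ξ ∈ G0 B ∧ ∃ (a b c d : Fin 4 → F) (ε : F), Ob B a b c d ∧ B.f a a = B.f b b ∧
    (ε = 1 ∨ ε = -1) ∧ (ξ : Mk 4 F) = ε • pj B c d + jj B a b

/-- Linear algebra of one factor, first part. -/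
structure O4K (B : Frm (Fin 4) F) : Prop extends O4 B where
  ex : (IsoV B).Nonempty
  hyp : ∀ w ∈ IsoV B, ∃ w' ∈ IsoV B, B.f w w' = 1
  frame : ∀ w ∈ IsoV B, ∀ w' ∈ IsoV B, B.f w w' = 1 → ∃ v v', Fr4 B w w' v v'
  frv : ∀ w ∈ IsoV B, ∀ w' ∈ IsoV B, B.f w w' = 1 → ∀ v, v ≠ 0 → B.f v w = 0 → B.f v w' = 0 →
    ∃ v', Fr4 B w w' v v'
  sp : ∀ u, u ≠ 0 → Submodule.span F {y | y ∈ IsoV B ∧ B.f u y ≠ 0} = ⊤
  quad : ∀ X : Mk 4 F, (∀ w ∈ IsoV B, B.f (X *ᵥ w) w = 0) → Sc (X + B.adj X)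
  sci : ∀ X : Mk 4 F, (∀ w ∈ IsoV B, ∃ c : F, X *ᵥ w = c • w) → Sc X
  cent : ∀ X : Mk 4 F, (∀ w ∈ IsoV B, ∀ v, B.f v w = 0 → X * eu B w v = eu B w v * X) → Sc X
  sim : ∀ X : Mk 4 F, Sc (B.adj X * X) → Sc (X + B.adj X) → Sc X
  rlI : ∀ e, B.f e e ≠ 0 → In B.Iso (rl B e)

/-- Linear algebra of one factor. -/
structure O4L (B : Frm (Fin 4) F) : Prop extends O4K B where
  unip : ∀ s ∈ B.Iso, IsNilpotent ((s : Mk 4 F) - 1) →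
    ∃ w ∈ IsoV B, ∃ v, B.f v w = 0 ∧ (s : Mk 4 F) = eu B w v
  inv : ∀ X : Mk 4 F, B.adj X = X → X * X = 1 → X = 1 ∨ X = -1 ∨
    (∃ e, B.f e e ≠ 0 ∧ (X = rl B e ∨ X = -rl B e)) ∨
    ∃ a b c d, Ob B a b c d ∧ X = pj B c d - pj B a b
  uz : ∀ a b c d, Ob B a b c d → ∀ w ∈ IsoV B, ∀ v, B.f v w = 0 →
    eu B w v * pj B c d = pj B c d * eu B w v → v ∈ F ∙ w
  x2 : ∀ ξ, Xi B ξ → ∀ s ∈ B.Iso, s * s = ξ * ξ →
    (s : Mk 4 F) * (1 + (ξ : Mk 4 F) * (ξ : Mk 4 F)) =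
      (ξ : Mk 4 F) * (1 + (ξ : Mk 4 F) * (ξ : Mk 4 F)) → s = ξ ∨ s = ξ⁻¹
  x5 : ∀ a b c d, Ob B a b c d → ∃ w w' v v', Fr4 B w w' v v' ∧
    (pj B a b = pj B v v' ∨ pj B c d = pj B v v')

/-- Facts on `Ω₄⁻`, first part. -/
structure O4E (B : Frm (Fin 4) F) : Prop extends O4L B where
  simple : IsSimpleGroup (G0 B)
  nonab : ¬ IsMulCommutative (G0 B)
  eich : ∀ w ∈ IsoV B, ∀ v, B.f v w = 0 → In (G0 B) (eu B w v)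
  tor : ∀ w ∈ IsoV B, ∀ w' ∈ IsoV B, B.f w w' = 1 → ∀ a : F, a ≠ 0 → In (G0 B) (hh B w w' (a ^ 2))
  gen : ∀ N : Subgroup (GL (Fin 4) F), (∀ w ∈ IsoV B, ∀ v, B.f v w = 0 → In N (eu B w v)) →
    G0 B ≤ N
  genr : ∀ N : Subgroup (GL (Fin 4) F), (∀ e, B.f e e ≠ 0 → In N (rl B e)) → B.Iso ≤ N
  so : ∀ s ∈ B.Iso, (s : Mk 4 F).det = 1 → s ∈ G0 B ∨ -s ∈ G0 B
  neg : -1 ∉ G0 B
  sn : ∀ a b, B.f a a ≠ 0 → B.f b b ≠ 0 →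
    (In (G0 B) (rl B a * rl B b) ↔ IsSquare (B.f a a * B.f b b))
  card3 : (∀ a : F, a = 0 ∨ a ^ 2 = 1) → Nat.card (IsoV B) = 20 ∧ Nat.card (G0 B) = 360

/-- Facts on `Ω₄⁻`. -/
structure O4F (B : Frm (Fin 4) F) : Prop extends O4E B where
  torpm : ∀ w ∈ IsoV B, ∀ w' ∈ IsoV B, B.f w w' = 1 → ∀ l : F, l ≠ 0 →
    In (G0 B) (hh B w w' l) ∨ In (G0 B) (-hh B w w' l)
  trx : ∀ w ∈ IsoV B, ∀ w' ∈ IsoV B, ∃ h ∈ G0 B, (h : Mk 4 F) *ᵥ w = w'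
  x1 : ∀ z ∈ G0 B, z ≠ 1 → z * z = 1 → ∃ ξ, Xi B ξ ∧ z = ξ * ξ
  exx : ∃ ξ, Xi B ξ
  geninv : ∀ N : Subgroup (GL (Fin 4) F), (∀ ξ, Xi B ξ → ξ * ξ ∈ N) → G0 B ≤ N

/-- The similarities whose square is a scalar. -/
def X3 (B : Frm (Fin 4) F) : Prop :=
  ∀ b : GL (Fin 4) F, Sc (B.adj b * (b : Mk 4 F)) → Sc ((b : Mk 4 F) * (b : Mk 4 F)) →
    (∃ w ∈ IsoV B, ∃ v, B.f v w = 0 ∧ v ∉ F ∙ w ∧
      (b : Mk 4 F) * eu B w v = eu B w v * (b : Mk 4 F)) ∨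
    (∃ ξ, Xi B ξ ∧ b * ξ = ξ * b) ∨
    ∃ ξ ξ', Xi B ξ ∧ Xi B ξ' ∧ b * ξ * b⁻¹ = ξ⁻¹ ∧ b * ξ' * b⁻¹ = ξ'⁻¹ ∧
      LinearIndependent F fun r : Fin 4 => ((ξ * ξ * (ξ' * ξ') : GL (Fin 4) F) : Mk 4 F) ^ (r : ℕ)

/-- The context for an overgroup. -/
structure O4M (B : Frm (Fin 4) F) (M : Subgroup (GG 4 t F)) : Prop where
  f : O4F B
  t2 : 2 ≤ t
  le : M ≤ (B.pow t).Iso
  gam : G0 B ≤ Gam M
  cyc : Cyc M
  pair : ∀ i j, i ≠ j → ∀ s ∈ B.Iso, emG i s * (emG j s)⁻¹ ∈ M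
  refl : 3 ≤ t → B.Iso ≤ Gam M

/-- Isolation of the maps `N_w` with `Ω` only. -/
def IsoN (t : ℕ) (B : Frm (Fin 4) F) : Prop :=
  ∀ (j : Fin t) (ℬ : AddSubgroup (EE 4 t F)), (∀ s ∈ G0 B, ∀ X ∈ ℬ, cj (emG j s) X ∈ ℬ) →
    ∀ γ ∈ ℬ, ∀ w ∈ IsoV B, ∃ c : F, c ≠ 0 ∧ em j (rf B w w) * (c • ct j (ph B w) w γ) ∈ ℬ

/-- Elements of `MI M I` centralising the stabiliser of an isotropic point centralise `A_m`. -/
def CB4 (B : Frm (Fin 4) F) (M : Subgroup (GG 4 t F)) (I : Finset (Fin t)) (m : Fin t) : Prop :=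
  ∀ w ∈ IsoV B, ∀ g ∈ MI M I, (∀ s ∈ G0 B, (∃ c : F, (s : Mk 4 F) *ᵥ w = c • w) →
    emG m s * g = g * emG m s) → InC m (g : EE 4 t F)

/-- The context of the fusion argument. -/
structure GC (B : Frm (Fin 4) F) (G : Subgroup (GG 4 t F)) (R : Finset (Fin t)) : Prop where
  f : O4F B
  le : G ≤ (B.pow t).Iso
  mem : ∀ j ∈ R, ∀ s ∈ G0 B, emG j s ∈ G
  out : ∀ g ∈ G, g ∈ TT 4 t F → ∀ l ∉ R, Nm g l l
  ru : ∀ g ∈ G, ∀ j ∈ R, ∀ w ∈ IsoV B, ∀ v, B.f v w = 0 → v ∉ F ∙ w →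
    In (TT 4 t F) (cj g (em j (eu B w v))) → g ∈ TT 4 t F
  h1 : ∀ g ∈ G, ∀ j ∈ R, ∀ w ∈ IsoV B, ∀ l w', w' ≠ 0 → Maps g j w l w' → g ∈ TT 4 t F

/-- At least two elements. -/
def R2 (R : Finset (Fin t)) : Prop := ∃ a ∈ R, ∃ b ∈ R, a ≠ b

/-- The centralisers of the involutions of the factors stabilise the decomposition. -/
def CZ (B : Frm (Fin 4) F) (G : Subgroup (GG 4 t F)) (R : Finset (Fin t)) : Prop :=
  ∀ i ∈ R, ∀ ξ, Xi B ξ → ∀ g ∈ G, g * emG i (ξ * ξ) = emG i (ξ * ξ) * g → g ∈ TT 4 t F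

/-- The centraliser of `ξ²` normalises `⟨ξ⟩`. -/
def NX (B : Frm (Fin 4) F) (G : Subgroup (GG 4 t F)) (R : Finset (Fin t)) : Prop :=
  ∀ i ∈ R, ∀ ξ, Xi B ξ → ∀ g ∈ G, g * emG i (ξ * ξ) = emG i (ξ * ξ) * g →
    g * emG i ξ * g⁻¹ = emG i ξ ∨ g * emG i ξ * g⁻¹ = (emG i ξ)⁻¹

/-- Elements trivial up to sign on `U ⊗ ⟨c, d⟩` lie in the factor. -/
def KP (B : Frm (Fin 4) F) (G : Subgroup (GG 4 t F)) (R : Finset (Fin t)) : Prop :=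
  ∀ i ∈ R, ∀ a b c d, Ob B a b c d → ∀ g ∈ G,
    (g : EE 4 t F) * em i (pj B c d) = em i (pj B c d) * (g : EE 4 t F) →
    ((g : EE 4 t F) * em i (pj B c d) = em i (pj B c d) ∨
      (g : EE 4 t F) * em i (pj B c d) = -em i (pj B c d)) → InA i (g : EE 4 t F)

end defs

def JobO4K : Prop := ∀ (F : Type u) [Field F] [Finite F] (B : Frm (Fin 4) F), O4 B → O4K B

def JobO4L : Prop := ∀ (F : Type u) [Field F] [Finite F] (B : Frm (Fin 4) F), O4K B → O4L B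

def JobO4E : Prop := ∀ (F : Type u) [Field F] [Finite F] (B : Frm (Fin 4) F), O4L B → O4E B

def JobO4F : Prop := ∀ (F : Type u) [Field F] [Finite F] (B : Frm (Fin 4) F), O4E B → O4F B

def JobO4X3 : Prop := ∀ (F : Type u) [Field F] [Finite F] (B : Frm (Fin 4) F), O4F B → X3 B

def JobO4M : Prop := ∀ (F : Type u) [Field F] [Finite F] (t : ℕ) (B : Frm (Fin 4) F)
  (M : Subgroup (GG 4 t F)) (Q : QuadraticForm F (VV 4 t F)), O4F B → QF B Q → 2 ≤ t →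
  TT 4 t F ⊓ omegaGL ⇑Q ≤ M → M ≤ omegaGL ⇑Q → O4M B M

def JobO4Iso : Prop := ∀ (F : Type u) [Field F] [Finite F] (t : ℕ) (B : Frm (Fin 4) F),
  O4F B → IsoP t B.Iso ∅ (RN B ∪ RS B) ∧ IsoN t B

def JobO4Q : Prop := JobO4Iso.{u} → ∀ (F : Type u) [Field F] [Finite F] (t : ℕ)
  (B : Frm (Fin 4) F) (M : Subgroup (GG 4 t F)), O4M B M → ¬ QQ M (RN B) → AllR B M (-1)

def JobO4End : Prop := ∀ (F : Type u) [Field F] [Finite F] (t : ℕ) (B : Frm (Fin 4) F)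
  (M : Subgroup (GG 4 t F)) (Q : QuadraticForm F (VV 4 t F)), O4M B M → QF B Q →
  M ≤ isometryGroup F Q → AllR B M (-1) → omegaGL ⇑Q ≤ M

def JobO4QL : Prop := JobO4Iso.{u} → ∀ (F : Type u) [Field F] [Finite F] (t : ℕ)
  (B : Frm (Fin 4) F) (M : Subgroup (GG 4 t F)), O4M B M → QQ M (RN B) →
  ∀ i, ∀ w ∈ IsoV B, QL M i w (pp B w)

def JobO4Rig3 : Prop := ∀ (F : Type u) [Field F] [Finite F] (t : ℕ) (B : Frm (Fin 4) F)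
  (y : GG 4 t F), O4L B → 0 < t → y ∈ TT 4 t F → y ∈ (B.pow t).Iso →
  ((y : EE 4 t F) - 1) ^ 3 = 0 → finrank F (rg (((y : EE 4 t F) - 1) ^ 2)) ≤ 4 ^ (t - 1) →
  ∃ j, InA j (y : EE 4 t F)

/-- The form of `JobO4Rig3` which is used. -/
def Rig3' : Prop := ∀ (F : Type u) [Field F] [Finite F] (t : ℕ) (B : Frm (Fin 4) F)
  (g : GG 4 t F) (i : Fin t) (w v : Fin 4 → F), O4L B → g ∈ (B.pow t).Iso → w ∈ IsoV B →
  B.f v w = 0 → v ∉ F ∙ w → In (TT 4 t F) (cj g (em i (eu B w v))) →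
  ∃ j, InA j (cj g (em i (eu B w v))) ∧ InA j (cj g (em i (rf B w w)))

def JobO4PW : Prop := Rig3'.{u} → ∀ (F : Type u) [Field F] [Finite F] (t : ℕ)
  (B : Frm (Fin 4) F) (M : Subgroup (GG 4 t F)), O4M B M →
  (∀ i, ∀ w ∈ IsoV B, QL M i w (pp B w)) → PW M (IsoV B)

def JobO4FL : Prop := Rig3'.{u} → ∀ (F : Type u) [Field F] [Finite F] (t : ℕ)
  (B : Frm (Fin 4) F) (g : GG 4 t F) (l : Fin t), O4F B → g ∈ (B.pow t).Iso →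
  (∀ s ∈ G0 B, g * emG l s * g⁻¹ ∈ TT 4 t F) → ∃ l', Nm g l l'

def JobO4Rig4 : Prop := ∀ (F : Type u) [Field F] [Finite F] (t : ℕ) (B : Frm (Fin 4) F)
  (y : GG 4 t F) (i : Fin t) (ε : F), O4L B → y ∈ (B.pow t).Iso → Nm y i i → (ε = 1 ∨ ε = -1) →
  (ε • (y : EE 4 t F) - 1) * (((y * y : GG 4 t F) : EE 4 t F) + 1) = 0 →
  InC i ((y * y : GG 4 t F) : EE 4 t F) ∨ InA i ((y * y : GG 4 t F) : EE 4 t F)

def JobO4CB : Prop := Rig3'.{u} → ∀ (F : Type u) [Field F] [Finite F] (t : ℕ)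
  (B : Frm (Fin 4) F) (M : Subgroup (GG 4 t F)) (I : Finset (Fin t)) (m : Fin t), O4M B M →
  PW M (IsoV B) → m ∈ I → MI M (I.erase m) ≤ TT 4 t F → CB4 B M I m

def JobO4KG : Prop := ∀ (F : Type u) [Field F] [Finite F] (t : ℕ) (B : Frm (Fin 4) F)
  (G K : Subgroup (GG 4 t F)) (R : Finset (Fin t)) (j : Fin t), GC B G R → j ∈ R → K ≤ G →
  (∀ s ∈ G0 B, ∀ x ∈ K, emG j s * x * (emG j s)⁻¹ ∈ K) →
  (∀ x ∈ K, x ∈ TT 4 t F → IsNilpotent ((x : EE 4 t F) - 1) → x = 1) → K ≤ TT 4 t F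

def JobO4KP : Prop := JobO4KG.{u} → ∀ (F : Type u) [Field F] [Finite F] (t : ℕ)
  (B : Frm (Fin 4) F) (G : Subgroup (GG 4 t F)) (R : Finset (Fin t)), GC B G R → R2 R → KP B G R

def JobO4CZ : Prop := ∀ (F : Type u) [Field F] [Finite F] (t : ℕ) (B : Frm (Fin 4) F)
  (G : Subgroup (GG 4 t F)) (R : Finset (Fin t)), GC B G R → KP B G R → NX B G R ∧
  ((∃ a : F, a ≠ 0 ∧ a ^ 2 ≠ 1) → CZ B G R) ∧
  ((∀ i ∈ R, ∀ ξ, Xi B ξ → ∀ g ∈ G, g * emG i ξ = emG i ξ * g → g ∈ TT 4 t F) → CZ B G R)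

def JobO4Fus : Prop := JobO4Rig4.{u} → ∀ (F : Type u) [Field F] [Finite F] (t : ℕ)
  (B : Frm (Fin 4) F) (G : Subgroup (GG 4 t F)) (R : Finset (Fin t)), X3 B → GC B G R → R2 R →
  CZ B G R → NX B G R → ∀ i ∈ R, ∀ ξ, Xi B ξ → ∀ g ∈ G,
  g * emG i (ξ * ξ) * g⁻¹ ∈ TT 4 t F → g ∈ TT 4 t F

def JobO4B3 : Prop := ∀ (F : Type u) [Field F] [Finite F] (B : Frm (Fin 4) F)
  (G H : Subgroup (GL (Fin 4 ⊕ Fin 4) F)), O4F B → (∀ a : F, a = 0 ∨ a ^ 2 = 1) → H ≤ G →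
  (∀ g ∈ G, ∃ α β, (g : Matrix (Fin 4 ⊕ Fin 4) (Fin 4 ⊕ Fin 4) F) = bl α β ∧
    B.adj α * α + B.adj β * β = 1 ∧ B.adj α * β = B.adj β * α) →
  (∀ s ∈ G0 B, In H (bl s 0)) →
  (∀ g ∈ G, ∀ w ∈ IsoV B, ∀ v, B.f v w = 0 → v ∉ F ∙ w → In H (cj g (bl (eu B w v) 0)) → g ∈ H) →
  G ≤ H

def JobO4Base : Prop := JobO4KG.{u} → JobO4B3.{u} → ∀ (F : Type u) [Field F] [Finite F] (t : ℕ)
  (B : Frm (Fin 4) F) (G : Subgroup (GG 4 t F)) (m : Fin t) (ξ : Fin t → GL (Fin 4) F),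
  GC B G {m} → 2 ≤ t → (∀ a : F, a = 0 ∨ a ^ 2 = 1) → (∀ l, Xi B (ξ l)) →
  (∀ g ∈ G, ∀ l, l ≠ m → g * emG l (ξ l) = emG l (ξ l) * g) → G ≤ TT 4 t F

end H60.Wr
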