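/- C7-O4 tower: the kit (one factor). -/
import Cfsg.Agent.H60.WrO4Spec

set_option autoImplicit false

namespace H60.Wr
open Cfsg Cfsg.Geo Matrix H19 Module
open scoped MatrixGroups commutatorElement

universe u

variable {F : Type u} [Field F] {B : Frm (Fin 4) F} {w w' v v' x y a b c d e : Fin 4 → F}
  {X Y : Mk 4 F} {ξ : GL (Fin 4) F}

theorem rep2 [Finite F] (h2 : (2 : F) ≠ 0) {n n' : F} (hn : n ≠ 0) (hn' : n' ≠ 0) (r : F) :
    ∃ x y : F, n * x ^ 2 + n' * y ^ 2 = r := by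
  classical
  have := Fintype.ofFinite F
  have od : Fintype.card F % 2 = 1 := by
    by_contra h
    exact h2 (two_eq_zero_of_not_odd (by rwa [Nat.odd_iff]))
  obtain ⟨x, y, h⟩ := FiniteField.exists_root_sum_quadratic
    (f := Polynomial.C n * Polynomial.X ^ 2) (g := Polynomial.C n' * Polynomial.X ^ 2 - Polynomial.C r)
    (by rw [Polynomial.degree_C_mul_X_pow _ hn]; rfl) (by
      rw [Polynomial.degree_sub_C] <;> rw [Polynomial.degree_C_mul_X_pow _ hn'] <;> decide) od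
  exact ⟨x, y, by simpa [← add_sub_assoc, sub_eq_zero] using h⟩

theorem eu_mulVec4 (B : Frm (Fin 4) F) (w v x : Fin 4 → F) : eu B w v *ᵥ x =
    x + (B.f x v • w - B.f x w • v) - (B.f v v / 2 * B.f x w) • w := by
  simp only [eu, sub_mulVec, add_mulVec, smul_mulVec, one_mulVec, rf_mulVec, smul_smul]

theorem rl_mulVec (B : Frm (Fin 4) F) (e x : Fin 4 → F) :
    rl B e *ᵥ x = x - (2 / B.f e e * B.f x e) • e := by
  simp only [rl, sub_mulVec, smul_mulVec, one_mulVec, rf_mulVec, smul_smul]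

theorem pj_mulVec (B : Frm (Fin 4) F) (a b x : Fin 4 → F) :
    pj B a b *ᵥ x = ((B.f a a)⁻¹ * B.f x a) • a + ((B.f b b)⁻¹ * B.f x b) • b := by
  simp only [pj, add_mulVec, smul_mulVec, rf_mulVec, smul_smul]

theorem jj_mulVec (B : Frm (Fin 4) F) (a b x : Fin 4 → F) :
    jj B a b *ᵥ x = ((B.f a a)⁻¹ * B.f x a) • b - ((B.f a a)⁻¹ * B.f x b) • a := by
  simp only [jj, sub_mulVec, smul_mulVec, rf_mulVec, smul_sub, smul_smul]

theorem hh_mulVec (B : Frm (Fin 4) F) (w w' x : Fin 4 → F) (l : F) :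
    hh B w w' l *ᵥ x = x + ((l - 1) * B.f x w') • w + ((l⁻¹ - 1) * B.f x w) • w' := by
  simp only [hh, add_mulVec, smul_mulVec, one_mulVec, rf_mulVec, smul_smul]

theorem pj_comm (B : Frm (Fin 4) F) (a b : Fin 4 → F) : pj B a b = pj B b a := add_comm _ _

theorem rl_sq (he : B.f e e ≠ 0) : rl B e * rl B e = 1 := by
  simp only [rl, mul_sub, sub_mul, one_mul, mul_one, smul_mul_assoc, mul_smul_comm, rf_mul_rf]
  match_scalars <;> field_simp <;> ring1

theorem det_rl (he : B.f e e ≠ 0) : (rl B e).det = -1 := by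
  rw [rl, ← ro_smul_left, ro, vecMulVec_eq Unit, det_one_sub_mul_comm, det_unique]
  simp only [Matrix.sub_apply, one_apply_eq, replicateRow_mul_replicateCol_apply, dotProduct_smul,
    ph_dot, smul_eq_mul]
  field_simp
  norm_num

namespace O4
variable (H : O4 B)
include H

theorem sy (x y : Fin 4 → F) : B.f x y = B.f y x := by rw [B.symm, H.sig, H.eps, one_mul]
theorem smr (r : F) (x y : Fin 4 → F) : B.f x (r • y) = r * B.f x y := by rw [B.smul_right, H.sig]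
theorem adj_rf (x y : Fin 4 → F) : B.adj (rf B x y) = rf B y x := by
  rw [Wr.adj_rf, H.eps, one_smul]
theorem rfr (r : F) (x y : Fin 4 → F) : rf B x (r • y) = r • rf B x y := by
  rw [rf_smul_right, H.sig]
theorem adj_smul (r : F) (X : Mk 4 F) : B.adj (r • X) = r • B.adj X := by rw [B.adj_smul, H.sig]
theorem adj_smul' {t : ℕ} (r : F) (X : EE 4 t F) : (B.pow t).adj (r • X) = r • (B.pow t).adj X := by
  rw [Frm.adj_smul, pow_sig, H.sig]
theorem adj_pj (a b : Fin 4 → F) : B.adj (pj B a b) = pj B a b := by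
  simp only [pj, B.adj_add, H.adj_smul, H.adj_rf]
theorem adj_jj (a b : Fin 4 → F) : B.adj (jj B a b) = -jj B a b := by
  simp only [jj, B.adj_sub, H.adj_smul, H.adj_rf, ← smul_neg, neg_sub]
theorem adj_rl (e : Fin 4 → F) : B.adj (rl B e) = rl B e := by
  simp only [rl, B.adj_sub, H.adj_smul, H.adj_rf, B.adj_one]
theorem nz (hw : w ∈ IsoV B) (hv : B.f v w = 0) (h : v ∉ F ∙ w) : B.f v v ≠ 0 :=
  fun e => h (H.ns w hw v hv e)

theorem eu_one (hw : w ∈ IsoV B) (hv : v ∈ F ∙ w) : eu B w v = 1 := by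
  obtain ⟨c, rfl⟩ := Submodule.mem_span_singleton.1 hv
  simp [eu, H.rfr, B.smul_left, H.smr, hw.2]

theorem eu_add (hw : B.f w w = 0) (hx : B.f x w = 0) (hy : B.f y w = 0) :
    eu B w x * eu B w y = eu B w (x + y) := by
  have := H.two
  simp only [eu, mul_add, add_mul, mul_sub, sub_mul, one_mul, mul_one, smul_mul_assoc, mul_smul_comm,
    rf_mul_rf, hw, hx, hy, H.sy w x, zero_smul, rf_add_right, ro_add_left, B.add_left,
    B.add_right, H.sy y x]
  match_scalars <;> field_simp <;> ring1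

omit H in
theorem eu_zero (w : Fin 4 → F) : eu B w 0 = 1 := by simp [eu]

theorem eu_sq (hw : B.f w w = 0) (hv : B.f v w = 0) :
    (eu B w v - 1) ^ 2 = -B.f v v • rf B w w := by
  have : eu B w v - 1 = rf B w v - rf B v w - (B.f v v / 2) • rf B w w := by rw [eu]; abel
  simp [this, pow_two, mul_sub, sub_mul, rf_mul_rf, hw, hv, H.sy w v]

theorem eu_cube (hw : B.f w w = 0) (hv : B.f v w = 0) : (eu B w v - 1) ^ 3 = 0 := by
  have : eu B w v - 1 = rf B w v - rf B v w - (B.f v v / 2) • rf B w w := by rw [eu]; abel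
  rw [pow_succ, H.eu_sq hw hv]
  simp [this, mul_sub, rf_mul_rf, hw, hv]

theorem adj_eu (w v : Fin 4 → F) : B.adj (eu B w v) = eu B w (-v) := by
  have : rf B w (-v) = -rf B w v := by rw [← neg_one_smul F v, H.rfr, neg_one_smul]
  simp only [eu, B.adj_add, B.adj_sub, B.adj_one, H.adj_smul, H.adj_rf, this, B.neg_left,
    B.neg_right, neg_neg, show rf B (-v) w = -rf B v w from neg_vecMulVec _ _]
  abel

theorem adj_eu_mul (hw : B.f w w = 0) (hv : B.f v w = 0) : B.adj (eu B w v) * eu B w v = 1 := by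
  rw [H.adj_eu, H.eu_add hw (by rw [B.neg_left, hv, neg_zero]) hv, neg_add_cancel, eu_zero]

theorem not_sc_eu (hw : w ∈ IsoV B) (hv : B.f v w = 0) (h : v ∉ F ∙ w) : ¬ Sc (eu B w v) := fun e =>
  not_sc_of_sq (rf_ne_zero hw.1 hw.1) (N_sq hw) (Sc.of_smul (neg_ne_zero.2 (H.nz hw hv h)) (by
    obtain ⟨r, hr⟩ := e.sub Sc.one
    rw [← H.eu_sq hw.2 hv, hr, smul_pow, one_pow]
    exact Sc.one.smul _))

end O4

theorem mem_Iso_of {ι : Type} [Fintype ι] [DecidableEq ι] {B : Frm ι F} {g : GL ι F}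
    (h : B.adj g * (g : Matrix ι ι F) = 1) : g ∈ B.Iso :=
  B.mem_Iso_iff_adj.2 (Units.inv_eq_of_mul_eq_one_left h).symm

theorem in_Iso_of {ι : Type} [Fintype ι] [DecidableEq ι] {B : Frm ι F} {X : Matrix ι ι F}
    (h : B.adj X * X = 1) : In B.Iso X :=
  ⟨⟨X, B.adj X, mul_eq_one_comm.1 h, h⟩, mem_Iso_of h, rfl⟩

namespace Ob
variable (O : Ob B a b c d)
include O

theorem symm (H : O4 B) : Ob B c d a b :=
  ⟨O.cc, O.dd, O.aa, O.bb, O.cd, (H.sy _ _).trans O.ac, (H.sy _ _).trans O.bc,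
    (H.sy _ _).trans O.ad, (H.sy _ _).trans O.bd, O.ab, (add_comm _ _).trans O.one⟩

theorem swap (H : O4 B) : Ob B b a c d :=
  ⟨O.bb, O.aa, O.cc, O.dd, (H.sy _ _).trans O.ab, O.bc, O.bd, O.ac, O.ad, O.cd,
    by rw [pj_comm, O.one]⟩

theorem vec (x : Fin 4 → F) : x = ((B.f a a)⁻¹ * B.f x a) • a + ((B.f b b)⁻¹ * B.f x b) • b +
    (((B.f c c)⁻¹ * B.f x c) • c + ((B.f d d)⁻¹ * B.f x d) • d) := by
  simpa only [add_mulVec, pj_mulVec, one_mulVec] using (congrArg (· *ᵥ x) O.one).symm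

theorem mat (h1 : X *ᵥ a = Y *ᵥ a) (h2 : X *ᵥ b = Y *ᵥ b) (h3 : X *ᵥ c = Y *ᵥ c)
    (h4 : X *ᵥ d = Y *ᵥ d) : X = Y := ext_mulVec fun z => by
  rw [O.vec z]; simp only [mulVec_add, mulVec_smul, h1, h2, h3, h4]

theorem pj_mul : pj B a b * pj B c d = 0 := by
  simp [pj, mul_add, add_mul, rf_mul_rf, B.eq_zero_comm.1 O.ac, B.eq_zero_comm.1 O.ad,
    B.eq_zero_comm.1 O.bc, B.eq_zero_comm.1 O.bd]

theorem mul_pj : pj B c d * pj B a b = 0 := by
  simp [pj, mul_add, add_mul, rf_mul_rf, O.ac, O.ad, O.bc, O.bd]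

theorem eq : pj B a b = 1 - pj B c d := eq_sub_of_add_eq O.one

theorem pj_sq : pj B c d * pj B c d = pj B c d := by
  have := O.pj_mul
  rwa [O.eq, sub_mul, one_mul, sub_eq_zero, eq_comm] at this

theorem pj_a : pj B c d *ᵥ a = 0 := by simp [pj_mulVec, O.ac, O.ad]
theorem pj_b : pj B c d *ᵥ b = 0 := by simp [pj_mulVec, O.bc, O.bd]
theorem pj_c : pj B c d *ᵥ c = c := by simp [pj_mulVec, O.cc, O.cd]
theorem pj_d : pj B c d *ᵥ d = d := by simp [pj_mulVec, O.dd, B.eq_zero_comm.1 O.cd]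
theorem a0 : a ≠ 0 := fun e => O.aa (by simp [e])
theorem c0 : c ≠ 0 := fun e => O.cc (by simp [e])
theorem pj_ne : pj B c d ≠ 0 := fun e => O.c0 (by simpa [e] using O.pj_c.symm)

theorem not_sc : ¬ Sc (pj B c d) := fun ⟨r, hr⟩ => by
  have h1 := O.pj_a
  rw [hr, smul_mulVec, one_mulVec, smul_eq_zero, or_iff_left O.a0] at h1
  exact O.pj_ne (by rw [hr, h1, zero_smul])

theorem jj_pj : jj B a b * pj B c d = 0 := by
  simp [pj, jj, mul_add, sub_mul, rf_mul_rf, B.eq_zero_comm.1 O.ac, B.eq_zero_comm.1 O.ad,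
    B.eq_zero_comm.1 O.bc, B.eq_zero_comm.1 O.bd]

theorem pj_jj : pj B c d * jj B a b = 0 := by
  simp [pj, jj, add_mul, mul_sub, rf_mul_rf, O.ac, O.ad, O.bc, O.bd]

theorem jj_sq (h : B.f a a = B.f b b) : jj B a b * jj B a b = pj B c d - 1 := by
  have h1 := O.bb
  rw [← neg_sub, ← O.eq]
  simp only [pj, jj, mul_sub, sub_mul, smul_mul_assoc, mul_smul_comm, rf_mul_rf, h, O.ab,
    B.eq_zero_comm.1 O.ab]
  match_scalars <;> field_simp <;> ring1

theorem rl_rl : rl B a * rl B b = pj B c d - pj B a b := by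
  have h1 := O.aa
  have h2 := O.bb
  rw [show pj B c d = 1 - pj B a b from eq_sub_of_add_eq' O.one]
  simp only [pj, rl, mul_sub, sub_mul, smul_mul_assoc, mul_smul_comm, rf_mul_rf, one_mul, mul_one,
    B.eq_zero_comm.1 O.ab]
  match_scalars <;> field_simp <;> ring1

end Ob

namespace Fr4
variable (R : Fr4 B w w' v v')
include R

theorem swap (H : O4 B) : Fr4 B w w' v' v :=
  ⟨R.hw, R.hw', R.ww, R.uw, R.uw', R.vw, R.vw', (H.sy _ _).trans R.vu, R.uu, R.vv,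
    by rw [pj_comm, R.one]⟩

theorem symm (H : O4 B) : Fr4 B w' w v v' :=
  ⟨R.hw', R.hw, (H.sy _ _).trans R.ww, R.vw', R.vw, R.uw', R.uw, R.vu, R.vv, R.uu,
    by rw [add_comm (rf B w' w), R.one]⟩

theorem w'w (H : O4 B) : B.f w' w = 1 := (H.sy _ _).trans R.ww
theorem wv : B.f w v = 0 := B.eq_zero_comm.1 R.vw
theorem w'v : B.f w' v = 0 := B.eq_zero_comm.1 R.vw'
theorem wu : B.f w v' = 0 := B.eq_zero_comm.1 R.uw
theorem w'u : B.f w' v' = 0 := B.eq_zero_comm.1 R.uw'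
theorem uv : B.f v' v = 0 := B.eq_zero_comm.1 R.vu

theorem vec (x : Fin 4 → F) : x = B.f x w' • w + B.f x w • w' +
    (((B.f v v)⁻¹ * B.f x v) • v + ((B.f v' v')⁻¹ * B.f x v') • v') := by
  simpa only [add_mulVec, pj_mulVec, rf_mulVec, one_mulVec] using (congrArg (· *ᵥ x) R.one).symm

theorem mat (h1 : X *ᵥ w = Y *ᵥ w) (h2 : X *ᵥ w' = Y *ᵥ w') (h3 : X *ᵥ v = Y *ᵥ v)
    (h4 : X *ᵥ v' = Y *ᵥ v') : X = Y := ext_mulVec fun z => by
  rw [R.vec z]; simp only [mulVec_add, mulVec_smul, h1, h2, h3, h4]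

theorem notMem : v ∉ F ∙ w := fun h => by
  obtain ⟨r, rfl⟩ := Submodule.mem_span_singleton.1 h
  exact R.vv (by rw [B.smul_left, R.wv, mul_zero])

theorem ob (H : O4 B) : Ob B (w + w') (w - w') v v' := by
  have h2 := H.two
  have e1 : B.f (w + w') (w + w') = 2 := by
    simp [B.add_left, B.add_right, R.hw.2, R.hw'.2, R.ww, R.w'w H]; norm_num
  have e2 : B.f (w - w') (w - w') = -2 := by
    simp [B.sub_left, B.sub_right, R.hw.2, R.hw'.2, R.ww, R.w'w H]; norm_num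
  refine ⟨e1 ▸ h2, e2 ▸ neg_ne_zero.2 h2, R.vv, R.uu, ?_, ?_, ?_, ?_, ?_, R.vu, ?_⟩
  · simp [B.add_left, B.sub_right, R.hw.2, R.hw'.2, R.ww, R.w'w H]
  · simp [B.add_left, R.wv, R.w'v]
  · simp [B.add_left, R.wu, R.w'u]
  · simp [B.sub_left, R.wv, R.w'v]
  · simp [B.sub_left, R.wu, R.w'u]
  rw [← R.one, add_left_inj, pj, e1, e2]
  simp only [rf_add_right, rf_sub_right, ro_add_left, ro_sub_left]
  match_scalars <;> field_simp <;> ring1

/-- The singular vectors `x_y`. -/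
theorem xs (H : O4 B) (h1 : B.f y w = 0) (h2 : B.f y w' = 0) :
    w' + y - (B.f y y / 2) • w ∈ IsoV B := by
  have := H.two
  refine ⟨fun e => ?_, ?_⟩
  · simpa [B.sub_left, B.add_left, B.smul_left, R.w'w H, h1, R.hw.2] using congrArg (B.f · w) e
  · simp only [B.sub_left, B.add_left, B.smul_left, B.sub_right, B.add_right, H.smr, R.w'w H, R.ww,
      h1, h2, H.sy w y, H.sy w' y, R.hw.2, R.hw'.2]
    field_simp
    ring

theorem hh_neg : hh B w w' (-1) = (2 : F) • pj B v v' - 1 := by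
  rw [show pj B v v' = 1 - (rf B w w' + rf B w' w) from eq_sub_of_add_eq' R.one, hh, inv_neg,
    inv_one]
  module

end Fr4

theorem O4K.fr (H : O4K B) (hw : w ∈ IsoV B) : ∃ w' v v', Fr4 B w w' v v' := by
  obtain ⟨w', hw', h⟩ := H.hyp w hw
  exact ⟨w', H.frame w hw w' hw' h⟩

theorem O4K.exu (H : O4K B) : ∃ w ∈ IsoV B, ∃ v, B.f v w = 0 ∧ v ∉ F ∙ w := by
  obtain ⟨w, hw⟩ := H.ex
  obtain ⟨w', v, v', R⟩ := H.fr hw
  exact ⟨w, hw, v, R.vw, R.notMem⟩

theorem Xi.iso (h : Xi B ξ) : ξ ∈ B.Iso := comm_le _ h.1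

/-- The data of a root of an involution. -/
theorem Xi.ex (h : Xi B ξ) : ∃ (a b c d : Fin 4 → F) (ε : F), Ob B a b c d ∧ B.f a a = B.f b b ∧
    (ε = 1 ∨ ε = -1) ∧ (ξ : Mk 4 F) = ε • pj B c d + jj B a b ∧
    (ξ : Mk 4 F) * (ξ : Mk 4 F) = (2 : F) • pj B c d - 1 ∧
    (ξ : Mk 4 F) * pj B c d = ε • pj B c d ∧ pj B c d * (ξ : Mk 4 F) = ε • pj B c d := by
  obtain ⟨-, a, b, c, d, ε, O, h1, h2, h3⟩ := h
  refine ⟨a, b, c, d, ε, O, h1, h2, h3, ?_, ?_, ?_⟩
  · simp only [h3, mul_add, add_mul, smul_mul_assoc, mul_smul_comm, O.pj_sq, O.jj_pj, O.pj_jj,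
      O.jj_sq h1]
    rcases h2 with rfl | rfl <;> module
  · simp only [h3, add_mul, smul_mul_assoc, O.pj_sq, O.jj_pj, add_zero]
  · simp only [h3, mul_add, mul_smul_comm, O.pj_sq, O.pj_jj, add_zero]

theorem Xi.four (h : Xi B ξ) : ξ * ξ * (ξ * ξ) = 1 := by
  obtain ⟨a, b, c, d, ε, O, -, -, -, e, -⟩ := h.ex
  refine Units.ext ?_
  simp only [Units.val_mul, e, mul_sub, sub_mul, smul_mul_assoc, mul_smul_comm, O.pj_sq, mul_one,
    one_mul, Units.val_one]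
  module

theorem Xi.not_sc (h : Xi B ξ) (H : O4 B) : ¬ Sc ((ξ * ξ : GL (Fin 4) F) : Mk 4 F) := fun s => by
  obtain ⟨a, b, c, d, ε, O, -, -, -, e, -⟩ := h.ex
  exact O.not_sc (Sc.of_smul H.two (by simpa [e] using s.add Sc.one))

theorem Xi.not_sc' (h : Xi B ξ) (H : O4 B) : ¬ Sc (ξ : Mk 4 F) := fun ⟨r, hr⟩ =>
  h.not_sc H ⟨r * r, by rw [Units.val_mul, hr, smul_mul_smul_comm, one_mul]⟩

theorem Xi.sq_ne (h : Xi B ξ) (H : O4 B) : ξ * ξ ≠ 1 := fun e => h.not_sc H (e ▸ Sc.one)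

theorem Xi.poly (h : Xi B ξ) : ∃ ε : F, (ε = 1 ∨ ε = -1) ∧
    (ε • (ξ : Mk 4 F) - 1) * (((ξ * ξ : GL (Fin 4) F) : Mk 4 F) + 1) = 0 := by
  obtain ⟨a, b, c, d, ε, O, -, h2, -, e, e1, -⟩ := h.ex
  refine ⟨ε, h2, ?_⟩
  simp only [Units.val_mul, e, sub_add_cancel, sub_mul, smul_mul_assoc, mul_smul_comm, e1, one_mul]
  rcases h2 with rfl | rfl <;> module

variable {t : ℕ} {g : GG 4 t F} {i j l : Fin t} {s : GL (Fin 4) F}

theorem emG_inj4 (i : Fin t) : Function.Injective (emG i : GL (Fin 4) F →* GG 4 t F) :=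
  fun _ _ h => Units.ext ((em_inj (i := i)).1 (congrArg Units.val h))

theorem InC.comm4 (h : InC i (g : EE 4 t F)) (s : GL (Fin 4) F) :
    Wr.emG i s * g = g * Wr.emG i s := Units.ext (h _)

theorem emG_comm (h : i ≠ j) (r s : GL (Fin 4) F) :
    (emG i r * emG j s : GG 4 t F) = emG j s * emG i r := Units.ext (em_comm h _ _)

theorem InA.exists_emG (h : InA i (g : EE 4 t F)) : ∃ s : GL (Fin 4) F, g = emG i s := by
  obtain ⟨a, ha⟩ := h
  obtain ⟨b, hb⟩ : InA i ((g⁻¹ : GG 4 t F) : EE 4 t F) := T4 fun _ hl => (InA.inC ⟨a, ha⟩ hl).inv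
  have : a * b = 1 := (em_inj (t := t) (i := i)).1 (by rw [map_mul, ← ha, ← hb, map_one, g.mul_inv])
  exact ⟨⟨a, b, this, mul_eq_one_comm.1 this⟩, Units.ext ha⟩

theorem em_mul_mul (a a' : Mk 4 F) {x : EE 4 t F} (x' : EE 4 t F) (hx : InC l x) :
    em l a * x * (em l a' * x') = em l (a * a') * (x * x') := by
  rw [map_mul, mul_assoc, mul_assoc, ← mul_assoc x, ← hx, mul_assoc]

/-- An isometry normalising a factor acts on it as a similarity. -/
theorem sim_of (hg : g ∈ (B.pow t).Iso) {d : EE 4 t F} (hd : InC l d)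
    (e : (g : EE 4 t F) = em l X * d) : Sc (B.adj X * X) := by
  have a1 := In.adj_mul (In.coe.2 hg)
  rw [e, Frm.adj_mul, adj_em, ← hd.adj B, em_mul_mul _ _ _ (hd.adj B),
    ← one_smul F (1 : EE 4 t F)] at a1
  exact (sc_of_em_mul ((hd.adj B).mul hd) one_ne_zero a1).1

theorem sim_split (hg : g ∈ (B.pow t).Iso) (hl : Nm g l l) : ∃ (s : GL (Fin 4) F) (d : GG 4 t F),
    InC l (d : EE 4 t F) ∧ g = emG l s * d ∧ Sc (B.adj s * (s : Mk 4 F)) := by
  obtain ⟨s, d, hd, e⟩ := hl.exists_eq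
  exact ⟨s, d, hd, e, sim_of hg hd (congrArg Units.val e)⟩

/-- A unipotent isometry normalising a factor acts on it as an Eichler element. -/
theorem unip_split [Finite F] (H : O4L B) (hy : g ∈ (B.pow t).Iso)
    (hn : IsNilpotent ((g : EE 4 t F) - 1)) (hl : Nm g l l) :
    ∃ w ∈ IsoV B, ∃ v, B.f v w = 0 ∧ ∃ d : GG 4 t F, InC l (d : EE 4 t F) ∧
      (g : EE 4 t F) = em l (eu B w v) * (d : EE 4 t F) := by
  obtain ⟨s, d, hd, e⟩ := hl.exists_eq
  obtain ⟨p, hp⟩ := CharP.exists F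
  have : Fact p.Prime := ⟨(CharP.char_is_prime F p)⟩
  obtain ⟨n, hn⟩ := hn
  have h1 : ((g : EE 4 t F) - 1) ^ p ^ n = 0 :=
    pow_eq_zero_of_le (Nat.lt_pow_self (Fact.out : p.Prime).one_lt).le hn
  rw [sub_pow_char_pow_of_commute _ _ (Commute.one_right _), one_pow, sub_eq_zero] at h1
  have e' : (g : EE 4 t F) = em l (s : Mk 4 F) * (d : EE 4 t F) := congrArg Units.val e
  have hc : ∀ n : ℕ, InC l ((d : EE 4 t F) ^ n) := fun n a => (Commute.pow_right (hd a) n).eq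
  rw [e', Commute.mul_pow (hd _), ← map_pow, ← one_smul F (1 : EE 4 t F)] at h1
  obtain ⟨r, hr⟩ := (sc_of_em_mul (hc _) one_ne_zero h1).1
  obtain ⟨μ, hμ⟩ := (iterateFrobeniusEquiv F p n).surjective r
  rw [iterateFrobeniusEquiv_def] at hμ
  have μ0 : μ ≠ 0 := by
    rintro rfl
    rw [hr, ← hμ, zero_pow (pow_ne_zero _ (Fact.out : p.Prime).ne_zero)] at h1
    simp at h1
  let b : GL (Fin 4) F := s * (Units.map (algebraMap F (Mk 4 F)).toMonoidHom (Units.mk0 μ μ0))⁻¹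
  have hb : (b : Mk 4 F) = μ⁻¹ • (s : Mk 4 F) := by
    simp [b, Algebra.algebraMap_eq_smul_one, ← map_inv]
  have b1 : (b : Mk 4 F) ^ p ^ n = 1 := by
    rw [hb, smul_pow, hr, smul_smul, ← hμ, ← mul_pow, inv_mul_cancel₀ μ0, one_pow, one_smul]
  have d1 : (((emG l b)⁻¹ * g : GG 4 t F) : EE 4 t F) = μ • (d : EE 4 t F) := by
    rw [Units.val_mul, Units.inv_mul_eq_iff_eq_mul, e']
    change _ = em l (b : Mk 4 F) * _
    rw [hb, map_smul, smul_mul_smul_comm, inv_mul_cancel₀ μ0, one_smul]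
  have d2 : InC l (((emG l b)⁻¹ * g : GG 4 t F) : EE 4 t F) := d1 ▸ hd.smul μ
  have d3 : (g : EE 4 t F) = em l (b : Mk 4 F) * (((emG l b)⁻¹ * g : GG 4 t F) : EE 4 t F) :=
    congrArg Units.val (mul_inv_cancel_left (emG l b) g).symm
  generalize (emG l b)⁻¹ * g = c at d2 d3
  obtain ⟨κ, hκ⟩ := sim_of hy d2 d3
  have a3 : B.adj b ^ p ^ n * (b : Mk 4 F) ^ p ^ n = κ ^ p ^ n • 1 := by
    rw [← Commute.mul_pow, hκ, smul_pow, one_pow]
    refine (Units.mul_left_inj b).1 ?_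
    rw [hκ, mul_assoc, hκ, smul_mul_assoc, mul_smul_comm, one_mul, mul_one]
  rw [← Frm.adj_pow, b1, Frm.adj_one, one_mul] at a3
  have a4 : κ = 1 := (iterateFrobeniusEquiv F p n).injective (by
    rw [iterateFrobeniusEquiv_def, map_one]
    simpa using (congrFun (congrFun a3 0) 0).symm)
  obtain ⟨w, hw, v, hv, e⟩ := H.unip b (mem_Iso_of (by rw [hκ, a4, one_smul]))
    ⟨p ^ n, by rw [sub_pow_char_pow_of_commute _ _ (Commute.one_right _), one_pow, b1, sub_self]⟩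
  exact ⟨w, hw, v, hv, c, d2, e ▸ d3⟩

end H60.Wr
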