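/- Simple groups covered by the conjugates of two proper subgroups (row S2500): job statements. -/
import Cfsg.Agent.Base

set_option autoImplicit false

namespace H60.Cov
open Cfsg Matrix Module

/-- `G` is the union of the conjugates of two proper subgroups. -/
def Cov2 (G : Type*) [Group G] : Prop :=
  ∃ H K : Subgroup G, H ≠ ⊤ ∧ K ≠ ⊤ ∧ ∀ g : G, ∃ x : G, x * g * x⁻¹ ∈ H ∨ x * g * x⁻¹ ∈ K

/-- Passage to the quotient by the centre. -/
theorem cov2_quot {G : Type*} [Group G] (H K : Subgroup G) (hH : H ≠ ⊤) (hK : K ≠ ⊤)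
    (zH : Subgroup.center G ≤ H) (zK : Subgroup.center G ≤ K)
    (h : ∀ g : G, ∃ x : G, x * g * x⁻¹ ∈ H ∨ x * g * x⁻¹ ∈ K) :
    Cov2 (G ⧸ Subgroup.center G) := by
  have key : ∀ L : Subgroup G, L ≠ ⊤ → Subgroup.center G ≤ L →
      L.map (QuotientGroup.mk' (Subgroup.center G)) ≠ ⊤ := by
    intro L hL zL e
    apply hL
    have := Subgroup.comap_map_eq (QuotientGroup.mk' (Subgroup.center G)) L
    rw [e, Subgroup.comap_top, QuotientGroup.ker_mk', sup_eq_left.2 zL] at this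
    exact this.symm
  refine ⟨_, _, key H hH zH, key K hK zK, fun g => ?_⟩
  obtain ⟨g, rfl⟩ := QuotientGroup.mk'_surjective _ g
  obtain ⟨x, hx⟩ := h g
  refine ⟨QuotientGroup.mk' _ x, ?_⟩
  rw [← map_inv, ← map_mul, ← map_mul]
  exact hx.imp (Subgroup.mem_map_of_mem _) (Subgroup.mem_map_of_mem _)

/-- A subgroup that is not normal can be enlarged by the centre: no need to know the centre. -/
theorem cov2_quot' {G : Type*} [Group G] (H K : Subgroup G) (hH : ¬ H.Normal) (hK : ¬ K.Normal)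
    (h : ∀ g : G, ∃ x : G, x * g * x⁻¹ ∈ H ∨ x * g * x⁻¹ ∈ K) :
    Cov2 (G ⧸ Subgroup.center G) := by
  have key : ∀ L : Subgroup G, ¬ L.Normal → L ⊔ Subgroup.center G ≠ ⊤ := by
    intro L hL e
    apply hL
    rw [← Subgroup.normalizer_eq_top_iff, eq_top_iff, ← e]
    exact sup_le Subgroup.le_normalizer (Subgroup.center_le_normalizer _)
  refine cov2_quot _ _ (key H hH) (key K hK) le_sup_right le_sup_right fun g => ?_
  obtain ⟨x, hx⟩ := h g
  exact ⟨x, hx.imp (fun a => Subgroup.mem_sup_left a) fun a => Subgroup.mem_sup_left a⟩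

def JobSL : Prop := ∀ (F : Type) [Field F] [Fintype F],
  (4 ≤ Fintype.card F → Cov2 (ProjectiveSpecialLinearGroup (Fin 2) F)) ∧
  Cov2 (ProjectiveSpecialLinearGroup (Fin 3) F) ∧ Cov2 (ProjectiveSpecialLinearGroup (Fin 4) F)

def JobU4 : Prop := ∀ (F : Type) [Field F] [Fintype F] (q : ℕ), Fintype.card F = q ^ 2 →
  Cov2 (PSU 4 F q)

def JobU3 : Prop := ∀ (F : Type) [Field F] [Fintype F] (q a : ℕ), Fintype.card F = q ^ 2 → 1 ≤ a →
  q = 3 ^ a → Cov2 (PSU 3 F q)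

def JobSpE : Prop := ∀ (F : Type) [Field F] [Fintype F] (m : ℕ), 2 ≤ m → ¬ Odd (Fintype.card F) →
  Cov2 (PSp m F)

def JobG2 : Prop := ∀ (F : Type) [Field F] [Fintype F] (a : ℕ), 2 ≤ a → Fintype.card F = 2 ^ a →
  Cov2 (Lie.G2 F)

section six
variable {F V : Type} [Field F] [AddCommGroup V] [Module F V]

/-- `g` stabilises a non-degenerate plane. -/
def Pl (B : LinearMap.BilinForm F V) (g : End F V) : Prop :=
  ∃ x y : V, B x y ≠ 0 ∧ g x ∈ Submodule.span F {x, y} ∧ g y ∈ Submodule.span F {x, y}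

/-- `k` is self-adjoint and a root of `t ^ 3 - t - δ`. -/
def Rt (B : LinearMap.BilinForm F V) (δ : F) (k : End F V) : Prop :=
  (∀ x y, B (k x) y = B x (k y)) ∧ k ^ 3 - k = δ • (1 : End F V)

/-- `g` normalises the cubic field generated by such a root. -/
def Fl (B : LinearMap.BilinForm F V) (δ : F) (g : End F V) : Prop :=
  ∃ (k : End F V) (ε : F), Rt B δ k ∧ g * k = (k + ε • (1 : End F V)) * g

end six

/-- Normal form with two Jordan blocks of size three. -/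
def JobNF : Prop := ∀ (F V : Type) [Field F] [CharP F 3] [AddCommGroup V] [Module F V]
  [FiniteDimensional F V] (B : LinearMap.BilinForm F V), B.IsAlt → finrank F V = 6 →
  ∀ (D : End F V) (x y : V) (δ : F), (∀ u v, B (D u) v = - B u (D v)) → D ^ 3 = 0 →
    B x (D x) = 0 → B y (D y) = 0 → B x y = 0 → B x (D y) = 0 → B x (D (D y)) ≠ 0 →
    ∃ k : End F V, Rt B δ k ∧ (1 + D - D ^ 2) * k = (k + 1) * (1 + D - D ^ 2) ∧
      ∀ θ : End F V, θ * D = D * θ → θ x ∈ Submodule.span F {x, y} →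
        θ y ∈ Submodule.span F {x, y} → θ * k = k * θ

/-- Unipotent elements of `Sp₆` in characteristic three. -/
def JobS6U : Prop := ∀ (F V : Type) [Field F] [CharP F 3] [AddCommGroup V] [Module F V]
  [FiniteDimensional F V] (B : LinearMap.BilinForm F V), B.IsAlt → B.Nondegenerate →
  finrank F V = 6 → ∀ (g : End F V) (δ : F), (∀ u v, B (g u) (g v) = B u v) →
    IsNilpotent (g - 1) → Pl B g ∨ Fl B δ g

/-- All elements of `Sp₆` over a finite field of characteristic three. -/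
def S6All : Prop := ∀ (F V : Type) [Field F] [Fintype F] [CharP F 3] [AddCommGroup V] [Module F V]
  [FiniteDimensional F V] (B : LinearMap.BilinForm F V), B.IsAlt → B.Nondegenerate →
  finrank F V = 6 → ∀ (g : End F V) (δ : F), (∀ c : F, c ^ 3 - c ≠ δ) →
    (∀ u v, B (g u) (g v) = B u v) → Pl B g ∨ Fl B δ g

def JobS6N : Prop := JobNF → JobS6U → S6All

def JobS6W : Prop := S6All → ∀ (F : Type) [Field F] [Fintype F] (a : ℕ), 1 ≤ a →
  Fintype.card F = 3 ^ a → Cov2 (PSp 3 F)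

theorem main (h1 : JobSL) (h2 : JobU4) (h3 : JobU3) (h4 : JobSpE) (h5 : JobG2) (h6 : JobNF)
    (h7 : JobS6U) (h8 : JobS6N) (h9 : JobS6W) (F : Type) [Field F] [Fintype F] :
    (4 ≤ Fintype.card F → Cov2 (ProjectiveSpecialLinearGroup (Fin 2) F)) ∧
    Cov2 (ProjectiveSpecialLinearGroup (Fin 3) F) ∧ Cov2 (ProjectiveSpecialLinearGroup (Fin 4) F) ∧
    (∀ q : ℕ, Fintype.card F = q ^ 2 → Cov2 (PSU 4 F q)) ∧
    (∀ q a : ℕ, Fintype.card F = q ^ 2 → 1 ≤ a → q = 3 ^ a → Cov2 (PSU 3 F q)) ∧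
    (∀ m : ℕ, 2 ≤ m → ¬ Odd (Fintype.card F) → ¬ (m = 2 ∧ Fintype.card F = 2) → Cov2 (PSp m F)) ∧
    (∀ a : ℕ, 1 ≤ a → Fintype.card F = 3 ^ a → Cov2 (PSp 3 F)) ∧
    (∀ a : ℕ, 2 ≤ a → Fintype.card F = 2 ^ a → Cov2 (Lie.G2 F)) :=
  ⟨(h1 F).1, (h1 F).2.1, (h1 F).2.2, h2 F, h3 F, fun m hm ho _ => h4 F m hm ho,
    h9 (h8 h6 h7) F, h5 F⟩

end H60.Cov
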