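/- Maximality of the stabiliser of an orthogonal decomposition into members of dimension `≥ 3`. -/
import Cfsg.Agent.H60.DecThree
import Cfsg.Agent.H60.SubfStab

set_option autoImplicit false

namespace H60

open QuadraticMap H56 Module Submodule Cfsg.Geo

variable {F V : Type*} [Field F] [AddCommGroup V] [Module F V] {Q : QuadraticForm F V}
  [FiniteDimensional F V]

theorem Nondeg.exists_pair [Finite F] (h2 : (2 : F) = 0) {X : Submodule F V} (hX : Nondeg Q X)
    (h0 : X ≠ ⊥) : (∃ y ∈ X, ∃ y' ∈ X, Q y ≠ 0 ∧ Q y' ≠ 0 ∧ polar Q y y' ≠ 0) ∨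
      (Nat.card F = 2 ∧ finrank F X ≤ 2 ∧ ∃ e ∈ X, e ≠ 0 ∧ Q e = 0) := by
  rw [or_iff_not_imp_left]
  intro hc
  push Not at hc
  obtain ⟨y, hy, hQy⟩ := hX.exists_Q_ne h0
  obtain ⟨s, hs, hys⟩ := hX.exists_polar_one hy (by rintro rfl; simp at hQy)
  have key : ∀ x ∈ X, polar Q y x = 1 → Q x = 0 := fun x hx h => by
    by_contra hne
    exact one_ne_zero (h.symm.trans (hc y hy x hx hQy hne))
  have hQs := key s hs hys
  have h1 : ∀ c : F, c * c * Q y + c = 0 := fun c => by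
    have := key (s + c • y) (add_mem hs (smul_mem _ _ hy)) (by simp [hys, polar_self', h2])
    simpa [Q_add, Q_smul, hQs, polar_comm Q s y, hys] using this
  have hy1 : Q y = 1 := by linear_combination h1 1 - h2
  have := Fintype.ofFinite F
  refine ⟨by
    rw [Nat.card_eq_fintype_card]
    exact card_eq_two_of_forall fun c => (mul_eq_zero.1 (by
      linear_combination h1 c - c * c * hy1 - c * h2 : c * (c - 1) = 0)).imp_right sub_eq_zero.1,
    ?_, s, hs, by rintro rfl; simp at hys, hQs⟩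
  have hf : Q (s + y) = 0 := key _ (add_mem hs hy) (by simp [hys, polar_self', h2])
  have hsf : polar Q s (s + y) = 1 := by simp [pself hQs, polar_comm Q s y, hys]
  by_contra hlt
  obtain ⟨b, ⟨⟨hb, hb1⟩, hb2⟩, hQb⟩ := (hX.inf_ort_pair hs (add_mem hs hy) hQs hf hsf).exists_Q_ne
    fun e => by
      have := finrank_le_inf_ort (Q := Q) X s
      have := finrank_le_inf_ort (Q := Q) (X ⊓ ort Q s) (s + y)
      rw [e, finrank_bot] at this
      omega
  simp only [SetLike.mem_coe, mem_ort, polar_add_left] at hb1 hb2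
  have := key (s + b) (add_mem hs hb) (by rw [polar_add_right, hys]; linear_combination hb2 - hb1)
  rw [Q_add, hQs, hb1] at this
  exact hQb (by simpa using this)

/-- The exceptional members: 4-spaces of plus type over the field with two elements. -/
def SmallPlus (Q : QuadraticForm F V) (W : Submodule F V) : Prop :=
  Nat.card F = 2 ∧ finrank F W = 4 ∧ ∃ U ≤ W, (∀ x ∈ U, Q x = 0) ∧ finrank F U = 2

variable {ι : Type*} {k : ℕ} {D : ι → Submodule F V} {M : Subgroup (O Q)}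

omit [FiniteDimensional F V] in
theorem OrthDec.eq_of_apply (h : OrthDec Q k D) {g : O Q} {l m : ι} {x y : V} (hx : g x ∈ D l)
    (hy : g y ∈ D m) (hxy : polar Q x y ≠ 0) : g y ∈ D l := by
  rwa [h.eq_of_polar hx hy (by rwa [O.map_polar])]

omit [FiniteDimensional F V] in
theorem OrthDec.exists_img_of_sing (h : OrthDec Q k D) {g : O Q} {X : Submodule F V}
    (hX : HasHyp Q X) (hg : ∀ u ∈ X, u ≠ 0 → Q u = 0 → ∃ l, g u ∈ D l) :
    ∃ l, ∀ x ∈ X, g x ∈ D l := by
  obtain ⟨e, he, f, hf, hQe, hQf, hef⟩ := id hX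
  obtain ⟨l, hl⟩ := hg e he (by rintro rfl; simp at hef) hQe
  obtain ⟨m, hm⟩ := hg f hf (by rintro rfl; simp at hef) hQf
  have hfl := h.eq_of_apply hl hm (by rw [hef]; exact one_ne_zero)
  refine ⟨l, hX.le_of_sing (T := (D l).comap g.lin) fun x hx hQx => ?_⟩
  change g x ∈ D l
  by_cases h0 : x = 0
  · simp [h0]
  obtain ⟨n, hn⟩ := hg x hx h0 hQx
  by_cases h1 : polar Q e x = 0
  swap
  · exact h.eq_of_apply hl hn h1
  by_cases h2 : polar Q f x = 0
  swap
  · exact h.eq_of_apply hfl hn h2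
  have h3 : polar Q f (e + x) = 1 := by simp [h2, polar_comm Q f e, hef]
  obtain ⟨n, hn⟩ := hg (e + x) (add_mem he hx) (fun e0 => by simp [e0] at h3)
    (by simp [Q_add, hQe, hQx, h1])
  have := h.eq_of_apply hfl hn (by rw [h3]; exact one_ne_zero)
  simpa using sub_mem this hl

variable [Finite F]

theorem OrthDec.exists_img_of_class (h : OrthDec Q k D) (hk : 3 ≤ k)
    (h3 : k = 3 → (2 : F) ≠ 0 ∧ 4 ≤ Nat.card F) {j : ι} (h4 : ¬ SmallPlus Q (D j)) {g : O Q}
    {γ : F} (hγ : γ ≠ 0) (hg : ∀ y ∈ D j, Q y ≠ 0 → sqcl (Q y) = sqcl γ → ∃ l, g y ∈ D l) :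
    ∃ l, ∀ x ∈ D j, g x ∈ D l := by
  have hH : HasHyp Q (D j) := (h.nd j).hasHyp (by rw [h.dim]; exact hk)
  have hg' : ∀ y ∈ D j, Q y = γ → ∃ l, g y ∈ D l := fun y hy e => hg y hy (by rwa [e]) (by rw [e])
  by_cases hk3 : k = 3
  · obtain ⟨h2, hq⟩ := h3 hk3
    obtain ⟨e, he, f, hf, hQe, hQf, hef⟩ := hH
    obtain ⟨l, hl⟩ := hg' (e + γ • f) (add_mem he (smul_mem _ _ hf))
      (by simp [Q_add, Q_smul, hQe, hQf, hef])
    have key : ∀ c ∈ D j ⊓ ort Q e ⊓ ort Q f, Q c ≠ 0 → g c ∈ D l ∧ g f ∈ D l := by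
      rintro c ⟨⟨hc, hec⟩, hfc⟩ hQc
      simp only [SetLike.mem_coe, mem_ort] at hec hfc
      obtain ⟨d, hd0, hd⟩ := exists_ne_zero_sq_ne hq (2 * γ / Q c)
      have h1 : ∀ t : F, t * t = d * d → g (e + (γ - d * d * Q c) • f + t • c) ∈ D l := by
        intro t ht
        obtain ⟨m, hm⟩ := hg' (e + (γ - d * d * Q c) • f + t • c)
          (add_mem (add_mem he (smul_mem _ _ hf)) (smul_mem _ _ hc))
          (by simp [Q_add, Q_smul, hQe, hQf, hef, hec, hfc, ht])
        refine h.eq_of_apply hl hm fun e0 => hd ?_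
        simp [pself hQe, pself hQf, hef, hec, hfc, polar_comm Q f e] at e0
        field_simp
        linear_combination -e0
      have h5 := h1 d rfl
      have h6 := h1 (-d) (by ring)
      simp only [map_add, map_smul] at h5 h6 hl
      constructor
      · refine (Submodule.smul_mem_iff _ (mul_ne_zero h2 hd0)).1 ?_
        convert sub_mem h5 h6 using 1
        module
      · refine (Submodule.smul_mem_iff _ (mul_ne_zero h2
          (mul_ne_zero (mul_ne_zero hd0 hd0) hQc))).1 ?_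
        convert sub_mem (add_mem hl hl) (add_mem h5 h6) using 1
        module
    have hX := (h.nd j).inf_ort_pair he hf hQe hQf hef
    have hle : D j ⊓ ort Q e ⊓ ort Q f ≤ (D l).comap g.lin := by
      by_contra hn
      obtain ⟨y, hy, hQy, hy'⟩ := hX.exists_Q_ne_not_mem (fun hs => by have := hs.1; omega) hn
      exact hy' (key y hy hQy).1
    obtain ⟨c, hc, hQc⟩ := hX.exists_Q_ne fun e0 => by
      have := finrank_le_inf_ort (Q := Q) (D j) e
      have := finrank_le_inf_ort (Q := Q) (D j ⊓ ort Q e) f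
      rw [e0, finrank_bot, h.dim] at *
      omega
    have hgf := (key c hc hQc).2
    have hge : g e ∈ D l := by simpa using sub_mem hl (smul_mem _ γ hgf)
    refine ⟨l, fun x hx => ?_⟩
    have hp := IsHyp.polar_proj ⟨hQe, hQf, hef⟩ x
    have := hle (x := x - polar Q f x • e - polar Q e x • f)
      ⟨⟨sub_mem (sub_mem hx (smul_mem _ _ he)) (smul_mem _ _ hf), hp.1⟩, hp.2⟩
    simpa using add_mem (add_mem this (smul_mem _ (polar Q e x) hgf)) (smul_mem _ (polar Q f x) hge)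
  refine h.exists_img_of_sing hH fun u hu hu0 hQu => ?_
  by_cases h2 : (2 : F) = 0
  · obtain ⟨f, hf, hQf, huf⟩ := (h.nd j).exists_partner hu hu0 hQu
    have hd1 := finrank_le_inf_ort (Q := Q) (D j) u
    have hd2 := finrank_le_inf_ort (Q := Q) (D j ⊓ ort Q u) f
    rw [h.dim] at hd1
    have := SqCl.subsingleton_of_char_two (F := F) h2
    rcases ((h.nd j).inf_ort_pair hu hf hQu hQf huf).exists_pair h2 (fun e0 => by
      rw [e0, finrank_bot] at hd2; omega) with ⟨y, hy, y', hy', hQy, hQy', hyy⟩ | ⟨hq, hd, e, he, he0, hQe⟩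
    · have huy : polar Q u y = 0 := hy.1.2
      have huy' : polar Q u y' = 0 := hy'.1.2
      obtain ⟨l, hl⟩ := hg y' hy'.1.1 hQy' (Subsingleton.elim _ _)
      obtain ⟨m, hm⟩ := hg y hy.1.1 hQy (Subsingleton.elim _ _)
      obtain ⟨n, hn⟩ := hg (y + u) (add_mem hy.1.1 hu) (by simpa [Q_add, hQu, pc huy] using hQy)
        (Subsingleton.elim _ _)
      refine ⟨l, ?_⟩
      simpa using sub_mem (h.eq_of_apply hl hn (by simpa [pc huy', polar_comm Q y' y] using hyy))
        (h.eq_of_apply hl hm (by rwa [polar_comm]))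
    · refine (h4 ⟨hq, by rw [h.dim]; omega, span F {u, e},
        span_le.2 (Set.insert_subset hu (Set.singleton_subset_iff.2 he.1.1)),
        ts_span_pair hQu hQe he.1.2, finrank_span_pair (LinearIndependent.pair_iff.2
          fun s t hst => ?_)⟩).elim
      have h5 := congrArg (polar Q f) hst
      have h6 : polar Q f e = 0 := he.2
      simp only [polar_add_right, polar_smul_right, polar_comm Q f u, huf, h6, smul_eq_mul, mul_one,
        mul_zero, add_zero, polar_zero_right] at h5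
      simpa [h5, he0] using hst
  · obtain ⟨y, hy, huy, hQy⟩ := exists_Q_eq_of_four (h.nd j) (by rw [h.dim]; omega) hu hu0 hQu hγ
    obtain ⟨l, hl⟩ := hg' y hy hQy
    obtain ⟨m, hm⟩ := hg' (y + u) (add_mem hy hu) (by simp [Q_add, hQu, pc huy, hQy])
    refine ⟨l, ?_⟩
    simpa using sub_mem (h.eq_of_apply hl hm (by simp [pc huy, polar_self', h2, hQy, hγ])) hl

theorem OrthDec.exists_good_pair (h : OrthDec Q k D) (hk : 3 ≤ k) (j : ι) : ∃ u ∈ D j, ∃ v ∈ D j,
    Q u ≠ 0 ∧ Q v ≠ 0 ∧ sqcl (Q u) = sqcl (Q v) ∧ polar Q u v ≠ 0 ∧ u ∉ span F {v} := by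
  by_cases h2 : (2 : F) = 0
  · have := SqCl.subsingleton_of_char_two (F := F) h2
    rcases (h.nd j).exists_pair h2 (h.ne_bot j) with ⟨y, hy, y', hy', hQy, hQy', hyy⟩ | ⟨-, hd, -⟩
    · refine ⟨y, hy, y', hy', hQy, hQy', Subsingleton.elim _ _, hyy, fun hn => hyy ?_⟩
      obtain ⟨c, rfl⟩ := mem_span_singleton.1 hn
      simp [polar_self', h2]
    · rw [h.dim] at hd; omega
  · obtain ⟨e, he, he0, hQe⟩ := exists_sing (Q := Q) (D j) (by rw [h.dim]; exact hk)
    obtain ⟨y, hy, hQy⟩ := (h.nd j).exists_Q_ne_of_lt h.hQ (W := D j ⊓ ort Q e) inf_le_left (by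
      have := finrank_le_inf_ort (Q := Q) (D j) e
      rw [h.dim] at *
      omega)
    have hey : polar Q e y = 0 := hy.2
    have h1 : Q (y + e) = Q y := by simp [Q_add, hQe, pc hey]
    refine ⟨y + e, add_mem hy.1 he, y, hy.1, by rwa [h1], hQy, by rw [h1],
      by simp [hey, polar_self', h2, hQy], fun hn => ?_⟩
    obtain ⟨c, hc⟩ := mem_span_singleton.1 (sub_mem hn (mem_span_singleton_self y))
    rw [add_sub_cancel_left] at hc
    have := congrArg Q hc
    rw [Q_smul, hQe, mul_eq_zero, mul_self_eq_zero] at this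
    exact he0 (by rw [← hc, this.resolve_right hQy, zero_smul])

variable [Finite ι] [Nontrivial ι]

theorem DecM.mem_dstab_of_mem (h : DecM k D M) (hk : 3 ≤ k)
    (h3 : k = 3 → (2 : F) ≠ 0 ∧ 4 ≤ Nat.card F) (h4 : ∀ j, ¬ SmallPlus Q (D j)) {g : O Q}
    (hg : g ∈ M) {i i' : ι} {w : V} (hw : w ∈ D i) (hQw : Q w ≠ 0) (hgw : g w ∈ D i') :
    g ∈ dstab Q D :=
  h.mem_dstab_of fun j => h.exists_img_of_class hk h3 (h4 j) hQw fun _ hy hQy hc =>
    h.mem_of_RR hk h3 hgw (by rwa [O.map_Q]) (RR.apply (h.mem_RR hy hw hQy hQw hc) hg)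

omit [Finite F] [Finite ι] [Nontrivial ι] [FiniteDimensional F V] in
theorem apply_not_mem_span (g : O Q) {u v : V} (h : u ∉ span F {v}) : g u ∉ span F {g v} :=
  fun hn => by
    obtain ⟨c, hc⟩ := mem_span_singleton.1 hn
    rw [← map_smul, O.apply_inj] at hc
    exact h (mem_span_singleton.2 ⟨c, hc⟩)

theorem DecM.le_dstab (h : DecM k D M) (hk : 3 ≤ k)
    (h3 : k = 3 → (2 : F) ≠ 0 ∧ 4 ≤ Nat.card F) (h4 : ∀ j, ¬ SmallPlus Q (D j)) :
    M ≤ dstab Q D := fun g hg => by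
  obtain ⟨j⟩ : Nonempty ι := inferInstance
  obtain ⟨u, hu, v, hv, hQu, hQv, hc, huv, hn⟩ := h.exists_good_pair hk j
  have h0 : refl Q (g u) * refl Q (g v) ∈ M := (RR.apply (h.mem_RR hu hv hQu hQv hc) hg).2
  suffices ∃ y ∈ D j, Q y ≠ 0 ∧ (refl Q (g u) * refl Q (g v)) y ∈ D j by
    obtain ⟨y, hy, hQy, hy'⟩ := this
    obtain ⟨i, hi⟩ := h.mem_of_refl_mul_refl (by omega) (by rwa [O.map_Q]) (by rwa [O.map_Q])
      (by rwa [O.map_polar]) (apply_not_mem_span g hn)
      (h.mem_dstab_of_mem hk h3 h4 h0 hy hQy hy')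
    exact h.mem_dstab_of_mem hk h3 h4 hg hu hQu hi
  obtain ⟨e, ⟨⟨he, h1⟩, h2⟩, he0⟩ := Submodule.exists_mem_ne_zero_of_ne_bot
    (p := D j ⊓ ort Q (g u) ⊓ ort Q (g v)) fun e0 => by
      have := finrank_le_inf_ort (Q := Q) (D j) (g u)
      have := finrank_le_inf_ort (Q := Q) (D j ⊓ ort Q (g u)) (g v)
      rw [e0, finrank_bot, h.dim] at *
      omega
  have hfix : (refl Q (g u) * refl Q (g v)) e = e := by
    rw [O.mul_apply, refl_apply_of_orth h2, refl_apply_of_orth h1]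
  by_cases hQe : Q e = 0
  swap
  · exact ⟨e, he, hQe, by rwa [hfix]⟩
  obtain ⟨y, hy, hQy⟩ := (h.nd j).exists_Q_ne_of_lt h.hQ (W := D j ⊓ ort Q e) inf_le_left (by
    have := finrank_le_inf_ort (Q := Q) (D j) e
    rw [h.dim] at *
    omega)
  exact ⟨y, hy.1, hQy, h.AS_le (by omega) (fun i hs => by have := hs.2.1; rw [h.dim] at this; omega)
    (Or.inl hk) he he0 hQe (apply_mem_AS_of_fix h0 hfix (mem_AS_of_le (h.EOin_le' j) he hy.1 hy.2))⟩

omit [Finite ι] in
theorem OrthDec.exists_not_mem_of_sing (h : OrthDec Q k D) (h5 : 5 ≤ finrank F V) {j : ι} {u : V}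
    (hu : u ∈ D j) (hu0 : u ≠ 0) (hQu : Q u = 0) : ∃ g ∈ commutator (O Q), g ∉ dstab Q D := by
  obtain ⟨l, hl⟩ := _root_.exists_ne j
  obtain ⟨w, hw, hw0⟩ := Submodule.exists_mem_ne_zero_of_ne_bot (h.ne_bot l)
  obtain ⟨f, hf, hQf, huf⟩ := (h.nd j).exists_partner hu hu0 hQu
  have huw := h.orth j l hl.symm u hu w hw
  refine ⟨eich Q u w, eich_mem_commutator h.hQ h5 _ _, fun hg => ?_⟩
  obtain ⟨m, hm⟩ := OrthDec.exists_of_dstab hg j
  obtain rfl : j = m := h.eq_of_mem hu (eich_apply_self hQu huw ▸ hm u hu) hu0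
  have h1 := hm f hf
  rw [eich_apply hQu huw, huf, h.orth l j hl w hw f hf] at h1
  refine hl (h.eq_of_mem hw ?_ hw0)
  convert sub_mem (sub_mem hf (smul_mem _ (Q w) hu)) h1 using 1
  module

/-- **Maximality of decomposition stabilisers, `k ≥ 3`.** -/
theorem OrthDec.maximal_of_three (h : OrthDec Q k D) (hk : 3 ≤ k)
    (h3 : k = 3 → (2 : F) ≠ 0 ∧ 4 ≤ Nat.card F) (h4 : ∀ j, ¬ SmallPlus Q (D j)) :
    IsMaximalIn (commutator (O Q)) (dstab Q D ⊓ commutator (O Q)) := by
  obtain ⟨i, j, hij⟩ := exists_pair_ne ι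
  have h5 : 5 ≤ finrank F V := by have := h.two_mul_le hij; omega
  obtain ⟨u, hu, hu0, hQu⟩ := exists_sing (Q := Q) (D j) (by rw [h.dim]; exact hk)
  refine isMaximalIn_of (h.exists_not_mem_of_sing h5 hu hu0 hQu) fun M hM hM' g hg hgS => ?_
  by_contra hc
  exact hgS (DecM.le_dstab ⟨h, h5, hM, hM', hc⟩ hk h3 h4 hg)

/-- From the definition in the prelude. -/
theorem orthDec_of {κ : Type} [Fintype κ] [DecidableEq κ] {F : Type*} [Field F]
    {Q : QuadraticForm F (κ → F)} (hQ : Q.polarBilin.Nondegenerate) {t k : ℕ}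
    {D : Fin t → Submodule F (κ → F)} (hD : IsOrthogonalMDecomposition ⇑Q k D) :
    OrthDec Q k D where
  hQ := hQ
  nd i := nondeg_of_on (hD.decomp.nondegenerate i)
  orth := hD.decomp.orthogonal
  top := hD.decomp.decomp.iSup_eq_top
  dim := hD.decomp.decomp.finrank_eq
  pos := hD.decomp.decomp.pos
  iso i j := by
    obtain ⟨e, he⟩ := hD.isometric i j
    obtain ⟨g, hg⟩ := witt_sub hQ (D i) ((D j).subtype ∘ₗ e.toLinearMap) he
      (Subtype.val_injective.comp e.injective)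
    refine ⟨g, Submodule.eq_of_le_of_finrank_le (fun x hx => ?_) (by
      rw [finrank_img, hD.decomp.decomp.finrank_eq, hD.decomp.decomp.finrank_eq])⟩
    have := hg ⟨_, mem_img.1 hx⟩
    rw [O.apply_inv_apply] at this
    rw [this]
    exact (e _).2

theorem nontrivial_of_dec {κ : Type} [Fintype κ] [DecidableEq κ] {F : Type*} [Field F]
    {q : (κ → F) → F} {t k : ℕ} {D : Fin t → Submodule F (κ → F)}
    (hD : IsOrthogonalMDecomposition q k D) : Nontrivial (Fin t) :=
  Fin.nontrivial_iff_two_le.2 hD.decomp.decomp.two_le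

theorem OrthDec.finrank_eq {ι : Type*} [Fintype ι] {D : ι → Submodule F V} (h : OrthDec Q k D) :
    finrank F V = Fintype.card ι * k := by
  classical
  let φ : V →ₗ[F] (∀ i, D i) := LinearMap.pi fun i => (h.pr i).codRestrict (D i) (h.pr_mem i)
  have hφ : Function.Bijective φ := by
    refine ⟨(injective_iff_map_eq_zero φ).2 fun x hx => h.eq_zero_of_perp fun i =>
      h.pr_eq_zero.1 (congrArg Subtype.val (congrFun hx i)), fun c => ⟨∑ i, c i, ?_⟩⟩
    ext i
    change h.pr i _ = _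
    rw [map_sum, Finset.sum_eq_single i (fun j _ hj => h.pr_of_ne hj (c j).2) (by simp),
      h.pr_of_mem (c i).2]
  rw [(LinearEquiv.ofBijective φ hφ).finrank_eq, Module.finrank_pi_fintype]
  simp [h.dim]

end H60
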