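/- A group containing the reflections of an anisotropic plane `X` and a mixed reflection in `a + z`
contains all reflections of `X + ⟨z⟩` (maximality of the non-split torus normaliser in `PGL₂`). -/
import Cfsg.Agent.H60.Ext
import Cfsg.Agent.H60.DecMax3

set_option autoImplicit false

namespace H60

open QuadraticMap H56 Module Submodule Cfsg.Geo

variable {F V : Type*} [Field F] [AddCommGroup V] [Module F V] {Q : QuadraticForm F V}

theorem subring_eq_top_of_fibres [Finite F] (K : Subring F) (ρ : F → F) (h0 : ∀ s, ρ s ≠ 0)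
    (hK : ∀ s, ρ s ∈ K) (h3 : ∀ s t r, ρ s = ρ t → ρ s = ρ r → s = t ∨ s = r ∨ t = r) : K = ⊤ := by
  classical
  have := Fintype.ofFinite F
  by_contra hne
  have h1 : Fintype.card F ≤ 2 * (Finset.univ.image ρ).card := by
    rw [← Finset.card_univ]
    refine Finset.card_le_mul_card_image _ 2 fun v _ => ?_
    by_contra hlt
    obtain ⟨s, hs, t, ht, r, hr, hst, hsr, htr⟩ := Finset.two_lt_card.1 (not_le.1 hlt)
    simp only [Finset.mem_filter, Finset.mem_univ, true_and] at hs ht hr
    rcases h3 s t r (hs.trans ht.symm) (hs.trans hr.symm) with h | h | h <;> contradiction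
  have h2 : (Finset.univ.image ρ).card + 1 ≤ Nat.card K := by
    rw [← Finset.card_insert_of_notMem (a := 0) (by simpa using h0), Nat.card_eq_fintype_card,
      Fintype.card_subtype]
    refine Finset.card_le_card fun x hx => ?_
    simp only [Finset.mem_insert, Finset.mem_image, Finset.mem_univ, true_and] at hx
    rcases hx with rfl | ⟨s, rfl⟩ <;> simp [hK]
  have h4 := K.toAddSubgroup.card_mul_index
  have h5 : K.toAddSubgroup.index ≠ 1 := fun e => hne (by
    rw [AddSubgroup.index_eq_one] at e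
    exact eq_top_iff.2 fun x _ => (e ▸ AddSubgroup.mem_top x : x ∈ K.toAddSubgroup))
  have h6 : K.toAddSubgroup.index ≠ 0 := AddSubgroup.index_ne_zero_of_finite
  have h7 : Nat.card K.toAddSubgroup = Nat.card K := rfl
  rw [h7, Nat.card_eq_fintype_card (α := F)] at h4
  have : Nat.card K * 2 ≤ Nat.card K * K.toAddSubgroup.index := Nat.mul_le_mul_left _ (by omega)
  omega

variable [FiniteDimensional F V] {G : Subgroup (O Q)} {X : Submodule F V}

theorem Nondeg.exists_smul_of_two (hX : Nondeg Q X) (hd : finrank F X = 2) {a p b : V} (ha : a ∈ X)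
    (ha0 : a ≠ 0) (hp : p ∈ X) (hp0 : p ≠ 0) (hap : polar Q a p = 0) (hb : b ∈ X)
    (hab : polar Q a b = 0) : ∃ c : F, b = c • p := by
  have h1 : finrank F ↥(X ⊓ ort Q a) < finrank F X := Submodule.finrank_lt_finrank_of_lt
    (lt_of_le_of_ne inf_le_left fun e => by
      obtain ⟨y, hy, h⟩ := hX.exists_polar_ne ha ha0
      exact h (e.ge hy).2)
  have h2 := finrank_le_inf_ort (Q := Q) X a
  obtain ⟨c, hc⟩ := exists_smul_eq_of_finrank_eq_one (K := F) (V := ↥(X ⊓ ort Q a)) (by omega)
    (x := ⟨p, hp, hap⟩) (fun e => hp0 (congrArg Subtype.val e)) ⟨b, hb, hab⟩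
  exact ⟨c, (congrArg Subtype.val hc).symm⟩

theorem exists_orth_of_two (hd : 2 ≤ finrank F X) (a : V) : ∃ p ∈ X, p ≠ 0 ∧ polar Q a p = 0 := by
  obtain ⟨p, hp, hp0⟩ := Submodule.exists_mem_ne_zero_of_ne_bot (p := X ⊓ ort Q a) fun e => by
    have := finrank_le_inf_ort (Q := Q) X a
    rw [e, finrank_bot] at this
    omega
  exact ⟨p, hp.1, hp0, hp.2⟩

omit [FiniteDimensional F V] in
theorem exists_rot (han : ∀ y ∈ X, Q y = 0 → y = 0) (hr : ∀ y ∈ X, refl Q y ∈ G) {a a' : V}
    (ha : a ∈ X) (ha' : a' ∈ X) (h : Q a = Q a') :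
    ∃ θ ∈ G, θ a = a' ∧ (∀ z ∈ perp Q X, θ z = z) ∧ ∀ x ∈ X, θ x ∈ X := by
  by_cases e : a - a' = 0
  · exact ⟨1, G.one_mem, sub_eq_zero.1 e, fun _ _ => rfl, fun _ hx => hx⟩
  · exact ⟨_, hr _ (sub_mem ha ha'), refl_sub_apply h fun h0 => e (han _ (sub_mem ha ha') h0),
      fun z hz => refl_apply_of_orth (hz _ (sub_mem ha ha')),
      fun x hx => refl_apply_mem (sub_mem ha ha') hx⟩

variable [Finite F]

theorem mem_AS_of_aniso (hX : Nondeg Q X) (hd : finrank F X = 2) (han : ∀ y ∈ X, Q y = 0 → y = 0)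
    (hr : ∀ y ∈ X, refl Q y ∈ G) {a z p : V} (ha : a ∈ X) (ha0 : a ≠ 0) (hz : z ∈ perp Q X)
    (hu : Q (a + z) = 0) (hp : p ∈ X) (hp0 : p ≠ 0) (hap : polar Q a p = 0) {l : F}
    (hl : l • p ∈ AA G (a + z)) (hl0 : l ≠ 0) (hφ : l • p - (l * l * Q p) • a ≠ 0) :
    p ∈ AS G (a + z) := by
  have hz' : ∀ x ∈ X, polar Q x z = 0 := hz
  have hz'' : ∀ x ∈ X, polar Q z x = 0 := fun x hx => pc (hz x hx)
  have hup : polar Q (a + z) p = 0 := by rw [polar_add_left, hap, hz'' p hp, add_zero]
  have hκ : Q z = -Q a := by rw [Q_add, hz' a ha] at hu; linear_combination hu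
  let K : Subring F :=
    { carrier := {ρ | ∀ μ : F, μ • p ∈ AA G (a + z) → (ρ * μ) • p ∈ AA G (a + z)}
      mul_mem' := fun ha hb μ h => by rw [mul_assoc]; exact ha _ (hb μ h)
      one_mem' := fun μ h => by rwa [one_mul]
      add_mem' := fun ha hb μ h => by rw [add_mul, add_smul]; exact add_mem (ha μ h) (hb μ h)
      zero_mem' := fun μ _ => by simp
      neg_mem' := fun ha μ h => by rw [neg_mul, neg_smul]; exact neg_mem (ha μ h) }
  set φ := l • p - (l * l * Q p) • a with hφdef
  have hφX : φ ∈ X := sub_mem (smul_mem _ _ hp) (smul_mem _ _ ha)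
  have hK : ∀ a' ∈ X, Q a' = Q a → 1 - l * l * Q p * polar Q z z + polar Q φ a' ≠ 0 ∧
      1 - l * l * Q p * polar Q z z + polar Q φ a' ∈ K := by
    intro a' ha' hQa'
    set ρ := 1 - l * l * Q p * polar Q z z + polar Q φ a' with hρ
    obtain ⟨θ₁, hθ₁, h1, h1z, h1X⟩ := exists_rot han hr ha ha' hQa'.symm
    set η := eich Q (a + z) (l • p)
    set a'' := a' + (ρ - 1) • a - ((polar Q a a' + polar Q z z) * l) • p with ha''
    have ha''X : a'' ∈ X := sub_mem (add_mem ha' (smul_mem _ _ ha)) (smul_mem _ _ hp)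
    have hη : η (a' + z) = a'' + ρ • z := by
      rw [eich_apply hu hl.1, ha'', hρ, hφdef]
      simp only [polar_add_left, polar_add_right, polar_sub_left, polar_smul_left, Q_smul,
        hz' _ ha, hz' _ hp, hz'' _ ha', smul_eq_mul]
      module
    have hQ'' : Q a'' = Q (ρ • a) := by
      have := η.map_Q (a' + z)
      rw [hη, Q_add, Q_add, Q_smul, polar_smul_right, hz' _ ha''X, hz' _ ha', hQa', hκ] at this
      rw [Q_smul]
      linear_combination this
    have hρ0 : ρ ≠ 0 := fun e => by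
      rw [e, zero_smul, map_zero] at hQ''
      rw [e, han _ ha''X hQ'', zero_smul, add_zero, O.apply_eq_zero] at hη
      have h3 : a' = 0 := hX.eq_zero ha' (by rw [eq_neg_of_add_eq_zero_left hη]; exact neg_mem hz)
      exact ha0 (han a ha (by rw [← hQa', h3, map_zero]))
    refine ⟨hρ0, fun μ hμ => ?_⟩
    obtain ⟨θ₂, hθ₂, h2, h2z, h2X⟩ := exists_rot han hr ha''X (smul_mem _ ρ ha) hQ''
    have hg : θ₂ * η * θ₁ ∈ G := G.mul_mem (G.mul_mem hθ₂ hl.2) hθ₁
    have hgu : (θ₂ * η * θ₁) (a + z) = ρ • (a + z) := by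
      rw [O.mul_apply, O.mul_apply, map_add θ₁, h1, h1z z hz, hη, map_add, h2, map_smul, h2z z hz,
        smul_add]
    have h4 := apply_mem_AA hg hμ
    rw [hgu] at h4
    have h5 := smul_mem_AA_of_smul hρ0 h4
    obtain ⟨b, hb, d, hbd⟩ : ∃ b ∈ X, ∃ d : F, (θ₂ * η * θ₁) p = b + d • (a + z) := by
      obtain ⟨d, hd⟩ : ∃ d : F, η (θ₁ p) - d • z ∈ X := by
        refine ⟨polar Q (l • p) (θ₁ p) - Q (l • p) * polar Q (a + z) (θ₁ p), ?_⟩
        rw [eich_apply hu hl.1]
        convert add_mem (sub_mem (h1X p hp) (smul_mem _ (polar Q (a + z) (θ₁ p) * l) hp))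
          (smul_mem _ (polar Q (l • p) (θ₁ p) - Q (l • p) * polar Q (a + z) (θ₁ p)) ha) using 1
        module
      refine ⟨θ₂ (η (θ₁ p) - d • z) - d • a, sub_mem (h2X _ hd) (smul_mem _ _ ha), d, ?_⟩
      rw [map_sub, map_smul, h2z z hz, O.mul_apply, O.mul_apply]
      module
    have h6 : polar Q a b = 0 := by
      have h7 := (θ₂ * η * θ₁).map_polar (a + z) p
      rw [hgu, hup, hbd, polar_smul_left, polar_add_right, polar_smul_right, pself hu,
        polar_add_left, hz'' b hb] at h7
      simpa [hρ0] using h7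
    obtain ⟨ε, rfl⟩ := hX.exists_smul_of_two hd ha ha0 hp hp0 hap hb h6
    have h8 : ε * ε = 1 := by
      have h9 := (θ₂ * η * θ₁).map_Q p
      rw [hbd, Q_add, Q_smul, Q_smul, hu, polar_smul_left, polar_smul_right, pc hup] at h9
      exact mul_right_cancel₀ (fun e => hp0 (han p hp e)) (by simpa using h9)
    rw [map_smul, hbd] at h5
    have h10 := sub_mem h5 (smul_self_mem_AA G hu (ρ * μ * d))
    rcases mul_self_eq_one_iff.1 h8 with rfl | rfl
    · convert h10 using 1; module
    · convert neg_mem h10 using 1; module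
  obtain ⟨d, hdX, had⟩ := hX.exists_polar_ne ha ha0
  have hy : ∀ s : F, p + s • d ∈ X := fun s => add_mem hp (smul_mem _ _ hdX)
  have hy0 : ∀ s : F, Q (p + s • d) ≠ 0 := fun s e => by
    have h1 := han _ (hy s) e
    have h2 := congrArg (polar Q a) h1
    simp only [polar_add_right, polar_smul_right, hap, smul_eq_mul, zero_add, polar_zero_right,
      mul_eq_zero, had, or_false] at h2
    exact hp0 (by simpa [h2] using h1)
  have hinj : ∀ s t : F, refl Q (p + s • d) a = refl Q (p + t • d) a → s = t := fun s t h => by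
    rw [refl_apply, refl_apply, sub_right_inj] at h
    have h1 := congrArg (polar Q a) h
    simp only [polar_add_left, polar_add_right, polar_smul_left, polar_smul_right, hap, pc hap,
      smul_eq_mul, zero_add, polar_comm Q d a] at h h1
    have h2 := mul_right_cancel₀ had (by linear_combination h1 :
      (Q (p + s • d))⁻¹ * (s * polar Q a d) * s * polar Q a d =
        (Q (p + t • d))⁻¹ * (t * polar Q a d) * t * polar Q a d)
    rw [smul_add, smul_add, smul_smul, smul_smul, h2, add_left_inj] at h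
    have h3 := smul_left_injective F hp0 h
    by_cases hs : s = 0
    · have : t = 0 := by simpa [hs, hy0 t, had] using h3
      rw [hs, this]
    · rw [← h3] at h2
      exact mul_left_cancel₀ (mul_ne_zero (inv_ne_zero (hy0 s)) (mul_ne_zero hs had)) h2
  have hC : ∀ s : F, refl Q (p + s • d) a ∈ X := fun s => refl_apply_mem (hy s) ha
  have htop := subring_eq_top_of_fibres K _ (fun s => (hK _ (hC s) (O.map_Q _ _)).1)
    (fun s => (hK _ (hC s) (O.map_Q _ _)).2) fun s t r hst hsr => by
      by_contra hc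
      push Not at hc
      set x := refl Q (p + s • d) a
      have e1 : refl Q (p + t • d) a - x ≠ 0 := fun e => hc.1 (hinj _ _ (sub_eq_zero.1 e)).symm
      obtain ⟨c, hc'⟩ := hX.exists_smul_of_two hd hφX hφ (sub_mem (hC t) (hC s)) e1
        (by rw [polar_sub_right]; linear_combination -hst) (sub_mem (hC r) (hC s))
        (by rw [polar_sub_right]; linear_combination -hsr)
      set v := refl Q (p + t • d) a - x with hv
      have e2 : Q (x + v) = Q x := by rw [hv, add_sub_cancel, O.map_Q, O.map_Q]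
      have e3 : Q (x + c • v) = Q x := by rw [← hc', add_sub_cancel, O.map_Q, O.map_Q]
      rw [Q_add] at e2
      rw [Q_add, Q_smul, polar_smul_right, smul_eq_mul] at e3
      have e4 : c * (c - 1) = 0 := mul_right_cancel₀ (fun e => e1 (han v (sub_mem (hC t) (hC s)) e))
        (by linear_combination e3 - c * e2)
      rcases mul_eq_zero.1 e4 with e4 | e4
      · rw [e4, zero_smul, sub_eq_zero] at hc'
        exact hc.2.1 (hinj _ _ hc').symm
      · rw [sub_eq_zero.1 e4, one_smul, hv, sub_left_inj] at hc'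
        exact hc.2.2 (hinj _ _ hc').symm
  refine ⟨hup, fun c => ?_⟩
  have : c / l ∈ K := htop ▸ Subring.mem_top _
  have := this l hl
  rw [div_mul_cancel₀ _ hl0] at this
  exact this.2

end H60
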