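/- Reflections of a plane `X` and a mixed reflection: the anisotropic and the hyperbolic case. -/
import Cfsg.Agent.H60.Plane

set_option autoImplicit false

namespace H60

open QuadraticMap H56 Module Submodule Cfsg.Geo

variable {F V : Type*} [Field F] [AddCommGroup V] [Module F V] {Q : QuadraticForm F V}

theorem exists_sq_of_two [Finite F] (h2 : (2 : F) = 0) (x : F) : ∃ c : F, c * c = x := by
  have := Fintype.ofFinite F
  obtain ⟨c, hc⟩ := FiniteField.isSquare_of_char_two (F := F)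
    (by
      have : CharP F 2 := (CharP.charP_iff_prime_eq_zero Nat.prime_two).2 (by exact_mod_cast h2)
      exact ringChar.eq F 2) x
  exact ⟨c, hc.symm⟩

theorem exists_eval_ne [Finite F] (p : Polynomial F) (hp : p ≠ 0) (h : p.natDegree < Nat.card F) :
    ∃ s, p.eval s ≠ 0 := by
  have := Fintype.ofFinite F
  refine p.exists_eval_ne_zero_of_natDegree_lt_card hp ?_
  rw [Cardinal.mk_fintype]
  exact_mod_cast h.trans_eq Nat.card_eq_fintype_card

open Polynomial in
theorem exists_ne_four [Finite F] (h : 5 ≤ Nat.card F) :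
    ∃ s : F, s ^ 4 + 2 * s ^ 3 + 2 * s ^ 2 + s ≠ 0 := by
  obtain ⟨s, hs⟩ := exists_eval_ne (F := F) (X ^ 4 + 2 * X ^ 3 + 2 * X ^ 2 + X)
    (Monic.ne_zero (by monicity!)) (lt_of_le_of_lt (by compute_degree) (show 4 < _ by omega))
  exact ⟨s, by simpa only [eval_add, eval_mul, eval_pow, eval_X, eval_ofNat] using hs⟩

open Polynomial in
theorem exists_ne_five [Finite F] (h : 6 ≤ Nat.card F) : ∃ s : F, s ^ 5 - s ≠ 0 := by
  obtain ⟨s, hs⟩ := exists_eval_ne (F := F) (X ^ 5 - X)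
    (Monic.ne_zero (by monicity!)) (lt_of_le_of_lt (by compute_degree) (show 5 < _ by omega))
  exact ⟨s, by simpa only [eval_sub, eval_pow, eval_X] using hs⟩

variable {G : Subgroup (O Q)} {X : Submodule F V}

theorem mem_sup_span_iff {z y : V} : y ∈ X ⊔ span F {z} ↔ ∃ b ∈ X, ∃ d : F, y = b + d • z := by
  rw [Submodule.mem_sup]
  constructor
  · rintro ⟨b, hb, w, hw, rfl⟩
    obtain ⟨d, rfl⟩ := mem_span_singleton.1 hw
    exact ⟨b, hb, d, rfl⟩
  · rintro ⟨b, hb, d, rfl⟩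
    exact ⟨b, hb, _, smul_mem _ d (mem_span_singleton_self z), rfl⟩

theorem Nondeg.sup_span (hX : Nondeg Q X) {z : V} (hz : z ∈ H56.perp Q X) (hzz : polar Q z z ≠ 0) :
    Nondeg Q (X ⊔ span F {z}) := fun y hy h => by
  obtain ⟨b, hb, d, rfl⟩ := mem_sup_span_iff.1 hy
  have h1 := h z (mem_sup_right (mem_span_singleton_self z))
  rw [polar_add_right, polar_smul_right, pc (mem_perp.1 hz b hb), zero_add, smul_eq_mul] at h1
  have hd : d = 0 := (mul_eq_zero.1 h1).resolve_right hzz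
  rw [hd, zero_smul, add_zero] at h ⊢
  exact hX b hb fun x hx => h x (mem_sup_left hx)

section aniso

variable [FiniteDimensional F V] [Finite F]

theorem refl_mem_of_aniso_two (h2 : (2 : F) = 0) (hX : Nondeg Q X) (hd : finrank F X = 2)
    (han : ∀ y ∈ X, Q y = 0 → y = 0) (hr : ∀ y ∈ X, refl Q y ∈ G) {a z : V} (ha : a ∈ X)
    (ha0 : a ≠ 0) (hz : z ∈ perp Q X) (hQz : Q z ≠ 0) (hx : Q (a + z) ≠ 0)
    (hxG : refl Q (a + z) ∈ G) {b : V} (hb : b ∈ X) (d : F) : refl Q (b + d • z) ∈ G := by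
  have hQa : Q a ≠ 0 := fun e => ha0 (han a ha e)
  have hz' : ∀ x ∈ X, polar Q x z = 0 := hz
  obtain ⟨c, hc⟩ := exists_sq_of_two h2 (Q a / Q z)
  have hc' : c * c * Q z = Q a := by rw [hc, div_mul_cancel₀ _ hQz]
  have hc0 : c ≠ 0 := by rintro rfl; exact hQa (by simpa using hc'.symm)
  have hsing : ∀ a' ∈ X, Q a' = Q a → Q (a' + c • z) = 0 := fun a' ha' h => by
    rw [Q_add, Q_smul, polar_smul_right, hz' a' ha', h, hc']; linear_combination Q a * h2
  have hc1 : c - 1 ≠ 0 := fun e => hx (by simpa [sub_eq_zero.1 e] using hsing a ha rfl)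
  have haa : polar Q a a = 0 := by rw [polar_self', h2, zero_mul]
  have h0 : 1 - c⁻¹ ≠ 0 := fun e => hc1 (by field_simp at e; linear_combination e)
  have h1 := smul_mem_AA_of_refl (G := G) (y := (1 - c⁻¹) • a) (hsing a ha rfl)
    (by simp [haa, pc (hz' a ha)]) (by rw [Q_smul]; simp [h0, hQa]) (hr _ (smul_mem _ _ ha))
    (c := c⁻¹) (by convert hxG using 2; match_scalars <;> field_simp <;> ring)
  rw [smul_smul, Q_smul] at h1
  have hl : c⁻¹ / ((1 - c⁻¹) * (1 - c⁻¹) * Q a) * (1 - c⁻¹) = ((c - 1) * Q a)⁻¹ := by field_simp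
  rw [hl] at h1
  have h3 := mem_AS_of_aniso hX hd han hr ha ha0 (smul_mem _ c hz) (hsing a ha rfl) ha ha0 haa h1
    (inv_ne_zero (mul_ne_zero hc1 hQa)) (by
      rw [← sub_smul]
      refine smul_ne_zero (fun e => hc0 ?_) ha0
      field_simp at e
      linear_combination e + h2)
  obtain ⟨t, a', ha', hQa', rfl⟩ : ∃ t : F, ∃ a' ∈ X, Q a' = Q a ∧ b = t • a' := by
    obtain ⟨t, ht⟩ := exists_sq_of_two h2 (Q b / Q a)
    by_cases ht0 : t = 0
    · exact ⟨0, a, ha, rfl, by rw [zero_smul]; exact han b hb (by simpa [ht0, hQa] using ht.symm)⟩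
    · refine ⟨t, t⁻¹ • b, smul_mem _ _ hb, ?_, by rw [smul_inv_smul₀ ht0]⟩
      rw [Q_smul, ← div_mul_cancel₀ (Q b) hQa, ← ht]; field_simp
  obtain ⟨θ, hθ, h4, h5, -⟩ := exists_rot han hr ha ha' hQa'.symm
  have h6 := apply_mem_AS hθ h3
  rw [map_add, h4, h5 _ (smul_mem _ c hz)] at h6
  have e : t • a' + d • z = (t - d / c) • a' + (d / c) • (a' + c • z) := by
    match_scalars <;> field_simp <;> ring
  rw [e]
  by_cases h7 : t - d / c = 0
  · rw [refl_of_eq_zero (by rw [h7, zero_smul, zero_add, Q_smul, hsing a' ha' hQa', mul_zero])]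
    exact G.one_mem
  · exact refl_mem_of_AS (hsing a' ha' hQa') (smul_mem _ _ h6) (by rw [Q_smul, hQa']; simp [h7, hQa])
      (hr _ (smul_mem _ _ ha')) _

theorem refl_mem_of_aniso (hQ : Q.polarBilin.Nondegenerate) (hX : Nondeg Q X)
    (hd : finrank F X = 2) (han : ∀ y ∈ X, Q y = 0 → y = 0) (hr : ∀ y ∈ X, refl Q y ∈ G) {a z : V}
    (ha : a ∈ X) (ha0 : a ≠ 0) (hz : z ∈ perp Q X) (hQz : Q z ≠ 0) (hx : Q (a + z) ≠ 0)
    (hxG : refl Q (a + z) ∈ G) {b : V} (hb : b ∈ X) (d : F) : refl Q (b + d • z) ∈ G := by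
  by_cases h2 : (2 : F) = 0
  · exact refl_mem_of_aniso_two h2 hX hd han hr ha ha0 hz hQz hx hxG hb d
  have hz' : ∀ x ∈ X, polar Q x z = 0 := hz
  have hpp : ∀ y ∈ X, y ≠ 0 → polar Q y y ≠ 0 := fun y hy h0 => by
    rw [polar_self']; exact mul_ne_zero h2 fun e => h0 (han y hy e)
  have hW := hX.sup_span hz (by rw [polar_self']; exact mul_ne_zero h2 hQz)
  have h3 : 3 ≤ finrank F ↥(X ⊔ span F {z}) := by
    have := Submodule.finrank_lt_finrank_of_lt (lt_of_le_of_ne (le_sup_left : X ≤ X ⊔ span F {z})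
      fun e => hQz (by
        rw [hX.eq_zero (e.ge (mem_sup_right (mem_span_singleton_self z))) hz, map_zero]))
    omega
  obtain ⟨b₀, hb₀, hb₀0, hab₀⟩ := exists_orth_of_two (Q := Q) hd.ge a
  obtain ⟨u, hu, hQu, hbu⟩ := (hW.hasHyp h3).exists_sing_polar_ne (mem_sup_left hb₀)
    (hpp b₀ hb₀ hb₀0)
  obtain ⟨a₁, ha₁, c, rfl⟩ := mem_sup_span_iff.1 hu
  have hc0 : c ≠ 0 := by
    rintro rfl
    rw [zero_smul, add_zero] at hQu hbu
    exact hbu (by simp [han a₁ ha₁ hQu])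
  have ha₁0 : a₁ ≠ 0 := by
    rintro rfl
    simp [Q_smul, hc0, hQz] at hQu
  obtain ⟨p, hp, hp0, hap⟩ := exists_orth_of_two (Q := Q) hd.ge a₁
  have hdec : ∀ w ∈ X ⊔ span F {z}, polar Q (a₁ + c • z) w = 0 →
      ∃ ε d : F, w = ε • p + d • (a₁ + c • z) ∧ (w ∈ X → d = 0) := fun w hw huw => by
    obtain ⟨b, hb, d, rfl⟩ := mem_sup_span_iff.1 hw
    have e : b + d • z = (b - (d / c) • a₁) + (d / c) • (a₁ + c • z) := by
      match_scalars <;> field_simp <;> ring
    have hm := sub_mem hb (smul_mem _ (d / c) ha₁)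
    obtain ⟨ε, hε⟩ := hX.exists_smul_of_two hd ha₁ ha₁0 hp hp0 hap hm (by
      rw [e, polar_add_right, polar_smul_right, pself hQu, polar_add_left, polar_smul_left,
        pc (hz' _ hm)] at huw
      simpa using huw)
    refine ⟨ε, d / c, by rw [← hε, e], fun h => ?_⟩
    have := hX.eq_zero (by simpa using sub_mem h hb) (smul_mem _ d hz)
    rw [(smul_eq_zero.1 this).resolve_right (by rintro rfl; simp at hQz), zero_div]
  obtain ⟨p', hp', hp'0, hup'⟩ := exists_orth_of_two (Q := Q) hd.ge (refl Q (a + z) (a₁ + c • z))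
  rw [O.polar_apply_left, refl_inv] at hup'
  have hxW : a + z ∈ X ⊔ span F {z} := mem_sup_span_iff.2 ⟨a, ha, 1, by simp⟩
  obtain ⟨ε, δ, hy, -⟩ := hdec _ (refl_apply_mem hxW (mem_sup_left hp')) hup'
  have hδ : δ ≠ 0 := by
    rintro rfl
    rw [zero_smul, add_zero] at hy
    by_cases h4 : polar Q (a + z) p' = 0
    · rw [refl_apply_of_orth h4] at hup'
      rw [polar_add_left, pc (hz' p' hp'), add_zero] at h4
      obtain ⟨t, rfl⟩ := hX.exists_smul_of_two hd ha ha0 hb₀ hb₀0 hab₀ hp' h4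
      rw [polar_smul_right, smul_eq_mul, polar_comm] at hup'
      exact hp'0 (by rw [(mul_eq_zero.1 hup').resolve_right hbu, zero_smul])
    · have := mem_of_refl_mem hp' (hy ▸ smul_mem _ _ hp) hx h4
      exact hQz (by rw [hX.eq_zero (by simpa using sub_mem this ha) hz, map_zero])
  have hε : ε ≠ 0 := by
    rintro rfl
    have := (refl Q (a + z)).map_Q p'
    rw [hy, zero_smul, zero_add, Q_smul, hQu, mul_zero] at this
    exact hp'0 (han p' hp' this.symm)
  have hQp : Q p ≠ 0 := fun e => hp0 (han p hp e)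
  have h4 := smul_mem_AA_of_refl (G := G) (y := ε • p) hQu (by simp [hap, pc (hz' p hp)])
    (by rw [Q_smul]; simp [hε, hQp]) (hr _ (smul_mem _ _ hp)) (c := δ)
    (hy ▸ refl_apply_mem_of hxG (hr p' hp'))
  rw [smul_smul] at h4
  have hl : δ / Q (ε • p) * ε ≠ 0 := by rw [Q_smul]; simp [hε, hQp, hδ]
  have h5 := mem_AS_of_aniso hX hd han hr ha₁ ha₁0 (smul_mem _ c hz) hQu hp hp0 hap h4 hl fun e => by
    have := congrArg (polar Q p) e
    rw [polar_sub_right, polar_smul_right, polar_smul_right, pc hap] at this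
    exact mul_ne_zero hl (hpp p hp hp0) (by simpa using this)
  have h6 : (X ⊔ span F {z}) ⊓ ort Q (a₁ + c • z) ≤ AS G (a₁ + c • z) := fun w hw => by
    obtain ⟨ε, d, rfl, -⟩ := hdec w hw.1 hw.2
    exact add_mem (smul_mem _ _ h5) (smul_mem _ _ (self_mem_AS G hQu))
  have hQa₁ : Q a₁ ≠ 0 := fun e => ha₁0 (han a₁ ha₁ e)
  have h7 := EOin_le_of_fullIn hQ hW hu (refl_apply_mem (Q := Q) (mem_sup_left ha₁) hu) h6
    (fun w hw => by
      have := apply_mem_AS (hr a₁ ha₁) (h6 (x := refl Q a₁ w)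
        ⟨refl_apply_mem (mem_sup_left ha₁) hw.1, by
          rw [SetLike.mem_coe, mem_ort, O.polar_apply_right, refl_inv]; exact hw.2⟩)
      rwa [refl_refl] at this) hQu (by rw [O.map_Q, hQu]) (by
      have h8 := hz' a₁ ha₁
      rw [refl_apply, polar_sub_right, pself hQu, polar_smul_right, polar_add_right,
        polar_add_left, polar_smul_right, polar_smul_left, h8, pc h8]
      simp [hQa₁, h2])
  by_cases hy0 : Q (b + d • z) = 0
  · rw [refl_of_eq_zero hy0]; exact G.one_mem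
  obtain ⟨p₁, hp₁, hQp₁⟩ := hX.exists_Q_eq hd.ge hy0
  have := G.mul_mem (h7 (refl_mul_refl_mem_EOin₃ hQ hW h3 (Or.inl h2)
    (mem_sup_span_iff.2 ⟨b, hb, d, rfl⟩) (mem_sup_left hp₁) hy0 (by rwa [hQp₁]) (by rw [hQp₁])))
    (hr p₁ hp₁)
  rwa [mul_assoc, refl_mul_self, mul_one] at this

end aniso

section hyp

variable {e f z : V}

theorem tor_mem_of (hr : ∀ y ∈ X, refl Q y ∈ G) (he : e ∈ X) (hf : f ∈ X) (s : F) :
    tor Q e f s ∈ G :=
  G.mul_mem (hr _ (add_mem he hf)) (hr _ (add_mem he (smul_mem _ _ hf)))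

theorem mem_AS_of_tor (hr : ∀ y ∈ X, refl Q y ∈ G) (he : e ∈ X) (hf : f ∈ X) (hef : IsHyp Q e f)
    (hz : z ∈ perp Q X) {l : F} (hl : l ≠ 0) (h : l • z ∈ AA G e) : z ∈ AS G e :=
  ⟨hz e he, fun c => by
    by_cases hc : c = 0
    · simp [hc]
    have h0 := div_ne_zero hc hl
    have := apply_mem_AA (tor_mem_of hr he hf (c / l)) h
    rw [tor_apply_e hef h0, map_smul, tor_apply_of_orth (hz e he) (hz f hf)] at this
    have := (smul_mem_AA_of_smul h0 this).2
    rwa [smul_smul, div_mul_cancel₀ _ hl] at this⟩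

theorem AS_of_hyp_one (hr : ∀ y ∈ X, refl Q y ∈ G) (he : e ∈ X) (hf : f ∈ X) (hef : IsHyp Q e f)
    (hz : z ∈ perp Q X) {s : F} (hs0 : s ≠ 0) (hs1 : s ≠ 1) {α : F} (hα : α ≠ 0) (hQz : Q z ≠ 0)
    (hx : refl Q (α • e + z) ∈ G) : z ∈ AS G e := by
  have hez : polar Q e z = 0 := hz e he
  have hQ : Q (α • e + z) = Q z := by simp [Q_add, Q_smul, hef.qe, hez]
  have h1 := smul_mem_AA_of_refl (G := G) hef.qe (by simp [hef.ee, hez]) (by rwa [hQ]) hx
    (c := (s - 1) * α) (by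
      convert refl_apply_mem_of (tor_mem_of hr he hf s) hx using 2
      rw [map_add, map_smul, tor_apply_e hef hs0, tor_apply_of_orth hez (hz f hf)]
      module)
  rw [smul_add, smul_smul] at h1
  rw [hQ] at h1
  refine mem_AS_of_tor hr he hf hef hz (div_ne_zero (mul_ne_zero (sub_ne_zero.2 hs1) hα) hQz) ?_
  simpa using sub_mem h1 (smul_self_mem_AA G hef.qe ((s - 1) * α / Q z * α))

theorem AS_of_hyp_two (hr : ∀ y ∈ X, refl Q y ∈ G) (he : e ∈ X) (hf : f ∈ X) (hef : IsHyp Q e f)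
    (hz : z ∈ perp Q X) {s : F} (hs0 : s ≠ 0) (hs1 : s ≠ 1) {α β : F} (hαβ : α ≠ 0 ∨ β ≠ 0)
    (hQz : Q z ≠ 0) (hne : Q z ≠ α * β) (hQx : α * β + Q z ≠ 0)
    (hx : refl Q (α • e + β • f + z) ∈ G) : z ∈ AS G e ∨ z ∈ AS G f := by
  by_cases hβ : β = 0
  · exact Or.inl (AS_of_hyp_one hr he hf hef hz hs0 hs1 (hαβ.resolve_right (not_not.2 hβ)) hQz
      (by simpa [hβ] using hx))
  have hez : polar Q e z = 0 := hz e he
  have hfz : polar Q f z = 0 := hz f hf
  have hQ : Q (α • e + β • f + z) = α * β + Q z := by simp [Q_add, hef.Q_comb, hez, hfz]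
  have h1 := refl_apply_mem_of hx (hr _ (add_mem (smul_mem _ (Q z) he) (smul_mem _ (β * β) hf)))
  have e1 : refl Q (α • e + β • f + z) (Q z • e + (β * β) • f) = (Q z - α * β) • e + (-β) • z := by
    rw [refl_apply, hQ, show polar Q (α • e + β • f + z) (Q z • e + (β * β) • f) =
      (α * β + Q z) * β by simp [hef.ee, hef.ef, hef.fe, hef.ff, pc hez, pc hfz]; ring,
      inv_mul_cancel_left₀ hQx]
    module
  rw [e1] at h1
  have := AS_of_hyp_one hr he hf hef (smul_mem _ (-β) hz) hs0 hs1 (sub_ne_zero.2 hne)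
    (by rw [Q_smul]; simp [hβ, hQz]) h1
  exact Or.inl ((Submodule.smul_mem_iff _ (neg_ne_zero.2 hβ)).1 this)

theorem AS_of_hyp [Finite F] (h7 : 7 ≤ Nat.card F) (hr : ∀ y ∈ X, refl Q y ∈ G) (he : e ∈ X)
    (hf : f ∈ X) (hef : IsHyp Q e f) (hz : z ∈ perp Q X) {α β : F} (hαβ : α ≠ 0 ∨ β ≠ 0)
    (hQx : α * β + Q z ≠ 0) (hx : refl Q (α • e + β • f + z) ∈ G) : z ∈ AS G e ∨ z ∈ AS G f := by
  have hez : polar Q e z = 0 := hz e he
  have hfz : polar Q f z = 0 := hz f hf
  have ht : ∀ {s : F}, s ≠ 0 → ∀ a b : F, tor Q e f s (a • e + b • f) =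
      (s * a) • e + (s⁻¹ * b) • f := fun hs a b => by
    rw [map_add, map_smul, map_smul, tor_apply_e hef hs, tor_apply_f hef hs]; module
  by_cases hQz : Q z = 0
  · obtain ⟨s, hs⟩ := exists_ne_four (F := F) (by omega)
    have hs0 : s ≠ 0 := by rintro rfl; simp at hs
    have hs1 : 1 + s ≠ 0 := fun e => hs (by linear_combination (s ^ 3 + s ^ 2 + s) * e)
    have hs2 : s ^ 2 + s + 1 ≠ 0 := fun e => hs (by linear_combination (s ^ 2 + s) * e)
    rw [hQz, add_zero] at hQx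
    have h1 := smul_mem_AA_of_refl (G := G) (y := α • e + β • f) hQz (by simp [pc hez, pc hfz])
      (by rwa [hef.Q_comb]) (hr _ (add_mem (smul_mem _ _ he) (smul_mem _ _ hf))) (c := 1)
      (by rwa [one_smul])
    rw [hef.Q_comb, smul_add, smul_smul, smul_smul] at h1
    have h2 : ∀ {s : F}, s ≠ 0 → ∀ {y}, y ∈ AA G z → tor Q e f s y ∈ AA G z := fun {s} _ y hy => by
      have := apply_mem_AA (tor_mem_of hr he hf s) hy
      rwa [tor_apply_of_orth hez hfz] at this
    have h3 := sub_mem (add_mem h1 (h2 hs0 h1)) (h2 hs1 h1)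
    rw [ht hs0, ht hs1] at h3
    have hα : α ≠ 0 := left_ne_zero_of_mul hQx
    have hβ : β ≠ 0 := right_ne_zero_of_mul hQx
    have h4 : ((s ^ 2 + s + 1) / (s * (1 + s) * α)) • f ∈ AA G z := by
      convert h3 using 1
      match_scalars <;> field_simp <;> ring
    refine Or.inr (AS_swap hQz hef.qf (mem_AS_of_sq (div_ne_zero hs2
      (mul_ne_zero (mul_ne_zero hs0 hs1) hα)) fun c => ?_))
    by_cases hc : c = 0
    · simp [hc]
    have := h2 (inv_ne_zero (mul_ne_zero hc hc)) h4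
    rwa [map_smul, tor_apply_f hef (inv_ne_zero (mul_ne_zero hc hc)), inv_inv, smul_smul,
      mul_comm] at this
  obtain ⟨s, hs⟩ := exists_ne_five (F := F) (by omega)
  have hs0 : s ≠ 0 := by rintro rfl; simp at hs
  have hs1 : s ≠ 1 := by rintro rfl; simp at hs
  by_cases hne : Q z = α * β
  swap
  · exact AS_of_hyp_two hr he hf hef hz hs0 hs1 hαβ hQz hne hQx hx
  have hs2 : s + 1 ≠ 0 := fun e => hs (by linear_combination (s ^ 4 - s ^ 3 + s ^ 2 - s) * e)
  have hs3 : s ^ 2 + 1 ≠ 0 := fun e => hs (by linear_combination (s ^ 3 - s) * e)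
  have hα : α ≠ 0 := left_ne_zero_of_mul (hne ▸ hQz)
  have hβ : β ≠ 0 := right_ne_zero_of_mul (hne ▸ hQz)
  have h2 : (2 : F) ≠ 0 := fun e => hQx (by linear_combination hne + α * β * e)
  have h1 := refl_apply_mem_of hx (refl_apply_mem_of (tor_mem_of hr he hf s) hx)
  set c := (s + 1) ^ 2 / (2 * s) with hc
  have e1 : refl Q (α • e + β • f + z) (tor Q e f s (α • e + β • f + z)) =
      (α * (s - c)) • e + (β * (s⁻¹ - c)) • f + (1 - c) • z := by
    rw [map_add (tor Q e f s), ht hs0, tor_apply_of_orth hez hfz, refl_apply, Q_add, hef.Q_comb]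
    simp only [polar_add_left, polar_add_right, polar_smul_left, polar_smul_right, hef.ee, hef.ef,
      hef.fe, hef.ff, pc hez, pc hfz, hez, hfz, smul_eq_mul, polar_self', hne, hc]
    rw [add_zero, ← two_mul (α * β)]
    match_scalars <;> field_simp <;> ring
  have hQ1 := (refl Q (α • e + β • f + z)).map_Q (tor Q e f s (α • e + β • f + z))
  rw [e1, O.map_Q] at hQ1
  rw [e1] at h1
  have hc1 : 1 - c ≠ 0 := fun e => hs3 (by rw [hc] at e; field_simp at e; linear_combination -e)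
  have := AS_of_hyp_two hr he hf hef (smul_mem _ (1 - c) hz) hs0 hs1 (α := α * (s - c))
    (β := β * (s⁻¹ - c)) (by
      by_contra hcon
      simp only [ne_eq, mul_eq_zero, hα, hβ, false_or, not_or, not_not] at hcon
      have h3 : s * s = 1 := by
        rw [show s = s⁻¹ by linear_combination hcon.1 - hcon.2]; field_simp
        have : s = s⁻¹ := by linear_combination hcon.1 - hcon.2
        nth_rw 1 [pow_two]; nth_rw 2 [this]; field_simp
      exact hs (by linear_combination (s ^ 3 + s) * h3))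
    (by rw [Q_smul]; simp [hc1, hQz]) (fun e => by
      rw [Q_smul, hne, hc] at e
      field_simp at e
      exact mul_ne_zero h2 (pow_ne_zero 2 (mul_ne_zero hs2 (sub_ne_zero.2 hs1)))
        (by linear_combination e)) (by
      simp only [Q_add, hef.Q_comb, polar_add_left, polar_smul_left, polar_smul_right, hez, hfz,
        smul_zero, add_zero] at hQ1
      rwa [hQ1]) h1
  rwa [Submodule.smul_mem_iff _ hc1, Submodule.smul_mem_iff _ hc1] at this

end hyp

end H60
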