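/- Decompositions into planes: no mixed reflections. -/
import Cfsg.Agent.H60.Plane2

set_option autoImplicit false

namespace H60

open QuadraticMap H56 Module Submodule Cfsg.Geo

variable {F V : Type*} [Field F] [AddCommGroup V] [Module F V] {Q : QuadraticForm F V}

theorem exists_notMem_of_card {ι : Type*} [Fintype ι] (s : Finset ι) (h : s.card < Fintype.card ι) :
    ∃ m, m ∉ s := by
  by_contra hc
  push Not at hc
  rw [Finset.eq_univ_of_forall hc, Finset.card_univ] at h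
  omega

theorem exists_ne_ne_ne {ι : Type*} [Fintype ι] (h : 4 ≤ Fintype.card ι) (i j l : ι) :
    ∃ m, m ≠ i ∧ m ≠ j ∧ m ≠ l := by
  classical
  obtain ⟨m, hm⟩ := exists_notMem_of_card ({i, j, l} : Finset ι)
    (Finset.card_le_three.trans_lt (by omega))
  exact ⟨m, by simpa [not_or] using hm⟩

theorem Nondeg.sup {A B : Submodule F V} (hA : Nondeg Q A) (hB : Nondeg Q B)
    (h : ∀ x ∈ A, ∀ y ∈ B, polar Q x y = 0) : Nondeg Q (A ⊔ B) := fun y hy hy' => by
  obtain ⟨a, ha, b, hb, rfl⟩ := Submodule.mem_sup.1 hy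
  rw [hA a ha fun x hx => by simpa [h x hx b hb] using hy' x (mem_sup_left hx),
    hB b hb fun x hx => by simpa [pc (h a ha x hx)] using hy' x (mem_sup_right hx), add_zero]

theorem exists_Q_add_smul_ne [Finite F] (h4 : 4 ≤ Nat.card F) {p : V} (hp : Q p ≠ 0) (y : V)
    (ν : F) : ∃ c : F, Q (y + c • p) ≠ ν := by
  by_contra hc
  push Not at hc
  have h0 := hc 0
  have h1 := hc 1
  simp only [Q_add, Q_smul, polar_smul_right, smul_eq_mul] at hc h0 h1
  have := card_le_three_of (F := F) 1 1 fun c => (mul_eq_zero.1 (mul_right_cancel₀ hp (by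
    linear_combination hc c - c * h1 + (c - 1) * h0 : c * (c - 1) * Q p = 0 * Q p))).imp_right
      fun h => Or.inl (sub_eq_zero.1 h)
  omega

variable [FiniteDimensional F V] [Finite F] {ι : Type*} [Fintype ι] [DecidableEq ι] {k : ℕ}
  {D : ι → Submodule F V} {M G : Subgroup (O Q)}

omit [Finite F] [DecidableEq ι] in
/-- The support of a vector. -/
noncomputable def OrthDec.supp (h : OrthDec Q k D) (x : V) : Finset ι :=
  open Classical in Finset.univ.filter fun l => x ∉ perp Q (D l)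

omit [Finite F] [DecidableEq ι] [FiniteDimensional F V] in
theorem OrthDec.mem_supp (h : OrthDec Q k D) {x : V} {l : ι} : l ∈ h.supp x ↔ x ∉ perp Q (D l) := by
  simp [OrthDec.supp]

omit [Finite F] in
theorem OrthDec.supp_sub_pr (h : OrthDec Q k D) (x : V) (l : ι) :
    h.supp (x - h.pr l x) = (h.supp x).erase l := by
  ext m
  rw [Finset.mem_erase, h.mem_supp, h.mem_supp]
  by_cases hm : m = l
  · simp [hm, h.sub_pr_mem]
  · simp only [ne_eq, hm, not_false_eq_true, true_and]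
    rw [Submodule.sub_mem_iff_left _ (h.mem_perp_of (Ne.symm hm) (h.pr_mem l x))]

omit [Finite F] [DecidableEq ι] in
theorem OrthDec.mem_of_card_supp (h : OrthDec Q k D) {x : V} (h0 : x ≠ 0)
    (hc : (h.supp x).card ≤ 1) : ∃ j, x ∈ D j := by
  obtain ⟨j, hj⟩ : ∃ j, j ∈ h.supp x := by
    by_contra hn
    exact h0 (h.eq_zero_of_perp fun i => by_contra fun hi => hn ⟨i, h.mem_supp.2 hi⟩)
  exact ⟨j, h.mem_of_perp fun l hl => by_contra fun hn =>
    hl (Finset.card_le_one.1 hc l (h.mem_supp.2 hn) j hj)⟩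

namespace DecM

omit [Fintype ι] [DecidableEq ι] [Finite F] in
theorem full_of_pair (h : DecM k D M) {i j : ι} (hij : i ≠ j) {u : V} (hu : u ∈ D i ⊔ D j)
    (h1 : ∀ a ∈ D i, ∀ b ∈ D j, polar Q u (a + b) = 0 → a + b ∈ AS M u)
    (h2 : ∀ l, l ≠ i → l ≠ j → D l ≤ AS M u) : Full M u := full_of_ort_le fun x hx => by
  have h3 := h.le_of_forall (T := (AS M u).comap (LinearMap.id - h.pr i - h.pr j)) (fun m y hy => by
    by_cases hi : m = i
    · subst hi; simp [h.pr_of_mem hy, h.pr_of_ne hij hy]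
    by_cases hj : m = j
    · subst hj; simp [h.pr_of_mem hy, h.pr_of_ne hij.symm hy]
    simpa [h.pr_of_ne hi hy, h.pr_of_ne hj hy] using h2 m hi hj hy) x
  simp only [mem_comap, LinearMap.sub_apply, LinearMap.id_apply] at h3
  have h4 := h1 _ (h.pr_mem i x) _ (h.pr_mem j x) (by
    have := h3.1
    rw [polar_sub_right, polar_sub_right, mem_ort.1 hx] at this
    rw [polar_add_right]
    linear_combination -this)
  simpa [sub_sub] using add_mem h3 h4

omit [Fintype ι] [DecidableEq ι] in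
theorem false_of_full (h : DecM 2 D M) (han : ∀ j, ∀ y ∈ D j, Q y = 0 → y = 0) {i j : ι}
    (hij : i ≠ j) (hf : ∀ a ∈ D i, ∀ b ∈ D j, a ≠ 0 → Q (a + b) = 0 → Full M (a + b)) : False := by
  obtain ⟨a, ha, hQa⟩ := h.exists_ne i
  have ha0 : a ≠ 0 := by rintro rfl; simp at hQa
  obtain ⟨b, hb, hQb⟩ := (h.nd j).exists_Q_eq (h.dim j).ge (neg_ne_zero.2 hQa)
  obtain ⟨y, hy, hay⟩ := (h.nd i).exists_polar_ne ha ha0
  have hQy : Q y ≠ 0 := fun e => hay (by simp [han i y hy e])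
  have ha' := refl_apply_mem (Q := Q) hy ha
  have key : ∀ a' ∈ D i, Q a' = Q a → Q (a' + b) = 0 := fun a' ha' e => by
    rw [Q_add, e, hQb, h.orth i j hij a' ha' b hb]; simp
  refine h.nle (commutator_le_of_full₂ h.hQ h.h5 (hf a ha b hb ha0 (key a ha rfl))
    (hf _ ha' b hb (by simpa using ha0) (key _ ha' (O.map_Q _ _))) (key a ha rfl)
    (key _ ha' (O.map_Q _ _)) ?_)
  rw [refl_apply]
  simp only [polar_add_left, polar_add_right, polar_sub_right, polar_smul_right, polar_self', hQb,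
    h.orth i j hij a ha b hb, h.orth j i hij.symm b hb a ha, h.orth j i hij.symm b hb y hy,
    polar_comm Q y a, smul_eq_mul]
  intro e
  exact mul_ne_zero (mul_ne_zero (inv_ne_zero hQy) hay) hay (by linear_combination -e)

omit [DecidableEq ι] in
theorem mem_of_refl_hyp (h : DecM 2 D M) (h7 : 7 ≤ Nat.card F) (ht : 4 ≤ Fintype.card ι)
    (hH : ∀ j, HasHyp Q (D j)) (hG : G ⊓ commutator (O Q) ≤ M) {x : V}
    (hJ : ∀ j, x ∉ perp Q (D j) → ∀ y ∈ D j, refl Q y ∈ G) (hQx : Q x ≠ 0) (hx : refl Q x ∈ G) :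
    ∃ j, x ∈ D j := by
  obtain ⟨j, hj⟩ := h.exists_Q_pr_ne hQx
  have hj' : x ∉ perp Q (D j) := fun e => hj (by simp [h.pr_eq_zero.2 e])
  obtain ⟨e, he, f, hf, hQe, hQf, hef⟩ := hH j
  have hef' : IsHyp Q e f := ⟨hQe, hQf, hef⟩
  obtain ⟨α, β, hαβ⟩ := Submodule.mem_span_pair.1
    (eq_span_of_hyp (h.dim j) he hf hQe hQf hef ▸ h.pr_mem j x)
  have hA : ∀ u ∈ D j, u ≠ 0 → Q u = 0 → AS G u ≤ D j := fun u hu h0 hQu =>
    (AS_le_of_inf h.hQ h.h5 hG u).trans (h.AS_le le_rfl (fun i hs => by have := hs.1; omega)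
      (Or.inr fun j l => (exists_ne_ne_ne ht j l l).imp fun _ hm => ⟨hm.1, hm.2.1⟩) hu h0 hQu)
  have := AS_of_hyp h7 (hJ j hj') he hf hef' (h.sub_pr_mem j x) (α := α) (β := β)
    (Or.inl (left_ne_zero_of_mul (by rwa [← hef'.Q_comb, hαβ])))
    (by rwa [← hef'.Q_comb, hαβ, ← h.Q_eq_add]) (by rwa [hαβ, add_sub_cancel])
  have h1 := this.elim (hA e he hef'.ne_zero hQe ·) (hA f hf hef'.symm.ne_zero hQf ·)
  exact ⟨j, by simpa using add_mem h1 (h.pr_mem j x)⟩

omit [DecidableEq ι] in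
theorem false_of_pair (h : DecM 2 D M) (h4 : 4 ≤ Nat.card F) (ht : 4 ≤ Fintype.card ι)
    (han : ∀ j, ∀ y ∈ D j, Q y = 0 → y = 0) (hG : G ⊓ commutator (O Q) ≤ M) {i j : ι} (hij : i ≠ j)
    (hi : ∀ y ∈ D i, refl Q y ∈ G) (hj : ∀ y ∈ D j, refl Q y ∈ G) {a b : V} (ha : a ∈ D i)
    (hb : b ∈ D j) (ha0 : a ≠ 0) (hb0 : b ≠ 0) (hQ : Q (a + b) ≠ 0) (hx : refl Q (a + b) ∈ G) :
    False := by
  have hne : ∀ {j y}, y ∈ D j → y ≠ 0 → Q y ≠ 0 := fun hy h0 e => h0 (han _ _ hy e)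
  have h1 : ∀ a' ∈ D i, ∀ b' ∈ D j, refl Q (a' + b') ∈ G := fun a' ha' b' hb' => by
    by_cases h0 : b' = 0
    · simpa [h0] using hi a' ha'
    obtain ⟨c, hc0, hc⟩ := exists_ne_zero_sq_ne h4 (-Q a / Q b')
    have h2 := refl_mem_of_aniso h.hQ (h.nd j) (h.dim j) (han j) hj hb hb0 (h.mem_perp_of hij ha)
      (hne ha ha0) (by rwa [add_comm]) (by rwa [add_comm]) (smul_mem _ c hb') 1
    have := refl_mem_of_aniso h.hQ (h.nd i) (h.dim i) (han i) hi ha ha0
      (h.mem_perp_of hij.symm (smul_mem _ c hb')) (hne (smul_mem _ c hb') (smul_ne_zero hc0 h0))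
      (fun e => hc (by
        rw [Q_add, Q_smul, h.orth i j hij a ha _ (smul_mem _ c hb')] at e
        rw [eq_div_iff (hne hb' h0)]
        linear_combination e)) (by rwa [one_smul, add_comm] at h2) ha' c⁻¹
    rwa [inv_smul_smul₀ hc0] at this
  have h2 : ∀ l, l ≠ i → ∀ a' ∈ D i, ∀ d ∈ D l, Q (a' + d) ≠ 0 → ∀ m, ∀ w ∈ D m,
      Q w = Q (a' + d) → a' + d ∈ RR M w := fun l hl a' ha' d hd hQy m w hw hQw => by
    have base : ∀ b' ∈ D j, Q (a' + b') ≠ 0 → ∃ w ∈ D i, Q w = Q (a' + b') ∧ a' + b' ∈ RR M w :=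
      fun b' hb' h0 => by
        obtain ⟨w, hw, hQw⟩ := (h.nd i).exists_Q_eq (h.dim i).ge h0
        exact ⟨w, hw, hQw, h0, hG ⟨G.mul_mem (h1 a' ha' b' hb') (hi w hw),
          H56.refl_mul_refl_mem_commutator h.hQ h0 (by rwa [hQw]) (by rw [hQw])⟩⟩
    suffices ∃ w ∈ D i, Q w = Q (a' + d) ∧ a' + d ∈ RR M w by
      obtain ⟨w', hw', e, hR⟩ := this
      exact RR.trans hR (h.mem_RR hw' hw (by rwa [e]) (by rwa [hQw]) (by rw [e, hQw]))
    by_cases hlj : l = j
    · exact base d (hlj ▸ hd) hQy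
    obtain ⟨s, hs, h3, h5, h6⟩ := h.exists_swap' hlj
    obtain ⟨n, hni, hnj, hnl⟩ := exists_ne_ne_ne ht i j l
    obtain ⟨ε, hε, hΩ⟩ := exists_corr h.hQ h.h5 (h.nd n) (h.dim n).ge s
    have hg : s * ε ∈ M := h.le ⟨mul_mem hs (h.reflGroup_le n hε), hΩ⟩
    have h7 : ∀ x ∈ D i, (s * ε) x = x := fun x hx => by
      rw [O.mul_apply, apply_eq_of_mem_reflGroup hε fun v hv => h.orth n i hni v hv x hx,
        h6 x (h.mem_perp_of hl.symm hx) (h.mem_perp_of hij hx)]
    have h8 : (s * ε) (a' + d) = a' + s d := by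
      rw [map_add, h7 a' ha', O.mul_apply,
        apply_eq_of_mem_reflGroup hε fun v hv => h.orth n l hnl v hv d hd]
    have h9 : Q (a' + s d) = Q (a' + d) := by rw [← h8, O.map_Q]
    obtain ⟨w', hw', e, hR⟩ := base _ (h3 d hd) (by rwa [h9])
    have := RR.apply hR (M.inv_mem hg)
    rw [← h8, O.inv_apply_apply, (O.inv_apply_eq _).2 (h7 w' hw').symm] at this
    exact ⟨w', hw', e.trans h9, this⟩
  refine h.false_of_full han hij fun a ha b hb ha0 hQu => ?_
  obtain ⟨p, hp, hp0, hap⟩ := exists_orth_of_two (Q := Q) (h.dim i).ge a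
  have hup : polar Q (a + b) p = 0 := by simp [hap, h.orth j i hij.symm b hb p hp]
  have h3 : ∀ a' ∈ D i, ∀ b' ∈ D j, polar Q (a + b) (a' + b') = 0 → Q (a' + b') ≠ 0 →
      a' + b' ∈ AS M (a + b) := fun a' ha' b' hb' ho h0 =>
    AS_le_of_inf h.hQ h.h5 hG _ ⟨ho, fun c => by
      have := (smul_mem_AA_of_refl hQu ho h0 (h1 a' ha' b' hb') (c := c * Q (a' + b')) (by
        rw [smul_add, add_add_add_comm]
        exact h1 _ (add_mem ha' (smul_mem _ _ ha)) _ (add_mem hb' (smul_mem _ _ hb)))).2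
      rwa [mul_div_cancel_right₀ _ h0] at this⟩
  have hpA : p ∈ AS M (a + b) := by
    simpa using h3 p hp 0 (zero_mem _) (by simpa using hup) (by simpa using hne hp hp0)
  have h5 : ∀ a' ∈ D i, ∀ b' ∈ D j, polar Q (a + b) (a' + b') = 0 → a' + b' ∈ AS M (a + b) :=
    fun a' ha' b' hb' ho => by
      obtain ⟨c, hc⟩ := exists_Q_add_smul_ne h4 (hne hp hp0) (a' + b') 0
      rw [add_right_comm] at hc
      have := h3 _ (add_mem ha' (smul_mem _ c hp)) b' hb' (by
        rw [add_right_comm, polar_add_right, ho]; simp only [polar_smul_right, hup]; simp) hc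
      simpa [add_right_comm] using sub_mem this (smul_mem _ c hpA)
  refine h.full_of_pair hij (add_mem_sup ha hb) h5 fun l hli hlj d hd => ?_
  obtain ⟨v, hv, huv, hpv⟩ : ∃ v ∈ D i ⊔ D j, polar Q (a + b) v = 0 ∧ polar Q p v ≠ 0 := by
    by_contra hc
    push Not at hc
    obtain ⟨c, hc⟩ := ((h.nd i).sup (h.nd j) (h.orth i j hij)).exists_smul (add_mem_sup ha hb)
      (mem_sup_left hp) hc
    exact hne hp hp0 (by rw [hc, Q_smul, hQu, mul_zero])
  obtain ⟨a', ha', b', hb', rfl⟩ := Submodule.mem_sup.1 hv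
  obtain ⟨c, hc0, hc⟩ := exists_ne_zero_sq_ne h4 (-Q d / Q p)
  have hQy : Q (c • p + d) ≠ 0 := fun e => hc (by
    rw [Q_add, Q_smul, h.orth i l hli.symm _ (smul_mem _ c hp) d hd] at e
    rw [eq_div_iff (hne hp hp0)]
    linear_combination e)
  obtain ⟨m, hmi, hmj, hml⟩ := exists_ne_ne_ne ht i j l
  obtain ⟨w, hw, hQw⟩ := (h.nd m).exists_Q_eq (h.dim m).ge hQy
  have hw0 : ∀ x ∈ D i, ∀ y ∈ D j, refl Q w (x + y) = x + y := fun x hx y hy =>
    refl_apply_of_orth (by simp [h.orth m i hmi w hw x hx, h.orth m j hmj w hw y hy])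
  have hd0 : ∀ x ∈ D i, ∀ y ∈ D j, polar Q d (x + y) = 0 := fun x hx y hy => by
    simp [h.orth l i hli d hd x hx, h.orth l j hlj d hd y hy]
  have h6 := apply_mem_AS_of_fix (h2 l hli _ (smul_mem _ c hp) d hd hQy m w hw hQw).2
    (by rw [O.mul_apply, hw0 a ha b hb, refl_apply_of_orth (by
      rw [polar_add_left, polar_smul_left, pc hup, hd0 a ha b hb]; simp)]) (h5 a' ha' b' hb' huv)
  rw [O.mul_apply, hw0 a' ha' b' hb'] at h6
  have := mem_of_refl_mem (h5 a' ha' b' hb' huv) h6 hQy (by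
    rw [polar_add_left, polar_smul_left, hd0 a' ha' b' hb', add_zero]
    exact mul_ne_zero hc0 hpv)
  simpa using sub_mem this (smul_mem _ c hpA)

theorem mem_of_refl_aniso (h : DecM 2 D M) (h4 : 4 ≤ Nat.card F) (ht : 4 ≤ Fintype.card ι)
    (han : ∀ j, ∀ y ∈ D j, Q y = 0 → y = 0) (hG : G ⊓ commutator (O Q) ≤ M) {x : V}
    (hJ : ∀ j, x ∉ perp Q (D j) → ∀ y ∈ D j, refl Q y ∈ G) (hQx : Q x ≠ 0) (hx : refl Q x ∈ G) :
    ∃ j, x ∈ D j := by
  refine h.mem_of_card_supp (by rintro rfl; simp at hQx) ?_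
  by_contra hc
  obtain ⟨n, hn⟩ : ∃ n, (h.supp x).card = n + 2 := ⟨(h.supp x).card - 2, by omega⟩
  clear hc
  have hne : ∀ {x l}, l ∈ h.supp x → h.pr l x ≠ 0 := fun hl e => h.mem_supp.1 hl (h.pr_eq_zero.1 e)
  induction n generalizing x with
  | zero =>
    obtain ⟨i, j, hij, hs⟩ := Finset.card_eq_two.1 hn
    have hi : i ∈ h.supp x := by simp [hs]
    have hj : j ∈ h.supp x := by simp [hs]
    have h1 : x - h.pr i x ∈ D j := h.mem_of_perp fun l hl => by_contra fun hn => by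
      have := h.mem_supp.2 hn
      rw [h.supp_sub_pr, hs] at this
      simp [hl] at this
    exact h.false_of_pair h4 ht han hG hij (hJ i (h.mem_supp.1 hi)) (hJ j (h.mem_supp.1 hj))
      (h.pr_mem i x) h1 (hne hi) (fun e => h.mem_supp.1 hj
        (sub_eq_zero.1 e ▸ h.mem_perp_of hij (h.pr_mem i x))) (by rwa [add_sub_cancel])
      (by rwa [add_sub_cancel])
  | succ n ih =>
    have key : ∀ x', h.supp x' = h.supp x → Q x' ≠ 0 → refl Q x' ∈ G → ∀ l ∈ h.supp x,
        Q (x' - h.pr l x') ≠ 0 → False := fun x' hs hQx' hx' l hl hz => by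
      refine ih (x := x' - h.pr l x') (fun j hj => hJ j ?_) hz ?_ ?_
      · have := h.mem_supp.2 hj
        rw [h.supp_sub_pr, hs] at this
        exact h.mem_supp.1 (Finset.mem_of_mem_erase this)
      · simpa using refl_mem_of_aniso h.hQ (h.nd l) (h.dim l) (han l) (hJ l (h.mem_supp.1 hl))
          (h.pr_mem l x') (hne (hs ▸ hl)) (h.sub_pr_mem l x') hz (by rwa [add_sub_cancel])
          (by rwa [add_sub_cancel]) (zero_mem _) 1
      · rw [h.supp_sub_pr, hs, Finset.card_erase_of_mem hl, hn]; rfl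
    obtain ⟨j, hj, l, hl, hjl⟩ := Finset.one_lt_card.1 (show 1 < (h.supp x).card by omega)
    by_cases hz : Q (x - h.pr j x) = 0
    swap
    · exact key x rfl hQx hx j hj hz
    by_cases hz' : Q (x - h.pr l x) = 0
    swap
    · exact key x rfl hQx hx l hl hz'
    have e1 := h.Q_eq_add j x
    have e2 := h.Q_eq_add l x
    rw [hz, add_zero] at e1
    rw [hz', add_zero] at e2
    obtain ⟨a₀, ha₀, haa⟩ := (h.nd j).exists_polar_one (h.pr_mem j x) (hne hj)
    obtain ⟨p, hp, hp0, hap⟩ := exists_orth_of_two (Q := Q) (h.dim j).ge (h.pr j x)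
    obtain ⟨c, hc⟩ := exists_Q_add_smul_ne h4 (fun e => hp0 (han j p hp e)) (Q x • a₀) (Q x)
    set a' := Q x • a₀ + c • p with ha'
    have ha'D : a' ∈ D j := add_mem (smul_mem _ _ ha₀) (smul_mem _ _ hp)
    have h1 : polar Q (h.pr j x) a' = Q x := by simp [ha', haa, hap]
    have ha'0 : a' ≠ 0 := fun e => hQx (by simp [← h1, e])
    have h2 : refl Q x (a' - h.pr j x) = a' + (x - h.pr j x) := by
      rw [refl_apply, polar_comm, ← h.polar_pr (sub_mem ha'D (h.pr_mem j x)), polar_sub_left,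
        polar_comm Q a', h1, polar_self', ← e1, show Q x - 2 * Q x = -Q x by ring, mul_neg,
        inv_mul_cancel₀ hQx]
      module
    have h3 : Q (a' + (x - h.pr j x)) = Q a' := by
      rw [Q_add, hz, mem_perp.1 (h.sub_pr_mem j x) a' ha'D]; simp
    have h5 : ∀ m, m ≠ j → h.pr m (a' + (x - h.pr j x)) = h.pr m x := fun m hm => by
      rw [map_add, map_sub, h.pr_of_ne hm.symm ha'D, h.pr_of_ne hm.symm (h.pr_mem j x)]; simp
    refine key (a' + (x - h.pr j x)) ?_ (by rw [h3]; exact fun e => ha'0 (han j _ ha'D e))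
      (h2 ▸ refl_apply_mem_of hx (hJ j (h.mem_supp.1 hj) _ (sub_mem ha'D (h.pr_mem j x)))) l hl
      fun e => hc ?_
    · ext m
      rw [h.mem_supp, h.mem_supp, ← h.pr_eq_zero, ← h.pr_eq_zero]
      by_cases hm : m = j
      · subst hm
        rw [map_add, h.pr_of_mem ha'D, h.pr_eq_zero.2 (h.sub_pr_mem m x), add_zero]
        simp [ha'0, hne hj]
      · rw [h5 m hm]
    · have := h.Q_eq_add l (a' + (x - h.pr j x))
      rwa [e, add_zero, h3, h5 l hjl.symm, ← e2] at this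

end DecM

end H60
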