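/- The dihedral argument: two non-conjugate involutions generate a dihedral group with a central
involution; control of centralisers of such involutions forces `M = H`. -/
import Cfsg.Agent.Base

set_option autoImplicit false

namespace H60

theorem conj_pow_of_inverts {G : Type*} [Group G] {s ρ : G} (h : s * ρ⁻¹ = ρ * s) (i : ℕ) :
    ρ ^ i * s * (ρ ^ i)⁻¹ = ρ ^ (2 * i) * s := by
  have := (SemiconjBy.pow_right (show SemiconjBy s ρ⁻¹ ρ from h) i).eq
  rw [mul_assoc, ← inv_pow, this, two_mul, pow_add, mul_assoc]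

theorem ti_lemma {G : Type*} [Group G] [Finite G] {H M : Subgroup G} (hHM : H ≤ M) {t d : G}
    (ht : t * t = 1) (hd : d * d = 1) (htH : t ∈ H) (hdH : d ∈ H)
    (ha : ∀ h ∈ M, h * t * h⁻¹ ∈ H → h ∈ H) (hnc : ∀ k ∈ H, k * t * k⁻¹ ≠ d)
    (hCd : ∀ h ∈ M, h * d = d * h → h ∈ H)
    (hdz : ∀ k ∈ H, ∀ z, z = d * (k * t * k⁻¹) → z * z = 1 → z ≠ 1 → ∀ h ∈ M, h * z = z * h → h ∈ H)
    (htz : ∀ k ∈ H, ∀ z, z = t * (k * t * k⁻¹) → z * z = 1 → z ≠ 1 → ∀ h ∈ M, h * z = z * h → h ∈ H)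
    {g : G} (hg : g ∈ M) : g ∈ H ∨ g⁻¹ * d * g ∈ H := by
  set t' := g * t * g⁻¹ with ht'
  have ht'M : t' ∈ M := M.mul_mem (M.mul_mem hg (hHM htH)) (M.inv_mem hg)
  have ht2 : t' * t' = 1 := by
    rw [ht', show g * t * g⁻¹ * (g * t * g⁻¹) = g * (t * t) * g⁻¹ by group, ht]; simp
  have hdi : d⁻¹ = d := inv_eq_of_mul_eq_one_right hd
  have hti : t'⁻¹ = t' := inv_eq_of_mul_eq_one_right ht2
  set ρ := d * t' with hρ
  have hρM : ρ ∈ M := M.mul_mem (hHM hdH) ht'M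
  have h1 : d * ρ⁻¹ = ρ * d := by rw [hρ, mul_inv_rev, hdi, hti, mul_assoc d t' d]
  have h2 : t' * ρ⁻¹ = ρ * t' := by
    rw [hρ, mul_inv_rev, hdi, hti, ← mul_assoc, ht2, mul_assoc, ht2, one_mul, mul_one]
  have h3 : ρ * t' = d := by rw [hρ, mul_assoc, ht2, mul_one]
  have hodd : ∀ i, ρ ^ (i + 1) * g * t * (ρ ^ (i + 1) * g)⁻¹ = ρ ^ (2 * i + 1) * d := fun i => by
    have := conj_pow_of_inverts h2 (i + 1)
    rw [show 2 * (i + 1) = 2 * i + 1 + 1 by ring, pow_succ ρ (2 * i + 1), mul_assoc _ ρ, h3] at this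
    rw [← this, ht']; group
  have hkM : ∀ i, ρ ^ i * g ∈ M := fun i => M.mul_mem (M.pow_mem hρM i) hg
  have hn := orderOf_pos ρ
  obtain ⟨m, hm | hm⟩ := Nat.even_or_odd' (orderOf ρ)
  swap
  · have := hodd m
    rw [← hm, pow_orderOf_eq_one, one_mul] at this
    exact (hnc _ (ha _ (hkM _) (this ▸ hdH)) this).elim
  set z := ρ ^ m with hz
  have hz2 : z * z = 1 := by rw [hz, ← pow_add, ← two_mul, ← hm, pow_orderOf_eq_one]
  have hz1 : z ≠ 1 := pow_ne_one_of_lt_orderOf (by omega) (by omega)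
  have hzi : z⁻¹ = z := inv_eq_of_mul_eq_one_right hz2
  have hzM : z ∈ M := M.pow_mem hρM m
  have hc : ∀ s, s * ρ⁻¹ = ρ * s → s * z = z * s := fun s hs => by
    have := (SemiconjBy.pow_right (show SemiconjBy s ρ⁻¹ ρ from hs) m).eq
    rwa [inv_pow, ← hz, hzi] at this
  obtain ⟨i, hi | hi⟩ := Nat.even_or_odd' m
  · right
    have h4 : g⁻¹ * z * g * t = t * (g⁻¹ * z * g) := by
      have := hc t' h2
      rw [ht'] at this
      calc _ = g⁻¹ * (z * (g * t * g⁻¹)) * g := by group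
        _ = _ := by rw [← this]; group
    have hz'M : g⁻¹ * z * g ∈ M := M.mul_mem (M.mul_mem (M.inv_mem hg) hzM) hg
    have h5 : g⁻¹ * z * g ∈ H := ha _ hz'M (by rw [h4, mul_inv_cancel_right]; exact htH)
    have h6 : g⁻¹ * (ρ ^ i * g) * t * (g⁻¹ * (ρ ^ i * g))⁻¹ = g⁻¹ * z * g * t := by
      have := conj_pow_of_inverts h2 i
      rw [← hi, ← hz, ht'] at this
      calc _ = g⁻¹ * (ρ ^ i * (g * t * g⁻¹) * (ρ ^ i)⁻¹) * g := by group
        _ = _ := by rw [this]; group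
    refine htz _ (ha _ (M.mul_mem (M.inv_mem hg) (hkM i)) (h6 ▸ H.mul_mem h5 htH)) (g⁻¹ * z * g)
      (by rw [h6, h4, ← mul_assoc, ht, one_mul]) ?_ (fun e => hz1 ?_) _
      (M.mul_mem (M.mul_mem (M.inv_mem hg) (hHM hdH)) hg) ?_
    · calc _ = g⁻¹ * (z * z) * g := by group
        _ = 1 := by rw [hz2]; group
    · calc z = g * (g⁻¹ * z * g) * g⁻¹ := by group
        _ = 1 := by rw [e]; group
    · calc _ = g⁻¹ * (d * z) * g := by group
        _ = _ := by rw [hc d h1]; group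
  · left
    have h4 := hodd i
    rw [← hi, ← hz] at h4
    have h5 : z ∈ H := hCd z hzM (hc d h1).symm
    exact ha g hg (hdz _ (ha _ (hkM _) (h4 ▸ H.mul_mem h5 hdH)) z
      (by rw [h4, ← hc d h1, ← mul_assoc, hd, one_mul]) hz2 hz1 _ ht'M (hc t' h2))

end H60
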