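/- Sign changes `δ_T` of an orthogonal decomposition, the number of members moved by an involution,
and the dihedral argument for the involutions `δ_T`. -/
import Cfsg.Agent.H60.DecTwo
import Cfsg.Agent.H60.TI

set_option autoImplicit false

namespace H60

open QuadraticMap H56 Module Submodule Cfsg.Geo
open scoped commutatorElement

variable {F V : Type*} [Field F] [AddCommGroup V] [Module F V] {Q : QuadraticForm F V}
  [FiniteDimensional F V] {ι : Type*} [DecidableEq ι] {k : ℕ} {D : ι → Submodule F V}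

theorem card_symmDiff_add (S T : Finset ι) :
    (symmDiff S T).card + 2 * (S ∩ T).card = S.card + T.card := by
  rw [symmDiff_def, Finset.sup_eq_union, Finset.card_union_of_disjoint disjoint_sdiff_sdiff]
  have h1 := Finset.card_sdiff_add_card_inter S T
  have h2 := Finset.card_sdiff_add_card_inter T S
  rw [Finset.inter_comm T S] at h2
  omega

namespace OrthDec

omit [DecidableEq ι] in
theorem Q_dl (h : OrthDec Q k D) (T : Finset ι) (x : V) :
    Q ((LinearMap.id - (2 : F) • ∑ i ∈ T, h.pr i : V →ₗ[F] V) x) = Q x := by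
  classical
  have h1 : polar Q (x - ∑ i ∈ T, h.pr i x) (∑ i ∈ T, h.pr i x) = 0 := by
    refine (sum_mem fun i hi => ?_ : ∑ i ∈ T, h.pr i x ∈ ort Q (x - ∑ i ∈ T, h.pr i x))
    refine pc (mem_perp.1 (h.pr_eq_zero.1 ?_) _ (h.pr_mem i x))
    rw [map_sub, map_sum, Finset.sum_eq_single i (fun j _ hj => h.pr_of_ne hj (h.pr_mem j x))
      (fun hn => (hn hi).elim), h.pr_of_mem (h.pr_mem i x), sub_self]
  have h2 := Q_add Q (x - ∑ i ∈ T, h.pr i x) (∑ i ∈ T, h.pr i x)
  have h3 := Q_sub Q (x - ∑ i ∈ T, h.pr i x) (∑ i ∈ T, h.pr i x)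
  rw [sub_add_cancel, h1] at h2
  rw [h1, sub_sub, ← two_smul F] at h3
  simp only [LinearMap.sub_apply, LinearMap.id_apply, LinearMap.smul_apply, LinearMap.sum_apply]
  rw [h2, h3]; simp

/-- The isometry `-1` on the members indexed by `T`, `1` on the others. -/
noncomputable def dl (h : OrthDec Q k D) (T : Finset ι) : O Q :=
  O.ofInj _ (h.Q_dl T) (injective_of_map_Q h.hQ _ (h.Q_dl T))

theorem dl_apply (h : OrthDec Q k D) (T : Finset ι) {i : ι} {x : V} (hx : x ∈ D i) :
    h.dl T x = if i ∈ T then -x else x := by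
  simp only [dl, O.ofInj_apply, LinearMap.sub_apply, LinearMap.id_apply, LinearMap.smul_apply,
    LinearMap.sum_apply]
  split_ifs with hi
  · rw [Finset.sum_eq_single i (fun j _ hj => h.pr_of_ne hj.symm hx) (fun hn => (hn hi).elim),
      h.pr_of_mem hx]
    module
  · rw [Finset.sum_eq_zero fun j hj => h.pr_of_ne (by rintro rfl; exact hi hj) hx]; simp

theorem dl_mul (h : OrthDec Q k D) (S T : Finset ι) : h.dl S * h.dl T = h.dl (symmDiff S T) :=
  h.ext fun i x hx => by
    rw [O.mul_apply, h.dl_apply T hx, h.dl_apply _ hx]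
    by_cases hS : i ∈ S <;> by_cases hT : i ∈ T <;>
      simp [hS, hT, h.dl_apply S hx, Finset.mem_symmDiff]

theorem dl_empty (h : OrthDec Q k D) : h.dl ∅ = 1 := h.ext fun i x hx => by simp [h.dl_apply _ hx]

theorem dl_mul_self (h : OrthDec Q k D) (T : Finset ι) : h.dl T * h.dl T = 1 := by
  rw [h.dl_mul, symmDiff_self, Finset.bot_eq_empty, h.dl_empty]

theorem dl_mem (h : OrthDec Q k D) (T : Finset ι) : h.dl T ∈ dstab Q D :=
  mem_dstab_of_forall fun i => mem_sstab_of_le fun x hx => by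
    rw [h.dl_apply T hx]; split_ifs; exacts [neg_mem hx, hx]

theorem conj_dl (h : OrthDec Q k D) {g : O Q} {σ : Equiv.Perm ι} (hg : ∀ i, img g (D i) = D (σ i))
    (T : Finset ι) : g * h.dl T * g⁻¹ = h.dl (T.map σ.toEmbedding) :=
  h.ext fun i x hx => by
    have h1 : g⁻¹ x ∈ D (σ.symm i) := by rw [← mem_img, hg, Equiv.apply_symm_apply]; exact hx
    rw [O.mul_apply, O.mul_apply, h.dl_apply T h1, h.dl_apply _ hx]
    simp only [Finset.mem_map_equiv]
    split_ifs <;> simp

theorem dl_pair_mem [Finite ι] (h : OrthDec Q k D) {i j : ι} (hij : i ≠ j) :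
    h.dl {i, j} ∈ commutator (O Q) := by
  obtain ⟨s, ⟨σ, hσ⟩, h1, -⟩ := h.exists_swap' hij
  obtain ⟨x, hx, h0⟩ := Submodule.exists_mem_ne_zero_of_ne_bot (h.ne_bot i)
  have h2 : σ i = j := h.eq_of_mem (hσ i ▸ apply_mem_img.2 hx) (h1 x hx) (by simpa using h0)
  have : h.dl {i, j} = ⁅s, h.dl {i}⁆ := by
    rw [commutatorElement_def, h.conj_dl hσ, inv_eq_of_mul_eq_one_right (h.dl_mul_self _), h.dl_mul]
    congr 1
    ext l
    simp only [Finset.mem_insert, Finset.mem_singleton, Finset.map_singleton,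
      Equiv.coe_toEmbedding, h2, Finset.mem_symmDiff]
    grind
  rw [this]
  exact Subgroup.commutator_mem_commutator (Subgroup.mem_top _) (Subgroup.mem_top _)

theorem dl_injective (h : OrthDec Q k D) (h2 : (2 : F) ≠ 0) : Function.Injective h.dl := by
  have key : ∀ S T : Finset ι, h.dl S = h.dl T → ∀ i ∈ S, i ∈ T := fun S T e i hi => by
    by_contra hn
    obtain ⟨x, hx, h0⟩ := Submodule.exists_mem_ne_zero_of_ne_bot (h.ne_bot i)
    have := congrArg (fun g : O Q => g x) e
    simp only [h.dl_apply _ hx, hi, hn, if_true, if_false] at this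
    exact smul_ne_zero h2 h0 (by linear_combination (norm := module) -this)
  exact fun S T e => Finset.Subset.antisymm (key S T e) (key T S e.symm)

omit [DecidableEq ι] in
theorem finrank_map_sub (h : OrthDec Q k D) {g : O Q} {i j : ι} (hij : i ≠ j)
    (hj : ∀ x ∈ D i, g x ∈ D j) : finrank F ((D i).map (g.lin - LinearMap.id)) = k := by
  have hinj : Disjoint (D i) (LinearMap.ker (g.lin - LinearMap.id)) := by
    rw [Submodule.disjoint_def]
    intro x hx h0
    have h1 : g x = x := sub_eq_zero.1 h0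
    by_contra hne
    exact hij (h.eq_of_mem hx (h1 ▸ hj x hx) hne)
  have := LinearMap.finrank_range_add_finrank_ker ((g.lin - LinearMap.id) ∘ₗ (D i).subtype)
  rwa [LinearMap.ker_comp, Submodule.disjoint_iff_comap_eq_bot.1 hinj, finrank_bot, add_zero,
    LinearMap.range_comp, Submodule.range_subtype, h.dim] at this

/-- An involution of the stabiliser of rank `r` moves few members. -/
theorem card_moved_le (h : OrthDec Q k D) {τ : O Q} (hτ : τ ∈ dstab Q D) (h2 : τ * τ = 1)
    {N : Submodule F V} (hN : ∀ x, τ x - x ∈ N) {c : ℕ} (hc1 : 1 ≤ c) (hc : 2 ≤ c * k)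
    (T : Finset ι) (hT : ∀ i ∈ T, ∃ x ∈ D i, τ x ≠ x) : T.card ≤ c * finrank F N := by
  obtain ⟨σ, hσ⟩ := hτ
  have hm : ∀ i, ∀ x ∈ D i, τ x ∈ D (σ i) := fun i x hx => hσ i ▸ apply_mem_img.2 hx
  have hττ : ∀ x, τ (τ x) = x := fun x => by rw [← O.mul_apply, h2, O.one_apply]
  have hσσ : ∀ i, σ (σ i) = i := fun i => by
    obtain ⟨x, hx, h0⟩ := Submodule.exists_mem_ne_zero_of_ne_bot (h.ne_bot i)
    exact h.eq_of_mem (hττ x ▸ hm _ _ (hm i x hx)) hx h0
  let VS : Finset ι → Submodule F V := fun T => ⨅ i, ⨅ _ : i ∉ T, perp Q (D i)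
  have hVS : ∀ T x, x ∈ VS T ↔ ∀ i ∉ T, x ∈ perp Q (D i) := fun T x => by simp [VS]
  have key : ∀ T : Finset ι, (∀ i ∈ T, σ i ∈ T) → (∀ i ∈ T, ∃ x ∈ D i, τ x ≠ x) →
      T.card ≤ c * finrank F ↥(N ⊓ VS T) := fun T => by
    induction T using Finset.strongInduction with
    | H T ih =>
    intro h3 h4
    rcases T.eq_empty_or_nonempty with rfl | ⟨i, hi⟩
    · simp
    have hO : ({i, σ i} : Finset ι) ⊆ T := by simp [Finset.insert_subset_iff, hi, h3 i hi]
    have h5 := ih (T \ {i, σ i}) (Finset.sdiff_ssubset hO (by simp)) (fun j hj => by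
      simp only [Finset.mem_sdiff, Finset.mem_insert, Finset.mem_singleton, not_or] at hj ⊢
      exact ⟨h3 j hj.1, fun e => hj.2.2 (by rw [← e, hσσ]), fun e => hj.2.1 (σ.injective e)⟩)
      fun j hj => h4 j (Finset.mem_sdiff.1 hj).1
    have h6 : ∀ x ∈ D i, τ x - x ∈ N ⊓ VS {i, σ i} := fun x hx => ⟨hN x, (hVS _ _).2 fun l hl => by
      simp only [Finset.mem_insert, Finset.mem_singleton, not_or] at hl
      exact sub_mem (h.mem_perp_of (Ne.symm hl.2) (hm i x hx)) (h.mem_perp_of (Ne.symm hl.1) hx)⟩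
    have h7 : ({i, σ i} : Finset ι).card ≤ c * finrank F ↥(N ⊓ VS {i, σ i}) := by
      by_cases e : i = σ i
      · obtain ⟨x, hx, hx'⟩ := h4 i hi
        have : 1 ≤ finrank F ↥(N ⊓ VS {i, σ i}) := Submodule.one_le_finrank_iff.2 fun e0 => by
          have := h6 x hx
          rw [e0, mem_bot, sub_eq_zero] at this
          exact hx' this
        exact le_trans (by rw [← e]; simp) (Nat.mul_le_mul hc1 this)
      · have : k ≤ finrank F ↥(N ⊓ VS {i, σ i}) := by
          rw [← h.finrank_map_sub e (hm i)]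
          exact Submodule.finrank_mono (by rintro _ ⟨x, hx, rfl⟩; exact h6 x hx)
        exact Finset.card_le_two.trans (hc.trans (Nat.mul_le_mul_left c this))
    have h8 := Submodule.finrank_sup_add_finrank_inf_eq (N ⊓ VS {i, σ i}) (N ⊓ VS (T \ {i, σ i}))
    have h9 : (N ⊓ VS {i, σ i}) ⊓ (N ⊓ VS (T \ {i, σ i})) = ⊥ := eq_bot_iff.2 fun x hx =>
      h.eq_zero_of_perp fun l => by
        by_cases hl : l ∈ ({i, σ i} : Finset ι)
        · exact (hVS _ _).1 hx.2.2 l (by simp only [Finset.mem_sdiff, hl]; simp)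
        · exact (hVS _ _).1 hx.1.2 l hl
    have h10 : finrank F ↥((N ⊓ VS {i, σ i}) ⊔ (N ⊓ VS (T \ {i, σ i}))) ≤ finrank F ↥(N ⊓ VS T) :=
      Submodule.finrank_mono (sup_le
        (inf_le_inf_left _ fun x hx => (hVS _ _).2 fun l hl => (hVS _ _).1 hx l fun e => hl (hO e))
        (inf_le_inf_left _ fun x hx => (hVS _ _).2 fun l hl => (hVS _ _).1 hx l
          fun e => hl (Finset.mem_sdiff.1 e).1))
    rw [h9, finrank_bot, add_zero] at h8
    have h11 := Finset.card_sdiff_add_card_eq_card hO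
    have := Nat.mul_le_mul_left c (h8 ▸ h10)
    rw [mul_add] at this
    omega
  have := key (T ∪ T.image σ) (fun i hi => by
      simp only [Finset.mem_union, Finset.mem_image] at hi ⊢
      rcases hi with hi | ⟨j, hj, rfl⟩
      exacts [Or.inr ⟨i, hi, rfl⟩, Or.inl (by rwa [hσσ])]) fun i hi => by
    simp only [Finset.mem_union, Finset.mem_image] at hi
    rcases hi with hi | ⟨j, hj, rfl⟩
    · exact hT i hi
    · obtain ⟨x, hx, hx'⟩ := hT j hj
      exact ⟨τ x, hm j x hx, by rw [hττ]; exact hx'.symm⟩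
  exact (Finset.card_le_card Finset.subset_union_left).trans
    (this.trans (Nat.mul_le_mul_left c (Submodule.finrank_mono inf_le_left)))

theorem exists_fixed [Fintype ι] (h : OrthDec Q k D) {τ : O Q} (hτ : τ ∈ dstab Q D) (h2 : τ * τ = 1)
    {N : Submodule F V} (hN : ∀ x, τ x - x ∈ N) {c : ℕ} (hc1 : 1 ≤ c) (hc : 2 ≤ c * k) :
    ∃ I : Finset ι, Fintype.card ι ≤ I.card + c * finrank F N ∧ ∀ i ∈ I, ∀ x ∈ D i, τ x = x := by
  classical
  refine ⟨Finset.univ.filter fun i => ∀ x ∈ D i, τ x = x, ?_, fun i hi => (Finset.mem_filter.1 hi).2⟩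
  have := h.card_moved_le hτ h2 hN hc1 hc (Finset.univ.filter fun i => ¬ ∀ x ∈ D i, τ x = x)
    fun i hi => by simpa using hi
  have h1 := Finset.card_filter_add_card_filter_not (s := Finset.univ)
    (fun i => ∀ x ∈ D i, τ x = x)
  rw [Finset.card_univ] at h1
  omega

end OrthDec

omit [FiniteDimensional F V] in
theorem polar_eq_zero_of_eigen (h2 : (2 : F) ≠ 0) (z : O Q) {x y : V} (hx : z x = x)
    (hy : z y = -y) : polar Q x y = 0 := by
  have := z.map_polar x y
  rw [hx, hy, polar_neg_right] at this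
  exact (mul_eq_zero.1 (by linear_combination -this : 2 * polar Q x y = 0)).resolve_left h2

/-- The dihedral argument for sign changes. -/
theorem DecM.le_dstab_of_key [Finite F] [Fintype ι] {M : Subgroup (O Q)} (h : DecM k D M)
    (h2 : (2 : F) ≠ 0) (hk : k ≤ 2) {a b : ℕ} (hb : b ≤ 2) (ht : a + 4 ≤ Fintype.card ι)
    (ht5 : 5 ≤ Fintype.card ι)
    (hcz : 6 ≤ Fintype.card ι → a + 6 ≤ Fintype.card ι ∨ (a ≤ 6 ∧ b + 6 ≤ Fintype.card ι))
    (key : ∀ g ∈ M, ∀ I J : Finset ι, a ≤ I.card → b ≤ J.card →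
      (∀ i ∈ I, ∀ j ∈ J, ∀ x ∈ D i, ∀ y ∈ D j, polar Q (g x) y = 0) → g ∈ dstab Q D) :
    M ≤ dstab Q D := fun g hg => by
  have hH : ∀ g ∈ M, g ∈ dstab Q D → g ∈ dstab Q D ⊓ commutator (O Q) := fun g hg h1 =>
    ⟨h1, h.le' hg⟩
  have hC : ∀ J : Finset ι, J.card = 2 ∨ J.card = 4 ∨ J.card = 6 → ∀ g ∈ M,
      g * h.dl J = h.dl J * g → g ∈ dstab Q D ⊓ commutator (O Q) := fun J hJ g hg hc => by
    have h1 : ∀ x, h.dl J (g x) = g (h.dl J x) := fun x => by rw [← O.mul_apply, ← hc, O.mul_apply]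
    have h3 := Finset.card_compl J
    have h4 := Finset.card_le_univ J
    by_cases h5 : a ≤ Jᶜ.card
    · refine hH g hg (key g hg Jᶜ J h5 (by omega) fun i hi j hj x hx y hy =>
        polar_eq_zero_of_eigen h2 (h.dl J) ?_ ?_)
      · rw [h1, h.dl_apply J hx, if_neg (Finset.mem_compl.1 hi)]
      · rw [h.dl_apply J hy, if_pos hj]
    · refine hH g hg (key g hg J Jᶜ (by omega) (by omega) fun i hi j hj x hx y hy =>
        pc (polar_eq_zero_of_eigen h2 (h.dl J) ?_ ?_))
      · rw [h.dl_apply J hy, if_neg (Finset.mem_compl.1 hj)]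
      · rw [h1, h.dl_apply J hx, if_pos hi, map_neg]
  have : Nontrivial ι := Fintype.one_lt_card_iff_nontrivial.1 (by omega)
  obtain ⟨i, j, hij⟩ := exists_pair_ne ι
  have hp : ({i, j} : Finset ι).card = 2 := Finset.card_pair hij
  have ha : ∀ g ∈ M, g * h.dl {i, j} * g⁻¹ ∈ dstab Q D ⊓ commutator (O Q) →
      g ∈ dstab Q D ⊓ commutator (O Q) := fun g hg h1 => by
    obtain ⟨I, hI, hI'⟩ := h.exists_fixed h1.1 (N := img g (D i ⊔ D j)) (by
      rw [show ∀ t, g * t * g⁻¹ * (g * t * g⁻¹) = g * (t * t) * g⁻¹ from fun t => by group,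
        h.dl_mul_self]; simp) (fun x => by
      rw [mem_img, map_sub, O.mul_apply, O.mul_apply, O.inv_apply_apply]
      refine h.le_of_forall (T := (D i ⊔ D j).comap ((h.dl {i, j}).lin - LinearMap.id))
        (fun l y hy => ?_) _
      simp only [mem_comap, LinearMap.sub_apply, O.lin_apply, LinearMap.id_apply, h.dl_apply _ hy]
      split_ifs with hl
      · rcases Finset.mem_insert.1 hl with rfl | hl
        · exact mem_sup_left (sub_mem (neg_mem hy) hy)
        · rw [Finset.mem_singleton.1 hl] at hy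
          exact mem_sup_right (sub_mem (neg_mem hy) hy)
      · simp) (c := 3 - k) (by omega) (by have := h.pos; interval_cases k <;> simp)
    have h3 := finrank_sup_le (D i) (D j)
    rw [finrank_img] at hI
    rw [h.dim, h.dim] at h3
    have h4 : (3 - k) * finrank F ↥(D i ⊔ D j) ≤ 4 := by have := h.pos; interval_cases k <;> omega
    refine hH g hg ((inv_mem_iff).1 (key _ (M.inv_mem hg) I {i, j} (by omega) (by omega)
      fun l hl m hm x hx y hy => ?_))
    rw [← O.polar_apply_right]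
    refine polar_eq_zero_of_eigen h2 _ (hI' l hl x hx) ?_
    rw [O.mul_apply, O.mul_apply, O.inv_apply_apply, h.dl_apply _ hy, if_pos hm, map_neg]
  have hconj : ∀ s ∈ dstab Q D ⊓ commutator (O Q), ∃ P : Finset ι, P.card = 2 ∧
      s * h.dl {i, j} * s⁻¹ = h.dl P := by
    rintro s ⟨⟨σ, hσ⟩, -⟩
    exact ⟨_, by rw [Finset.card_map, hp], h.conj_dl hσ _⟩
  have hd : ∀ I : Finset ι, I.card = 4 → h.dl I ∈ commutator (O Q) →
      g ∈ dstab Q D ⊓ commutator (O Q) ∨ g⁻¹ * h.dl I * g ∈ dstab Q D ⊓ commutator (O Q) :=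
    fun I hI hΩ => by
    refine ti_lemma h.le (h.dl_mul_self _) (h.dl_mul_self I) ⟨h.dl_mem _, h.dl_pair_mem hij⟩
      ⟨h.dl_mem _, hΩ⟩ ha (fun s hs e => ?_) (hC I (by omega)) (fun s hs z hz _ _ => ?_)
      (fun s hs z hz _ hz1 => ?_) hg <;> obtain ⟨P, hP, e'⟩ := hconj s hs
    · rw [h.dl_injective h2 (e'.symm.trans e)] at hP; omega
    · rw [hz, e', h.dl_mul]
      have := card_symmDiff_add I P
      have := Finset.card_le_card (Finset.inter_subset_right (s₁ := I) (s₂ := P))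
      exact hC _ (by omega)
    · rw [hz, e', h.dl_mul] at hz1 ⊢
      have := card_symmDiff_add {i, j} P
      have : (symmDiff {i, j} P).card ≠ 0 := fun e0 =>
        hz1 (by rw [Finset.card_eq_zero.1 e0, h.dl_empty])
      exact hC _ (by omega)
  obtain ⟨K, hK, hK3⟩ := Finset.exists_subset_card_eq (s := ({i, j} : Finset ι)ᶜ) (n := 3)
    (by rw [Finset.card_compl]; omega)
  obtain ⟨l, m, n, hlm, hln, hmn, rfl⟩ := Finset.card_eq_three.1 hK3
  simp only [Finset.insert_subset_iff, Finset.mem_compl, Finset.mem_insert, Finset.mem_singleton,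
    not_or, Finset.singleton_subset_iff] at hK
  have h4 : ∀ r, l ≠ r → m ≠ r → n ≠ r → ({r, l, m, n} : Finset ι).card = 4 ∧
      h.dl {r, l, m, n} ∈ commutator (O Q) := fun r h1 h3 h4 => by
    refine ⟨by rw [Finset.card_insert_of_notMem (by simp [h1.symm, h3.symm, h4.symm]), hK3], ?_⟩
    have := mul_mem (h.dl_pair_mem h1.symm) (h.dl_pair_mem hmn)
    rw [h.dl_mul] at this
    convert this using 2
    ext s
    simp only [Finset.mem_insert, Finset.mem_singleton, Finset.mem_symmDiff]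
    grind
  obtain ⟨e1, e2⟩ := h4 i hK.1.1 hK.2.1.1 hK.2.2.1
  obtain ⟨e3, e4⟩ := h4 j hK.1.2 hK.2.1.2 hK.2.2.2
  rcases hd _ e1 e2 with h5 | h5
  · exact h5.1
  rcases hd _ e3 e4 with h6 | h6
  · exact h6.1
  refine (inv_mem_iff).1 (ha _ (M.inv_mem hg) ?_).1
  have := mul_mem h5 h6
  rw [show ∀ s t, g⁻¹ * s * g * (g⁻¹ * t * g) = g⁻¹ * (s * t) * g⁻¹⁻¹ from fun s t => by group,
    h.dl_mul] at this
  convert this using 4
  ext s
  simp only [Finset.mem_insert, Finset.mem_singleton, Finset.mem_symmDiff]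
  grind

end H60
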