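/- Decompositions into planes: the field with two elements, and the two basic criteria
(an element of `M` mapping a member to a member, or a non-singular vector of a member into a
member in characteristic 2, stabilises the decomposition). -/
import Cfsg.Agent.H60.DecTwo

set_option autoImplicit false

namespace H60

open QuadraticMap H56 Module Submodule Cfsg.Geo

variable {F V : Type*} [Field F] [AddCommGroup V] [Module F V] {Q : QuadraticForm F V}
  [FiniteDimensional F V] [Finite F] {ι : Type*} [Fintype ι] [DecidableEq ι] {k : ℕ}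
  {D : ι → Submodule F V} {M G : Subgroup (O Q)}

omit [FiniteDimensional F V] in
theorem eq_zero_or_one (hq : Nat.card F = 2) (c : F) : c = 0 ∨ c = 1 := by
  obtain ⟨y, -, hy⟩ := (Nat.card_eq_two_iff' (0 : F)).1 hq
  by_cases h : c = 0
  · exact Or.inl h
  · exact Or.inr ((hy c h).trans (hy 1 one_ne_zero).symm)

namespace DecM

omit [Fintype ι] [DecidableEq ι] in
theorem refl_mem_RR (h : DecM k D M) (h2 : (2 : F) = 0) {i j : ι} {w y : V} (hw : w ∈ D i)
    (hQw : Q w ≠ 0) (hy : y ∈ D j) : refl Q y ∈ reflGroup Q (RR M w) := by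
  have := SqCl.subsingleton_of_char_two (F := F) h2
  by_cases h0 : Q y = 0
  · rw [refl_of_eq_zero h0]; exact one_mem _
  · exact refl_mem_reflGroup (h.mem_RR hy hw h0 hQw (Subsingleton.elim _ _))

omit [Fintype ι] [DecidableEq ι] in
theorem refl_apply_mem_RR (h : DecM k D M) (hk : 2 ≤ k) (h2 : (2 : F) = 0) {i : ι} {w y : V}
    (hw : w ∈ D i) (hQw : Q w ≠ 0) {s : O Q} (hs : s ∈ dstab Q D)
    (hy : refl Q y ∈ reflGroup Q (RR M w)) : refl Q (s y) ∈ reflGroup Q (RR M w) := by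
  have := SqCl.subsingleton_of_char_two (F := F) h2
  by_cases h0 : Q y = 0
  · rw [refl_of_eq_zero (by rwa [O.map_Q])]; exact one_mem _
  obtain ⟨ε, hε, hΩ⟩ := exists_corr h.hQ h.h5 (h.nd i) (by rw [h.dim]; exact hk) s
  have hg : s * ε ∈ dstab Q D := mul_mem hs (h.reflGroup_le i hε)
  have h1 : ε ∈ reflGroup Q (RR M w) := (Subgroup.closure_le _).2
    (by rintro _ ⟨a, ha, rfl⟩; exact h.refl_mem_RR h2 hw hQw ha) hε
  have h3 : ε⁻¹ y ∈ RR M w := ⟨by rwa [O.map_Q], reflGroup_RR_inf_le h.hQ h.le' hQw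
    ⟨mul_mem (refl_apply_mem_of (inv_mem h1) hy) (h.refl_mem_RR h2 hw hQw hw),
      H56.refl_mul_refl_mem_commutator h.hQ (by rwa [O.map_Q]) hQw (Subsingleton.elim _ _)⟩⟩
  obtain ⟨m, hm⟩ := OrthDec.exists_of_dstab hg i
  have h4 := RR.trans (RR.apply h3 (h.le ⟨hg, hΩ⟩))
    (h.mem_RR (hm w hw) hw (by rwa [O.map_Q]) hQw (Subsingleton.elim _ _))
  rw [O.mul_apply, O.apply_inv_apply] at h4
  exact refl_mem_reflGroup h4

theorem mem_of_RR_two (h : DecM 2 D M) (hq : Nat.card F = 2)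
    (han : ∀ j, ∀ y ∈ D j, Q y = 0 → y = 0) {i₀ : ι} {w x : V} (hw : w ∈ D i₀) (hQw : Q w ≠ 0)
    (hx : x ∈ RR M w) : ∃ j, x ∈ D j := by
  have h01 := eq_zero_or_one hq
  have h2 : (2 : F) = 0 := two_eq_zero_of_forall h01
  set G := reflGroup Q (RR M w)
  have hG : G ⊓ commutator (O Q) ≤ M := reflGroup_RR_inf_le h.hQ h.le' hQw
  have hJ : ∀ j, ∀ y ∈ D j, refl Q y ∈ G := fun j y hy => h.refl_mem_RR h2 hw hQw hy
  have hone : ∀ {j y}, y ∈ D j → y ≠ 0 → Q y = 1 := fun hy h0 =>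
    (h01 _).resolve_left fun e => h0 (han _ _ hy e)
  have hvv : ∀ v : V, v + v = 0 := fun v => by rw [← two_smul F v, h2, zero_smul]
  have hrefl : ∀ y v : V, Q y = 1 → polar Q y v = 1 → refl Q y v = v + y := fun y v h1 h3 => by
    rw [refl_apply, h1, h3, inv_one, mul_one, one_smul, sub_eq_iff_eq_add, add_assoc, hvv, add_zero]
  have hQx : Q x = 1 := (h01 _).resolve_left hx.1
  refine h.mem_of_card_supp (by rintro rfl; simp at hQx) ?_
  by_contra hc
  have hne : ∀ {l}, l ∈ h.supp x → h.pr l x ≠ 0 := fun hl e => h.mem_supp.1 hl (h.pr_eq_zero.1 e)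
  have h3 : 2 < (h.supp x).card := by
    by_contra hn
    obtain ⟨i, j, hij, hs⟩ := Finset.card_eq_two.1 (show (h.supp x).card = 2 by omega)
    have h1 : x - h.pr i x ∈ D j := h.mem_of_perp fun l hl => by_contra fun hn => by
      have := h.mem_supp.2 hn
      rw [h.supp_sub_pr, hs] at this
      simp [hl] at this
    have := h.Q_eq_add i x
    rw [hQx, hone (h.pr_mem i x) (hne (by simp [hs])), hone h1 (fun e => h.mem_supp.1
      (show j ∈ h.supp x by simp [hs]) (sub_eq_zero.1 e ▸ h.mem_perp_of hij (h.pr_mem i x)))] at this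
    simp at this
  obtain ⟨i, hi, j, hj, l, hl, hij, hil, hjl⟩ := Finset.two_lt_card.1 h3
  have hy : ∀ m ∈ h.supp x, ∃ y ∈ D m, Q y = 1 ∧ polar Q y x = 1 := fun m hm => by
    obtain ⟨y, hy, h1⟩ := (h.nd m).exists_polar_one (h.pr_mem m x) (hne hm)
    exact ⟨y, hy, hone hy (by rintro rfl; simp at h1), by rw [← h.polar_pr hy, polar_comm, h1]⟩
  obtain ⟨a₀, ha₀, hQa₀, hax⟩ := hy i hi
  obtain ⟨b₀, hb₀, hQb₀, hbx⟩ := hy j hj
  obtain ⟨c₀, hc₀, hQc₀, hcx⟩ := hy l hl
  have h4 : refl Q (a₀ + b₀ + c₀) ∈ G := by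
    have hxG : refl Q x ∈ G := refl_mem_reflGroup hx
    have := refl_apply_mem_of hxG (refl_apply_mem_of (hJ l c₀ hc₀)
      (refl_apply_mem_of (hJ j b₀ hb₀) (refl_apply_mem_of (hJ i a₀ ha₀) hxG)))
    rw [hrefl a₀ x hQa₀ hax, hrefl b₀ _ hQb₀ (by simp [hbx, h.orth j i hij.symm b₀ hb₀ a₀ ha₀]),
      hrefl c₀ _ hQc₀ (by
        simp [hcx, h.orth l i hil.symm c₀ hc₀ a₀ ha₀, h.orth l j hjl.symm c₀ hc₀ b₀ hb₀]),
      hrefl x _ hQx (by
        rw [polar_add_right, polar_add_right, polar_add_right, polar_self', polar_comm Q x a₀,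
          polar_comm Q x b₀, polar_comm Q x c₀, hax, hbx, hcx]
        linear_combination (Q x + 1) * h2)] at this
    convert this using 2
    linear_combination (norm := module) -hvv x
  have h5 : ∀ a ∈ D i, ∀ b ∈ D j, ∀ m, m ≠ i → m ≠ j → ∀ c ∈ D m, a ≠ 0 → b ≠ 0 → c ≠ 0 →
      refl Q (a + b + c) ∈ G := fun a ha b hb m hmi hmj c hc ha0 hb0 hc0 => by
    have key : ∀ c ∈ D l, c ≠ 0 → refl Q (a + b + c) ∈ G := fun c hc hc0 => by
      obtain ⟨θ₁, g1, e1, f1, -⟩ := exists_rot (han i) (hJ i) ha₀ ha (by rw [hQa₀, hone ha ha0])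
      obtain ⟨θ₂, g2, e2, f2, -⟩ := exists_rot (han j) (hJ j) hb₀ hb (by rw [hQb₀, hone hb hb0])
      obtain ⟨θ₃, g3, e3, f3, -⟩ := exists_rot (han l) (hJ l) hc₀ hc (by rw [hQc₀, hone hc hc0])
      have := refl_apply_mem_of g3 (refl_apply_mem_of g2 (refl_apply_mem_of g1 h4))
      simp only [map_add] at this
      rwa [e1, f1 _ (h.mem_perp_of hij.symm hb₀), f1 _ (h.mem_perp_of hil.symm hc₀), e2,
        f2 _ (h.mem_perp_of hij ha), f2 _ (h.mem_perp_of hjl.symm hc₀), e3,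
        f3 _ (h.mem_perp_of hil ha), f3 _ (h.mem_perp_of hjl hb)] at this
    by_cases hml : m = l
    · exact key c (hml ▸ hc) hc0
    obtain ⟨s, hs, h6, -, h7⟩ := h.exists_swap' hml
    have := h.refl_apply_mem_RR le_rfl h2 hw hQw (inv_mem hs) (key _ (h6 c hc) (by simpa using hc0))
    rwa [← h7 a (h.mem_perp_of hmi.symm ha) (h.mem_perp_of hil ha),
      ← h7 b (h.mem_perp_of hmj.symm hb) (h.mem_perp_of hjl hb), ← map_add, ← map_add,
      O.inv_apply_apply] at this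
  refine h.false_of_full han hij fun a ha b hb ha0 hQu => ?_
  have hb0 : b ≠ 0 := by rintro rfl; simp [hone ha ha0] at hQu
  have key : ∀ y, polar Q (a + b) y = 0 → Q y = 1 → refl Q y ∈ G → refl Q (y + (a + b)) ∈ G →
      y ∈ AS M (a + b) := fun y ho h1 hy hy' => AS_le_of_inf h.hQ h.h5 hG _ ⟨ho, fun c => by
    rcases h01 c with rfl | rfl
    · simp
    · simpa [h1] using (smul_mem_AA_of_refl hQu ho (by simp [h1]) hy (c := 1) (by simpa using hy')).2⟩
  have haa : ∀ v : V, polar Q v v = 0 := fun v => by rw [polar_self', h2, zero_mul]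
  have h6 : ∀ m, m ≠ i → m ≠ j → D m ≤ AS M (a + b) := fun m hmi hmj d hd => by
    by_cases h0 : d = 0
    · simp [h0]
    exact key d (by simp [h.orth i m hmi.symm a ha d hd, h.orth j m hmj.symm b hb d hd])
      (hone hd h0) (hJ m d hd) (by rw [add_comm]; exact h5 a ha b hb m hmi hmj d hd ha0 hb0 h0)
  have haA : a ∈ AS M (a + b) := key a (by simp [haa, h.orth j i hij.symm b hb a ha]) (hone ha ha0)
    (hJ i a ha) (by rw [← add_assoc, hvv, zero_add]; exact hJ j b hb)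
  have hbA : b ∈ AS M (a + b) := by simpa using sub_mem (self_mem_AS M hQu) haA
  refine h.full_of_pair hij (add_mem_sup ha hb) (fun a' ha' b' hb' ho => ?_) h6
  have ho' : polar Q a a' + polar Q b b' = 0 := by
    simpa [h.orth i j hij a ha b' hb', h.orth j i hij.symm b hb a' ha'] using ho
  rcases h01 (polar Q a a') with h7 | h7
  · obtain ⟨s, rfl⟩ := (h.nd i).exists_smul_of_two (h.dim i) ha ha0 ha ha0 (haa a) ha' h7
    obtain ⟨t, rfl⟩ := (h.nd j).exists_smul_of_two (h.dim j) hb hb0 hb hb0 (haa b) hb'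
      (by simpa [h7] using ho')
    exact add_mem (smul_mem _ _ haA) (smul_mem _ _ hbA)
  · have h8 : polar Q b b' = 1 := by linear_combination ho' - h7 - h2
    have n1 : a' ≠ 0 := by rintro rfl; simp at h7
    have n2 : b' ≠ 0 := by rintro rfl; simp at h8
    have n3 : a' + a ≠ 0 := fun e => by simpa [h7, haa] using congrArg (polar Q a) e
    have n4 : b' + b ≠ 0 := fun e => by simpa [h8, haa] using congrArg (polar Q b) e
    have n5 : c₀ ≠ 0 := by rintro rfl; simp at hQc₀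
    have := key (a' + b' + c₀) (by
        rw [polar_add_right, ho]
        simp [h.orth i l hil a ha c₀ hc₀, h.orth j l hjl b hb c₀ hc₀]) (by
        rw [Q_add, Q_add, hone ha' n1, hone hb' n2, hQc₀, h.orth i j hij a' ha' b' hb',
          polar_add_left, h.orth i l hil a' ha' c₀ hc₀, h.orth j l hjl b' hb' c₀ hc₀]
        linear_combination h2)
      (h5 a' ha' b' hb' l hil.symm hjl.symm c₀ hc₀ n1 n2 n5) (by
        convert h5 _ (add_mem ha' ha) _ (add_mem hb' hb) l hil.symm hjl.symm c₀ hc₀ n3 n4 n5 using 2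
        abel)
    simpa using sub_mem this (h6 l hil.symm hjl.symm hc₀)

end DecM

/-- The admissible decompositions into planes. -/
def GoodPlanes (Q : QuadraticForm F V) (D : ι → Submodule F V) : Prop :=
  (7 ≤ Nat.card F ∧ ∀ j, HasHyp Q (D j)) ∨ (Nat.card F ≠ 3 ∧ ∀ j, ∀ y ∈ D j, Q y = 0 → y = 0)

omit [Fintype ι] [DecidableEq ι] [Finite F] [FiniteDimensional F V] in
theorem GoodPlanes.not_smallHyp (hg : GoodPlanes Q D) (j : ι) : ¬ SmallHyp Q (D j) := by
  rintro ⟨h1, -, e, he, f, hf, hQe, -, hef⟩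
  rcases hg with hg | hg
  · omega
  · simp [hg.2 j e he hQe] at hef

omit [Fintype ι] [DecidableEq ι] in
/-- An isometry mapping the non-singular vectors of a plane member into members. -/
theorem OrthDec.exists_img_two (h : OrthDec Q 2 D) (hg : GoodPlanes Q D) {g : O Q} {j : ι}
    (hj : ∀ y ∈ D j, Q y ≠ 0 → ∃ l, g y ∈ D l) : ∃ l, ∀ x ∈ D j, g x ∈ D l := by
  obtain ⟨y, hy, hQy⟩ := h.exists_ne j
  obtain ⟨l, hl⟩ := hj y hy hQy
  refine ⟨l, ?_⟩
  by_contra hc
  have hn : ¬ D j ≤ (D l).comap g.lin := hc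
  have hy0 : y ≠ 0 := by rintro rfl; simp at hQy
  obtain ⟨p, hp, hQp, hpl⟩ := (h.nd j).exists_Q_ne_not_mem (hg.not_smallHyp j) hn
  obtain ⟨m, hm⟩ := hj p hp hQp
  have hyp : polar Q y p = 0 := by_contra fun e => hpl (h.eq_of_apply hl hm e)
  have hp0 : p ≠ 0 := by rintro rfl; simp at hQp
  have h2 : (2 : F) ≠ 0 := fun h2 => by
    obtain ⟨c, rfl⟩ := (h.nd j).exists_smul_of_two (h.dim j) hy hy0 hy hy0
      (by rw [polar_self', h2, zero_mul]) hp hyp
    exact hpl (smul_mem _ c hl)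
  have h4 : 4 ≤ Nat.card F ∨ ∀ y ∈ D j, Q y = 0 → y = 0 := hg.imp (by omega) fun h => h.2 j
  obtain ⟨c, hc0, hc⟩ : ∃ c : F, c ≠ 0 ∧ Q (y + c • p) ≠ 0 := by
    rcases h4 with h4 | h4
    · obtain ⟨c, hc0, hc⟩ := exists_ne_zero_sq_ne h4 (-Q y / Q p)
      refine ⟨c, hc0, fun e => hc ?_⟩
      rw [Q_add, Q_smul, polar_smul_right, hyp] at e
      rw [eq_div_iff hQp]
      simpa using eq_neg_of_add_eq_zero_right (by simpa using e)
    · refine ⟨1, one_ne_zero, fun e => ?_⟩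
      have := congrArg (polar Q y) (h4 _ (add_mem hy (smul_mem _ _ hp)) e)
      simp [hyp, polar_self', h2, hQy] at this
  obtain ⟨n, hn⟩ := hj _ (add_mem hy (smul_mem _ c hp)) hc
  have := sub_mem (h.eq_of_apply hl hn (by simp [hyp, polar_self', h2, hQy])) hl
  rw [map_add, add_sub_cancel_left, map_smul] at this
  exact hpl ((Submodule.smul_mem_iff (D l) hc0).1 this)

namespace DecM

theorem mem_of_refl (h : DecM 2 D M) (hg : GoodPlanes Q D) (hq : Nat.card F ≠ 2)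
    (ht : 4 ≤ Fintype.card ι) (hG : G ⊓ commutator (O Q) ≤ M) {x : V}
    (hJ : ∀ j, x ∉ perp Q (D j) → ∀ y ∈ D j, refl Q y ∈ G) (hQx : Q x ≠ 0) (hx : refl Q x ∈ G) :
    ∃ j, x ∈ D j := by
  rcases hg with hg | hg
  · exact h.mem_of_refl_hyp hg.1 ht hg.2 hG hJ hQx hx
  · have : 1 < Nat.card F := Finite.one_lt_card
    exact h.mem_of_refl_aniso (by omega) ht hg.2 hG hJ hQx hx

/-- **F1**, characteristic 2. -/
theorem mem_dstab_of_mem_two (h : DecM 2 D M) (hg : GoodPlanes Q D) (h2 : (2 : F) = 0)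
    (ht : 4 ≤ Fintype.card ι) {g : O Q} (hgM : g ∈ M) {i i' : ι} {w : V} (hw : w ∈ D i)
    (hQw : Q w ≠ 0) (hgw : g w ∈ D i') : g ∈ dstab Q D := by
  have := SqCl.subsingleton_of_char_two (F := F) h2
  refine h.mem_dstab_of fun j => h.exists_img_two hg fun y hy hQy => ?_
  have hR := RR.apply (h.mem_RR hy hw hQy hQw (Subsingleton.elim _ _)) hgM
  have hQ' : Q (g w) ≠ 0 := by rwa [O.map_Q]
  by_cases hq : Nat.card F = 2
  · exact h.mem_of_RR_two hq (hg.resolve_left fun h => by omega).2 hgw hQ' hR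
  · exact h.mem_of_refl hg hq ht (reflGroup_RR_inf_le h.hQ h.le' hQ')
      (fun j _ y hy => h.refl_mem_RR h2 hgw hQ' hy) hR.1 (refl_mem_reflGroup hR)

/-- **F0.** -/
theorem mem_dstab_of_img (h : DecM 2 D M) (hg : GoodPlanes Q D) (hq : Nat.card F ≠ 2)
    (ht : 4 ≤ Fintype.card ι) {g : O Q} (hgM : g ∈ M) {i i' : ι} (hi : ∀ x ∈ D i, g x ∈ D i') :
    g ∈ dstab Q D := by
  refine h.mem_dstab_of fun j => ?_
  by_cases hji : j = i
  · exact ⟨i', hji ▸ hi⟩
  refine h.exists_img_two hg fun y hy hQy => ?_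
  have hA : reflGroup Q (D i' : Set V) ≤ fixer Q (perp Q (D i') : Set V) :=
    reflGroup_le_fixer fun v hv x hx => hx v hv
  obtain ⟨w, hw, hQw⟩ := h.exists_Q_eq i hy
  have hp : g y ∈ perp Q (D i') := by
    rw [← h.img_eq hi, ← img_perp, apply_mem_img]; exact h.mem_perp_of hji hy
  refine h.mem_of_refl (G := Gstar h.hQ (h.nd i') M hA) hg hq ht
    (Gstar_inf_le h.le' fun ε hε => h.le ⟨h.reflGroup_le i' hε.1, hε.2⟩) (fun l hl v hv => ?_)
    (by rwa [O.map_Q]) ⟨refl_mem_fixer fun x hx => pc (hp x hx), _, refl_mem_reflGroup (hi w hw),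
      (RR.apply (h.mem_RR hy hw hQy (by rwa [hQw]) (by rw [hQw])) hgM).2⟩
  have hl' : l ≠ i' := by rintro rfl; exact hl hp
  obtain ⟨ε, hε, hΩ⟩ := exists_corr h.hQ h.h5 (h.nd i') (h.dim i').ge (refl Q v)
  exact ⟨refl_mem_fixer fun x hx => h.orth l i' hl' v hv x hx, ε, hε,
    h.le ⟨mul_mem (h.refl_mem hv) (h.reflGroup_le i' hε), hΩ⟩⟩

end DecM

end H60
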