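/- Maximality of the stabiliser of an orthogonal decomposition into planes. -/
import Cfsg.Agent.H60.DecTI
import Cfsg.Agent.H60.DecTwoB

set_option autoImplicit false

namespace H60

open QuadraticMap H56 Module Submodule Cfsg.Geo

variable {F V : Type*} [Field F] [AddCommGroup V] [Module F V] {Q : QuadraticForm F V}

theorem commute_refl {a b : V} (h : polar Q a b = 0) : Commute (refl Q a) (refl Q b) := by
  rw [Commute, SemiconjBy, mul_refl, refl_apply_of_orth h]

theorem mul_sq_of_commute {G : Type*} [Group G] {a b : G} (h : Commute a b) (ha : a * a = 1)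
    (hb : b * b = 1) : a * b * (a * b) = 1 := by
  rw [h.symm.mul_mul_mul_comm, ha, hb, one_mul]

theorem polar_eq_zero_of_fix {a b x : V} (ha : Q a ≠ 0) (hab : a ∉ span F {b})
    (h : (refl Q a * refl Q b) x = x) : polar Q a x = 0 := by
  rw [O.mul_apply] at h
  have h1 : refl Q b x = refl Q a x := by rw [← refl_refl (Q := Q) a (refl Q b x), h]
  rw [refl_apply, refl_apply, sub_right_inj] at h1
  by_contra h0
  exact hab ((Submodule.smul_mem_iff _ (mul_ne_zero (inv_ne_zero ha) h0)).1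
    (h1 ▸ smul_mem _ _ (mem_span_singleton_self b)))

theorem refl_apply_ne {a x : V} (ha : Q a ≠ 0) (h : polar Q a x ≠ 0) : refl Q a x ≠ x := fun e => by
  rw [refl_apply, sub_eq_self, smul_eq_zero] at e
  exact ha (by simp [e.resolve_left (mul_ne_zero (inv_ne_zero ha) h)])

variable [FiniteDimensional F V] [Finite F] {ι : Type*} [Fintype ι] [DecidableEq ι] {k : ℕ}
  {D : ι → Submodule F V} {M : Subgroup (O Q)}

omit [Fintype ι] [DecidableEq ι] in
theorem OrthDec.exists_good_pair_two (h : OrthDec Q 2 D) (hg : GoodPlanes Q D) (j : ι) :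
    ∃ u ∈ D j, ∃ v ∈ D j, Q u ≠ 0 ∧ Q v ≠ 0 ∧ sqcl (Q u) = sqcl (Q v) ∧ polar Q u v ≠ 0 ∧
      u ∉ span F {v} := by
  rcases id hg with ⟨h7, hH⟩ | ⟨h3, han⟩
  · obtain ⟨e, he, f, hf, hQe, hQf, hef⟩ := hH j
    have hef' : IsHyp Q e f := ⟨hQe, hQf, hef⟩
    obtain ⟨s, hs⟩ := exists_ne_five (F := F) (by omega)
    have hs0 : s ≠ 0 := by rintro rfl; simp at hs
    have h1 : Q (e + f) = 1 := by simpa using hef'.Q_add_smul 1
    have h2 : Q (e + (s * s) • f) = s * s := hef'.Q_add_smul _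
    refine ⟨e + f, add_mem he hf, e + (s * s) • f, add_mem he (smul_mem _ _ hf), by simp [h1],
      by simp [h2, hs0], by simp [h1, h2], fun e0 => hs ?_, fun hn => hs ?_⟩
    · simp [hef'.ee, hef'.ef, hef'.fe, hef'.ff] at e0
      linear_combination (s ^ 3 - s) * e0
    · obtain ⟨c, hc⟩ := mem_span_singleton.1 hn
      have h4 := congrArg (polar Q e) hc
      have h5 := congrArg (polar Q f) hc
      simp [hef'.ee, hef'.ef, hef'.fe, hef'.ff] at h4 h5
      rw [h5, one_mul] at h4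
      linear_combination (s ^ 3 + s) * h4
  by_cases h2 : (2 : F) = 0
  · have := SqCl.subsingleton_of_char_two (F := F) h2
    rcases (h.nd j).exists_pair h2 (h.ne_bot j) with
      ⟨y, hy, y', hy', hQy, hQy', hyy⟩ | ⟨-, -, e, he, he0, hQe⟩
    · refine ⟨y, hy, y', hy', hQy, hQy', Subsingleton.elim _ _, hyy, fun hn => hyy ?_⟩
      obtain ⟨c, rfl⟩ := mem_span_singleton.1 hn
      simp [polar_self', h2]
    · exact (he0 (han j e he hQe)).elim
  have h4 : 4 ≤ Nat.card F := by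
    have : 1 < Nat.card F := Finite.one_lt_card
    have : Nat.card F ≠ 2 := fun e => h2 (two_eq_zero_of_forall (eq_zero_or_one e))
    omega
  obtain ⟨u, hu, hQu⟩ := h.exists_ne j
  obtain ⟨p, hp, hp0, hup⟩ := exists_orth_of_two (Q := Q) (h.dim j).ge u
  have hQp : Q p ≠ 0 := fun e => hp0 (han j p hp e)
  obtain ⟨s, hs0, hs⟩ := exists_ne_zero_sq_ne h4 (Q p / Q u)
  have hy := add_mem hp (smul_mem _ s hu)
  have hQy : Q (p + s • u) ≠ 0 := fun e => by
    simpa [polar_self', h2, hQp, pc hup] using congrArg (polar Q p) (han j _ hy e)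
  refine ⟨u, hu, _, refl_apply_mem hy hu, hQu, by rwa [O.map_Q], by rw [O.map_Q], fun e0 => hs ?_,
    fun hn => ?_⟩
  · rw [refl_apply] at e0
    have e1 : Q (p + s • u) = Q p + s * s * Q u := by simp [Q_add, Q_smul, pc hup]
    simp only [polar_sub_right, polar_smul_right, polar_add_right, polar_add_left, polar_smul_left,
      hup, pc hup, polar_self', smul_eq_mul] at e0
    field_simp at e0 ⊢
    rw [e1] at e0
    refine mul_left_cancel₀ (mul_ne_zero h2 hQu) ?_
    first | linear_combination e0 | linear_combination -e0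
  · obtain ⟨c, hc⟩ := mem_span_singleton.1 hn
    have h5 := congrArg (polar Q p) hc
    rw [refl_apply] at h5
    simp [pc hup, polar_self', h2, hQy, hQu, hQp, hs0] at h5
    exact hQu (by rw [← hc, h5]; simp)

omit [Finite F] [DecidableEq ι] in
theorem OrthDec.exists_not_mem_two (h : OrthDec Q 2 D) [Finite F] (hg : GoodPlanes Q D)
    (ht : 4 ≤ Fintype.card ι) : ∃ g ∈ commutator (O Q), g ∉ dstab Q D := by
  have : Nontrivial ι := Fintype.one_lt_card_iff_nontrivial.1 (by omega)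
  obtain ⟨i, j, hij⟩ := exists_pair_ne ι
  obtain ⟨l, hli, hlj, -⟩ := exists_ne_ne_ne ht i j j
  obtain ⟨u, hu, v, hv, hQu, hQv, hc, huv, -⟩ := h.exists_good_pair_two hg i
  obtain ⟨b, hb, hQb⟩ := h.exists_ne j
  obtain ⟨c, hcl, hQc⟩ := (h.nd l).exists_Q_eq (h.dim l).ge (neg_ne_zero.2 hQb)
  have h1 : Q (u + b + c) = Q u := by
    simp [Q_add, hQc, h.orth i j hij u hu b hb, h.orth i l hli.symm u hu c hcl,
      h.orth j l hlj.symm b hb c hcl]
  have h2 : ∀ m, u + b + c ∉ D m := fun m hm => by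
    have h3 : ∀ n, h.pr n (u + b + c) ≠ 0 → m = n := fun n hn => by_contra fun e => hn (h.pr_of_ne e hm)
    refine hij ((h3 i ?_).symm.trans (h3 j ?_))
    · rw [map_add, map_add, h.pr_of_mem hu, h.pr_of_ne hij.symm hb, h.pr_of_ne hli hcl]
      rintro e; simp at e; simp [e] at hQu
    · rw [map_add, map_add, h.pr_of_mem hb, h.pr_of_ne hij hu, h.pr_of_ne hlj hcl]
      rintro e; simp at e; simp [e] at hQb
  refine ⟨_, H56.refl_mul_refl_mem_commutator h.hQ (by rwa [h1]) hQv (by rwa [h1]), fun hn => ?_⟩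
  obtain ⟨m, hm⟩ := h.mem_of_refl_mul_refl le_rfl (by rwa [h1]) hQv (by
    simpa [h.orth j i hij.symm b hb v hv, h.orth l i hli c hcl v hv] using huv)
    (fun e => h2 i (span_le.2 (Set.singleton_subset_iff.2 hv) e)) hn
  exact h2 m hm

namespace DecM

theorem le_dstab_two_odd (h : DecM 2 D M) (hg : GoodPlanes Q D) (h2 : (2 : F) ≠ 0)
    (ht : Fintype.card ι = 5 ∨ 7 ≤ Fintype.card ι) : M ≤ dstab Q D := by
  have hq : Nat.card F ≠ 2 := fun e => h2 (two_eq_zero_of_forall (eq_zero_or_one e))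
  refine h.le_dstab_of_key h2 le_rfl (a := 1) (b := 1) (by omega) (by omega) (by omega) (by omega)
    fun g hgM I J hI hJ ho => ?_
  obtain ⟨i, hi⟩ := Finset.card_pos.1 hI
  obtain ⟨j, hj⟩ := Finset.card_pos.1 hJ
  obtain ⟨u, hu, v, hv, hQu, hQv, hc, huv, hn⟩ := h.exists_good_pair_two hg i
  have h0 : refl Q (g u) * refl Q (g v) ∈ dstab Q D := h.mem_dstab_of_img hg hq (by omega)
    (RR.apply (h.mem_RR hu hv hQu hQv hc) hgM).2 (i := j) (i' := j) fun x hx => by
      rwa [O.mul_apply, refl_apply_of_orth (ho i hi j hj v hv x hx),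
        refl_apply_of_orth (ho i hi j hj u hu x hx)]
  have hv0 : v ≠ 0 := by rintro rfl; simp at hQv
  obtain ⟨m, hm⟩ := h.mem_of_refl_mul_refl le_rfl (by rwa [O.map_Q]) (by rwa [O.map_Q])
    (by rwa [O.map_polar]) (apply_not_mem_span g hn) h0
  obtain ⟨n, hn'⟩ := h.mem_of_refl_mul_refl le_rfl (a := g v) (b := g u) (by rwa [O.map_Q])
    (by rwa [O.map_Q]) (by rwa [O.map_polar, polar_comm]) (apply_not_mem_span g fun e => by
      obtain ⟨c, rfl⟩ := mem_span_singleton.1 e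
      exact hn (mem_span_singleton.2 ⟨c⁻¹, inv_smul_smul₀ (left_ne_zero_of_smul hv0) u⟩))
    (by simpa using inv_mem h0)
  have h3 := h.eq_of_apply hm hn' huv
  refine h.mem_dstab_of_img hg hq (by omega) hgM (i := i) (i' := m) fun x hx => ?_
  rw [← Submodule.eq_of_le_of_finrank_le (span_le.2 (Set.insert_subset hv
    (Set.singleton_subset_iff.2 hu))) (by
      rw [h.dim, finrank_span_pair ((LinearIndependent.pair_iff' hv0).2
        fun c e => hn (mem_span_singleton.2 ⟨c, e⟩))])] at hx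
  obtain ⟨s, t, rfl⟩ := mem_span_pair.1 hx
  rw [map_add, map_smul, map_smul]
  exact add_mem (smul_mem _ _ h3) (smul_mem _ _ hm)

theorem le_dstab_two_even (h : DecM 2 D M) (hg : GoodPlanes Q D) (h2 : (2 : F) = 0)
    (ht : 7 ≤ Fintype.card ι) : M ≤ dstab Q D := fun g hgM => by
  have := SqCl.subsingleton_of_char_two (F := F) h2
  have F2 : ∀ g ∈ M, ∀ l, ∀ u ∈ D l, ∀ v, Q u ≠ 0 → Q v ≠ 0 → polar Q u v ≠ 0 → u ∉ span F {v} →
      refl Q (g u) * refl Q (g v) ∈ dstab Q D → g ∈ dstab Q D := fun g hgM l u hu v a b c d e => by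
    obtain ⟨m, hm⟩ := h.mem_of_refl_mul_refl le_rfl (by rwa [O.map_Q]) (by rwa [O.map_Q])
      (by rwa [O.map_polar]) (apply_not_mem_span g d) e
    exact h.mem_dstab_of_mem_two hg h2 (by omega) hgM hu a hm
  have key : ∀ g ∈ M, ∀ i, ∀ w ∈ D i, Q w ≠ 0 → ∀ l, (∀ x ∈ D l, polar Q (g x) w = 0) →
      g ∈ dstab Q D ⊓ commutator (O Q) := fun g hgM i w hw hQw l ho => by
    obtain ⟨u, hu, v, hv, hQu, hQv, hc, huv, hn⟩ := h.exists_good_pair_two hg l
    refine ⟨F2 g hgM l u hu v hQu hQv huv hn (h.mem_dstab_of_mem_two hg h2 (by omega)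
      (RR.apply (h.mem_RR hu hv hQu hQv hc) hgM).2 hw hQw (i' := i) ?_), h.le' hgM⟩
    rwa [O.mul_apply, refl_apply_of_orth (ho v hv), refl_apply_of_orth (ho u hu)]
  let L : Finset ι → Subgroup (O Q) := fun S =>
    (⨅ i, sstab Q (D i : Set V)) ⊓ ⨅ l, ⨅ _ : l ∉ S, fixer Q (D l : Set V)
  have hL : ∀ S j, j ∈ S → ∀ y ∈ D j, refl Q y ∈ L S := fun S j hj y hy => by
    simp only [L, Subgroup.mem_inf, Subgroup.mem_iInf]
    refine ⟨fun i => ?_, fun l hl => refl_mem_fixer (h.orth j l (by rintro rfl; exact hl hj) y hy)⟩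
    by_cases e : j = i
    · exact refl_mem_sstab (e ▸ hy)
    · exact fixer_le_sstab _ (refl_mem_fixer (h.orth j i e y hy))
  have hC : ∀ S : Finset ι, S.card ≤ 6 → ∀ z ∈ L S, z * z = 1 → z ≠ 1 → ∀ g ∈ M, g * z = z * g →
      g ∈ dstab Q D ⊓ commutator (O Q) := fun S hS z hz hz2 hz1 g hgM hc => by
    simp only [L, Subgroup.mem_inf, Subgroup.mem_iInf] at hz
    obtain ⟨l, hl⟩ := exists_notMem_of_card S (by omega)
    obtain ⟨i, x, hx, hzx⟩ : ∃ i, ∃ x ∈ D i, z x ≠ x := by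
      by_contra hc
      push Not at hc
      exact hz1 (h.ext hc)
    have hzD : ∀ y ∈ D i, z y ∈ D i := fun y hy => apply_mem_of_sstab (hz.1 i) hy
    have hcD := sub_mem (hzD x hx) hx
    refine key g hgM i _ hcD (fun hQc => ?_) l fun y hy => pc (z.polar_sub_fix x (by
      rw [← O.mul_apply, ← hc, O.mul_apply, hz.2 l hl y hy]))
    obtain ⟨f, hf, hQf, hcf⟩ := (h.nd i).exists_partner hcD (sub_ne_zero.2 hzx) hQc
    have hef : IsHyp Q (z x - x) f := ⟨hQc, hQf, hcf⟩
    have hzc : z (z x - x) = z x - x := by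
      rw [map_sub, ← O.mul_apply, hz2, O.one_apply]
      linear_combination (norm := skip) h2 • (x - z x)
      module
    have hs := eq_span_of_hyp (h.dim i) hcD hf hQc hQf hcf
    obtain ⟨α, β, e⟩ := mem_span_pair.1 (hs ▸ hzD f hf)
    have h3 := z.map_polar (z x - x) f
    have h4 := z.map_Q f
    rw [hzc, ← e, polar_add_right, polar_smul_right, polar_smul_right, hef.ee, hcf] at h3
    rw [← e, hef.Q_comb, hQf] at h4
    have hβ : β = 1 := by simpa using h3
    rw [hβ, mul_one] at h4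
    rw [hβ, h4, zero_smul, zero_add, one_smul] at e
    obtain ⟨s, t, e'⟩ := mem_span_pair.1 (hs ▸ hx)
    exact hzx (by rw [← e', map_add, map_smul, map_smul, hzc, ← e])
  obtain ⟨T, -, hT⟩ := Finset.exists_subset_card_eq (s := (Finset.univ : Finset ι)) (n := 4)
    (by rw [Finset.card_univ]; omega)
  obtain ⟨i, j, l, m, hij, hil, him, hjl, hjm, hlm, -⟩ := Finset.card_eq_four.1 hT
  obtain ⟨u, hu, v, hv, hQu, hQv, -, huv, hn⟩ := h.exists_good_pair_two hg i
  obtain ⟨b, hb, hQb⟩ := h.exists_ne j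
  obtain ⟨c, hc, hQc⟩ := h.exists_ne l
  obtain ⟨d, hd, hQd⟩ := h.exists_ne m
  have hΩ : ∀ {a b : V}, Q a ≠ 0 → Q b ≠ 0 → refl Q a * refl Q b ∈ commutator (O Q) :=
    fun ha hb => H56.refl_mul_refl_mem_commutator h.hQ ha hb (Subsingleton.elim _ _)
  have hub : u ∉ span F {b} := fun e => hij (h.eq_of_mem hu
    (span_le.2 (Set.singleton_subset_iff.2 hb) e) (by rintro rfl; simp at hQu))
  have hconj : ∀ s : O Q, s * (refl Q u * refl Q b) * s⁻¹ = refl Q (s u) * refl Q (s b) :=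
    fun s => by rw [← conj_refl, ← conj_refl]; group
  have ht0 : refl Q u * refl Q b * (refl Q u * refl Q b) = 1 :=
    mul_sq_of_commute (commute_refl (h.orth i j hij u hu b hb)) (by simp) (by simp)
  have hsq : ∀ s : O Q, refl Q (s u) * refl Q (s b) * (refl Q (s u) * refl Q (s b)) = 1 := fun s => by
    rw [← hconj, show ∀ t, s * t * s⁻¹ * (s * t * s⁻¹) = s * (t * t) * s⁻¹ from fun t => by group,
      ht0]; simp
  have hst : ∀ s ∈ dstab Q D ⊓ commutator (O Q), ∃ p q, s u ∈ D p ∧ s b ∈ D q := fun s hs => by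
    obtain ⟨p, hp⟩ := OrthDec.exists_of_dstab hs.1 i
    obtain ⟨q, hq⟩ := OrthDec.exists_of_dstab hs.1 j
    exact ⟨p, q, hp u hu, hq b hb⟩
  have hd' : ∀ y ∈ D i, Q y ≠ 0 → g ∈ dstab Q D ⊓ commutator (O Q) ∨
      g⁻¹ * (refl Q y * (refl Q b * (refl Q c * refl Q d))) * g ∈ dstab Q D ⊓ commutator (O Q) := by
    intro y hy hQy
    have hsq' : refl Q y * (refl Q b * (refl Q c * refl Q d)) *
        (refl Q y * (refl Q b * (refl Q c * refl Q d))) = 1 :=
      mul_sq_of_commute ((commute_refl (h.orth i j hij y hy b hb)).mul_right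
        ((commute_refl (h.orth i l hil y hy c hc)).mul_right (commute_refl (h.orth i m him y hy d hd))))
        (by simp) (mul_sq_of_commute ((commute_refl (h.orth j l hjl b hb c hc)).mul_right
          (commute_refl (h.orth j m hjm b hb d hd))) (by simp)
          (mul_sq_of_commute (commute_refl (h.orth l m hlm c hc d hd)) (by simp) (by simp)))
    have hdL : ∀ S : Finset ι, i ∈ S → j ∈ S → l ∈ S → m ∈ S →
        refl Q y * (refl Q b * (refl Q c * refl Q d)) ∈ L S := fun S a1 a2 a3 a4 =>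
      mul_mem (hL S i a1 y hy) (mul_mem (hL S j a2 b hb) (mul_mem (hL S l a3 c hc) (hL S m a4 d hd)))
    have hmv : ∀ r ∈ ({i, j, l} : Finset ι), ∃ x ∈ D r,
        (refl Q y * (refl Q b * (refl Q c * refl Q d))) x ≠ x := fun r hr => by
      simp only [Finset.mem_insert, Finset.mem_singleton] at hr
      have hro : ∀ {p q a x}, p ≠ q → a ∈ D p → x ∈ D q → refl Q a x = x := fun e ha hx =>
        refl_apply_of_orth (h.orth _ _ e _ ha _ hx)
      have hex : ∀ {p a}, a ∈ D p → Q a ≠ 0 → ∃ x ∈ D p, refl Q a x ≠ x := fun ha hQa => by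
        obtain ⟨x, hx, e⟩ := (h.nd _).exists_polar_ne ha (by rintro rfl; simp at hQa)
        exact ⟨x, hx, refl_apply_ne hQa e⟩
      simp only [O.mul_apply]
      rcases hr with rfl | rfl | rfl
      · obtain ⟨x, hx, e⟩ := hex hy hQy
        exact ⟨x, hx, by rwa [hro him.symm hd hx, hro hil.symm hc hx, hro hij.symm hb hx]⟩
      · obtain ⟨x, hx, e⟩ := hex hb hQb
        exact ⟨x, hx, by rwa [hro hjm.symm hd hx, hro hjl.symm hc hx,
          hro hij hy (refl_apply_mem hb hx)]⟩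
      · obtain ⟨x, hx, e⟩ := hex hc hQc
        exact ⟨x, hx, by rwa [hro hlm.symm hd hx, hro hjl hb (refl_apply_mem hc hx),
          hro hil hy (refl_apply_mem hc hx)]⟩
    refine ti_lemma h.le ht0 hsq' ⟨mul_mem (h.refl_mem hu) (h.refl_mem hb), hΩ hQu hQb⟩
      ⟨mul_mem (h.refl_mem hy) (mul_mem (h.refl_mem hb) (mul_mem (h.refl_mem hc) (h.refl_mem hd))),
        by rw [← mul_assoc]; exact mul_mem (hΩ hQy hQb) (hΩ hQc hQd)⟩ (fun s hs h1 => ?_)
      (fun s hs e => ?_) (hC {i, j, l, m} (Finset.card_le_four.trans (by omega)) _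
        (hdL _ (by simp) (by simp) (by simp) (by simp)) hsq' fun e => ?_)
      (fun s hs z hz => ?_) (fun s hs z hz => ?_) hgM
    · rw [hconj] at h1
      obtain ⟨I, hI, hI'⟩ := h.exists_fixed h1.1 (hsq s) (refl_mul_refl_sub_mem _ _) le_rfl le_rfl
      have := finrank_span_pair_le (F := F) (s u) (s b)
      obtain ⟨r, hr⟩ := Finset.card_pos.1 (show 0 < I.card by omega)
      refine (inv_mem_iff).1 (key _ (M.inv_mem hs) i u hu hQu r fun x hx => ?_)
      rw [← O.polar_apply_right]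
      exact pc (polar_eq_zero_of_fix (by rwa [O.map_Q]) (apply_not_mem_span s hub) (hI' r hr x hx))
    · rw [hconj] at e
      have := h.card_moved_le (e ▸ mul_mem (h.refl_mem hy) (mul_mem (h.refl_mem hb)
        (mul_mem (h.refl_mem hc) (h.refl_mem hd)))) (hsq s) (refl_mul_refl_sub_mem _ _) le_rfl le_rfl
        {i, j, l} (e ▸ hmv)
      rw [Finset.card_eq_three.2 ⟨i, j, l, hij, hil, hjl, rfl⟩] at this
      have := finrank_span_pair_le (F := F) (s u) (s b)
      omega
    · obtain ⟨x, -, hx⟩ := hmv i (by simp)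
      exact hx (by rw [e]; rfl)
    · obtain ⟨p, q, hp, hq⟩ := hst s hs
      refine hC {i, j, l, m, p, q} Finset.card_le_six z ?_
      rw [hz, hconj]
      exact mul_mem (hdL _ (by simp) (by simp) (by simp) (by simp))
        (mul_mem (hL _ p (by simp) _ hp) (hL _ q (by simp) _ hq))
    · obtain ⟨p, q, hp, hq⟩ := hst s hs
      refine hC {i, j, p, q} (Finset.card_le_four.trans (by omega)) z ?_
      rw [hz, hconj]
      exact mul_mem (mul_mem (hL _ i (by simp) _ hu) (hL _ j (by simp) _ hb))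
        (mul_mem (hL _ p (by simp) _ hp) (hL _ q (by simp) _ hq))
  rcases hd' u hu hQu with h5 | h5
  · exact h5.1
  rcases hd' v hv hQv with h6 | h6
  · exact h6.1
  refine (inv_mem_iff).1 (F2 _ (M.inv_mem hgM) i u hu v hQu hQv huv hn ?_)
  have h7 := (mul_mem h5 (inv_mem h6)).1
  rwa [show ∀ a b c : O Q, g⁻¹ * (a * c) * g * (g⁻¹ * (b * c) * g)⁻¹ =
    g⁻¹ * a * g⁻¹⁻¹ * (g⁻¹ * b⁻¹ * g⁻¹⁻¹) from fun a b c => by group, refl_inv, conj_refl,
    conj_refl] at h7

end DecM

/-- **Maximality of decomposition stabilisers, `k = 2`.** -/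
theorem OrthDec.maximal_of_two (h : OrthDec Q 2 D) (hg : GoodPlanes Q D)
    (ht : 7 ≤ Fintype.card ι ∨ (Fintype.card ι = 5 ∧ (2 : F) ≠ 0)) :
    IsMaximalIn (commutator (O Q)) (dstab Q D ⊓ commutator (O Q)) := by
  have h5 : 5 ≤ finrank F V := by rw [h.finrank_eq]; omega
  refine isMaximalIn_of (h.exists_not_mem_two hg (by omega)) fun M hM hM' g hgM hgS => ?_
  by_contra hc
  by_cases h2 : (2 : F) = 0
  · exact hgS (DecM.le_dstab_two_even ⟨h, h5, hM, hM', hc⟩ hg h2
      (ht.resolve_right fun e => e.2 h2) hgM)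
  · exact hgS (DecM.le_dstab_two_odd ⟨h, h5, hM, hM', hc⟩ hg h2 (by omega) hgM)

end H60
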