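/- Maximality of stabilisers of orthogonal decompositions with members of dimension at least two. -/
import Cfsg.Agent.H60.DecMax2

set_option autoImplicit false

namespace H60

open QuadraticMap H56 Module Submodule Cfsg.Geo

variable {κ : Type} [Fintype κ] [DecidableEq κ] {F : Type*} [Field F] {Q : QuadraticForm F (κ → F)}

omit [DecidableEq κ] in
theorem OrthDec.plus_all {ι : Type*} {k : ℕ} {D : ι → Submodule F (κ → F)} (h : OrthDec Q k D)
    {j : ι} (hj : IsPlusTypeOn ⇑Q (D j)) (i : ι) : IsPlusTypeOn ⇑Q (D i) := by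
  obtain ⟨U, hU, hts, hd⟩ := hj
  obtain ⟨g, hg⟩ := h.iso j i
  exact ⟨img g U, hg ▸ img_mono g hU, ts_img hts g, by rw [finrank_img, hd, h.dim, h.dim]⟩

theorem card_ne_six (F : Type*) [Field F] [Fintype F] : Fintype.card F ≠ 6 := fun e => by
  have := Fintype.isPrimePow_card_of_field (α := F)
  rw [e] at this
  exact absurd this (by decide)

/-- **Maximality of decomposition stabilisers**, members of dimension `k ≥ 2`. -/
theorem maximal_dec_GL [Fintype F] (hQ : Q.polarBilin.Nondegenerate) {t k : ℕ} (hk : 2 ≤ k)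
    {D : Fin t → Submodule F (κ → F)} (hD : IsOrthogonalMDecomposition ⇑Q k D)
    (ht : k = 2 → 7 ≤ t ∨ (t = 5 ∧ Odd (Fintype.card F)))
    (hko : k = 3 → Odd (Fintype.card F))
    (hex : ¬ ((k = 2 ∧ (Fintype.card F = 3 ∨ ((∀ i, IsPlusTypeOn ⇑Q (D i)) ∧
      (Fintype.card F = 2 ∨ Fintype.card F = 4 ∨ Fintype.card F = 5)))) ∨
      (k = 3 ∧ Fintype.card F = 3) ∨ (k = 4 ∧ Fintype.card F = 2 ∧ ∀ i, IsPlusTypeOn ⇑Q (D i)))) :
    IsMaximalIn (omegaGL ⇑Q) (decompositionStabilizer D ⊓ omegaGL ⇑Q) := by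
  have := nontrivial_of_dec hD
  have h := orthDec_of hQ hD
  have h1 : 1 < Fintype.card F := Fintype.one_lt_card
  have h6 := card_ne_six F
  refine isMaximalIn_GL ?_
  rw [comap_decompositionStabilizer]
  rcases hk.eq_or_lt with rfl | hk3
  · refine h.maximal_of_two ?_ ((ht rfl).imp (by simp)
      fun e => ⟨by simp [e.1], H58.two_ne_zero_of_odd_card e.2⟩)
    rw [GoodPlanes, Nat.card_eq_fintype_card]
    by_cases hp : ∃ j, IsPlusTypeOn ⇑Q (D j)
    · obtain ⟨j, hj⟩ := hp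
      refine Or.inl ⟨?_, fun i => hasHyp_of_isPlusTypeOn (h.nd i) (h.ne_bot i) (h.plus_all hj i)⟩
      by_contra h7
      refine hex (Or.inl ⟨rfl, ?_⟩)
      by_cases h3 : Fintype.card F = 3
      · exact Or.inl h3
      · exact Or.inr ⟨h.plus_all hj, by omega⟩
    · refine Or.inr ⟨fun h3 => hex (Or.inl ⟨rfl, Or.inl h3⟩), fun j y hy hQy => by_contra fun h0 =>
        hp ⟨j, span F {y}, span_le.2 (Set.singleton_subset_iff.2 hy), fun w hw => ?_,
          by rw [finrank_span_singleton h0, h.dim]⟩⟩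
      obtain ⟨c, rfl⟩ := mem_span_singleton.1 hw
      simp [Q_smul, hQy]
  · refine h.maximal_of_three hk3 (fun h3 => ⟨H58.two_ne_zero_of_odd_card (hko h3), ?_⟩)
      fun j ⟨a, b, U, hU, hts, hd⟩ => hex (Or.inr (Or.inr ⟨by rw [← h.dim j, b],
        by rwa [← Nat.card_eq_fintype_card], h.plus_all (j := j) ⟨U, hU, hts, by rw [hd, b]⟩⟩))
    obtain ⟨r, hr⟩ := hko h3
    have : Fintype.card F ≠ 3 := fun e => hex (Or.inr (Or.inl ⟨h3, e⟩))
    rw [Nat.card_eq_fintype_card]; omega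

end H60
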