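import Cfsg.Agent.H60.LDA3a

/-! LD5-A3: reflection groups in `GL₃` are monomial or have a quasisimple normal subgroup. -/

set_option autoImplicit false

open Matrix Cfsg Cfsg.Geo H19 H41.LD Module
open scoped MatrixGroups commutatorElement

namespace H60.LD

universe u

variable {K : Type u} [Field K] {G M A : Subgroup (GL (Fin 3) K)} {r s t x : R 3 K}
  {e ε : Fin 3 → Fin 3 → K}

local notation "𝒵" => scalars (Fin 3) K

theorem exp1 (h : Dual e ε) (v : Fin 3 → K) : v = ∑ i, (ε i ⬝ᵥ v) • e i := by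
  conv_lhs => rw [← one_mulVec v, ← h.sum_eq_one, sum_mulVec]
  simp only [N_mulVec]

theorem exp2 (h : Dual e ε) (v : Fin 3 → K) : v = ∑ i, (v ⬝ᵥ e i) • ε i := by
  conv_lhs => rw [← vecMul_one v, ← h.sum_eq_one, vecMul_sum]
  simp only [vecMul_N]

theorem sum3 {V : Type*} [AddCommMonoid V] (f : Fin 3 → V) {i j k : Fin 3} (h1 : i ≠ j) (h2 : i ≠ k)
    (h3 : j ≠ k) : ∑ l, f l = f i + f j + f k := by
  rw [show (Finset.univ : Finset (Fin 3)) = {i, j, k} by revert i j k; decide,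
    Finset.sum_insert (by simp [h1, h2]), Finset.sum_pair h3, add_assoc]

theorem mono_aux (h : Dual e ε) (h2 : x.2 ⬝ᵥ x.1 = 2) (h0 : x.1 ≠ 0) (h0' : x.2 ≠ 0)
    (hm : ∀ j i i', i ≠ i' → ε i ⬝ᵥ (1 - N x) *ᵥ e j = 0 ∨ ε i' ⬝ᵥ (1 - N x) *ᵥ e j = 0) :
    (∃ i, (2 : K) ≠ 0 ∧ N x = N (dg e ε i)) ∨ ∃ i j η, i ≠ j ∧ η ≠ 0 ∧ N x = N (sw e ε i j η) := by
  obtain ⟨u, φ⟩ := x
  simp only at h2 h0 h0'
  have e1 := exp1 h u
  have e2 := exp2 h φ
  have tr : ∑ i, (ε i ⬝ᵥ u) * (φ ⬝ᵥ e i) = 2 := by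
    rw [← h2]; conv_rhs => rw [e1, dotProduct_sum]
    simp only [dotProduct_smul, smul_eq_mul]
  simp only [rf_mulVec, dotProduct_sub, dotProduct_smul, smul_eq_mul] at hm
  obtain ⟨a, ha⟩ : ∃ a : Fin 3 → K, ∀ i, ε i ⬝ᵥ u = a i := ⟨_, fun _ => rfl⟩
  obtain ⟨b, hb⟩ : ∃ b : Fin 3 → K, ∀ i, φ ⬝ᵥ e i = b i := ⟨_, fun _ => rfl⟩
  simp only [ha, hb] at e1 e2 tr hm
  have m1 : ∀ j i, i ≠ j → b j ≠ 0 → a i ≠ 0 → a j * b j = 1 := fun j i hij bj ai => by
    rcases hm j i j hij with k | k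
    · rw [h.ne hij] at k; exact absurd k (by simp [bj, ai])
    · rw [h.same] at k; linear_combination -k
  have m2 : ∀ j i k, i ≠ j → k ≠ j → i ≠ k → b j ≠ 0 → a i ≠ 0 → a k = 0 :=
    fun j i k h1 h2 h3 bj ai => by
      rcases hm j i k h3 with q | q
      · rw [h.ne h1] at q; exact absurd q (by simp [bj, ai])
      · rw [h.ne h2] at q; simpa [bj] using q
  obtain ⟨j, bj⟩ : ∃ j, b j ≠ 0 := by
    by_contra! k
    exact h0' (by simp [e2, k])
  have sw' : ∀ i k, i ≠ j → k ≠ j → i ≠ k → a i ≠ 0 →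
      ∃ i j η, i ≠ j ∧ η ≠ 0 ∧ N (u, φ) = N (sw e ε i j η) := fun i k h1 h2 h3 ai => by
    have k1 := m1 j i h1 bj ai
    have k2 := m2 j i k h1 h2 h3 bj ai
    have k3 : b k = 0 := by_contra fun bk => by simpa [k2] using m1 k i h3 bk ai
    rw [sum3 _ h1.symm h2.symm h3, k1, k2, zero_mul] at tr
    have aj : a j ≠ 0 := left_ne_zero_of_mul_eq_one k1
    refine ⟨j, i, -(a i / a j), h1.symm, by simp [ai, aj], ?_⟩
    rw [← N_scale aj (sw e ε j i _), e1, e2, sum3 _ h1.symm h2.symm h3, sum3 _ h1.symm h2.symm h3, k2, k3,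
      show b j = (a j)⁻¹ from eq_inv_of_mul_eq_one_right k1,
      show b i = (a i)⁻¹ from eq_inv_of_mul_eq_one_right (by linear_combination tr)]
    simp only [sw]
    congr 2
    · match_scalars <;> simp [aj, mul_div_cancel₀]
    · match_scalars <;> simp [aj, div_eq_mul_inv]
  obtain ⟨i, k, h1, h2', h3⟩ := (by decide : ∀ j : Fin 3, ∃ i k, i ≠ j ∧ k ≠ j ∧ i ≠ k) j
  by_cases ai : a i = 0
  swap
  · exact .inr (sw' i k h1 h2' h3 ai)
  by_cases ak : a k = 0
  swap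
  · exact .inr (sw' k i h2' h1 h3.symm ak)
  rw [sum3 _ h1.symm h2'.symm h3, ai, ak, zero_mul, zero_mul, add_zero, add_zero] at tr
  rw [sum3 _ h1.symm h2'.symm h3, ai, ak, zero_smul, zero_smul, add_zero, add_zero] at e1
  have aj : a j ≠ 0 := fun q => h0 (by simp [e1, q])
  have bi : b i = 0 := by_contra fun q => by simpa [ai] using m1 i j h1.symm q aj
  have bk : b k = 0 := by_contra fun q => by simpa [ak] using m1 k j h2'.symm q aj
  rw [sum3 _ h1.symm h2'.symm h3, bi, bk, zero_smul, zero_smul, add_zero, add_zero] at e2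
  refine .inl ⟨j, tr ▸ mul_ne_zero aj bj, ?_⟩
  rw [e1, e2, dg, N_smul_left, N_smul_right, N_smul_right, smul_smul, tr]

theorem dual_of_li (h : LinearIndependent K e) : ∃ ε, Dual e ε := by
  have hu : IsUnit (Matrix.of e)ᵀ := (isUnit_transpose _).2 (linearIndependent_rows_iff_isUnit.1 h)
  refine ⟨fun i j => ((Matrix.of e)ᵀ)⁻¹ i j, fun i j => ?_⟩
  have := congrFun (congrFun (nonsing_inv_mul _ ((isUnit_iff_isUnit_det _).1 hu)) i) j
  rw [one_apply] at this
  exact this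

/-- An abelian normal subgroup gives a monomial frame. -/
theorem mono_of_ab [IsAlgClosed K] (hG : Irr G) (hn : Nrm G A) (hz : ¬ A ≤ 𝒵)
    (hA : ∀ a ∈ A, ∀ b ∈ A, a * b = b * a) : ∃ e ε : Fin 3 → Fin 3 → K, Dual e ε ∧
      ∀ g ∈ G, ∀ j i i', i ≠ i' → ε i ⬝ᵥ g.val *ᵥ e j = 0 ∨ ε i' ⬝ᵥ g.val *ᵥ e j = 0 := by
  let Wt : (Fin 3 → K) → Prop := fun v => v ≠ 0 ∧ ∀ a ∈ A, ∃ c : K, a.val *ᵥ v = c • v
  have cv : ∀ g a : GL (Fin 3) K, ∀ v, a.val *ᵥ (g.val *ᵥ v) =
      g.val *ᵥ ((g⁻¹ * a * g⁻¹⁻¹).val *ᵥ v) := fun g a v => by simp [mulVec_mulVec, ← mul_assoc]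
  have wg : ∀ g ∈ G, ∀ v, Wt v → Wt (g.val *ᵥ v) := fun g hg v hv =>
    ⟨fun k => hv.1 (gl_mulVec_eq_zero k), fun a ha => (hv.2 _ (hn _ (inv_mem hg) a ha)).imp
      fun c hc => by rw [cv, hc, mulVec_smul]⟩
  obtain ⟨v, hv⟩ : ∃ v, Wt v := ex_wt hA ⊤ top_ne_bot fun _ _ _ _ => trivial
  have out : ∀ W : Submodule K (Fin 3 → K), finrank K W < 3 → ∃ w, Wt w ∧ w ∉ W := fun W hW => by
    by_contra! k
    rcases hG.eq_bot_or_top (Submodule.span K {w | Wt w}) fun g hg w hw =>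
      (Submodule.span_le (p := (Submodule.span K {w | Wt w}).comap (toLin' g.val))).2
        (fun w hw => Submodule.subset_span (wg g hg w hw)) hw with q | q
    · exact hv.1 ((Submodule.eq_bot_iff _).1 q v (Submodule.subset_span hv))
    · rw [eq_top_iff.2 (q ▸ Submodule.span_le.2 k : ⊤ ≤ W)] at hW
      simp at hW
  obtain ⟨v1, p1, q1⟩ := out (Submodule.span K {v}) (by rw [finrank_span_singleton hv.1]; decide)
  obtain ⟨v2, p2, q2⟩ := out (Submodule.span K {v1, v}) (by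
    classical
    have := (finrank_span_finset_le_card (R := K) ({v1, v} : Finset _)).trans Finset.card_le_two
    rw [Set.finrank, Finset.coe_pair] at this
    omega)
  have li : LinearIndependent K ![v2, v1, v] := by
    refine linearIndependent_finCons.2 ⟨linearIndependent_finCons.2 ⟨?_, by simpa using q1⟩,
      by simpa [Set.pair_comm] using q2⟩
    simpa [linearIndependent_unique_iff] using hv.1
  have we : ∀ i, Wt (![v2, v1, v] i) := fun i => by fin_cases i <;> assumption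
  generalize ![v2, v1, v] = e at li we
  obtain ⟨ε, hd⟩ := dual_of_li li
  -- weight spaces
  let S : (GL (Fin 3) K → K) → Submodule K (Fin 3 → K) := fun χ => ⨅ a ∈ A, eig a.val (χ a)
  have hS : ∀ χ w, w ∈ S χ ↔ ∀ a ∈ A, a.val *ᵥ w = χ a • w := fun χ w => by
    simp only [S, Submodule.mem_iInf, mem_eig]
  have small : ∀ χ, finrank K (S χ) ≤ 1 := fun χ => by
    by_contra! k
    rcases hG.eq_bot_or_top (S χ) fun g hg w hw => by
      have k1 := Submodule.finrank_sup_add_finrank_inf_eq (S χ) (S fun a => χ (g⁻¹ * a * g⁻¹⁻¹))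
      have le : (S χ).map ((toLinearEquiv' g.val g.invertible : _ ≃ₗ[K] _) : _ →ₗ[K] _) ≤
          S fun a => χ (g⁻¹ * a * g⁻¹⁻¹) := by
        rintro _ ⟨w, hw, rfl⟩
        refine (hS _ _).2 fun a ha => ?_
        change a.val *ᵥ (g.val *ᵥ w) = _ • (g.val *ᵥ w)
        rw [cv, (hS _ _).1 hw _ (hn _ (inv_mem hg) a ha), mulVec_smul]
      have k2 := Submodule.finrank_mono le
      rw [LinearEquiv.finrank_map_eq] at k2
      have k3 := (S χ ⊔ S fun a => χ (g⁻¹ * a * g⁻¹⁻¹)).finrank_le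
      rw [Module.finrank_fin_fun] at k3
      obtain ⟨w', h1, h2⟩ := Submodule.exists_mem_ne_zero_of_ne_bot
        (p := S χ ⊓ S fun a => χ (g⁻¹ * a * g⁻¹⁻¹)) fun q => by rw [q, finrank_bot] at k1; omega
      refine (hS _ _).2 fun a ha => ?_
      rw [smul_left_injective K h2 (((hS _ _).1 h1.1 a ha).symm.trans ((hS _ _).1 h1.2 a ha))]
      exact (hS _ _).1 (le ⟨w, hw, rfl⟩) a ha
      with q | q
    · rw [q, finrank_bot] at k; omega
    · exact hz fun a ha => mem_scalars_of_eq_smul (c := χ a) (matrix_ext_mulVec fun w => by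
        rw [(hS _ _).1 (q ▸ Submodule.mem_top : w ∈ S χ) a ha, smul_mulVec, one_mulVec])
  refine ⟨e, ε, hd, fun g hg j i i' hi => ?_⟩
  obtain ⟨-, hw⟩ := wg g hg _ (we j)
  generalize g.val *ᵥ e j = w at hw
  choose! χ hχ using hw
  have key : ∀ i, ε i ⬝ᵥ w ≠ 0 → e i ∈ S χ := fun i h0 => (hS _ _).2 fun a ha => by
    choose! c hc using fun l => (we l).2 a ha
    have := congrArg (ε i ⬝ᵥ ·) (hχ a ha)
    conv_lhs at this => rw [exp1 hd w]
    simp only [mulVec_sum, mulVec_smul, hc, dotProduct_sum, dotProduct_smul, hd i, smul_eq_mul,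
      mul_ite, mul_one, mul_zero, Finset.sum_ite_eq, Finset.mem_univ, if_true] at this
    rw [hc, mul_left_cancel₀ h0 (this.trans (mul_comm _ _))]
  by_contra! k
  obtain ⟨v0, h0⟩ := finrank_le_one_iff.1 (small χ)
  obtain ⟨c, hc⟩ := h0 ⟨_, key i k.1⟩
  obtain ⟨c', hc'⟩ := h0 ⟨_, key i' k.2⟩
  have f1 : c • v0.1 = e i := congrArg Subtype.val hc
  have f2 : c' • v0.1 = e i' := congrArg Subtype.val hc'
  have g1 := hd.same i
  have g2 := hd.ne hi
  have g3 := hd.same i'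
  rw [← f1, dotProduct_smul, smul_eq_mul] at g1
  rw [← f2, dotProduct_smul, smul_eq_mul] at g2 g3
  exact left_ne_zero_of_mul_eq_one g3
    ((mul_eq_zero.1 g2).resolve_right (right_ne_zero_of_mul_eq_one g1))

/-- A reflection inverts a normal subgroup that is abelian modulo scalars. -/
theorem inv_of [IsAlgClosed K] (hn : Nrm G M) (hi : Irr M) (hc : ⁅M, M⁆ ≤ 𝒵) (hx : Rf G x)
    {y : GL (Fin 3) K} (hy : y ∈ M) : y * (rf x hx.1 * y * (rf x hx.1)⁻¹) ∈ 𝒵 := by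
  have rG := hx.mem
  have rv : (rf x hx.1).val = 1 - N x := rfl
  have rr : rf x hx.1 * rf x hx.1 = 1 := Units.ext (rf_mul_self hx.1)
  generalize rf x hx.1 = r at rG rv rr
  have ri : r⁻¹ = r := inv_eq_of_mul_eq_one_right rr
  have cm : ∀ a ∈ M, ∀ b ∈ M, ⁅a, b⁆ ∈ 𝒵 := fun a ha b hb =>
    hc (Subgroup.commutator_mem_commutator ha hb)
  have h0 : r * (y * (r * y * r⁻¹)) = y * (r * y * r⁻¹) * r := comm_of_sq (by
    convert cm _ (hn r rG y hy) y hy using 1
    simp only [commutatorElement_def, ri, _root_.mul_inv_rev, mul_assoc]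
    rw [← mul_assoc r r, rr, one_mul]) rr
  have m0 : y * (r * y * r⁻¹) ∈ M := mul_mem hy (hn r rG y hy)
  generalize y * (r * y * r⁻¹) = y0 at h0 m0
  refine schur' hi fun y1 h1 => by_contra fun hne => ?_
  obtain ⟨w, w3, hw⟩ := cube (cm y0 m0 y1 h1)
  have w1 : w ≠ 1 := fun q => hne (Units.ext (by simpa [q] using hw))
  have c0 : N x * y0.val = y0.val * N x := by
    have := congrArg Units.val h0
    rw [Units.val_mul, Units.val_mul, rv, sub_mul, mul_sub, one_mul, mul_one] at this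
    exact sub_right_injective this
  obtain ⟨a, ha⟩ := exists_dot_one (v := x.2) hx.2.2.1
  rw [dotProduct_comm] at ha
  obtain ⟨l, hl⟩ : ∃ l : K, y0.val *ᵥ x.1 = l • x.1 := ⟨x.2 ⬝ᵥ y0.val *ᵥ a, by
    rw [← N_mulVec, mulVec_mulVec, c0, ← mulVec_mulVec, N_mulVec, ha, one_smul]⟩
  have l0 : l ≠ 0 := fun q => hx.2.1 (gl_mulVec_eq_zero (by simpa [q] using hl))
  have ev : ∀ (v : Fin 3 → K) (m : K), y0.val *ᵥ v = m • v → m ≠ l → x.2 ⬝ᵥ v = 0 := fun v m hv hm => by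
    have := congrArg (· *ᵥ v) c0
    simp only [← mulVec_mulVec, hv, N_mulVec, mulVec_smul, hl, smul_smul] at this
    exact (mul_eq_zero.1 (show (m - l) * (x.2 ⬝ᵥ v) = 0 by
      linear_combination smul_left_injective K hx.2.1 this)).resolve_left (sub_ne_zero.2 hm)
  have sh : ∀ (v : Fin 3 → K) (m : K), y0.val *ᵥ v = m • v →
      y0.val *ᵥ (y1.val *ᵥ v) = (w * m) • (y1.val *ᵥ v) := fun v m hv => by
    rw [mulVec_mulVec, hw, smul_mulVec, ← mulVec_mulVec, hv, mulVec_smul, smul_smul]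
  have e1 := sh _ _ hl
  have e2 := sh _ _ e1
  have z1 := ev _ _ e1 (by simpa [l0] using w1)
  have z2 := ev _ _ e2 fun q => w1 (by
    have : w * w = 1 := mul_right_cancel₀ l0 (by linear_combination q)
    linear_combination w3 - w * this)
  have w0 : w ≠ 0 := fun q => by simp [q] at w3
  have z3 : (cg y1 x).2 ⬝ᵥ x.1 = 0 := by
    have e3 : y0.val *ᵥ ((y1⁻¹).val *ᵥ x.1) = (w⁻¹ * l) • ((y1⁻¹).val *ᵥ x.1) := by
      have := congrArg (fun b => (y1⁻¹).val *ᵥ (b *ᵥ ((y1⁻¹).val *ᵥ x.1))) hw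
      simp only [← mulVec_mulVec, mulVec_inv_mulVec, smul_mulVec, mulVec_smul, inv_mulVec_mulVec,
        hl] at this
      rw [mul_smul, this, inv_smul_smul₀ w0]
    rw [cg, ← dotProduct_mulVec]
    exact ev _ _ e3 (by simpa [l0] using w1)
  have sv : (y1 * r * y1⁻¹).val = 1 - N (cg y1 x) := by
    rw [N_cg, Units.val_mul, Units.val_mul, rv, mul_sub, sub_mul, mul_one, Units.mul_inv]
  have p1 : N x * N (cg y1 x) = 0 := by rw [N_mul_N, show x.2 ⬝ᵥ (cg y1 x).1 = 0 from z1, zero_smul]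
  have p2 : N (cg y1 x) * N x = 0 := by rw [N_mul_N, z3, zero_smul]
  have nM : r * (y1 * r * y1⁻¹) ∈ M := by
    simpa [ri, mul_assoc] using mul_mem (hn r rG y1 h1) (inv_mem h1)
  have nn : r * (y1 * r * y1⁻¹) * (r * (y1 * r * y1⁻¹)) = 1 := by
    have : y1 * r * y1⁻¹ * r = r * (y1 * r * y1⁻¹) := Units.ext (by
      rw [Units.val_mul, Units.val_mul r, sv, rv]; noncomm_ring [p1, p2])
    calc _ = r * (y1 * r * y1⁻¹ * r) * (y1 * r * y1⁻¹) := by group
      _ = r * r * (y1 * (r * r) * y1⁻¹) := by rw [this]; group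
      _ = 1 := by rw [rr]; group
  obtain ⟨c, hc'⟩ := (mem_scalars_iff _).1 (schur' hi fun b hb => comm_of_sq (cm _ nM b hb) nn)
  rw [Units.val_mul, sv, rv, mul_sub, mul_one, sub_mul, one_mul, p1, sub_zero] at hc'
  have c1 : (c : K) = 1 := by
    have := congrArg (· *ᵥ (y1.val *ᵥ (y1.val *ᵥ x.1))) hc'
    simp only [sub_mulVec, one_mulVec, N_mulVec, z2, smul_mulVec, cg, ← dotProduct_mulVec,
      inv_mulVec_mulVec, z1, zero_smul, sub_zero] at this
    exact smul_left_injective K (fun q => hx.2.1 (gl_mulVec_eq_zero (gl_mulVec_eq_zero q)))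
      (this.symm.trans (one_smul _ _).symm)
  have f1 := congrArg (· *ᵥ a) hc'
  simp only [c1, one_smul, sub_mulVec, one_mulVec, N_mulVec, ha] at f1
  replace f1 : x.1 = (-((cg y1 x).2 ⬝ᵥ a)) • (y1.val *ᵥ x.1) := by
    change _ = _ • (cg y1 x).1
    linear_combination (norm := module) -f1
  have f2 := hl
  conv_lhs at f2 => rw [f1, mulVec_smul, e1, smul_comm, ← f1]
  exact w1 (by simpa [l0] using smul_left_injective K hx.2.1 f2)

theorem not_heis [IsAlgClosed K] (h : R3 G r s t) (nM : Nrm G M) (hi : Irr M)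
    (mM : ∀ M' ≤ M, Nrm G M' → M' ≤ 𝒵 ∨ M ≤ M') (hc : ⁅M, M⁆ ≤ 𝒵) : M ≤ 𝒵 := by
  refine fun y hy => by_contra fun yz => ?_
  have n : G ≤ Subgroup.normalizer (Subgroup.centralizer {y} : Subgroup (GL (Fin 3) K)) := by
    refine h.gen.trans ((Subgroup.closure_le _).2 ?_)
    rintro g ⟨x, hx, e⟩
    obtain rfl : g = rf x hx.1 := Units.ext e
    have rr : rf x hx.1 * rf x hx.1 = 1 := Units.ext (rf_mul_self hx.1)
    have k := inv_of nM hi hc hx hy
    generalize rf x hx.1 = r at rr k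
    have key : ∀ b ∈ Subgroup.centralizer {y}, r * b * r⁻¹ ∈ Subgroup.centralizer {y} := by
      intro b hb
      rw [Subgroup.mem_centralizer_singleton_iff] at hb ⊢
      have k1 := scalars_commute k (r * b * r⁻¹)
      have k2 : r * y * r⁻¹ * (r * b * r⁻¹) = r * b * r⁻¹ * (r * y * r⁻¹) := by
        calc _ = r * (y * b) * r⁻¹ := by group
          _ = _ := by rw [← hb]; group
      rw [mul_assoc y, k2, ← mul_assoc y, ← mul_assoc _ y, mul_left_inj] at k1
      exact k1.symm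
    refine Subgroup.mem_normalizer_iff.2 fun b => ⟨key b, fun hb => ?_⟩
    convert key _ hb using 1
    calc b = r * r * b * (r * r)⁻¹ := by rw [rr]; group
      _ = _ := by group
  rcases mM (M ⊓ Subgroup.centralizer {y}) inf_le_left fun g hg b hb =>
    ⟨nM g hg b hb.1, (Subgroup.mem_normalizer_iff.1 (n hg) b).1 hb.2⟩ with k | k
  · exact yz (k ⟨hy, Subgroup.mem_centralizer_singleton_iff.2 rfl⟩)
  · exact yz (schur' hi fun b hb => (Subgroup.mem_centralizer_singleton_iff.1 (k hb).2).symm)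

theorem simple_bar {Γ : Type*} [Group Γ] {M Z : Subgroup Γ} [(Z.subgroupOf M).Normal] (zM : ¬ M ≤ Z)
    (h : ∀ L ≤ M, (∀ g ∈ M, ∀ x ∈ L, g * x * g⁻¹ ∈ L) → L ≤ Z ∨ M ≤ L) :
    IsSimpleGroup (M ⧸ Z.subgroupOf M) := by
  obtain ⟨y, hy, yz⟩ := SetLike.not_le_iff_exists.1 zM
  have : Nontrivial (M ⧸ Z.subgroupOf M) := ⟨⟨QuotientGroup.mk (⟨y, hy⟩ : M), 1, fun q =>
    yz ((QuotientGroup.eq_one_iff (N := Z.subgroupOf M) (⟨y, hy⟩ : M)).1 q)⟩⟩
  refine ⟨fun T hT => ?_⟩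
  refine (h ((T.comap (QuotientGroup.mk' (Z.subgroupOf M))).map M.subtype)
    (Subgroup.map_subtype_le _) (by
      rintro g hg _ ⟨b, hb, rfl⟩
      exact ⟨⟨g, hg⟩ * b * ⟨g, hg⟩⁻¹, (hT.comap _).conj_mem b hb _, rfl⟩)).imp (fun k => ?_) fun k => ?_
  · refine (Subgroup.eq_bot_iff_forall _).2 fun b hb => ?_
    obtain ⟨b, rfl⟩ := QuotientGroup.mk_surjective b
    exact (QuotientGroup.eq_one_iff (N := Z.subgroupOf M) b).2 (k ⟨b, hb, rfl⟩)
  · refine (Subgroup.eq_top_iff' _).2 fun b => ?_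
    obtain ⟨b, rfl⟩ := QuotientGroup.mk_surjective b
    obtain ⟨b', h1, h2⟩ := k b.2
    obtain rfl : b' = b := Subtype.ext h2
    exact h1

theorem jobA3 : JobA3.{u} := by
  intro K _ _ G r s t h
  have := h.fin
  have hG := irr_of_gspan_eq_top h.span
  obtain ⟨M, MG, nM, zM, mM⟩ := exists_min G G (fun g hg x hx =>
    mul_mem (mul_mem hg hx) (inv_mem hg)) fun k => by
      have := gspan_eq_bot_iff.2 k
      rw [h.span] at this
      obtain ⟨c, hc⟩ := mem_bot_iff_smul.1 (this ▸ Algebra.mem_top : N r ∈ (⊥ : Subalgebra K _))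
      exact N_ne_smul_one (by decide) h.nr.r1.N_ne c hc
  rcases clifford hG nM with ab | hi
  · obtain ⟨e, ε, hd, k⟩ := mono_of_ab hG nM zM ab
    exact .inl ⟨e, ε, hd, fun i => h.sup _, fun x hx _ =>
      mono_aux hd hx.1 hx.2.1 hx.2.2.1 (k _ hx.mem)⟩
  have hc := (mM _ (comm_le_self M) (nrm_comm nM)).resolve_left fun hc => zM (not_heis h nM hi mM hc)
  have : Finite M := Finite.of_injective _ (Subgroup.inclusion_injective MG)
  refine .inr ⟨M, MG, nM, hc.trans (Subgroup.commutator_le.2 fun a _ b _ => ?_),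
    le_antisymm (comm_le_self M) hc,
    simple_bar zM fun L hL hn => min_simple nM hi mM (fun k => zM (hc.trans k)) hL hn,
    hi, fun a ha => schur hi fun b hb => ha _ ⟨b, hb, rfl⟩⟩
  rw [specialLinear, MonoidHom.mem_ker, map_commutatorElement,
    commutatorElement_eq_one_iff_mul_comm, mul_comm]

end H60.LD
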