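import Cfsg.Agent.H41.LDKit2

/-! LD5-A3, part 1: Clifford theory in dimension three. -/

set_option autoImplicit false

open Matrix Cfsg Cfsg.Geo H19 H41.LD Module
open scoped MatrixGroups commutatorElement

namespace H60.LD

universe u

variable {K : Type u} [Field K] {G N M A L : Subgroup (GL (Fin 3) K)} {x y z g : GL (Fin 3) K}

local notation "𝒵" => scalars (Fin 3) K

theorem ex_eig [IsAlgClosed K] {n : ℕ} {W : Submodule K (Fin n → K)} (h : W ≠ ⊥)
    {a : Matrix (Fin n) (Fin n) K} (ha : ∀ w ∈ W, a *ᵥ w ∈ W) :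
    ∃ c : K, ∃ w ∈ W, w ≠ 0 ∧ a *ᵥ w = c • w := by
  have : Nontrivial W := Submodule.nontrivial_iff_ne_bot.2 h
  obtain ⟨c, hc⟩ := Module.End.exists_eigenvalue ((Matrix.toLin' a).restrict (p := W) ha)
  obtain ⟨w, hw⟩ := hc.exists_hasEigenvector
  exact ⟨c, w, w.2, by simpa using hw.2, congrArg Subtype.val hw.apply_eq_smul⟩

/-- The eigenspace of a matrix. -/
def eig {n : ℕ} (a : Matrix (Fin n) (Fin n) K) (c : K) : Submodule K (Fin n → K) :=
  LinearMap.ker (Matrix.toLin' (a - c • 1))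

theorem mem_eig {n : ℕ} {a : Matrix (Fin n) (Fin n) K} {c : K} {v : Fin n → K} :
    v ∈ eig a c ↔ a *ᵥ v = c • v := by
  simp [eig, sub_eq_zero]

theorem eig_inv {n : ℕ} {a b : Matrix (Fin n) (Fin n) K} (h : a * b = b * a) {c : K} {v : Fin n → K}
    (hv : v ∈ eig a c) : b *ᵥ v ∈ eig a c := by
  rw [mem_eig] at hv ⊢
  rw [mulVec_mulVec, h, ← mulVec_mulVec, hv, mulVec_smul]

theorem schur [IsAlgClosed K] (h : Irr N) {a : Matrix (Fin 3) (Fin 3) K}
    (ha : ∀ s ∈ N, a * s.val = s.val * a) : ∃ c : K, a = c • 1 := by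
  obtain ⟨c, w, -, w0, hw⟩ := ex_eig (W := ⊤) top_ne_bot (a := a) fun _ _ => trivial
  rcases h.eq_bot_or_top (eig a c) fun s hs v hv => eig_inv (ha s hs) hv with e | e
  · exact (w0 ((Submodule.eq_bot_iff _).1 e w (mem_eig.2 hw))).elim
  · exact ⟨c, matrix_ext_mulVec fun v => by
      rw [mem_eig.1 (e ▸ Submodule.mem_top : v ∈ eig a c), smul_mulVec, one_mulVec]⟩

theorem schur' [IsAlgClosed K] (h : Irr N) (ha : ∀ s ∈ N, x * s = s * x) : x ∈ 𝒵 :=
  let ⟨_, e⟩ := schur h (a := x.val) fun s hs => congrArg Units.val (ha s hs)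
  mem_scalars_of_eq_smul e

theorem ex_wt [IsAlgClosed K] (hA : ∀ a ∈ A, ∀ b ∈ A, a * b = b * a) (W : Submodule K (Fin 3 → K))
    (h0 : W ≠ ⊥) (hW : ∀ a ∈ A, ∀ w ∈ W, a.val *ᵥ w ∈ W) :
    ∃ v, v ≠ 0 ∧ ∀ a ∈ A, ∃ c : K, a.val *ᵥ v = c • v := by
  induction hn : finrank K W using Nat.strong_induction_on generalizing W with
  | _ n ih =>
  by_cases h : ∀ a ∈ A, ∃ c : K, W ≤ eig a.val c
  · obtain ⟨v, hv, v0⟩ := Submodule.exists_mem_ne_zero_of_ne_bot h0
    exact ⟨v, v0, fun a ha => (h a ha).imp fun c hc => mem_eig.1 (hc hv)⟩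
  push Not at h
  obtain ⟨a, ha, h⟩ := h
  obtain ⟨c, w, hw, w0, e⟩ := ex_eig h0 (hW a ha)
  refine ih _ (hn ▸ Submodule.finrank_lt_finrank_of_lt (inf_lt_left.2 (h c))) (W ⊓ eig a.val c)
    (fun k => w0 ((Submodule.eq_bot_iff _).1 k w ⟨hw, mem_eig.2 e⟩))
    (fun b hb v hv => ⟨hW b hb v hv.1, eig_inv (congrArg Units.val (hA a ha b hb)) hv.2⟩) rfl

theorem comm_of_rk {U : Type*} [AddCommGroup U] [Module K U] (h : finrank K U = 1)
    (f f' : U →ₗ[K] U) (v : U) : f (f' v) = f' (f v) := by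
  obtain ⟨c, rfl, -⟩ := f.existsUnique_eq_smul_id_of_finrank_eq_one h
  simp

/-- Clifford: a normal subgroup is abelian or irreducible. -/
theorem clifford (hG : Irr G) (hN : Nrm G N) : (∀ a ∈ N, ∀ b ∈ N, a * b = b * a) ∨ Irr N := by
  refine or_iff_not_imp_right.2 fun h => ?_
  rw [irr_iff] at h
  push Not at h
  obtain ⟨W, hW, h0, h1⟩ := h
  have r0 : finrank K W ≠ 0 := fun e => h0 (Submodule.finrank_eq_zero.1 e)
  have r1 : finrank K W < 3 := by simpa using Submodule.finrank_lt h1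
  have cjv : ∀ g a b : GL (Fin 3) K, ∀ v, g.val *ᵥ ((a.val * b.val - b.val * a.val) *ᵥ v) =
      ((g * a * g⁻¹).val * (g * b * g⁻¹).val - (g * b * g⁻¹).val * (g * a * g⁻¹).val) *ᵥ
        (g.val *ᵥ v) := fun g a b v => by
    simp only [mulVec_mulVec, Units.val_mul, sub_mul, mul_sub, mul_assoc, Units.inv_mul,
      Units.inv_mul_cancel_left, mul_one]
  suffices k : ∀ a ∈ N, ∀ b ∈ N, ∀ v, (a.val * b.val - b.val * a.val) *ᵥ v = 0 from
    fun a ha b hb => Units.ext (sub_eq_zero.1 (matrix_ext_mulVec fun v => by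
      rw [zero_mulVec]; exact k a ha b hb v))
  by_cases r : finrank K W = 1
  · let U : Submodule K (Fin 3 → K) :=
      ⨅ a ∈ N, ⨅ b ∈ N, LinearMap.ker (Matrix.toLin' (a.val * b.val - b.val * a.val))
    have hU : ∀ v, v ∈ U ↔ ∀ a ∈ N, ∀ b ∈ N, (a.val * b.val - b.val * a.val) *ᵥ v = 0 := fun v => by
      simp only [U, Submodule.mem_iInf, LinearMap.mem_ker, toLin'_apply]
    rcases hG.eq_bot_or_top U fun g hg v hv => (hU _).2 fun a ha b hb => by
        have := cjv g (g⁻¹ * a * g⁻¹⁻¹) (g⁻¹ * b * g⁻¹⁻¹) v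
        rw [(hU v).1 hv _ (hN _ (inv_mem hg) a ha) _ (hN _ (inv_mem hg) b hb), mulVec_zero] at this
        simpa [mul_assoc] using this.symm with e | e
    · refine (h0 (eq_bot_iff.2 (e ▸ fun v hv => (hU v).2 fun a ha b hb => ?_))).elim
      have := congrArg Subtype.val (comm_of_rk r ((toLin' a.val).restrict (p := W) (hW a ha))
        ((toLin' b.val).restrict (p := W) (hW b hb)) ⟨v, hv⟩)
      rw [sub_mulVec, sub_eq_zero, ← mulVec_mulVec, ← mulVec_mulVec]
      exact this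
    · exact fun a ha b hb v => (hU v).1 (e ▸ Submodule.mem_top) a ha b hb
  · let U : Submodule K (Fin 3 → K) :=
      Submodule.span K {w | ∃ a ∈ N, ∃ b ∈ N, ∃ v, w = (a.val * b.val - b.val * a.val) *ᵥ v}
    rcases hG.eq_bot_or_top U fun g hg v hv =>
        (Submodule.span_le (p := U.comap (toLin' g.val))).2 (by
          rintro _ ⟨a, ha, b, hb, v, rfl⟩
          exact Submodule.subset_span ⟨_, hN g hg a ha, _, hN g hg b hb, _, cjv g a b v⟩) hv with e | e
    · exact fun a ha b hb v => (Submodule.eq_bot_iff _).1 e _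
        (Submodule.subset_span ⟨a, ha, b, hb, v, rfl⟩)
    refine (h1 (eq_top_iff.2 (e ▸ Submodule.span_le.2 ?_))).elim
    rintro _ ⟨a, ha, b, hb, v, rfl⟩
    have q := W.finrank_quotient_add_finrank
    rw [Module.finrank_fin_fun] at q
    have := comm_of_rk (U := _ ⧸ W) (by omega) (W.mapQ W (toLin' a.val) (hW a ha))
      (W.mapQ W (toLin' b.val) (hW b hb)) (Submodule.Quotient.mk v)
    rw [sub_mulVec, ← mulVec_mulVec, ← mulVec_mulVec]
    exact (Submodule.Quotient.eq W).1 this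

theorem cj_sc (hz : z ∈ 𝒵) (g : GL (Fin 3) K) : g * z * g⁻¹ ∈ 𝒵 := by
  rwa [← scalars_commute hz, mul_inv_cancel_right]

theorem cube (h : ⁅x, y⁆ ∈ 𝒵) : ∃ c : K, c ^ 3 = 1 ∧ x.val * y.val = c • (y.val * x.val) := by
  obtain ⟨c, hc⟩ := (mem_scalars_iff _).1 h
  have e : x.val * y.val = (c : K) • (y.val * x.val) := by
    rw [← one_mul (y.val * x.val), ← smul_mul_assoc, ← hc, ← Units.val_mul, ← Units.val_mul,
      ← Units.val_mul, commutatorElement_def]
    congr 1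
    group
  refine ⟨c, ?_, e⟩
  have := congrArg det e
  rw [det_smul, det_mul, det_mul, mul_comm y.val.det, Fintype.card_fin] at this
  exact (mul_eq_right₀ (mul_ne_zero (GeneralLinearGroup.det_ne_zero x)
    (GeneralLinearGroup.det_ne_zero y))).1 this.symm

theorem comm_of_sq (h : ⁅x, y⁆ ∈ 𝒵) (h2 : x * x = 1) : x * y = y * x := by
  obtain ⟨c, c3, e⟩ := cube h
  have xx : x.val * x.val = 1 := congrArg Units.val h2
  have : y.val = (c * c) • y.val := by
    calc y.val = x.val * (x.val * y.val) := by rw [← mul_assoc, xx, one_mul]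
      _ = _ := by rw [e, mul_smul_comm, ← mul_assoc, e, smul_mul_assoc, mul_assoc, xx, smul_smul, mul_one]
  have c2 : c * c = 1 := by
    have := congrArg (fun a => (a * (y⁻¹).val) 0 0) this
    simpa [smul_mul_assoc] using this.symm
  obtain rfl : c = 1 := by linear_combination c3 - c * c2
  exact Units.ext (by simpa using e)

theorem exists_min (H : Subgroup (GL (Fin 3) K)) (L : Subgroup (GL (Fin 3) K)) [Finite L]
    (h1 : Nrm H L) (h2 : ¬ L ≤ 𝒵) :
    ∃ M ≤ L, Nrm H M ∧ ¬ M ≤ 𝒵 ∧ ∀ M' ≤ M, Nrm H M' → M' ≤ 𝒵 ∨ M ≤ M' := by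
  induction hn : Nat.card L using Nat.strong_induction_on generalizing L with
  | _ n ih =>
  by_cases h : ∀ M' ≤ L, Nrm H M' → M' ≤ 𝒵 ∨ L ≤ M'
  · exact ⟨L, le_rfl, h1, h2, h⟩
  push Not at h
  obtain ⟨M', a, b, c, d⟩ := h
  have : Finite M' := Finite.of_injective _ (Subgroup.inclusion_injective a)
  obtain ⟨M, k, k'⟩ := ih _ (hn ▸ lt_of_not_ge fun e => d (Subgroup.eq_of_le_of_card_ge a e).ge)
    M' b c rfl
  exact ⟨M, k.trans a, k'⟩

/-- The centralizer modulo scalars. -/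
def cz (T : Set (GL (Fin 3) K)) : Subgroup (GL (Fin 3) K) where
  carrier := {x | ∀ y ∈ T, ⁅x, y⁆ ∈ 𝒵}
  one_mem' y _ := by simp
  mul_mem' {a b} ha hb y hy := by
    convert mul_mem (cj_sc (hb y hy) a) (ha y hy) using 1
    simp only [commutatorElement_def]; group
  inv_mem' {a} ha y hy := by
    convert cj_sc (inv_mem (ha y hy)) a⁻¹ using 1
    simp only [commutatorElement_def]; group

theorem cm_cj (g x y : GL (Fin 3) K) : ⁅g * x * g⁻¹, g * y * g⁻¹⁆ = g * ⁅x, y⁆ * g⁻¹ := by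
  simp only [commutatorElement_def]; group

theorem cm_sc (hz : z ∈ 𝒵) (x y : GL (Fin 3) K) : ⁅z * x, y⁆ = ⁅x, y⁆ := by
  simp only [commutatorElement_def]
  calc _ = z * (x * y * x⁻¹) * z⁻¹ * y⁻¹ := by group
    _ = _ := by rw [scalars_commute hz, mul_inv_cancel_right]

theorem nrm_cz {T : Set (GL (Fin 3) K)} (hT : ∀ g ∈ G, ∀ y ∈ T, g * y * g⁻¹ ∈ T) (hN : Nrm G N) :
    Nrm G (N ⊓ cz T) := fun g hg x hx => ⟨hN g hg x hx.1, fun y hy => by
  have := cj_sc (hx.2 _ (hT _ (inv_mem hg) y hy)) g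
  rw [← cm_cj] at this
  simpa [mul_assoc] using this⟩

theorem nrm_comm (hN : Nrm G N) : Nrm G ⁅N, N⁆ := fun g hg _ hx =>
  (Subgroup.commutator_le (H₃ := ⁅N, N⁆.comap (MulAut.conj g).toMonoidHom)).2 (fun a ha b hb => by
    change g * ⁅a, b⁆ * g⁻¹ ∈ ⁅N, N⁆
    rw [← cm_cj]
    exact Subgroup.commutator_mem_commutator (hN g hg a ha) (hN g hg b hb)) hx

theorem comm_le_self (N : Subgroup (GL (Fin 3) K)) : ⁅N, N⁆ ≤ N :=
  Subgroup.commutator_le.2 fun _ ha _ hb => mul_mem (mul_mem (mul_mem ha hb) (inv_mem ha)) (inv_mem hb)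

theorem not_ab (h : ¬ ⁅N, N⁆ ≤ 𝒵) : ¬ ∀ a ∈ N, ∀ b ∈ N, a * b = b * a := fun k =>
  h (Subgroup.commutator_le.2 fun a ha b hb => by
    rw [commutatorElement_eq_one_iff_mul_comm.2 (k a ha b hb)]; exact one_mem _)

/-- A minimal normal subgroup that is not abelian modulo scalars is simple modulo scalars. -/
theorem min_simple [IsAlgClosed K] [Finite N] (hN : Nrm G N) (hi : Irr N)
    (hm : ∀ M' ≤ N, Nrm G M' → M' ≤ 𝒵 ∨ N ≤ M') (hc : ¬ ⁅N, N⁆ ≤ 𝒵) (hL : L ≤ N) (hn : Nrm N L) :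
    L ≤ 𝒵 ∨ N ≤ L := by
  refine or_iff_not_imp_left.2 fun hz => ?_
  have : Finite L := Finite.of_injective _ (Subgroup.inclusion_injective hL)
  obtain ⟨M, ML, nM, zM, mM⟩ := exists_min N L hn hz
  have MN := ML.trans hL
  have key : ∀ g ∈ G, (∀ x ∈ M, ∀ y ∈ M, ⁅g * x * g⁻¹, y⁆ ∈ 𝒵) ∨ ∀ y ∈ M, g⁻¹ * y * g ∈ M := by
    intro g hg
    refine (mM (M ⊓ M.comap (MulAut.conj g⁻¹).toMonoidHom) inf_le_left fun n hn y hy =>
      ⟨nM n hn y hy.1, ?_⟩).imp (fun k x hx y hy => k ⟨?_, ?_⟩) fun k y hy => by simpa using (k hy).2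
    · have := nM _ (hN _ (inv_mem hg) n hn) _ hy.2
      simpa [mul_assoc] using this
    · exact M.mul_mem (nM _ (hN g hg x (MN hx)) y hy) (M.inv_mem hy)
    · have := mul_mem hx (nM _ (hN _ (inv_mem hg) y (MN hy)) _ (inv_mem hx))
      simpa [mul_assoc, commutatorElement_def] using this
  rcases mM _ (comm_le_self M) (nrm_comm nM) with h | h
  · have h1 : M ≤ N ⊓ cz {y | ∃ g ∈ G, ∃ x ∈ M, y = g * x * g⁻¹} := fun y hy => ⟨MN hy, by
      rintro _ ⟨g, hg, x, hx, rfl⟩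
      rw [← commutatorElement_inv]
      refine inv_mem ((key g hg).elim (fun k => k x hx y hy) fun k => ?_)
      have := cj_sc (h (Subgroup.commutator_mem_commutator hx (k y hy))) g
      rw [← cm_cj] at this
      simpa [mul_assoc] using this⟩
    have h2 := (hm _ inf_le_left (nrm_cz (by
      rintro g hg _ ⟨k, hk, x, hx, rfl⟩
      exact ⟨g * k, mul_mem hg hk, x, hx, by group⟩) hN)).resolve_left fun k => zM (h1.trans k)
    have h3 : M ≤ N ⊓ cz N := fun y hy => ⟨MN hy, fun n hn => by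
      rw [← commutatorElement_inv]
      exact inv_mem ((h2 hn).2 y ⟨1, one_mem _, y, hy, by group⟩)⟩
    have h4 := (hm _ inf_le_left (nrm_cz hN hN)).resolve_left fun k => zM (h3.trans k)
    exact (hc (Subgroup.commutator_le.2 fun a ha b hb => (h4 ha).2 b hb)).elim
  have iM := (clifford hi nM).resolve_left (not_ab fun k => zM (h.trans k))
  refine ((hm M MN fun g hg x hx => ?_).resolve_left zM).trans ML
  refine (key _ (inv_mem hg)).elim (fun k => (zM fun x hx => ?_).elim) fun k => by simpa using k x hx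
  have : g⁻¹ * x * g⁻¹⁻¹ ∈ 𝒵 := schur' iM fun s hs => Subgroup.mem_centralizer_singleton_iff.1
    ((Subgroup.commutator_le (H₃ := Subgroup.centralizer {g⁻¹ * x * g⁻¹⁻¹})).2
      (fun a ha b hb => ?_) (h hs)) |>.symm
  · simpa [mul_assoc] using cj_sc this g
  have k1 := k x hx a ha
  have k2 := k x hx b hb
  generalize g⁻¹ * x * g⁻¹⁻¹ = w at k1 k2
  rw [Subgroup.mem_centralizer_singleton_iff, eq_comm, ← mul_inv_eq_iff_eq_mul, ← cm_cj,
    show w * a * w⁻¹ = ⁅w, a⁆ * a by simp [commutatorElement_def],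
    show w * b * w⁻¹ = ⁅w, b⁆ * b by simp [commutatorElement_def], cm_sc k1,
    ← commutatorElement_inv, cm_sc k2, commutatorElement_inv]

end H60.LD
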