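import Cfsg.Agent.H60.PauB

/-! Pauli groups in an algebra: the spanned algebra, averaging. -/

set_option autoImplicit false
set_option linter.unusedSectionVars false

namespace H60.Cl

open scoped commutatorElement

variable {K E : Type*} [Field K] [Ring E] [Algebra K E]
variable {τ : E →ₗ[K] K} {P : Subgroup Eˣ} {x y z d g : Eˣ}

/-! ### the algebra spanned by `P` -/

variable (K) in
/-- the algebra spanned by a group of units -/
def Al (P : Subgroup Eˣ) : Subalgebra K E :=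
  (Submodule.span K (Units.val '' (P : Set Eˣ))).toSubalgebra
    (Submodule.subset_span ⟨1, P.one_mem, rfl⟩) fun a b ha hb => by
      refine Submodule.span_induction₂ (p := fun a b _ _ => a * b ∈ Submodule.span K _) ?_ ?_ ?_ ?_ ?_
        ?_ ?_ ha hb
      · rintro _ _ ⟨x, hx, rfl⟩ ⟨y, hy, rfl⟩
        exact Submodule.subset_span ⟨x * y, P.mul_mem hx hy, rfl⟩
      · simp
      · simp
      · intro x y z _ _ _ h1 h2; rw [add_mul]; exact add_mem h1 h2
      · intro x y z _ _ _ h1 h2; rw [mul_add]; exact add_mem h1 h2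
      · intro c x y _ _ h; rw [smul_mul_assoc]; exact Submodule.smul_mem _ _ h
      · intro c x y _ _ h; rw [mul_smul_comm]; exact Submodule.smul_mem _ _ h

theorem val_mem_Al (hx : x ∈ P) : (x : E) ∈ Al K P := Submodule.subset_span ⟨x, hx, rfl⟩

theorem Al_ind {p : E → Prop} {a : E} (ha : a ∈ Al K P) (h1 : ∀ x ∈ P, p x) (h0 : p 0)
    (hadd : ∀ a b, a ∈ Al K P → b ∈ Al K P → p a → p b → p (a + b))
    (hsmul : ∀ (c : K) a, a ∈ Al K P → p a → p (c • a)) : p a :=
  Submodule.span_induction (p := fun a _ => p a) (by rintro _ ⟨x, hx, rfl⟩; exact h1 x hx) h0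
    (fun a b ha hb => hadd a b ha hb) (fun c a ha => hsmul c a ha) ha

theorem Al_le {A : Subalgebra K E} (h : ∀ x ∈ P, (x : E) ∈ A) : Al K P ≤ A := fun _ ha =>
  Al_ind ha h A.zero_mem (fun _ _ _ _ => A.add_mem) fun c _ _ h => A.smul_mem h c

theorem Al_mono {Q : Subgroup Eˣ} (h : Q ≤ P) : Al K Q ≤ Al K P :=
  Al_le fun _ hx => val_mem_Al (h hx)

theorem Al_comm {a b : E} (ha : a ∈ Al K P) (h : ∀ x ∈ P, (x : E) * b = b * x) : a * b = b * a :=
  Al_ind (p := fun a => a * b = b * a) ha h (by simp)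
    (fun _ _ _ _ h1 h2 => by rw [add_mul, mul_add, h1, h2])
    fun c _ _ h => by rw [smul_mul_assoc, mul_smul_comm, h]

variable (K) in
/-- the units of the algebra spanned by `P` -/
def Un (P : Subgroup Eˣ) : Subgroup Eˣ where
  carrier := {g | (g : E) ∈ Al K P ∧ ((g⁻¹ : Eˣ) : E) ∈ Al K P}
  one_mem' := ⟨one_mem _, one_mem _⟩
  mul_mem' ha hb := ⟨mul_mem ha.1 hb.1, by rw [mul_inv_rev]; exact mul_mem hb.2 ha.2⟩
  inv_mem' ha := ⟨ha.2, ha.1⟩

theorem le_Un : P ≤ Un K P := fun _ hx => ⟨val_mem_Al hx, val_mem_Al (P.inv_mem hx)⟩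

theorem Un_mono {Q : Subgroup Eˣ} (h : Q ≤ P) : Un K Q ≤ Un K P := fun _ hx =>
  ⟨Al_mono h hx.1, Al_mono h hx.2⟩

theorem mem_Un [Finite E] : g ∈ Un K P ↔ (g : E) ∈ Al K P := by
  refine ⟨fun h => h.1, fun h => ⟨h, ?_⟩⟩
  have h1 : g⁻¹ = g ^ (orderOf g - 1) := by
    rw [inv_eq_iff_mul_eq_one, ← pow_succ', Nat.sub_add_cancel (orderOf_pos g), pow_orderOf_eq_one]
  rw [h1, Units.val_pow_eq_pow_val]
  exact (Al K P).pow_mem h _

/-- the normaliser -/
abbrev Nm (P : Subgroup Eˣ) : Subgroup Eˣ := Subgroup.normalizer (P : Set Eˣ)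

theorem mem_Nm [Finite E] (h : ∀ y ∈ P, g * y * g⁻¹ ∈ P) : g ∈ Nm P :=
  Subgroup.mem_normalizer_fintype h

theorem Nm_conj (hg : g ∈ Nm P) (hy : y ∈ P) : g * y * g⁻¹ ∈ P :=
  (Subgroup.mem_normalizer_iff.1 hg y).1 hy

/-! ### averaging -/

variable [Finite E]

theorem Pau.card_ne_zero (hP : Pau K P) (h : Amb τ) {H : Subgroup Eˣ} (hH : H ≤ P) :
    (Nat.card H : K) ≠ 0 := by
  intro h0
  obtain ⟨p, hp⟩ := CharP.exists K
  have hd := (CharP.cast_eq_zero_iff K p _).1 h0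
  rcases CharP.char_is_prime_or_zero K p with hpp | rfl
  · have := Fact.mk hpp
    obtain ⟨x, hx⟩ := exists_prime_orderOf_dvd_card' p hd
    obtain ⟨c, hc⟩ := hP.sq x (hH x.2)
    have hx1 : (x : Eˣ) ^ p = 1 := by rw [← hx, ← Subgroup.orderOf_coe, pow_orderOf_eq_one]
    have h1 : c ^ p = 1 := h.sc_inj (by rw [map_pow, hc, ← _root_.sq, ← pow_mul, mul_comm, pow_mul, hx1]; simp)
    have h2 : c = 1 := Units.ext (frobenius_inj K p (by
      rw [frobenius_def, ← Units.val_pow_eq_pow_val, h1]; simp))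
    have h3 : orderOf (x : Eˣ) ∣ 2 := orderOf_dvd_of_pow_eq_one (by rw [_root_.sq, ← hc, h2, map_one])
    rw [Subgroup.orderOf_coe, hx, Nat.prime_dvd_prime_iff_eq hpp Nat.prime_two] at h3
    subst h3
    exact h.two (CharP.cast_eq_zero K 2)
  · exact Nat.card_pos.ne' (zero_dvd_iff.1 hd)

theorem Pau.avg (hP : Pau K P) (h : Amb τ) [Fintype P] {a : E} (ha : a ∈ Al K P) :
    ∑ w : P, (w : Eˣ) * a * ↑(w : Eˣ)⁻¹ = ((Nat.card P : K) * τ a) • (1 : E) := by
  refine Al_ind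
    (p := fun a : E => ∑ w : P, (w : Eˣ) * a * ↑(w : Eˣ)⁻¹ = ((Nat.card P : K) * τ a) • (1 : E))
    ha (fun y hy => ?_) (by simp) (fun a b _ _ h1 h2 => ?_) (fun c a _ h1 => ?_)
  · by_cases hz : y ∈ Zs K E
    · obtain ⟨c, rfl⟩ := hz
      simp [h.sc, sc_val, ← Algebra.commutes, mul_assoc, Algebra.algebraMap_eq_smul_one, mul_smul,
        h.one, Nat.cast_smul_eq_nsmul]
    · obtain ⟨u, hu, e⟩ := hP.exists_anti hy hz
      rw [hP.tr_eq_zero h hy hz, mul_zero, zero_smul]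
      apply h.eq_zero_of_neg
      rw [← Finset.sum_neg_distrib]
      refine Fintype.sum_equiv (Equiv.mulRight ⟨u, hu⟩⁻¹) _ _ fun w => ?_
      have := congrArg Units.val (conj_of_anti (ainv (anti_symm e) |> anti_symm))
      simp only [Units.val_mul, inv_inv, Units.val_neg] at this
      simp only [Equiv.coe_mulRight, Subgroup.coe_mul, Subgroup.coe_inv, mul_inv_rev, inv_inv,
        Units.val_mul]
      calc _ = -((w.1 : E) * (↑u⁻¹ * ↑y * ↑u) * ↑w.1⁻¹) := by rw [this]; simp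
        _ = _ := by simp only [mul_assoc]
  · simp only [mul_add, add_mul, Finset.sum_add_distrib, h1, h2, map_add, add_smul]
  · simp only [mul_smul_comm, smul_mul_assoc, ← Finset.smul_sum, h1, map_smul, smul_smul, smul_eq_mul,
      mul_left_comm]

theorem Pau.scalar_of_comm (hP : Pau K P) (h : Amb τ) {a : E} (ha : a ∈ Al K P)
    (hc : ∀ y ∈ P, (y : E) * a = a * y) : a = τ a • (1 : E) := by
  have := Fintype.ofFinite P
  have h1 := hP.avg h ha
  rw [Finset.sum_congr rfl fun (w : P) _ => (by rw [hc w w.2, Units.mul_inv_cancel_right] : _ = a),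
    Finset.sum_const, Finset.card_univ, ← Nat.card_eq_fintype_card, ← Nat.cast_smul_eq_nsmul K,
    mul_smul] at h1
  exact smul_right_injective E (hP.card_ne_zero h le_rfl) h1

theorem mem_Zs_of_eq_smul [Nontrivial E] {c : K} (h : (g : E) = c • (1 : E)) : g ∈ Zs K E := by
  have hc : c ≠ 0 := by rintro rfl; exact g.ne_zero (by simpa using h)
  exact ⟨Units.mk0 c hc, Units.ext (by rw [h, sc_val, Algebra.algebraMap_eq_smul_one]; rfl)⟩

theorem Pau.mem_Zs_of_comm (hP : Pau K P) (h : Amb τ) (hg : g ∈ Un K P)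
    (hc : ∀ y ∈ P, y * g = g * y) : g ∈ Zs K E := by
  have := h.nontrivial
  exact mem_Zs_of_eq_smul (hP.scalar_of_comm h hg.1 fun y hy => comm_val (hc y hy))

theorem comm_of_tr (h : Amb τ) (hg : τ g ≠ 0) (hc : ⁅y, g⁆ ∈ Zs K E) : y * g = g * y := by
  obtain ⟨c, hc⟩ := hc
  have e : y * g * y⁻¹ = sc K E c * g := by rw [hc, commutatorElement_def]; group
  have h1 := h.conj y g
  rw [← Units.val_mul, ← Units.val_mul, e, sc_mul_val, map_smul, smul_eq_mul] at h1
  have : c = 1 := Units.ext (mul_right_cancel₀ hg (by rw [h1]; simp))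
  rwa [this, map_one, one_mul, mul_inv_eq_iff_eq_mul] at e

/-- a unit centralising `P` modulo scalars lies in `P` -/
theorem Pau.inn (hP : Pau K P) (h : Amb τ) (hg : g ∈ Un K P)
    (hc : ∀ y ∈ P, ⁅y, g⁆ ∈ Zs K E) : g ∈ P := by
  obtain ⟨y, hy, h1⟩ : ∃ y ∈ P, τ (g * y : Eˣ) ≠ 0 := by
    by_contra hn
    push Not at hn
    have : τ ((g : E) * ↑g⁻¹) = 0 := Al_ind (p := fun a => τ (g * a) = 0) hg.2 hn (by simp)
      (fun _ _ _ _ h1 h2 => by rw [mul_add, map_add, h1, h2, add_zero])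
      fun c _ _ h => by rw [mul_smul_comm, map_smul, h, smul_zero]
    rw [Units.mul_inv, h.one] at this
    exact one_ne_zero this
  have h2 := hP.mem_Zs_of_comm h (mul_mem hg (le_Un hy)) fun w hw => comm_of_tr h h1 (by
    have e : ⁅w, g * y⁆ = ⁅w, g⁆ * (g * (w * y * w⁻¹ * y⁻¹) * g⁻¹) := by
      simp only [commutatorElement_def]; group
    rw [e]
    refine mul_mem (hc w hw) (conj_mem_Zs.2 ?_)
    rcases hP.conj_eq hw hy with e | e <;> rw [e]
    · simp
    · simpa using neg_one_mem)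
  simpa using P.mul_mem (hP.sc_le h2) (P.inv_mem hy)

theorem Amb.anti_of_sq (h : Amb τ) (hx : x * x ∈ Zs K E) (hc : ⁅x, g⁆ ∈ Zs K E) :
    x * g = g * x ∨ x * g = -(g * x) := by
  obtain ⟨c, hc⟩ := hc
  have e : x * g = Cl.sc K E c * (g * x) := by rw [hc, commutatorElement_def]; group
  have e2 : x * x * g = Cl.sc K E (c * c) * (x * x * g) := by
    rw [Zs_comm hx g] at *
    conv_lhs => rw [← Zs_comm hx g, mul_assoc, e, ← mul_assoc, ← sc_comm, mul_assoc,
      ← mul_assoc x, e]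
    rw [map_mul]; group
  have h3 : c * c = 1 := h.sc_inj (by rw [map_one]; exact (right_eq_mul.1 e2))
  rcases mul_self_eq_one_iff.1 (congrArg Units.val h3) with h4 | h4
  · left; rw [e, show c = 1 from Units.ext h4, map_one, one_mul]
  · right; rw [e, show c = -1 from Units.ext h4, sc_neg, map_one, neg_one_mul]

theorem Pau.anti_of_comm_mem (hP : Pau K P) (h : Amb τ) (hx : x ∈ P) (hc : ⁅x, g⁆ ∈ Zs K E) :
    x * g = g * x ∨ x * g = -(g * x) := h.anti_of_sq (hP.sq x hx) hc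

/-- a traceless unit normalising `P` anticommutes with an element of `P` -/
theorem Pau.exists_anti_of_tr (hP : Pau K P) (h : Amb τ) (hg : g ∈ Un K P) (hN : g ∈ Nm P)
    (h0 : τ g = 0) : ∃ x ∈ P, x * g = -(g * x) := by
  classical
  by_contra hn
  push Not at hn
  have := Fintype.ofFinite P
  have h1 := congrArg (fun a => τ (a * ↑g⁻¹)) (hP.avg h hg.1)
  simp only [h0, mul_zero, zero_smul, zero_mul, map_zero, Finset.sum_mul, map_sum] at h1
  have h2 : ∀ w : P, τ ((w : Eˣ) * g * ↑(w : Eˣ)⁻¹ * ↑g⁻¹) =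
      if w ∈ (Ce P g).subgroupOf P then 1 else 0 := by
    intro w
    change τ (⁅(w : Eˣ), g⁆ : Eˣ) = _
    split_ifs with hw
    · have e : (w : Eˣ) * g = g * w := (mem_Ce.1 hw).2
      rw [commutatorElement_eq_one_iff_mul_comm.2 e, Units.val_one, h.one]
    · refine hP.tr_eq_zero h ?_ fun hz => hw (mem_Ce.2 ⟨w.2, ?_⟩)
      · rw [commutatorElement_def, mul_assoc, mul_assoc, ← mul_assoc g]
        exact P.mul_mem w.2 (Nm_conj hN (P.inv_mem w.2))
      · exact (hP.anti_of_comm_mem h w.2 hz).resolve_right (hn w w.2)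
  simp only [h2, Finset.sum_boole] at h1
  apply hP.card_ne_zero h (Ce_le (x := g))
  rw [← Nat.card_congr (Subgroup.subgroupOfEquivOfLe (Ce_le (x := g))).toEquiv, Nat.card_eq_fintype_card,
    Fintype.card_subtype]
  exact h1

end H60.Cl
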