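import Cfsg.Agent.Base

/-! Pauli groups in an algebra: basic facts (trace, averaging, duality). -/

set_option autoImplicit false
set_option linter.unusedSectionVars false

namespace H60.Cl

open scoped commutatorElement

variable {K E : Type*} [Field K] [Ring E] [Algebra K E]

variable (K E) in
/-- scalar units -/
def sc : Kˣ →* Eˣ := Units.map (algebraMap K E : K →* E)

variable (K E) in
/-- the group of scalars -/
def Zs : Subgroup Eˣ := (sc K E).range

theorem sc_val (c : Kˣ) : (sc K E c : E) = algebraMap K E c := rfl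

theorem sc_mul_val (c : Kˣ) (x : Eˣ) : ((sc K E c * x : Eˣ) : E) = (c : K) • (x : E) := by
  rw [Units.val_mul, sc_val, Algebra.smul_def]

theorem sc_comm (c : Kˣ) (x : Eˣ) : sc K E c * x = x * sc K E c :=
  Units.ext (Algebra.commutes _ _)

theorem sc_neg (c : Kˣ) : sc K E (-c) = -sc K E c := Units.ext (by simp [sc_val])

theorem sc_mem (c : Kˣ) : sc K E c ∈ Zs K E := ⟨c, rfl⟩

theorem neg_one_mem : (-1 : Eˣ) ∈ Zs K E := ⟨-1, by rw [sc_neg, map_one]⟩

theorem Zs_comm {z : Eˣ} (hz : z ∈ Zs K E) (x : Eˣ) : z * x = x * z := by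
  obtain ⟨c, rfl⟩ := hz; exact sc_comm c x

instance : (Zs K E).Normal := ⟨fun z hz g => by rwa [← Zs_comm hz, mul_inv_cancel_right]⟩

theorem neg_mem_of {H : Subgroup Eˣ} (hH : Zs K E ≤ H) {x : Eˣ} (hx : x ∈ H) : -x ∈ H := by
  rw [← neg_one_mul]; exact H.mul_mem (hH neg_one_mem) hx

theorem neg_mem_Zs {x : Eˣ} : -x ∈ Zs K E ↔ x ∈ Zs K E :=
  ⟨fun h => by simpa using neg_mem_of le_rfl h, neg_mem_of le_rfl⟩

/-- a normalised trace -/
structure Amb (τ : E →ₗ[K] K) : Prop where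
  tr : ∀ a b, τ (a * b) = τ (b * a)
  one : τ 1 = 1
  two : (2 : K) ≠ 0

variable (K) in
/-- Pauli groups -/
structure Pau (P : Subgroup Eˣ) : Prop where
  sc_le : Zs K E ≤ P
  comm : ∀ x ∈ P, ∀ y ∈ P, x * y = y * x ∨ x * y = -(y * x)
  sq : ∀ x ∈ P, x * x ∈ Zs K E
  nd : ∀ x ∈ P, (∀ y ∈ P, x * y = y * x) → x ∈ Zs K E

/-! ### commuting and anticommuting units -/

section signs
variable {x y z : Eˣ}

theorem anti_symm (h : x * y = -(y * x)) : y * x = -(x * y) := by rw [h, neg_neg]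

theorem cc (h1 : x * y = y * x) (h2 : x * z = z * x) : x * (y * z) = y * z * x := by
  rw [← mul_assoc, h1, mul_assoc, h2, mul_assoc]

theorem ca (h1 : x * y = y * x) (h2 : x * z = -(z * x)) : x * (y * z) = -(y * z * x) := by
  rw [← mul_assoc, h1, mul_assoc, h2, mul_neg, mul_assoc]

theorem ac (h1 : x * y = -(y * x)) (h2 : x * z = z * x) : x * (y * z) = -(y * z * x) := by
  rw [← mul_assoc, h1, neg_mul, mul_assoc, h2, mul_assoc]

theorem aa (h1 : x * y = -(y * x)) (h2 : x * z = -(z * x)) : x * (y * z) = y * z * x := by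
  rw [← mul_assoc, h1, neg_mul, mul_assoc, h2, mul_neg, neg_neg, mul_assoc]

theorem cinv (h : x * y = y * x) : x * y⁻¹ = y⁻¹ * x := by
  rw [mul_inv_eq_iff_eq_mul, mul_assoc, h, inv_mul_cancel_left]

theorem ainv (h : x * y = -(y * x)) : x * y⁻¹ = -(y⁻¹ * x) := by
  rw [mul_inv_eq_iff_eq_mul, neg_mul, mul_assoc, h, mul_neg, neg_neg, inv_mul_cancel_left]

theorem conj_of_comm (h : x * y = y * x) : x * y * x⁻¹ = y := by rw [h, mul_inv_cancel_right]

theorem conj_of_anti (h : x * y = -(y * x)) : x * y * x⁻¹ = -y := by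
  rw [h, neg_mul, mul_inv_cancel_right]

theorem anti_val (h : x * y = -(y * x)) : (x : E) * y = -((y : E) * x) := congrArg Units.val h

theorem comm_val (h : x * y = y * x) : (x : E) * y = (y : E) * x := congrArg Units.val h

theorem sq_val (h : x * x = 1) : (x : E) * x = 1 := congrArg Units.val h

theorem conj_comm (g : Eˣ) (h : x * y = y * x) :
    g * x * g⁻¹ * (g * y * g⁻¹) = g * y * g⁻¹ * (g * x * g⁻¹) := by
  rw [conj_mul, conj_mul, h]

theorem conj_anti (g : Eˣ) (h : x * y = -(y * x)) :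
    g * x * g⁻¹ * (g * y * g⁻¹) = -(g * y * g⁻¹ * (g * x * g⁻¹)) := by
  rw [conj_mul, conj_mul, h, mul_neg, neg_mul]

theorem conj_mem_Zs {g : Eˣ} : g * x * g⁻¹ ∈ Zs K E ↔ x ∈ Zs K E :=
  Subgroup.Normal.mem_comm_iff inferInstance |>.trans (by rw [inv_mul_cancel_left])

end signs

variable {τ : E →ₗ[K] K} {P : Subgroup Eˣ} {x y z d g : Eˣ}

theorem Amb.sc (h : Amb τ) (c : Kˣ) : τ (sc K E c) = c := by
  rw [sc_val, Algebra.algebraMap_eq_smul_one, map_smul, h.one, smul_eq_mul, mul_one]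

theorem Amb.conj (h : Amb τ) (g : Eˣ) (a : E) : τ (g * a * ↑g⁻¹) = τ a := by
  rw [h.tr, Units.inv_mul_cancel_left]

theorem Amb.eq_zero_of_neg (h : Amb τ) {a : E} (ha : a = -a) : a = 0 := by
  have : (2 : K) • a = 0 := by rw [two_smul]; exact add_eq_zero_iff_eq_neg.2 ha
  exact (smul_eq_zero.1 this).resolve_left h.two

theorem Amb.nontrivial (h : Amb τ) : Nontrivial E :=
  ⟨⟨1, 0, fun e => one_ne_zero (by rw [← h.one, e, map_zero])⟩⟩

theorem Amb.ne_neg (h : Amb τ) (u : Eˣ) : u ≠ -u := fun e => by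
  have := h.nontrivial
  exact u.ne_zero (h.eq_zero_of_neg (congrArg Units.val e))

theorem Amb.not_anti (h : Amb τ) (h1 : x * y = y * x) : ¬ x * y = -(y * x) := fun h2 =>
  h.ne_neg _ (h1.symm.trans h2)

theorem Amb.sc_inj (h : Amb τ) : Function.Injective (Cl.sc K E) := fun a b e =>
  Units.ext (by rw [← h.sc a, e, h.sc])

theorem Amb.notMem_of_anti (h : Amb τ) (h1 : x * y = -(y * x)) : x ∉ Zs K E := fun hx =>
  h.not_anti (Zs_comm hx y) h1

theorem Amb.tr_anti (h : Amb τ) {a : E} (h1 : (x : E) * a = -(a * x)) : τ a = 0 := by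
  have := h.conj x a
  rw [h1, neg_mul, Units.mul_inv_cancel_right, map_neg] at this
  have h2 : (2 : K) * τ a = 0 := by linear_combination -this
  exact (mul_eq_zero.1 h2).resolve_left h.two

theorem Pau.exists_anti (hP : Pau K P) (hx : x ∈ P) (hx' : x ∉ Zs K E) :
    ∃ y ∈ P, y * x = -(x * y) := by
  by_contra hc
  push Not at hc
  exact hx' (hP.nd x hx fun y hy => ((hP.comm y hy x hx).resolve_right (hc y hy)).symm)

theorem Pau.tr_eq_zero (hP : Pau K P) (h : Amb τ) (hx : x ∈ P) (hx' : x ∉ Zs K E) : τ x = 0 := by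
  obtain ⟨y, -, hy⟩ := hP.exists_anti hx hx'
  exact h.tr_anti (anti_val hy)

theorem Pau.neg_mem (hP : Pau K P) (hx : x ∈ P) : -x ∈ P := neg_mem_of hP.sc_le hx

theorem Pau.conj_eq (hP : Pau K P) (hx : x ∈ P) (hy : y ∈ P) :
    x * y * x⁻¹ = y ∨ x * y * x⁻¹ = -y :=
  (hP.comm x hx y hy).imp conj_of_comm conj_of_anti

theorem Pau.dual_step (hP : Pau K P) {C : Subgroup Eˣ} (hC : C ≤ P) {w : Eˣ} (hy : y ∈ P)
    (h1 : ∃ u ∈ C, u * w = -(w * u)) (h2 : ∃ u ∈ C, u * (w * y) = -(w * y * u)) :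
    ∃ u ∈ C, u * y = y * u ∧ u * w = -(w * u) := by
  obtain ⟨u₁, hu₁, a2⟩ := h1
  obtain ⟨u₂, hu₂, b2⟩ := h2
  rcases hP.comm u₁ (hC hu₁) y hy with c1 | c1
  · exact ⟨u₁, hu₁, c1, a2⟩
  rcases hP.comm u₂ (hC hu₂) y hy with c2 | c2
  · exact ⟨u₂, hu₂, c2, by simpa using ac b2 (cinv c2)⟩
  · refine ⟨u₁ * u₂, C.mul_mem hu₁ hu₂, (aa (anti_symm c1) (anti_symm c2)).symm,
      anti_symm (ac (anti_symm a2) ?_)⟩
    simpa using (aa b2 (ainv c2)).symm

/-- the elements of `P` commuting with `x` -/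
def Ce (P : Subgroup Eˣ) (x : Eˣ) : Subgroup Eˣ := P ⊓ Subgroup.centralizer {x}

theorem mem_Ce {u : Eˣ} : u ∈ Ce P x ↔ u ∈ P ∧ u * x = x * u :=
  and_congr_right fun _ => Subgroup.mem_centralizer_singleton_iff

theorem Ce_le : Ce P x ≤ P := inf_le_left

theorem Pau.dual1 (hP : Pau K P) {w : Eˣ} (hx : x ∈ P) (hw : w ∈ P) (h1 : w ∉ Zs K E)
    (h2 : w * x ∉ Zs K E) : ∃ u ∈ P, u * x = x * u ∧ u * w = -(w * u) :=
  hP.dual_step le_rfl hx (hP.exists_anti hw h1) (hP.exists_anti (P.mul_mem hw hx) h2)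

/-- duality -/
theorem Pau.exists_dual (hP : Pau K P) {S : Set Eˣ} (hS : S.Finite) (hSP : S ⊆ P) :
    ∀ w ∈ P, w ∉ Subgroup.closure S ⊔ Zs K E →
      ∃ u ∈ P ⊓ Subgroup.centralizer S, u * w = -(w * u) := by
  induction S, hS using Set.Finite.induction_on with
  | empty =>
    intro w hw hw'
    obtain ⟨u, hu, h⟩ := hP.exists_anti hw fun h => hw' (Subgroup.mem_sup_right h)
    exact ⟨u, ⟨hu, by simp [Subgroup.mem_centralizer_iff]⟩, h⟩
  | @insert y S _ _ ih =>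
    intro w hw hw'
    have hy : y ∈ P := hSP (Set.mem_insert _ _)
    have hle : Subgroup.closure S ⊔ Zs K E ≤ Subgroup.closure (insert y S) ⊔ Zs K E :=
      sup_le_sup_right (Subgroup.closure_mono (Set.subset_insert _ _)) _
    have ih' := ih ((Set.subset_insert _ _).trans hSP)
    obtain ⟨u, hu, a1, a2⟩ := hP.dual_step inf_le_left hy (ih' w hw fun h => hw' (hle h))
      (ih' (w * y) (P.mul_mem hw hy) fun h => hw' (by
        have := (Subgroup.closure (insert y S) ⊔ Zs K E).mul_mem (hle h) (Subgroup.inv_mem _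
          (Subgroup.mem_sup_left (Subgroup.subset_closure (Set.mem_insert y S))))
        rwa [mul_inv_cancel_right] at this))
    exact ⟨u, ⟨hu.1, Set.forall_mem_insert.2 ⟨a1.symm, hu.2⟩⟩, a2⟩

/-- an element anticommuting with two given non-scalars -/
theorem Pau.exists_anti2 (hP : Pau K P) (hx : x ∈ P) (hx' : x ∉ Zs K E) (hy : y ∈ P)
    (hy' : y ∉ Zs K E) : ∃ w ∈ P, w * x = -(x * w) ∧ w * y = -(y * w) := by
  obtain ⟨u, hu, a1⟩ := hP.exists_anti hx hx'
  obtain ⟨v, hv, b1⟩ := hP.exists_anti hy hy'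
  rcases hP.comm u hu y hy with c | c
  · rcases hP.comm v hv x hx with c' | c'
    · exact ⟨u * v, P.mul_mem hu hv, anti_symm (ac (anti_symm a1) c'.symm),
        anti_symm (ca c.symm (anti_symm b1))⟩
    · exact ⟨v, hv, c', b1⟩
  · exact ⟨u, hu, a1, c⟩

end H60.Cl
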