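import Cfsg.Agent.H60.PauGen

/-! Pauli groups: frames and the local three-dimensional groups. -/

set_option autoImplicit false
set_option linter.unusedSectionVars false

namespace H60.Cl

open scoped commutatorElement MatrixGroups

variable {K E : Type*} [Field K] [Ring E] [Algebra K E] [Finite E]
variable {τ : E →ₗ[K] K} {P : Subgroup Eˣ} {x y z d g j u v : Eˣ} {ε : E} {t : Fin 3 → Eˣ}

variable (K) in
/-- a primitive idempotent -/
structure Pr (P : Subgroup Eˣ) (ε : E) : Prop where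
  mem : ε ∈ Al K P
  idem : ε * ε = ε
  ne : ε ≠ 0
  prim : ∀ a ∈ Al K P, ∃ c : K, ε * a * ε = c • ε
  star : ∀ s : E →+ E, (∀ a b, s (a * b) = s b * s a) → (∀ x ∈ P, x * x = 1 → s x = x) → s ε = ε

theorem Amb.pr_one (h : Amb τ) (hP : P ≤ Zs K E) : Pr K P 1 where
  mem := one_mem _
  idem := one_mul _
  ne := by have := h.nontrivial; exact one_ne_zero
  prim a ha := Al_ind (p := fun a => ∃ c : K, 1 * a * 1 = c • (1 : E)) ha
    (fun x hx => by obtain ⟨c, rfl⟩ := hP hx; exact ⟨c, by simp [sc_val, Algebra.smul_def]⟩)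
    ⟨0, by simp⟩ (by rintro a b - - ⟨c, e⟩ ⟨c', e'⟩; exact ⟨c + c', by simp_all [add_smul]⟩)
    (by rintro c a - ⟨c', e⟩; exact ⟨c * c', by simp_all [mul_smul]⟩)
  star s _ h2 := h2 1 (one_mem _) (one_mul _)

theorem Amb.star_ee (h : Amb τ) {s : E →+ E} (h1 : s 1 = 1) (h2 : s d = d) :
    s (ee K d) = ee K d := by
  have e : ee K d + ee K d = 1 + d := by rw [ee, ← two_smul K, smul_inv_smul₀ h.two]
  have := congrArg s e
  rw [map_add, map_add, h1, h2, ← e, ← two_smul K, ← two_smul K] at this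
  exact smul_right_injective E h.two this

theorem mv {a e : E} (c : a * e = e * a) (b : E) : e * (a * b) = a * (e * b) := by
  rw [← mul_assoc, ← c, mul_assoc]

theorem Pr.up (h : Amb τ) (hP : Pau K P) (H : Hyp P d x) (hε : Pr K (P1 P d x) ε) :
    Pr K P (ε * ee K d) := by
  have c1 := ee_comm (K := K) (Al_P1_d hε.mem)
  refine ⟨mul_mem (Al_mono P1_le hε.mem) (ee_mem H.hd), ?_, fun e => hε.ne ?_, fun a ha => ?_,
    fun s h1 h2 => ?_⟩
  · rw [mul_assoc, ← mul_assoc (ee K d), ← c1, mul_assoc, h.ee_sq H.dd, ← mul_assoc, hε.idem]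
  · exact h.inj H.an (Al_P1_x hε.mem) (by simp) (by rw [e, zero_mul])
  · obtain ⟨b, hb, e⟩ := H.comp hP h ha
    obtain ⟨c, e'⟩ := hε.prim b hb
    refine ⟨c, ?_⟩
    rw [← smul_mul_assoc, ← e', mul_assoc _ ε, c1, ← mul_assoc, ← mul_assoc, mul_assoc ε b, ← e]
    simp only [mul_assoc, mv c1]
  · rw [h1, h.star_ee (h2 1 (one_mem _) (one_mul _)) (h2 d H.hd H.dd),
      hε.star s h1 fun y hy => h2 y (P1_le hy), c1]

variable (K) in
/-- a frame: three orthogonal images of a primitive idempotent -/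
structure Fr (P : Subgroup Eˣ) (ε : E) (t : Fin 3 → Eˣ) : Prop extends Pr K P ε where
  tm : ∀ a, t a ∈ P
  tt : ∀ a, t a * t a = 1
  orth : ∀ a b, a ≠ b → ε * t a * t b * ε = 0

/-- matrices with respect to a frame -/
def fm (ε : E) (t : Fin 3 → Eˣ) : Matrix (Fin 3) (Fin 3) K →ₗ[K] E where
  toFun A := ∑ a, ∑ b, A a b • ((t a : E) * ε * t b)
  map_add' A B := by simp [add_smul, Finset.sum_add_distrib]
  map_smul' c A := by simp [Finset.smul_sum, mul_smul]

theorem fm_apply (A : Matrix (Fin 3) (Fin 3) K) :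
    fm ε t A = ∑ a, ∑ b, A a b • ((t a : E) * ε * t b) := rfl

theorem Fr.unit_mul (hF : Fr K P ε t) (a b c e : Fin 3) :
    (t a : E) * ε * t b * (t c * ε * t e) = if b = c then t a * ε * t e else 0 := by
  have : (t a : E) * ε * t b * (t c * ε * t e) = t a * (ε * t b * t c * ε) * t e := by
    simp only [mul_assoc]
  rw [this]
  split_ifs with h
  · rw [h, mul_assoc ε, sq_val (hF.tt c), mul_one, hF.idem]
  · rw [hF.orth b c h]; simp

theorem Fr.fm_mul (hF : Fr K P ε t) (A B : Matrix (Fin 3) (Fin 3) K) :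
    fm ε t (A * B) = fm ε t A * fm ε t B := by
  simp only [fm_apply, Finset.sum_mul]
  simp only [Finset.mul_sum, smul_mul_smul_comm, hF.unit_mul, smul_ite,
    smul_zero, Matrix.mul_apply, Finset.sum_smul]
  refine Finset.sum_congr rfl fun a _ => ?_
  rw [Finset.sum_comm]
  refine Finset.sum_congr rfl fun b _ => ?_
  rw [Finset.sum_comm]
  simp

/-- the local embedding of `GL₃` -/
def Fr.psi (hF : Fr K P ε t) : GL (Fin 3) K →* Eˣ := Units.map
  { toFun := fun A => 1 + fm ε t (A - 1)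
    map_one' := by simp
    map_mul' := fun A B => by
      rw [show A * B - 1 = (A - 1) * (B - 1) + (A - 1) + (B - 1) by noncomm_ring, map_add, map_add,
        hF.fm_mul]
      noncomm_ring }

theorem Fr.psi_val (hF : Fr K P ε t) (A : GL (Fin 3) K) :
    (hF.psi A : E) = 1 + fm ε t (A.val - 1) := rfl

theorem Fr.psi_Un (hF : Fr K P ε t) (A : GL (Fin 3) K) : hF.psi A ∈ Un K P :=
  mem_Un.2 (add_mem (one_mem _) (by
    rw [fm_apply]
    exact Subalgebra.sum_mem _ fun a _ => Subalgebra.sum_mem _ fun b _ => Subalgebra.smul_mem _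
      (mul_mem (mul_mem (val_mem_Al (hF.tm a)) hF.mem) (val_mem_Al (hF.tm b))) _))

theorem Fr.up (h : Amb τ) (hP : Pau K P) (H : Hyp P d x) (hF : Fr K (P1 P d x) ε t) :
    Fr K P (ε * ee K d) t where
  toPr := hF.toPr.up h hP H
  tm a := P1_le (hF.tm a)
  tt := hF.tt
  orth a b hab := by
    have c := fun a => ee_comm (K := K) (comm_val (mem_P1.1 (hF.tm a)).1.2)
    have := congrArg (· * (ee K d * ee K d)) (hF.orth a b hab)
    simpa only [mul_assoc, mv (c _), mv (ee_comm (Al_P1_d hF.mem)), zero_mul] using this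

theorem Fr.psi_up (h : Amb τ) (hP : Pau K P) (H : Hyp P d x) (hF : Fr K (P1 P d x) ε t)
    (A : GL (Fin 3) K) : (hF.up h hP H).psi A = ct K d (hF.psi A) := Units.ext (by
  have c := fun a => ee_comm (K := K) (comm_val (mem_P1.1 (hF.tm a)).1.2)
  rw [h.ct_val H.dd (Un_P1_d (hF.psi_Un A)), Fr.psi_val, Fr.psi_val, add_mul, fm_apply, fm_apply]
  simp only [Finset.sum_mul, smul_mul_assoc, mul_assoc, c]
  rw [one_mul]; abel)

variable (K) in
/-- `N` contains a local copy of `S` -/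
def Big (S : Subgroup (GL (Fin 3) K)) (P N : Subgroup Eˣ) : Prop :=
  ∃ (ε : E) (t : Fin 3 → Eˣ) (hF : Fr K P ε t), S ≤ N.comap hF.psi

variable {S : Subgroup (GL (Fin 3) K)} {G N : Subgroup Eˣ}

theorem Big.mono {N' : Subgroup Eˣ} (hB : Big K S P N) (h : N ≤ N') : Big K S P N' :=
  let ⟨ε, t, hF, e⟩ := hB; ⟨ε, t, hF, e.trans (Subgroup.comap_mono h)⟩

theorem comm_mem_of_Nm (hg : g ∈ Nm N) (hu : u ∈ N) : ⁅g, u⁆ ∈ N :=
  N.mul_mem (Nm_conj hg hu) (N.inv_mem hu)

theorem Big.up (h : Amb τ) (hP : Pau K P) (H : Hyp P d x) (hS : S ≤ ⁅S, S⁆) (hN : G ≤ Nm N)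
    {N' : Subgroup Eˣ} (hB : Big K S (P1 P d x) N') (h1 : ∀ u ∈ N', ct K d u ∈ G)
    (h2 : ∀ u ∈ N', ∃ g ∈ N, g * d = d * g ∧ (g : E) * ee K d = u * ee K d) : Big K S P N := by
  obtain ⟨ε, t, hF, e⟩ := hB
  refine ⟨_, t, hF.up h hP H, hS.trans (Subgroup.commutator_le.2 fun A hA B hB => ?_)⟩
  obtain ⟨g, hg, c, e'⟩ := h2 _ (e hB)
  have c1 := fun A => Un_P1_d (hF.psi_Un A)
  have := comm_mem_of_Nm (hN (h1 _ (e hA))) hg
  rw [commutatorElement_def, mul_assoc, mul_assoc, ← mul_assoc g, ← h.ct_inv H.dd (c1 A), ← map_inv,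
    h.ct_conj_of H.dd (c1 _) c (c1 B) e', ← map_inv, ← map_mul, ← map_mul,
    ← h.ct_mul H.dd (c1 _) (c1 _), ← map_mul] at this
  rw [Subgroup.mem_comap, hF.psi_up h hP H, commutatorElement_def]
  simpa only [mul_assoc] using this

/-! ### the rank two frame -/

/-- generating matrices -/
def mA (i : K) : Matrix (Fin 3) (Fin 3) K := !![0, i, 0; i, 0, 0; 0, 0, 1]
/-- generating matrices -/
def mC (i : K) : Matrix (Fin 3) (Fin 3) K :=
  !![(1 - i) / 2, (i - 1) / 2, 0; (1 + i) / 2, (1 + i) / 2, 0; 0, 0, 1]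
/-- generating matrices -/
def mS : Matrix (Fin 3) (Fin 3) K := !![0, 1, 0; 1, 0, 0; 0, 0, 1]
/-- generating matrices -/
def mT : Matrix (Fin 3) (Fin 3) K := !![0, 0, 1; 0, 1, 0; 1, 0, 0]

theorem un_mat {A : Matrix (Fin 3) (Fin 3) K} (h : A.det ≠ 0) : (un A).val = A := by
  have : IsUnit A := (Matrix.isUnit_iff_isUnit_det A).2 h.isUnit
  rw [un, dif_pos this, IsUnit.unit_spec]

theorem det_mA {i : K} (hi : i * i = -1) : (mA i).det = 1 := by
  simp [mA, Matrix.det_fin_three, hi]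

theorem det_mC {i : K} (hi : i * i = -1) (h2 : (2 : K) ≠ 0) : (mC i).det = 1 := by
  simp only [mC, Matrix.det_fin_three]
  simp
  field_simp
  linear_combination (-2) * hi

theorem un_mA {i : K} (hi : i * i = -1) : (un (mA i)).val = mA i :=
  un_mat (by rw [det_mA hi]; exact one_ne_zero)

theorem un_mC {i : K} (hi : i * i = -1) (h2 : (2 : K) ≠ 0) : (un (mC i)).val = mC i :=
  un_mat (by rw [det_mC hi h2]; exact one_ne_zero)

theorem un_mS : (un (mS (K := K))).val = mS := un_mat (by simp [mS, Matrix.det_fin_three])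

theorem un_mT : (un (mT (K := K))).val = mT := un_mat (by simp [mT, Matrix.det_fin_three])

/-- the input from the subgroup structure of the three-dimensional groups -/
structure H3 (i : K) (S : Subgroup (GL (Fin 3) K)) : Prop where
  perf : S ≤ ⁅S, S⁆
  gen : ∀ X : Subgroup (GL (Fin 3) K), un (mA i) ∈ X → un (mC i) ∈ Nm X → un mS ∈ Nm X →
    un mT ∈ Nm X → S ≤ X

theorem isq {i : Kˣ} (hi : i * i = -1) (hy : y * y = 1) : sc K E i * y * (sc K E i * y) = -1 := by
  rw [mul_assoc, ← mul_assoc y, ← sc_comm, mul_assoc, hy, mul_one, ← map_mul, hi, sc_neg, map_one]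

theorem Gates.ct_neg (hG : Gates P G) (h : Amb τ) (hPG : Zs K E ≤ G) (hd : d ∈ P) (dd : d * d = 1)
    (hj : j ∈ P) (jj : j * j = -1) (hc : j * d = d * j) : ct K d j ∈ G := by
  obtain ⟨e1, e2⟩ := h.ct_eq_ga dd jj hc
  rw [e2]
  exact mul_mem (inv_mem (hPG h.tw_mem)) (mul_mem (hG _ hj jj) (hG _ (mul_mem hd hj) e1))

theorem Gates.ct_pos (hG : Gates P G) (h : Amb τ) (hP : Pau K P) (hPG : Zs K E ≤ G) {i : Kˣ}
    (hi : i * i = -1) (hd : d ∈ P) (dd : d * d = 1)
    (hy : y ∈ P) (yy : y * y = 1) (hc : y * d = d * y) : ct K d y ∈ G := by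
  have h1 := hG.ct_neg h hPG hd dd (mul_mem (hP.sc_le (sc_mem i)) hy) (isq hi yy)
    (sc_comm' (sc_mem i) hc)
  have h2 := hG.ct_neg h hPG hd dd (hP.sc_le (sc_mem i)) (by simpa using isq (E := E) hi (one_mul 1))
    (sc_comm i d)
  rw [h.ct_mul dd (sc_comm i d) hc] at h1
  exact (G.mul_mem_cancel_left h2).1 h1

theorem Nm_comap {A B : Type*} [Group A] [Group B] (f : A →* B) {N : Subgroup B} {a : A}
    (h : f a ∈ Subgroup.normalizer (N : Set B)) :
    a ∈ Subgroup.normalizer (N.comap f : Set A) :=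
  Subgroup.mem_normalizer_iff.2 fun b => by
    simpa using Subgroup.mem_normalizer_iff.1 h (f b)

theorem big_two (h : Amb τ) (hP : Pau K P) {y' : Eˣ} (H : Hyp P d x) (hx : x * x = 1)
    (H' : Hyp (P1 P d x) y y') (hy' : y' * y' = 1) (h0 : P1 (P1 P d x) y y' ≤ Zs K E) {i : Kˣ}
    (hi : i * i = -1) (h3 : H3 (i : K) S) (hG : Gates P G) (hPG : P ≤ G) (hN : G ≤ Nm N)
    (hj : ∀ j ∈ P, j * j = -1 → j ∈ N)
    (hσ : ct K d (ga (sc K E i * y') * (ga (sc K E i * y))⁻¹) ∈ G) : Big K S P N := by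
  have hP1 := hP.p1 H.hd H.hx H.an
  have pr := ((h.pr_one h0).up h hP1 H').up h hP H
  rw [one_mul] at pr
  obtain ⟨⟨m1, c1⟩, c2⟩ := mem_P1.1 H'.hd
  obtain ⟨⟨m2, c3⟩, c4⟩ := mem_P1.1 H'.hx
  have a1 := h.ee_anti (anti_val (anti_symm H'.an))
  have a2 := h.ee_anti (anti_val (anti_symm H.an))
  have a3 := ee_comm (K := K) (comm_val c3)
  have a4 := ee_comm (K := K) (comm_val c2.symm)
  have a5 := ee_comm (K := K) (ee_comm (K := K) (comm_val c1.symm)).symm
  have a6 := h.ee_sq H'.dd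
  have a7 := h.ee_sq H.dd
  have a8 := comm_val c4
  have a9 := h.val_eq_ee y
  have hi' : (i : K) * i = -1 := congrArg Units.val hi
  have j1 := isq hi H'.dd
  have j2 := isq hi hy'
  have d1 := sc_comm' (sc_mem i) c1
  have d2 := sc_comm' (sc_mem i) c3
  have d3 := (cc (h.ga_comm j2 d2.symm) (cinv (h.ga_comm j1 d1.symm))).symm
  have v1 := h.ct_val H.dd d2
  have v2 := h.ct_val H.dd c3
  have v3 := h.ct_val H'.dd c2.symm
  have v4 := h.ct_val H.dd d3
  have v5 : ((ga (sc K E i * y))⁻¹ : Eˣ).val = (2 : K)⁻¹ • (1 - (i : K) • y.val) := by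
    have := h.ga_neg_mul j1
    rw [← eq_mul_inv_iff_mul_eq] at this
    rw [← sc_mul_val, sub_eq_add_neg, ← Units.val_neg, ← h.ga_val (neg_nsq j1), this, Amb.tw,
      sc_mul_val, Units.val_mk0, inv_smul_smul₀ h.two]
  rw [Units.val_mul, v5, h.ga_val j2, sc_mul_val, a9] at v4
  rw [sc_mul_val] at v1
  have k1 := sq_val hy'
  have k2 := sq_val hx
  set e := ee K y
  set f := ee K d
  have b1 : ∀ b, y'.val * (e * b) = y' * b - e * (y' * b) := fun b => by
    rw [← mul_assoc, a1, mul_assoc, sub_mul, one_mul]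
  have b2 : ∀ b, x.val * (f * b) = x * b - f * (x * b) := fun b => by
    rw [← mul_assoc, a2, mul_assoc, sub_mul, one_mul]
  have b3 : ∀ {a : E}, a * a = a → ∀ b, a * (a * b) = a * b := fun e b => by rw [← mul_assoc, e]
  have b4 : ∀ {a : E}, a * a = 1 → ∀ b, a * (a * b) = b := fun e b => by rw [← mul_assoc, e, one_mul]
  have hF : Fr K P (e * f) ![1, y', x] := by
    refine ⟨pr, fun a => ?_, fun a => ?_, fun a b hab => ?_⟩
    · fin_cases a
      exacts [one_mem _, m2, H.hx]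
    · fin_cases a
      exacts [one_mul _, hy', hx]
    · fin_cases a <;> fin_cases b <;>
      simp [mul_assoc, mul_sub, b1, b2, a1, a2, sub_mul, a3, a4, a5, mv a3.symm, mv a4.symm,
        mv a5.symm, b3 a6, b3 a7, a6, a7] at hab ⊢
  have key : ∀ (A : GL (Fin 3) K) (g : Eˣ), g ∈ G → (g : E) = 1 + fm (e * f) ![1, y', x] (A.val - 1) →
      A ∈ Nm (N.comap hF.psi) := fun A g hg e =>
    Nm_comap _ (by rw [show hF.psi A = g from Units.ext e.symm]; exact hN hg)
  have hZ := hP.sc_le.trans hPG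
  refine ⟨_, _, hF, h3.gen _ ?_ (key _ _ hσ ?_) (key _ _ (hG.ct_pos h hP hZ hi H.hd H.dd m2 hy' c3) ?_)
    (key _ _ (hG.ct_pos h hP hZ hi m1 H'.dd H.hx hx c2.symm) ?_)⟩
  · have an : sc K E i * y' * (sc K E i * y) = -(sc K E i * y * (sc K E i * y')) :=
      sc_anti (sc_mem i) (anti_symm (sc_anti (sc_mem i) H'.an))
    have := comm_mem_of_Nm (hN hσ) (hj _ (mul_mem (hP.sc_le (sc_mem i)) m1) j1)
    rw [commutatorElement_def, mul_assoc, mul_assoc, ← mul_assoc _ _⁻¹, ← h.ct_inv H.dd d3,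
      h.ct_conj_of H.dd (cinv d3.symm).symm d1 d1 rfl,
      ← h.ct_mul H.dd d3 (cc (cc d1.symm (cinv d3.symm)) (cinv d1.symm)).symm, ← mul_assoc,
      ← mul_assoc, mul_assoc (ga _), ← cinv (h.ga_comm j1 rfl), mul_inv_rev, inv_inv, ← mul_assoc,
      mul_assoc (ga _) (_ * _) (ga _), inv_mul_cancel_right, h.ga_anti j2 an, mul_inv_cancel_right] at this
    rw [Subgroup.mem_comap, show hF.psi (un (mA i)) = ct K d (sc K E i * y') from Units.ext ?_]
    · exact this
    rw [hF.psi_val, un_mA hi', v1, fm_apply]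
    simp [mA, Fin.sum_univ_three, Matrix.one_fin_three, mul_assoc, mul_sub, b1, b2, a1, a2, sub_mul,
      a3, a4, a5, mv a3.symm, mv a4.symm, mv a5.symm, b3 a6, b3 a7, a6, a7, k1, k2]
    module
  · rw [un_mC hi' h.two, v4, fm_apply]
    simp [mC, Fin.sum_univ_three, Matrix.one_fin_three, mul_assoc, mul_sub, b1, b2, a1, a2, sub_mul,
      a3, a4, a5, mv a3.symm, mv a4.symm, mv a5.symm, b3 a6, b3 a7, a6, a7, k1, k2, mul_add, add_mul]
    have := h.two
    match_scalars <;> field_simp <;> 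
      first | ring1 | linear_combination hi' | linear_combination -hi' | linear_combination 2 * hi'
  · rw [un_mS, v2, fm_apply]
    simp [mS, Fin.sum_univ_three, Matrix.one_fin_three, mul_assoc, mul_sub, b1, b2, a1, a2, sub_mul,
      a3, a4, a5, mv a3.symm, mv a4.symm, mv a5.symm, b3 a6, b3 a7, a6, a7, k1, k2]
    abel
  · rw [un_mT, v3, fm_apply]
    simp [mT, Fin.sum_univ_three, Matrix.one_fin_three, mul_assoc, mul_sub, b1, b2, a1, a2, sub_mul,
      a3, a4, a5, mv a3.symm, mv a4.symm, mv a5.symm, b3 a6, b3 a7, a6, a7, k1, k2]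
    abel

end H60.Cl
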