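import Cfsg.Agent.H60.PauSp

/-! Pauli groups: splitting off a hyperbolic pair; the gates generate the Clifford group. -/

set_option autoImplicit false
set_option linter.unusedSectionVars false

namespace H60.Cl

open scoped commutatorElement

variable {K E : Type*} [Field K] [Ring E] [Algebra K E] [Finite E]
variable {τ : E →ₗ[K] K} {P : Subgroup Eˣ} {x y z d g j u v : Eˣ}

/-- an involution of `P` and an element anticommuting with it -/
structure Hyp (P : Subgroup Eˣ) (d x : Eˣ) : Prop where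
  hd : d ∈ P
  hx : x ∈ P
  dd : d * d = 1
  an : d * x = -(x * d)

/-- the centraliser of a pair -/
def P1 (P : Subgroup Eˣ) (d x : Eˣ) : Subgroup Eˣ := Ce (Ce P d) x

theorem mem_P1 : u ∈ P1 P d x ↔ (u ∈ P ∧ u * d = d * u) ∧ u * x = x * u :=
  mem_Ce.trans (and_congr_left fun _ => mem_Ce)

theorem P1_le : P1 P d x ≤ P := Ce_le.trans Ce_le

theorem P1_neg : P1 P (-d) x = P1 P d x := by
  ext u; simp [mem_P1]

theorem Hyp.neg (H : Hyp P d x) (hP : Pau K P) : Hyp P (-d) x :=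
  ⟨hP.neg_mem H.hd, H.hx, by simp [H.dd], by simp [H.an]⟩

theorem Pau.decomp (hP : Pau K P) (hd : d ∈ P) (hx : x ∈ P) (an : d * x = -(x * d)) {w : Eˣ}
    (hw : w ∈ P) :
    w ∈ P1 P d x ∨ w * d ∈ P1 P d x ∨ w * x ∈ P1 P d x ∨ w * (d * x) ∈ P1 P d x := by
  rcases hP.comm d hd w hw with a | a <;> rcases hP.comm x hx w hw with b | b
  · exact Or.inl (mem_P1.2 ⟨⟨hw, a.symm⟩, b.symm⟩)
  · exact Or.inr (Or.inl (mem_P1.2 ⟨⟨mul_mem hw hd, (cc a rfl).symm⟩, (aa b (anti_symm an)).symm⟩))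
  · exact Or.inr (Or.inr (Or.inl (mem_P1.2 ⟨⟨mul_mem hw hx, (aa a an).symm⟩, (cc b rfl).symm⟩)))
  · exact Or.inr (Or.inr (Or.inr (mem_P1.2 ⟨⟨mul_mem hw (mul_mem hd hx), (aa a (ca rfl an)).symm⟩,
      (aa b (ac (anti_symm an) rfl)).symm⟩)))

theorem Pau.comm_of_P1 (hP : Pau K P) (hd : d ∈ P) (hx : x ∈ P) (an : d * x = -(x * d))
    (h1 : g * d = d * g) (h2 : g * x = x * g) (h : ∀ y ∈ P1 P d x, g * y = y * g) :
    ∀ y ∈ P, g * y = y * g := fun y hy => by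
  rcases hP.decomp hd hx an hy with e | e | e | e
  · exact h _ e
  · simpa using cc (h _ e) (cinv h1)
  · simpa using cc (h _ e) (cinv h2)
  · simpa only [mul_inv_cancel_right] using cc (h _ e) (cinv (cc h1 h2))

theorem Pau.p1 (hP : Pau K P) (hd : d ∈ P) (hx : x ∈ P) (an : d * x = -(x * d)) :
    Pau K (P1 P d x) where
  sc_le _ hz := mem_P1.2 ⟨⟨hP.sc_le hz, Zs_comm hz _⟩, Zs_comm hz _⟩
  comm a ha b hb := hP.comm a (P1_le ha) b (P1_le hb)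
  sq a ha := hP.sq a (P1_le ha)
  nd a ha h := hP.nd a (P1_le ha) (hP.comm_of_P1 hd hx an (mem_P1.1 ha).1.2 (mem_P1.1 ha).2 h)

theorem Amb.P1_lt (h : Amb τ) (hd : d ∈ P) (an : d * x = -(x * d)) : P1 P d x < P :=
  lt_of_le_not_ge P1_le fun hle => h.not_anti (mem_P1.1 (hle hd)).2 an

theorem card_lt {G : Type*} [Group G] [Finite G] {A B : Subgroup G} (h : A < B) :
    Nat.card A < Nat.card B :=
  lt_of_le_of_ne (Subgroup.card_le_of_le h.le) fun e =>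
    h.ne (Subgroup.eq_of_le_of_card_ge h.le e.ge)

theorem mem_Nm_of_P1 (hP : Pau K P) (hd : d ∈ P) (hx : x ∈ P) (an : d * x = -(x * d))
    (h1 : g * d * g⁻¹ ∈ P) (h2 : g * x * g⁻¹ ∈ P) (h : ∀ y ∈ P1 P d x, g * y * g⁻¹ ∈ P) :
    g ∈ Nm P := mem_Nm fun y hy => by
  let H := P.comap (MulAut.conj g).toMonoidHom
  have e1 : d ∈ H := h1
  have e2 : x ∈ H := h2
  change y ∈ H
  rcases hP.decomp hd hx an hy with e | e | e | e
  · exact h _ e
  · exact (H.mul_mem_cancel_right e1).1 (h _ e)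
  · exact (H.mul_mem_cancel_right e2).1 (h _ e)
  · exact (H.mul_mem_cancel_right (mul_mem e1 e2)).1 (h _ e)

theorem Al_P1_d {a : E} (ha : a ∈ Al K (P1 P d x)) : a * d = d * a :=
  Al_comm ha fun _ hy => comm_val (mem_P1.1 hy).1.2

theorem Al_P1_x {a : E} (ha : a ∈ Al K (P1 P d x)) : a * x = x * a :=
  Al_comm ha fun _ hy => comm_val (mem_P1.1 hy).2

theorem Un_P1_d (hu : u ∈ Un K (P1 P d x)) : u * d = d * u := Units.ext (Al_P1_d hu.1)

theorem Un_P1_x (hu : u ∈ Un K (P1 P d x)) : u * x = x * u := Units.ext (Al_P1_x hu.1)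

theorem Hyp.comp (H : Hyp P d x) (hP : Pau K P) (h : Amb τ) {a : E} (ha : a ∈ Al K P) :
    ∃ b ∈ Al K (P1 P d x), ee K d * a * ee K d = b * ee K d := by
  refine Al_ind (p := fun a => ∃ b ∈ Al K (P1 P d x), ee K d * a * ee K d = b * ee K d) ha
    (fun y hy => ?_) ⟨0, zero_mem _, by simp⟩ ?_ ?_
  · rcases hP.comm y hy d H.hd with e | e
    · rw [← ee_comm (comm_val e), mul_assoc, h.ee_sq H.dd]
      rcases hP.comm x H.hx y hy with e' | e'
      · exact ⟨y, val_mem_Al (mem_P1.2 ⟨⟨hy, e⟩, e'.symm⟩), rfl⟩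
      · exact ⟨(y * d : Eˣ), val_mem_Al (mem_P1.2 ⟨⟨mul_mem hy H.hd, (cc e.symm rfl).symm⟩,
          (aa e' (anti_symm H.an)).symm⟩), by rw [Units.val_mul, mul_assoc, mul_ee H.dd]⟩
    · exact ⟨0, zero_mem _, by
        rw [mul_assoc, h.ee_anti (anti_val e), ← mul_assoc, h.ee_mul_compl H.dd]; simp⟩
  · rintro a b - - ⟨a', ha', e1⟩ ⟨b', hb', e2⟩
    exact ⟨a' + b', add_mem ha' hb', by rw [mul_add, add_mul, e1, e2, add_mul]⟩
  · rintro c a - ⟨a', ha', e1⟩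
    exact ⟨c • a', Subalgebra.smul_mem _ ha' c, by rw [mul_smul_comm, smul_mul_assoc, e1, smul_mul_assoc]⟩

theorem Amb.flip (h : Amb τ) (an : d * x = -(x * d)) {a b : E} (ha : a * x = x * a)
    (hb : b * x = x * b) (e : a * ee K d = b * ee K d) : a * (1 - ee K d) = b * (1 - ee K d) := by
  rw [← Units.mul_left_inj x, mul_assoc, mul_assoc, ← h.ee_anti (anti_val (anti_symm an)),
    ← mul_assoc, ← mul_assoc, ha, hb, mul_assoc, mul_assoc, e]

theorem Amb.inj (h : Amb τ) (an : d * x = -(x * d)) {a b : E} (ha : a * x = x * a)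
    (hb : b * x = x * b) (e : a * ee K d = b * ee K d) : a = b := by
  have := h.flip an ha hb e
  rwa [mul_sub, mul_sub, e, sub_left_inj, mul_one, mul_one] at this

theorem Hyp.part (H : Hyp P d x) (hP : Pau K P) (h : Amb τ) (hg : g ∈ Un K P)
    (hc : g * d = d * g) : ∃ u ∈ Un K (P1 P d x), (g : E) * ee K d = u * ee K d := by
  obtain ⟨a, ha, e1⟩ := H.comp hP h hg.1
  obtain ⟨b, hb, e2⟩ := H.comp hP h hg.2
  rw [← ee_comm (comm_val hc), mul_assoc, h.ee_sq H.dd] at e1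
  rw [← ee_comm (comm_val (cinv hc.symm).symm), mul_assoc, h.ee_sq H.dd] at e2
  have key : ∀ {g : Eˣ} {a b : E}, a ∈ Al K (P1 P d x) → b ∈ Al K (P1 P d x) →
      (g : E) * ee K d = a * ee K d → ↑g⁻¹ * ee K d = b * ee K d → b * a = 1 := by
    intro g a b ha hb e1 e2
    refine h.inj H.an (Al_P1_x (mul_mem hb ha)) (by simp) ?_
    rw [mul_assoc, ee_comm (Al_P1_d ha), ← mul_assoc, ← e2, mul_assoc, ← ee_comm (Al_P1_d ha), ← e1]
    simp
  exact ⟨⟨a, b, key (g := g⁻¹) hb ha e2 e1, key ha hb e1 e2⟩, ⟨ha, hb⟩, e1⟩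

theorem Hyp.mem_Un (H : Hyp P d x) (hP : Pau K P) (h : Amb τ) (hg : g ∈ Un K P)
    (hc : g * d = d * g) (hx : g * x = x * g) : g ∈ Un K (P1 P d x) := by
  obtain ⟨u, hu, e⟩ := H.part hP h hg hc
  rwa [show g = u from Units.ext (h.inj H.an (comm_val hx) (Al_P1_x hu.1) e)]

theorem Amb.eq_mul_ct (h : Amb τ) (hd : d * d = 1) (hu : u * d = d * u) (hv : v * d = d * v)
    (e1 : (g : E) * ee K d = u * ee K d) (e2 : (g : E) * (1 - ee K d) = v * (1 - ee K d)) :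
    g = v * ct K d (v⁻¹ * u) := by
  refine Units.ext ?_
  rw [Units.val_mul, h.ct_val hd (cc (cinv hv.symm) hu.symm).symm, mul_add, ← e2, ← mul_assoc,
    ← Units.val_mul, mul_inv_cancel_left, ← e1]
  simp [mul_sub]

/-! ### the linear type -/

variable (K) in
/-- every element is a scalar multiple of an involution and of a square root of `-1` -/
structure Lin (P : Subgroup Eˣ) : Prop where
  pos : ∀ x ∈ P, ∃ c ∈ Zs K E, c * x * (c * x) = 1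
  neg : ∀ x ∈ P, ∃ c ∈ Zs K E, c * x * (c * x) = -1

theorem Lin.mono (h : Lin K P) {Q : Subgroup Eˣ} (hQ : Q ≤ P) : Lin K Q :=
  ⟨fun x hx => h.pos x (hQ hx), fun x hx => h.neg x (hQ hx)⟩

theorem sc_anti {c : Eˣ} (hc : c ∈ Zs K E) (h : x * y = -(y * x)) : c * x * y = -(y * (c * x)) :=
  anti_symm (ca (Zs_comm hc y).symm (anti_symm h))

theorem sc_comm' {c : Eˣ} (hc : c ∈ Zs K E) (h : x * y = y * x) : c * x * y = y * (c * x) :=
  (cc (Zs_comm hc y).symm h.symm).symm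

theorem Lin.exists_hyp (hL : Lin K P) (hP : Pau K P) (hn : ¬ P ≤ Zs K E) :
    ∃ d x, Hyp P d x ∧ x * x = 1 := by
  obtain ⟨d, hd, hd'⟩ := SetLike.not_le_iff_exists.1 hn
  obtain ⟨x, hx, e⟩ := hP.exists_anti hd hd'
  obtain ⟨c, hc, e1⟩ := hL.pos d hd
  obtain ⟨c', hc', e2⟩ := hL.pos x hx
  exact ⟨c * d, c' * x, ⟨mul_mem (hP.sc_le hc) hd, mul_mem (hP.sc_le hc') hx, e1,
    sc_anti hc (anti_symm (sc_anti hc' e))⟩, e2⟩

/-- `G` contains all gates -/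
def Gates (P G : Subgroup Eˣ) : Prop := ∀ j ∈ P, j * j = -1 → ga j ∈ G

theorem Gates.mono {G Q : Subgroup Eˣ} (h : Gates P G) (hQ : Q ≤ P) : Gates Q G :=
  fun j hj => h j (hQ hj)

theorem Gates.inf {G : Subgroup Eˣ} (hG : Gates P G) (hP : Pau K P) (h : Amb τ) :
    Gates P (G ⊓ (Nm P ⊓ Un K P)) := fun j hj e => ⟨hG j hj e, hP.ga_Nm h e hj, h.ga_Un e hj⟩

theorem Gates.move {G : Subgroup Eˣ} (hG : Gates P G) (h : Amb τ) (hx : x ∈ P) (hy : y ∈ P)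
    (h1 : x * y = -(y * x)) (h2 : x * x = y * y) : ∃ s ∈ G, s * x * s⁻¹ = y ∧
      ∀ d, d * x = -(x * d) → d * y = -(y * d) → d * s = s * d :=
  ⟨_, hG _ (mul_mem hy (inv_mem hx)) (move_sq h1 h2), h.move h1 h2,
    fun _ a b => h.ga_comm (move_sq h1 h2) (aa b (ainv a))⟩

theorem Gates.trans {G : Subgroup Eˣ} (hG : Gates P G) (hP : Pau K P) (hL : Lin K P) (h : Amb τ)
    (hx : x ∈ P) (hx' : x ∉ Zs K E) (hy : y ∈ P) (hy' : y ∉ Zs K E) (h1 : x * x = 1)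
    (h2 : y * y = 1) : ∃ s ∈ G, s * x * s⁻¹ = y := by
  obtain ⟨w, hw, a1, a2⟩ := hP.exists_anti2 hx hx' hy hy'
  obtain ⟨c, hc, e⟩ := hL.pos w hw
  have hw' := mul_mem (hP.sc_le hc) hw
  obtain ⟨s, hs, b, -⟩ := hG.move h hx hw' (anti_symm (sc_anti hc a1)) (h1.trans e.symm)
  obtain ⟨t, ht, b', -⟩ := hG.move h hw' hy (sc_anti hc a2) (e.trans h2.symm)
  exact ⟨t * s, mul_mem ht hs, by rw [← b', ← b]; group⟩

theorem Gates.trans2 {G : Subgroup Eˣ} (hG : Gates P G) (hP : Pau K P) (hL : Lin K P) (h : Amb τ)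
    (H : Hyp P d x) (H' : Hyp P d y) (h1 : x * x = 1) (h2 : y * y = 1) :
    ∃ s ∈ G, s * x * s⁻¹ = y ∧ d * s = s * d := by
  rcases hP.comm x H.hx y H'.hx with a | a
  · obtain ⟨c, hc, e⟩ := hL.pos _ (mul_mem H.hd H.hx)
    have hw' := mul_mem (hP.sc_le hc) (mul_mem H.hd H.hx)
    have a0 := anti_symm (sc_anti hc (anti_symm (ca rfl H.an)))
    obtain ⟨s, hs, b, b1⟩ := hG.move h H.hx hw'
      (anti_symm (sc_anti hc (anti_symm (ac (anti_symm H.an) rfl)))) (h1.trans e.symm)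
    obtain ⟨t, ht, b', b2⟩ := hG.move h hw' H'.hx
      (sc_anti hc (anti_symm (ac (anti_symm H'.an) a.symm))) (e.trans h2.symm)
    exact ⟨t * s, mul_mem ht hs, by rw [← b', ← b]; group, cc (b2 d a0 H'.an) (b1 d H.an a0)⟩
  · obtain ⟨s, hs, b, b1⟩ := hG.move h H.hx H'.hx a (h1.trans h2.symm)
    exact ⟨s, hs, b, b1 d H.an H'.an⟩

theorem conj_sq {c : Eˣ} (g : Eˣ) (h : x * x = c) (hc : c ∈ Zs K E) :
    g * x * g⁻¹ * (g * x * g⁻¹) = c := by rw [conj_mul, h, ← Zs_comm hc, mul_inv_cancel_right]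

theorem Nm_P1 (hg : g ∈ Nm P) (h1 : g * d = d * g) (h2 : g * x = x * g) : g ∈ Nm (P1 P d x) :=
  mem_Nm fun y hy => mem_P1.2 ⟨⟨Nm_conj hg (P1_le hy), by
    simpa only [conj_of_comm h1] using conj_comm g (mem_P1.1 hy).1.2⟩, by
    simpa only [conj_of_comm h2] using conj_comm g (mem_P1.1 hy).2⟩

/-- the gates generate the Clifford group -/
theorem Gates.gen (h : Amb τ) {G : Subgroup Eˣ} : ∀ (n : ℕ) (P : Subgroup Eˣ), Nat.card P = n →
    Pau K P → Lin K P → P ≤ G → Gates P G → ∀ g ∈ Nm P, g ∈ Un K P → g ∈ G := by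
  intro n
  induction n using Nat.strong_induction_on with
  | _ n ih =>
  intro P hn hP hL hPG hG g hg hgU
  by_cases h0 : P ≤ Zs K E
  · exact hPG (hP.sc_le (hP.mem_Zs_of_comm h hgU fun y hy => Zs_comm (h0 hy) g))
  obtain ⟨d, x, H, hx⟩ := hL.exists_hyp hP h0
  have hd' := h.notMem_of_anti H.an
  obtain ⟨s, ⟨s1, s2, s3⟩, e⟩ := (hG.inf hP h).trans hP hL h H.hd hd' (Nm_conj hg H.hd)
    (mt conj_mem_Zs.1 hd') H.dd (conj_sq g H.dd (one_mem (Zs K E)))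
  have c1 : s⁻¹ * g * d * (s⁻¹ * g)⁻¹ = d := by
    rw [mul_inv_rev, mul_assoc s⁻¹, ← mul_assoc, mul_assoc s⁻¹, ← e]; group
  have n1 := (Nm P).mul_mem ((Nm P).inv_mem s2) hg
  obtain ⟨t, ⟨t1, t2, t3⟩, e', c2⟩ := (hG.inf hP h).trans2 hP hL h H
    ⟨H.hd, Nm_conj n1 H.hx, H.dd, by simpa only [c1] using conj_anti (s⁻¹ * g) H.an⟩ hx
    (conj_sq _ hx (one_mem (Zs K E)))
  have c3 : t⁻¹ * (s⁻¹ * g) * d = d * (t⁻¹ * (s⁻¹ * g)) :=
    (cc (cinv c2) (mul_inv_eq_iff_eq_mul.1 c1).symm).symm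
  have c4 : t⁻¹ * (s⁻¹ * g) * x = x * (t⁻¹ * (s⁻¹ * g)) := by
    rw [mul_assoc, eq_mul_of_mul_inv_eq e'.symm]; group
  have := ih _ (hn ▸ card_lt (h.P1_lt H.hd H.an)) _ rfl (hP.p1 H.hd H.hx H.an)
    (hL.mono P1_le) (P1_le.trans hPG) (hG.mono P1_le) _
    (Nm_P1 ((Nm P).mul_mem ((Nm P).inv_mem t2) n1) c3 c4)
    (H.mem_Un hP h ((Un K P).mul_mem ((Un K P).inv_mem t3) ((Un K P).mul_mem ((Un K P).inv_mem s3) hgU)) c3 c4)
  exact (G.mul_mem_cancel_left (G.inv_mem s1)).1 ((G.mul_mem_cancel_left (G.inv_mem t1)).1 this)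

end H60.Cl
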