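import Cfsg.Agent.H60.L3Cert2

/-! The standard extraspecial group of order 27 and the overgroups of its normaliser. -/

set_option autoImplicit false
set_option linter.unusedSectionVars false

namespace H60.L3

open Matrix hiding mul_inv_rev
open Cfsg Cfsg.Geo H25 Module H59
open scoped MatrixGroups commutatorElement

variable {F : Type*} [Field F] [Fintype F] {ω : Fˣ} {H K M S Γ : Subgroup (G3 F)}

theorem cube_of_comm {a : Fˣ} {g k : G3 F} (h : ⁅g, k⁆ = D a a a) : a ^ 3 = 1 := by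
  have h1 : ⁅g, k⁆ ∈ S3 F := mem_specialLinear.2 (by
    have : GeneralLinearGroup.det ⁅g, k⁆ = 1 := by
      rw [map_commutatorElement, commutatorElement_eq_one_iff_mul_comm, mul_comm]
    exact congrArg Units.val this)
  exact (D_eq_one (D_pow a a a 3 ▸ h ▸ cube_eq_one_of_scalar (h ▸ D_mem_scalars.2 ⟨rfl, rfl⟩) h1)).1

theorem comm_R6 (h : Om ω) {x y : G3 F} (hx : x ∈ R6 ω) (hy : y ∈ R6 ω) :
    ⁅x, y⁆ ∈ scalars (Fin 3) F := by
  let π := QuotientGroup.mk' (scalars (Fin 3) F)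
  have key : ∀ x y : G3 F, ⁅x, y⁆ ∈ scalars (Fin 3) F ↔ Commute (π x) (π y) := fun x y => by
    rw [← commutatorElement_eq_one_iff_commute, ← map_commutatorElement]
    exact (QuotientGroup.eq_one_iff _).symm
  have h1 := (key _ _).1 (comm_C_X h ▸ D_mem_scalars.2 ⟨rfl, rfl⟩)
  rw [key]
  induction hx, hy using Subgroup.closure_induction₂ with
  | mem x y hx hy =>
    rcases hx with rfl | rfl <;> rcases hy with rfl | rfl
    exacts [Commute.refl _, h1.symm, h1, Commute.refl _]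
  | one_left => simp
  | one_right => simp
  | mul_left _ _ _ _ _ _ a b => exact map_mul π _ _ ▸ a.mul_left b
  | mul_right _ _ _ _ _ _ a b => exact map_mul π _ _ ▸ a.mul_right b
  | inv_left _ _ _ _ a => exact map_inv π _ ▸ a.inv_left
  | inv_right _ _ _ _ a => exact map_inv π _ ▸ a.inv_right

theorem ext_R6 (h : Om ω) : Ext (R6 ω) := by
  refine ⟨spans_of_absIrr ⟨irr_iff.1 (irr_DC h.sq_ne_one X_mem_R6 C_mem_R6), fun A hA => ?_⟩,
    fun _ hx _ hy => comm_R6 h hx hy, fun x hx => ?_⟩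
  · have e1 := fun i j => congrFun (congrFun (hA _ (coe_mem_matrixSet X_mem_R6)) i) j
    have e2 := fun i j => congrFun (congrFun (hA _ (coe_mem_matrixSet C_mem_R6)) i) j
    have a1 := e1 0 1
    have a2 := e1 0 2
    have a3 := e1 1 0
    have a4 := e1 1 2
    have a5 := e1 2 0
    have a6 := e1 2 1
    have b1 := e2 1 0
    have b2 := e2 2 1
    have c1 := h.ne_one
    have c2 := h.sq_ne_one
    have c3 := ω.ne_zero
    simp [X, D_val, C_val, mul_apply, Fin.sum_univ_three] at a1 a2 a3 a4 a5 a6 b1 b2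
    refine ⟨A 0 0, ?_⟩
    ext i j; fin_cases i <;> fin_cases j <;> simp <;> grind
  · induction hx using Subgroup.closure_induction with
    | mem x hx =>
      rcases hx with rfl | rfl
      · simp [X, D_pow, h.cube, D_one]
      · exact Units.ext (by
          simp [pow_three, C_val, mul_fin_three, one_fin_three])
    | one => simp
    | inv x _ a => rw [inv_pow, a, inv_one]
    | mul x y hx hy a b =>
      obtain ⟨c, hc⟩ := exists_D_of_scalar (comm_R6 h hy hx)
      have h3 : sc (Fin 3) c ^ 3 = 1 := by rw [← map_pow, cube_of_comm hc, map_one]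
      rw [D_eq_sc] at hc
      have e : y * x = sc (Fin 3) c * (x * y) := by rw [← hc, commutatorElement_def]; group
      have f := sc_comm (ι := Fin 3) c
      generalize sc (Fin 3) c = z at *
      calc (x * y) ^ 3 = x * (y * x) * (y * x) * y := by simp only [pow_three, mul_assoc]
        _ = x * z * x * (y * z) * (x * y) * y := by rw [e]; simp only [mul_assoc]
        _ = z * z * (x * x * (y * x) * y * y) := by
          rw [← f y, ← f x, mul_assoc z, ← mul_assoc (z * (x * x)), mul_assoc z, ← f]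
          simp only [mul_assoc]
        _ = z ^ 3 * (x ^ 3 * y ^ 3) := by
          rw [e, ← mul_assoc (x * x), ← f (x * x)]; simp only [pow_three, mul_assoc]
        _ = 1 := by rw [h3, a, b]; simp

theorem w_mem_R6 (h : Om ω) {a : Fˣ} (ha : a ^ 3 = 1) : D a a a ∈ R6 ω := by
  simpa using D_mem_R6 h (a := 1) (b := a) (by simp) ha

theorem card_R6 (h : Om ω) : Nat.card (R6 ω) = 27 := by
  have hR := ext_R6 h
  have h1 : Nat.card (Subgroup.center (R6 ω)) ∣ 3 := by
    rw [← Subgroup.card_map_of_injective (f := (R6 ω).subtype) Subtype.val_injective]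
    refine card_scalars_dvd ?_ ((Subgroup.map_subtype_le _).trans ((R6_le ω).trans inf_le_right))
    rintro _ ⟨x, hx, rfl⟩
    exact (mem_center_iff_scalars hR.spans x).1 hx
  have h2 := (Nat.dvd_prime Nat.prime_three).1 h1
  rw [Subgroup.card_eq_one] at h2
  rw [card_eq_of_comm_scalar hR.spans hR.comm, h2.resolve_left fun e => ?_]
  · simp
  have := (mem_center_iff_scalars hR.spans ⟨_, w_mem_R6 h h.cube⟩).2 (D_mem_scalars.2 ⟨rfl, rfl⟩)
  rw [e, Subgroup.mem_bot] at this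
  exact h.ne_one (congrArg Units.val (D_eq_one (congrArg Subtype.val this)).1)

theorem scal_le_R6 (h : Om ω) : scalars (Fin 3) F ⊓ S3 F ≤ ⁅R6 ω, R6 ω⁆ := fun g hg => by
  obtain ⟨a, rfl⟩ := exists_D_of_scalar hg.1
  obtain ⟨k, rfl⟩ := h.exists_pow (D_eq_one (D_pow a a a 3 ▸ cube_eq_one_of_scalar hg.1 hg.2)).1
  exact D_pow ω ω ω k ▸ pow_mem (comm_C_X h ▸ Subgroup.commutator_mem_commutator C_mem_R6 X_mem_R6) k

theorem self6 (h : Om ω) {g : G3 F} (h1 : ⁅g, X ω⁆ ∈ scalars (Fin 3) F)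
    (h2 : ⁅g, C⁆ ∈ scalars (Fin 3) F) : ∃ r ∈ R6 ω, ∃ c, g = D c c c * r := by
  obtain ⟨a, ha⟩ := exists_D_of_scalar h1
  obtain ⟨k, rfl⟩ := h.exists_pow (cube_of_comm ha)
  have h3 : ∀ k : ℕ, (C ^ k) * X ω * (C ^ k)⁻¹ = D (ω ^ k) (ω ^ k) (ω ^ k) * X ω := fun k => by
    induction k with
    | zero => simp [D_one]
    | succ k ih =>
      calc _ = C * (C ^ k * X ω * (C ^ k)⁻¹) * C⁻¹ := by group
        _ = D (ω ^ k) (ω ^ k) (ω ^ k) * (⁅C, X ω⁆ * X ω) := by
          rw [ih, D_eq_sc, ← mul_assoc, ← sc_comm, commutatorElement_def]; group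
        _ = _ := by rw [comm_C_X h, ← mul_assoc, D_mul, pow_succ]
  obtain ⟨x, y, z, h4⟩ := eq_D_of_comm h.sq_ne_one (g := (C ^ k)⁻¹ * g) (by
    have := h3 k
    rw [← ha, commutatorElement_def] at this
    change _ * X ω = X ω * _
    calc _ = (C ^ k)⁻¹ * (g * X ω * g⁻¹ * (X ω)⁻¹ * X ω) * g := by group
      _ = _ := by rw [← this]; group)
  have h6 : ⁅D x y z, C⁆ ∈ scalars (Fin 3) F := by
    rw [← h4, show ⁅(C ^ k)⁻¹ * g, C⁆ = (C ^ k)⁻¹ * ⁅g, C⁆ * (C ^ k)⁻¹⁻¹ by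
      simp only [commutatorElement_def]; group]
    exact conj_mem_scalars.2 h2
  obtain ⟨b, hb⟩ := exists_D_of_scalar h6
  have h7 := cube_of_comm hb
  rw [comm_D_C] at hb
  obtain ⟨-, e1, e2⟩ := D_inj hb
  have h8 := D_mem_R6 h (a := b⁻¹) (b := 1) (by simp [h7]) (by simp)
  refine ⟨_, mul_mem (pow_mem C_mem_R6 k) h8, y, ?_⟩
  rw [D_eq_sc, ← mul_assoc, sc_comm, mul_assoc, ← D_eq_sc, D_mul, ← inv_mul_eq_iff_eq_mul, h4]
  congr 1
  · rw [← e1]; simp
  · simp
  · rw [← e2]; simp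

theorem J_not_scalar : (J : G3 F) ∉ scalars (Fin 3) F :=
  not_mem_scalars (i := 0) (j := 2) (by decide) (by simp [J_val])

theorem J_X : J * X ω * J⁻¹ = (X ω)⁻¹ := by simp [X, J_conj_D, D_inv]

theorem J_C : J * C * J⁻¹ = (C : G3 F)⁻¹ :=
  Units.ext (by rw [C_inv_val]; simp [J_inv, J_val, C_val, mul_fin_three])

theorem Ext.inv_of {R : Subgroup (G3 F)} (hR : Ext R) {d r : G3 F} (hd : d ∈ subgroupNormalizer R)
    (hd2 : d * d = 1) (hd' : d ∉ scalars (Fin 3) F) (hr : r ∈ R) :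
    d * r * d⁻¹ * r ∈ scalars (Fin 3) F := by
  by_contra h1
  have h2 : d * r * d⁻¹ ∈ R := (Subgroup.mem_normalizer_iff.1 hd r).1 hr
  refine hd' (hR.scalar_of_fix hd hd2 (R.mul_mem h2 hr) h1 ?_)
  have : ⁅d, d * r * d⁻¹ * r⁆ = (d * d) * r * (d * d)⁻¹ * r⁻¹ * ⁅r, d * r * d⁻¹⁆ := by
    simp only [commutatorElement_def]; group
  simpa [this, hd2] using hR.comm _ hr _ h2

/-- a group whose special part normalises `R6` normalises `R6` -/
theorem le_N6 (h : Om ω) (h1 : R6 ω ≤ Γ) (h2 : J ∈ Γ)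
    (h3 : Γ ⊓ S3 F ≤ subgroupNormalizer (R6 ω)) : Γ ≤ subgroupNormalizer (R6 ω) := fun g hg => by
  have hR := ext_R6 h
  have hS := (R6_le ω).trans inf_le_right
  refine Subgroup.mem_normalizer_fintype fun r hr => ?_
  have a1 : g⁻¹ * J * g⁻¹⁻¹ ∈ subgroupNormalizer (R6 ω) :=
    h3 ⟨Γ.mul_mem (mul_mem (inv_mem hg) h2) (inv_mem (inv_mem hg)),
      Subgroup.Normal.conj_mem inferInstance _ J_mem _⟩
  have a2 := (conj_mem_scalars (B := g)).2 (hR.inv_of a1 (by rw [conj_mul, J_mul_J]; simp)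
    (mt conj_mem_scalars.1 J_not_scalar) hr)
  have a3 : g * r * g⁻¹ ∈ subgroupNormalizer (R6 ω) :=
    h3 ⟨Γ.mul_mem (mul_mem hg (h1 hr)) (inv_mem hg),
      Subgroup.Normal.conj_mem inferInstance _ (hS hr) _⟩
  have a4 : (g * r * g⁻¹) ^ 3 = 1 := by rw [conj_pow', hR.cube r hr]; simp
  replace a2 : J * (g * r * g⁻¹) * J⁻¹ * (g * r * g⁻¹) ∈ scalars (Fin 3) F := by
    convert a2 using 1; group
  generalize g * r * g⁻¹ = x at *
  let π := QuotientGroup.mk' (scalars (Fin 3) F)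
  have key : ∀ y : G3 F, y ∈ scalars (Fin 3) F ↔ π y = 1 := fun y =>
    (QuotientGroup.eq_one_iff _).symm
  have a5 : ∀ y ∈ R6 ω, π J * π y * (π J)⁻¹ = (π y)⁻¹ := fun y hy => by
    have := (key _).1 (hR.inv_of (h3 ⟨h2, J_mem⟩) J_mul_J J_not_scalar hy)
    simp only [map_mul, map_inv] at this
    exact eq_inv_of_mul_eq_one_left this
  have a6 : ∀ y ∈ R6 ω, ⁅x, y⁆ ∈ scalars (Fin 3) F := fun y hy => by
    have b1 := a5 _ ((Subgroup.mem_normalizer_iff.1 a3 y).1 hy)
    have b2 := a5 y hy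
    have b3 := (key _).1 a2
    have b4 := congrArg π a4
    simp only [key, map_mul, map_inv, map_pow, map_one, map_commutatorElement] at b1 b3 b4 ⊢
    generalize π J = j at *
    generalize π x = a at *
    generalize π y = b at *
    have b5 : j * a * j⁻¹ = a⁻¹ := eq_inv_of_mul_eq_one_left b3
    have b6 : a⁻¹ * b⁻¹ * a = a * b⁻¹ * a⁻¹ := by
      calc _ = (j * a * j⁻¹) * (j * b * j⁻¹) * (j * a * j⁻¹)⁻¹ := by rw [b5, b2, inv_inv]
        _ = j * (a * b * a⁻¹) * j⁻¹ := by group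
        _ = _ := by rw [b1]; group
    have b7 : Commute (a * a) b⁻¹ := by
      calc a * a * b⁻¹ = a * (a * b⁻¹ * a⁻¹) * a := by group
        _ = b⁻¹ * (a * a) := by rw [← b6]; group
    have b8 := (b7.mul_left b7).inv_right
    rwa [mul_assoc a, ← pow_three, b4, mul_one, inv_inv, ← commutatorElement_eq_one_iff_commute] at b8
  obtain ⟨s, hs, c, rfl⟩ := self6 h (a6 _ X_mem_R6) (a6 _ C_mem_R6)
  refine mul_mem (w_mem_R6 h ?_) hs
  rw [D_eq_sc, (show Commute (sc (Fin 3) c) s from sc_comm c s).mul_pow, hR.cube s hs, mul_one,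
    ← D_eq_sc, D_pow] at a4
  exact (D_eq_one a4).1

end H60.L3
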