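/- Tensor-induced subgroups (class C7): transport to the statements. -/
import Cfsg.Agent.H60.WrTop

set_option autoImplicit false

namespace H60.Wr
open Cfsg Cfsg.Geo Matrix H19 Module
open scoped MatrixGroups commutatorElement

universe u

variable {F : Type u} [Field F] {k t : ℕ} {ι : Type} [Fintype ι] [DecidableEq ι]
  {e : ι ≃ (Fin t → Fin k)} {P : GL ι F} {B : Frm (Fin k) F}

theorem map_tr {G₀ : Subgroup (GG k t F)} {G : Subgroup (GL ι F)}
    (h : ∀ g, trGL e P g ∈ G ↔ g ∈ G₀) : G = G₀.map (trGL e P).toMonoidHom := by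
  ext g
  obtain ⟨g, rfl⟩ := (trGL e P).surjective g
  exact (h g).trans (Subgroup.mem_map_iff_mem (f := (trGL e P).toMonoidHom)
    (trGL e P).injective).symm

theorem max_tr {G₀ : Subgroup (GG k t F)} {G : Subgroup (GL ι F)}
    (hG : G = G₀.map (trGL e P).toMonoidHom) (h : IsMaximalIn G₀ (TT k t F ⊓ G₀)) :
    IsMaximalIn G (tensorWreathSubgroup k t e P ⊓ G) := by
  have := isMaximalIn_map (trGL e P).toMonoidHom (trGL e P).injective h
  rwa [Subgroup.map_inf _ _ _ (trGL e P).injective, ← hG, ← map_tr (G := tensorWreathSubgroup k t e P)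
    fun g => by rw [tensorWreathSubgroup, mem_map_map_iff, MulEquiv.symm_apply_apply]] at this

theorem tr_SL (g : GG k t F) :
    trGL e P g ∈ specialLinear ι F ↔ g ∈ specialLinear (Fin t → Fin k) F := by
  rw [mem_SL, mem_SL, coe_trGL, tr_apply, cj_apply, det_units_conj, det_submatrix_equiv_self]

theorem tr_form {f : (ι → F) → (ι → F) → F} {σ : F → F} (hσ : ∀ a, B.σ a = σ a)
    (hT : IsTensorPowerFormStructure σ f B.f e P) :
    ∃ c : F, c ≠ 0 ∧ ∀ x y, f (trV e P x) (trV e P y) = c * (B.pow t).f x y := by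
  obtain ⟨c, c0, h⟩ := hT
  refine ⟨c, c0, fun x y => ?_⟩
  rw [trV_apply, trV_apply, h, (B.pow t).eq_formOfGram, B.gram_pow, formOfGram]
  simp only [pure_apply, pow_sig, hσ]

theorem tr_iso {f : (ι → F) → (ι → F) → F} {σ : F → F} (hσ : ∀ a, B.σ a = σ a)
    (hT : IsTensorPowerFormStructure σ f B.f e P) (g : GG k t F) :
    (∀ u v, f ((trGL e P g : Matrix ι ι F) *ᵥ u) ((trGL e P g : Matrix ι ι F) *ᵥ v) = f u v) ↔
      g ∈ (B.pow t).Iso := by
  obtain ⟨c, c0, h⟩ := tr_form hσ hT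
  simp only [(trV e P).surjective.forall, coe_trGL, tr_mulVec, h, Frm.mem_Iso, mul_right_inj' c0]

theorem tr_omega (Q : QuadraticForm F (ι → F)) : omegaGL ⇑Q =
    (omegaGL ⇑(Q.comp (trV e P).toLinearMap)).map (trGL e P).toMonoidHom := by
  rw [omegaGL_comm, omegaGL_comm, Subgroup.map_commutator, ← map_tr (G := isometryGroup F ⇑Q)]
  intro g
  simp only [mem_isometryGroup, (trV e P).surjective.forall, coe_trGL, tr_mulVec]
  rfl

theorem card_eq (e : ι ≃ (Fin t → Fin k)) : Fintype.card ι = k ^ t := by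
  simpa using Fintype.card_congr e

theorem exists_big [Fintype F] (h2 : Odd (Fintype.card F)) (h3 : Fintype.card F ≠ 3) :
    ∃ a : F, a ≠ 0 ∧ a ^ 2 ≠ 1 := by
  classical
  by_contra! h
  have : (Finset.univ : Finset F) ⊆ {0, 1, -1} := fun a _ => by
    by_cases h0 : a = 0
    · simp [h0]
    · rcases sq_eq_one_iff.1 (h a h0) with h | h <;> simp [h]
  have h4 := (Finset.card_le_card this).trans Finset.card_le_three
  have h5 := Fintype.one_lt_card (α := F)
  rw [Finset.card_univ] at h4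
  rw [Nat.odd_iff] at h2
  omega

theorem two_le_of_pow (h : 2 ≤ k ^ t) : 2 ≤ k := by
  by_contra h'
  have : k ^ t ≤ 1 := pow_le_one₀ (by omega) (by omega)
  omega

variable [Fintype F]

theorem row_SL (C : Core.{u}) (hQ : JobSLQ.{u}) (hG : JobSLG.{u}) (hk : 3 ≤ k) (ht : 2 ≤ t)
    (e : ι ≃ (Fin t → Fin k)) (P : GL ι F) :
    IsMaximalIn (specialLinear ι F) (tensorWreathSubgroup k t e P ⊓ specialLinear ι F) :=
  max_tr (map_tr tr_SL) (max_SL C hQ hG hk ht)

theorem row_SU (C : Core.{u}) (hF : JobGFU.{u}) (hQ : JobUQ.{u}) (hE : JobUEnd.{u})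
    (hG : JobUG.{u}) {n q : ℕ} (hq : Fintype.card F = q ^ 2) (hk : 3 ≤ k) (ht : 2 ≤ t)
    (hex : ¬ (q = 2 ∧ k = 3)) (e : Fin n ≃ (Fin t → Fin k)) (P : GL (Fin n) F)
    {f₁ : (Fin k → F) → (Fin k → F) → F} (hf : IsUnitaryFormPow q f₁)
    (hT : IsTensorPowerFormStructure (fun x : F => x ^ q) (hermForm n F q) f₁ e P) :
    IsMaximalIn (GU n F q ⊓ specialLinear (Fin n) F)
      (tensorWreathSubgroup k t e P ⊓ (GU n F q ⊓ specialLinear (Fin n) F)) := by
  let σ : F ≃+* F := RingEquiv.ofBijective (H59.frob hq) (H59.conj_bijective (H59.frob_frob hq))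
  have sig : ∃ a, σ a ≠ a := H59.exists_not_fixed (H59.frob_ne_id hq)
  let B := Frm.ofUnitary (σ := σ) (f := f₁) ⟨fun h => by simp [h] at sig, H59.frob_frob hq,
    hf.add_left, hf.smul_left, hf.herm, hf.nondegenerate⟩
  refine max_tr (map_tr (G₀ := _ ⊓ _) fun g =>
    and_congr (tr_iso (B := B) (fun _ => rfl) hT g) (tr_SL g))
    (max_SU (B := B) C hF hQ hE hG sig rfl ?_ ht)
  by_cases k4 : 4 ≤ k
  · exact Or.inl k4
  refine Or.inr ⟨by omega, ?_⟩
  by_contra! h
  have h1 := H59.card_fixed hq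
  have h2 := H59.two_le_q hq
  have h3 : Nat.card {x : F // x ^ q = x} ≤ Nat.card Bool := by
    classical
    refine Nat.card_le_card_of_injective (fun x => decide (x.1 = 0)) fun x y e => Subtype.ext ?_
    by_cases hx : x.1 = 0
    · rw [hx, eq_comm]; simpa [hx] using e
    · rw [h x.1 x.2 hx, h y.1 y.2 (by simpa [hx] using e)]
  simp only [Nat.card_eq_fintype_card, Fintype.card_bool] at h3
  exact hex ⟨by omega, by omega⟩

theorem sp_dim {f₁ : (Fin k → F) → (Fin k → F) → F} (hf : IsSymplecticForm f₁) (h : 2 ≤ k ^ t) :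
    4 ≤ k ∨ k = 2 := by
  have h1 := two_le_of_pow h
  have h2 := (Frm.ofSymplectic hf).even_of_alt rfl hf.alternating
  rw [Fintype.card_fin, Nat.even_iff] at h2
  omega

theorem row_Sp (J : BJ.{u}) {m : ℕ} (hm : 0 < m) (hodd : Odd (Fintype.card F)) (ht : Odd t)
    (ht3 : 3 ≤ t) (hex : ¬ (Fintype.card F = 3 ∧ k = 2)) (e : (Fin m ⊕ Fin m) ≃ (Fin t → Fin k))
    (P : GL (Fin m ⊕ Fin m) F) {f₁ : (Fin k → F) → (Fin k → F) → F} (hf : IsSymplecticForm f₁)
    (hT : IsTensorPowerFormStructure id (sympForm m F) f₁ e P) :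
    IsMaximalIn (spGL m F) (tensorWreathSubgroup k t e P ⊓ spGL m F) :=
  max_tr (map_tr fun g => tr_iso (B := Frm.ofSymplectic hf) (fun _ => rfl) hT g)
    (max_Sp J (fun _ => rfl) hf.alternating rfl (two_ne_zero_of_odd hodd)
      ((sp_dim (t := t) hf (by rw [← card_eq e]; simp; omega)).imp id fun h =>
        ⟨h, exists_big hodd fun h' => hex ⟨h', h⟩⟩) ht ht3)

omit [Fintype F] in
theorem qf_of {Q : QuadraticForm F (ι → F)} (sig : ∀ a, B.σ a = a)
    (hT : IsTensorPowerFormStructure id (QuadraticMap.polar ⇑Q) B.f e P)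
    (h : (2 : F) ≠ 0 ∨ ∀ x, Q (trV e P (pv x)) = 0) : QF B (Q.comp (trV e P).toLinearMap) := by
  obtain ⟨c, c0, e1⟩ := tr_form sig hT
  refine ⟨⟨c, c0, fun u v => by rw [← e1]; simp [QuadraticMap.polar]⟩, fun x j hx => ?_⟩
  rcases h with h | h
  · have := e1 (pv x) (pv x)
    rw [QuadraticMap.polar_self, f_pv, Finset.prod_eq_zero (Finset.mem_univ j) hx, mul_zero,
      two_nsmul, ← two_mul] at this
    exact (mul_eq_zero.1 this).resolve_left h
  · exact h x

theorem row_OSp (J : BJ.{u}) (hn : 5 ≤ Fintype.card ι) {q : (ι → F) → F}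
    (hQ : IsNondegenerateQuadraticForm q) (ht : 2 ≤ t) (hqt : Odd (Fintype.card F) → Even t)
    (hex : ¬ (Fintype.card F = 3 ∧ k = 2)) (hex3 : ¬ Odd (Fintype.card F) → 6 ≤ k)
    (e : ι ≃ (Fin t → Fin k)) (P : GL ι F) {f₁ : (Fin k → F) → (Fin k → F) → F}
    (hf : IsSymplecticForm f₁) (hT : IsTensorPowerFormStructure id (QuadraticMap.polar q) f₁ e P)
    (hp : ∀ xs : Fin t → Fin k → F,
      q ((P : Matrix ι ι F) *ᵥ ((fun a : Fin t → Fin k => ∏ i, xs i (a i)) ∘ e)) = 0) :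
    IsMaximalIn (omegaGL q) (tensorWreathSubgroup k t e P ⊓ omegaGL q) := by
  obtain ⟨Q, rfl, -⟩ := exists_quadraticForm hQ
  have od : (2 : F) ≠ 0 → Odd (Fintype.card F) := fun h => by
    by_contra h'; exact h (two_eq_zero_of_not_odd h')
  rw [card_eq e] at hn
  refine max_tr (tr_omega Q) (max_OSp (B := Frm.ofSymplectic hf) J (qf_of (fun _ => rfl) hT (Or.inr hp))
    (fun _ => rfl) hf.alternating rfl ht (fun h => hqt (od h))
    (fun h => hex3 fun h' => two_ne_zero_of_odd h' h)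
    ((sp_dim (t := t) hf (by omega)).imp id fun h => ⟨h, ?_, exists_big ?_ fun h' => hex ⟨h', h⟩⟩))
  · by_contra h3
    rw [h, show t = 2 by omega] at hn
    omega
  · by_contra h'
    have := hex3 h'
    omega

/-- Orthogonal factors, given the statement in standard coordinates. -/
theorem row_OO (hodd : Odd (Fintype.card F)) {q : (ι → F) → F}
    (hQ : IsNondegenerateQuadraticForm q) (e : ι ≃ (Fin t → Fin k)) (P : GL ι F)
    {f₁ : (Fin k → F) → (Fin k → F) → F} (hf : IsSymmetricForm f₁)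
    (hT : IsTensorPowerFormStructure id (QuadraticMap.polar q) f₁ e P)
    (H : ∀ (B : Frm (Fin k) F) (Q : QuadraticForm F (VV k t F)), QF B Q → (∀ a, B.σ a = a) →
      B.ε = 1 → IsMaximalIn (omegaGL ⇑Q) (TT k t F ⊓ omegaGL ⇑Q)) :
    IsMaximalIn (omegaGL q) (tensorWreathSubgroup k t e P ⊓ omegaGL q) := by
  obtain ⟨Q, rfl, -⟩ := exists_quadraticForm hQ
  exact max_tr (tr_omega Q) (H (Frm.ofSymmetric hf) _
    (qf_of (fun _ => rfl) hT (Or.inl (two_ne_zero_of_odd hodd))) (fun _ => rfl) rfl)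

end H60.Wr
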