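/- Tensor-induced subgroups (class C7): the type independent jobs are proved. -/
import Cfsg.Agent.H60.WrRow
import Cfsg.Agent.H89.WrRig2
import Cfsg.Agent.H58.C7Odd
import Cfsg.Agent.H58.C7E4B
import Cfsg.Agent.H71.C7E4C
import Cfsg.Agent.H90.C7Crit
import Cfsg.Agent.H73.WrEven
import Cfsg.Agent.H73.WrPair

set_option autoImplicit false

namespace H60.Wr

universe u

theorem core : Core.{u} :=
  ⟨H89.Wr.jobRigP, H89.Wr.jobRigOdd, H89.Wr.jobRig2, H58.C7.jobOdd,
    jobT H73.WrE.jobPair H73.WrE.jobEven, H90.C7.jobCrit, H90.C7.jobE3, H58.C7.jobE4B,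
    H71.C7.jobE4C⟩

end H60.Wr
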