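/- Tensor-induced subgroups (class C7): the jobs for symplectic and orthogonal factors. -/
import Cfsg.Agent.H60.WrCore
import Cfsg.Agent.H73.WrGFSp
import Cfsg.Agent.H73.WrGFO
import Cfsg.Agent.H73.WrBIso
import Cfsg.Agent.H3.C7BQ
import Cfsg.Agent.H49.C7BQL
import Cfsg.Agent.H59.WrBG
import Cfsg.Agent.H59.WrEnd
import Cfsg.Agent.H59.WrK2
import Cfsg.Agent.H59.WrK2R

set_option autoImplicit false

namespace H60.Wr

universe u

theorem bj : BJ.{u} :=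
  ⟨core, H73.WrSp.jobGFSp, H73.WrO.jobGFO, H73.WrB.jobBIso, H3.C7.jobBQ, H49.BQL.jobBQL,
    H59.WrBG.jobBG, H59.WrEnd.jobSpEnd, H59.WrEnd.jobOEnd, H59.WrK2.jobK2Q, H59.WrK2.jobK2R,
    H59.WrEnd.jobK2End⟩

end H60.Wr
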