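/- Tensor-induced subgroups (class C7) with orthogonal factors of dimension three: assembly. -/
import Cfsg.Agent.H60.WrO3Spec

set_option autoImplicit false

namespace H60.Wr
open Cfsg Cfsg.Geo Matrix H19 Module
open scoped MatrixGroups commutatorElement

universe u

/-- The jobs. -/
structure OJ : Prop where
  l : JobO3L.{u}
  g : JobO3G.{u}
  iso : JobO3Iso.{u}
  q : JobO3Q.{u}
  fin : JobO3End.{u}
  ql : JobO3QL.{u}
  pw : JobO3PW.{u}
  rig2 : JobO3Rig2.{u}
  rig3 : JobO3Rig3.{u}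
  fl : JobO3FL.{u}
  pe : JobO3PE.{u}
  cb : JobO3CB.{u}
  kg : JobO3KG.{u}
  kl : JobO3KL.{u}
  gt1 : JobGT1.{u}
  gt2 : JobGT2.{u}

variable {F : Type u} [Field F] {t : ℕ} {B : Frm (Fin 3) F} {M : Subgroup (GG 3 t F)}
  {I R : Finset (Fin t)} {e : Fin t → Fin 3 → F} {g x y : GG 3 t F} {i j l : Fin t}
  {s z : GL (Fin 3) F} {v w : Fin 3 → F}

theorem emG_inj (i : Fin t) : Function.Injective (emG i : GL (Fin 3) F →* GG 3 t F) :=
  fun _ _ h => Units.ext ((em_inj (i := i)).1 (congrArg Units.val h))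

theorem InC.comm_emG (h : InC i (g : EE 3 t F)) (s : GL (Fin 3) F) :
    Wr.emG i s * g = g * Wr.emG i s := Units.ext (h _)

theorem not_sc_rf (h : B.f v v ≠ 0) : ¬ Sc (rf B v v) := fun ⟨c, hc⟩ => by
  have v0 : v ≠ 0 := by rintro rfl; simp at h
  have h1 : finrank F (rg (ro v (ph B v))) = finrank F (rg (c • (1 : Mk 3 F))) := by rw [← hc]
  have c0 : c ≠ 0 := by rintro rfl; exact rf_ne_zero v0 v0 (by simpa using hc)
  rw [rg_ro (ph_ne_zero v0), finrank_span_singleton v0, show rg (c • (1 : Mk 3 F)) = ⊤ from eq_top_iff.2 fun y _ => mem_rg.2 ⟨c⁻¹ • y, by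
    simp [smul_mulVec, mulVec_smul, smul_smul, c0]⟩] at h1
  simp at h1

theorem Ce.nm (h : Ce B l v g) (hg : g ∈ TT 3 t F) (hv : B.f v v ≠ 0) : Nm g l l :=
  nm_of_cj hg (not_sc_rf hv) ⟨_, by rw [cj_apply, ← h, mul_assoc, Units.mul_inv, mul_one]⟩

theorem eu_nil (eps : B.ε = 1) (hw : B.f w w = 0) (hv : B.f v w = 0) :
    IsNilpotent (eu B w v - 1) := ⟨3, by
  have hv' := B.eq_zero_comm.1 hv
  have : eu B w v - 1 = rf B w v - rf B v w - (B.f v v / 2) • rf B w w := by rw [eu]; abel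
  rw [this, pow_three]
  simp [mul_sub, sub_mul, rf_mul_rf, hw, hv, hv']⟩

theorem nil_mul (h : x * y = y * x) (hx : IsNilpotent ((x : EE 3 t F) - 1))
    (hy : IsNilpotent ((y : EE 3 t F) - 1)) : IsNilpotent (((x * y : GG 3 t F) : EE 3 t F) - 1) := by
  have c : Commute (x : EE 3 t F) y := congrArg Units.val h
  have : ((x * y : GG 3 t F) : EE 3 t F) - 1 = (x - 1) * y + (y - 1) := by
    rw [Units.val_mul]; noncomm_ring
  have c1 : Commute ((x : EE 3 t F) - 1) y := c.sub_left (Commute.one_left _)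
  rw [this]
  exact ((c1.sub_right (Commute.one_right _)).mul_left
    ((Commute.refl _).sub_right (Commute.one_right _))).isNilpotent_add (c1.isNilpotent_mul_right hx) hy

theorem nil_conj (g : GG 3 t F) (hx : IsNilpotent ((x : EE 3 t F) - 1)) :
    IsNilpotent (((g * x * g⁻¹ : GG 3 t F) : EE 3 t F) - 1) := by
  have := hx.map (cj g)
  rwa [map_sub, map_one, cj_coe] at this

theorem Nm.conj_G0 (h : Nm g i j) (hg : g ∈ (B.pow t).Iso) (hs : s ∈ G0 B) :
    ∃ s' ∈ G0 B, g * emG i s * g⁻¹ = emG j s' := by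
  obtain ⟨r, hr⟩ := h.exists_cj
  have e1 : ∀ a, g * emG i a * g⁻¹ = emG j (r * a * r⁻¹) := fun a => Units.ext (by
    rw [← cj_coe, coe_emG, hr, coe_emG, cj_coe])
  have e2 : B.Iso.map (MulAut.conj r).toMonoidHom ≤ B.Iso := by
    rintro _ ⟨a, ha, rfl⟩
    exact iso_of_em (i := j) (e1 a ▸ mul_mem (mul_mem hg (emG_mem_Iso ha i)) (inv_mem hg))
  refine ⟨_, Subgroup.commutator_mono e2 e2 ?_, e1 s⟩
  rw [← Subgroup.map_commutator]
  exact Subgroup.mem_map_of_mem _ hs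

/-- The units in `A_j`. -/
def AG (F : Type u) [Field F] (j : Fin t) : Subgroup (GG 3 t F) where
  carrier := {g | InA j (g : EE 3 t F)}
  one_mem' := Sc.one.inA j
  mul_mem' ha hb := ha.mul hb
  inv_mem' ha := T4 fun _ hl => (ha.inC hl).inv

/-- The elements of `MI M I` commuting with `N_{e l}` for the factors outside `R`. -/
def CS (B : Frm (Fin 3) F) (M : Subgroup (GG 3 t F)) (I R : Finset (Fin t))
    (e : Fin t → Fin 3 → F) : Subgroup (GG 3 t F) where
  carrier := {g | g ∈ MI M I ∧ ∀ l ∉ R, Ce B l (e l) g}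
  one_mem' := ⟨one_mem _, fun _ _ => by simp [Ce]⟩
  mul_mem' ha hb := ⟨mul_mem ha.1 hb.1, fun l hl => by
    rw [Ce, Units.val_mul, ← mul_assoc, ha.2 l hl, mul_assoc, hb.2 l hl, mul_assoc]⟩
  inv_mem' ha := ⟨inv_mem ha.1, fun l hl => (Commute.units_inv_right (ha.2 l hl)).eq⟩

theorem O3M.emG_mem (H : O3M B M) (hR : R ⊆ I) (hi : i ∈ R) (hs : s ∈ G0 B) :
    emG i s ∈ CS B M I R e :=
  ⟨⟨mem_Gam.1 (H.gam hs) i, fun _ hj => InC.emG (by rintro rfl; exact hj (hR hi)) s⟩,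
    fun _ hl => InC.emG (by rintro rfl; exact hl hi) s _⟩

variable [Finite F]

/-- Fusion of the involutions of the factors. -/
theorem fusion (J : OJ.{u}) (H : O3M B M) (hR : R ⊆ I)
    (hN : ∀ g ∈ MI M I, ∀ i ∈ I, ∀ j, Nm g i j → g ∈ TT 3 t F) (he : ∀ l, B.f (e l) (e l) ≠ 0)
    (h2 : ∃ a ∈ R, ∃ b ∈ R, a ≠ b)
    (ih : ∀ e, (∀ l, B.f (e l) (e l) ≠ 0) → CS B M I (R.erase i) e ≤ TT 3 t F) (hi : i ∈ R)
    (hz : z ∈ G0 B) (z1 : z ≠ 1) (z2 : z * z = 1) (hg : g ∈ CS B M I R e)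
    (hy : g * emG i z * g⁻¹ ∈ TT 3 t F) : g ∈ TT 3 t F := by
  by_contra hn
  obtain ⟨v, hv, ez⟩ := H.f.inv z (comm_le _ hz) (mem_SL.1 (commutator_le_SL _ hz)) z2 z1
  have zs : ¬ Sc (z : Mk 3 F) := fun h => not_sc_rf hv (Sc.of_smul (div_ne_zero H.f.two hv) (by
    simpa [ez, zr] using h.add Sc.one))
  have he' : ∀ l, B.f (Function.update e i v l) (Function.update e i v l) ≠ 0 := fun l => by
    by_cases h : l = i
    · simpa [h] using hv
    · simpa [h] using he l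
  have yG := mul_mem (mul_mem hg (H.emG_mem hR hi hz)) (inv_mem hg)
  have ci : CI (g * emG i z * g⁻¹) := ⟨by
    rw [conj_mul, ← map_mul, z2, map_one, mul_one, mul_inv_cancel], g, i, z, (cj_coe _ _).symm⟩
  have key : ∀ x ∈ CS B M I R e, x * (g * emG i z * g⁻¹) = g * emG i z * g⁻¹ * x →
      g⁻¹ * x * g ∈ CS B M I (R.erase i) (Function.update e i v) := fun x hx h => by
    have h1 := mul_mem (mul_mem (inv_mem hg) hx) hg
    refine ⟨h1.1, fun l hl => ?_⟩
    by_cases li : l = i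
    swap
    · rw [Function.update_of_ne li]
      exact h1.2 l fun h => hl (Finset.mem_erase.2 ⟨li, h⟩)
    have h3 : emG i z * (g⁻¹ * x * g) = g⁻¹ * x * g * emG i z := by
      have := congrArg (fun a => g⁻¹ * a * g) h
      simpa [mul_assoc] using this.symm
    have h4 := congrArg Units.val h3
    rw [Units.val_mul, Units.val_mul _ (emG i z), coe_emG, ez, zr, map_sub, map_one, map_smul,
      sub_mul, mul_sub, one_mul, mul_one, sub_left_inj, smul_mul_assoc, mul_smul_comm] at h4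
    rw [li, Function.update_self]
    exact smul_right_injective _ (div_ne_zero H.f.two hv) h4
  generalize g * emG i z * g⁻¹ = y at hy yG ci key
  obtain ⟨r1, r2⟩ := J.rig2 F t y H.f.two ci
  have nc : ∀ l ∈ R, ¬ InC l (y : EE 3 t F) := fun l hl h => by
    obtain ⟨l', h1⟩ := J.fl J.rig2 F t B g⁻¹ l H.f fun s hs => by
      simpa using ih _ he' (key _ (H.emG_mem hR hl hs) (h.comm_emG s))
    exact hn (inv_mem_iff.1 (hN _ (inv_mem hg.1) l (hR hl) l' h1))
  obtain ⟨σ, hσ⟩ := exists_perm hy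
  have ij : i ≠ σ i := fun h => by
    obtain ⟨l, hl, li⟩ : ∃ l ∈ R, l ≠ i := by
      obtain ⟨a, ha, b, hb, ab⟩ := h2
      by_cases h : a = i
      · exact ⟨b, hb, h ▸ ab.symm⟩
      · exact ⟨a, ha, h⟩
    exact (r1 i (by simpa only [← h] using hσ i)).elim (fun h => nc l hl (h.inC li)) (nc i hi)
  have hj := hσ i
  generalize σ i = j at ij hj
  have sub : ∀ l ∈ R, l = i ∨ l = j := fun l hl => by
    by_contra! h; exact nc l hl (r2 i j l hj ij h.1 h.2)
  have cm : ∀ a b, emG i a * (y * emG i b * y⁻¹) = y * emG i b * y⁻¹ * emG i a := fun a b =>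
    InC.comm_emG (cj_coe y _ ▸ (hj _).inC ij) a
  let ψ : GL (Fin 3) F →* GG 3 t F := MonoidHom.mk' (fun s => emG i s * (y * emG i s * y⁻¹))
    fun a b => by
      rw [map_mul, ← conj_mul, mul_assoc, ← mul_assoc (emG i b), cm b a]; simp only [mul_assoc]
  have yi : y⁻¹ = y := inv_eq_of_mul_eq_one_right ci.1
  have hψ : ∀ s ∈ G0 B, g⁻¹ * ψ s * g ∈ CS B M I (R.erase i) (Function.update e i v) :=
    fun s hs => key _ (mul_mem (H.emG_mem hR hi hs)
      (mul_mem (mul_mem yG (H.emG_mem hR hi hs)) (inv_mem yG))) (by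
        change emG i s * (y * emG i s * y⁻¹) * y = y * (emG i s * (y * emG i s * y⁻¹))
        conv_lhs => rw [cm s s]
        simp only [yi, mul_assoc])
  have hA : G0 B ≤ ((AG F j).comap (MulAut.conj g⁻¹).toMonoidHom).comap ψ :=
    H.f.gen _ fun w hw u hu => by
      obtain ⟨s, hs, es⟩ := H.f.eich w hw u hu
      refine ⟨s, T4 fun l hl => ?_, es⟩
      have h1 := hψ s hs
      have h3 : IsNilpotent ((emG i s : EE 3 t F) - 1) := by
        simpa [es] using (eu_nil H.f.eps hw.2 hu).map (em (t := t) i)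
      have h4 := h1.2 l fun h => by
        rcases sub l (Finset.mem_of_mem_erase h) with h' | h'
        · exact Finset.ne_of_mem_erase h h'
        · exact hl h'
      have h5 := nil_conj g⁻¹ (nil_mul (cm s s) h3 (nil_conj y h3))
      rw [inv_inv] at h5
      simpa using J.pe F t B _ l _ H.f.toO3L (H.le h1.1.1) h5 (h4.nm (ih _ he' h1) (he' l)) (he' l) h4
  obtain ⟨b, hb⟩ := hA hz
  obtain ⟨c, hc⟩ := hj z
  have ec : ((y * emG i z * y⁻¹ : GG 3 t F) : EE 3 t F) = em j c := by rw [← cj_coe, coe_emG, hc]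
  have aj : InA j ((y * emG i z * y⁻¹ : GG 3 t F) : EE 3 t F) := ⟨c, ec⟩
  rcases (J.rig2 F t (ψ z) H.f.two ⟨by rw [← map_mul, z2, map_one], g, j, b, by
    rw [← hb, cj_coe]; simp [mul_assoc]⟩).1 i (((InA.em i _).nm i).mul (aj.nm i)) with h | h
  · have h1 : InA i ((y * emG i z * y⁻¹ : GG 3 t F) : EE 3 t F) := by
      exact (mul_mem_cancel_left (show emG i z ∈ AG F i from InA.em i _)).1 h
    have h3 := h1.sc_of_ne aj ij
    rw [← cj_coe, sc_cj, coe_emG, sc_em] at h3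
    exact zs h3
  · have h1 := h.mul (aj.inC ij).inv
    rw [← Units.val_mul, show ψ z * _ = emG i z from mul_inv_cancel_right _ _] at h1
    exact zs (sc_em.1 ((InA.em i _).sc h1))

/-- The induction on the set of factors whose involutions are not centralised. -/
theorem CS_le (J : OJ.{u}) (H : O3M B M) (pw : PW M (IsoV B))
    (ihI : ∀ m ∈ I, MI M (I.erase m) ≤ TT 3 t F)
    (hN : ∀ g ∈ MI M I, ∀ i ∈ I, ∀ j, Nm g i j → g ∈ TT 3 t F) (R : Finset (Fin t)) :
    R ⊆ I → R.Nonempty → ∀ e, (∀ l, B.f (e l) (e l) ≠ 0) → CS B M I R e ≤ TT 3 t F := by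
  induction R using Finset.strongInduction with | H R ih => ?_
  rintro hR ⟨m, hm⟩ e he
  by_cases h2 : ∃ a ∈ R, ∃ b ∈ R, a ≠ b
  swap
  · exact fun g hg => hN g hg.1 m (hR hm) m (J.kl J.kg J.pe F t B M I m e g H pw (hR hm)
      (ihI m (hR hm)) (J.cb J.rig3 F t B M I m H pw (hR hm) (ihI m (hR hm))) he hg.1
      fun l hl => hg.2 l fun h => h2 ⟨l, h, m, hm, hl⟩)
  let L : {i // i ∈ R} → Subgroup (CS B M I R e) := fun i =>
    ((G0 B).map (emG i.1)).subgroupOf (CS B M I R e)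
  have eq : ∀ i, Nonempty (G0 B ≃* L i) := fun i =>
    ⟨((G0 B).equivMapOfInjective _ (emG_inj i.1)).trans (Subgroup.subgroupOfEquivOfLe (by
      rintro _ ⟨s, hs, rfl⟩; exact H.emG_mem hR i.2 hs)).symm⟩
  have G : GTH ((TT 3 t F).subgroupOf (CS B M I R e)) L := by
    refine ⟨?_, fun i => ?_, fun i h => ?_, ?_, ?_, ?_⟩
    · rintro i x ⟨s, -, hs⟩
      exact InA.mem_T (i := i.1) (by norm_num) ⟨s, congrArg Units.val hs.symm⟩
    · obtain ⟨φ⟩ := eq i
      haveI := H.f.simple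
      exact φ.symm.isSimpleGroup
    · obtain ⟨φ⟩ := eq i
      exact H.f.nonab ⟨⟨fun a b => φ.injective (by rw [map_mul, map_mul, h.is_comm.comm])⟩⟩
    · rintro i j ij x ⟨s, -, hs⟩ y ⟨s', -, hs'⟩
      refine Subtype.ext ?_
      have := (InC.emG (fun h => ij (Subtype.ext h)) s').comm_emG s
      rwa [hs, hs'] at this
    · rintro h hh i
      obtain ⟨σ, hσ⟩ := exists_perm hh
      refine ⟨⟨σ i, ?_⟩, ?_⟩
      · by_contra hn
        exact hn ((hσ i).inv.unique (by norm_num) (Ce.nm (h.2.2 _ hn) hh (he _)).inv ▸ i.2)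
      · rintro x ⟨s, hs, e⟩
        obtain ⟨s', h1, h3⟩ := (hσ i).conj_G0 (H.le h.2.1.1) hs
        exact ⟨s', h1, by rw [← h3, e]; rfl⟩
    · rintro i z ⟨s, hs, es⟩ z1 z2 g hg
      refine fusion J H hR hN he h2 (ih _ (Finset.erase_ssubset i.2)
        ((Finset.erase_subset _ _).trans hR) ?_) i.2 hs ?_ (emG_inj i.1 ?_) g.2 (by rw [es]; exact hg)
      · obtain ⟨a, ha, b, hb, ab⟩ := h2
        by_cases h : a = i
        · exact ⟨b, Finset.mem_erase.2 ⟨h ▸ ab.symm, hb⟩⟩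
        · exact ⟨a, Finset.mem_erase.2 ⟨h, ha⟩⟩
      · rintro rfl; exact z1 (Subtype.ext (by rw [map_one] at es; exact es.symm))
      · rw [map_mul, es, map_one]; exact congrArg Subtype.val z2
  exact Subgroup.subgroupOf_eq_top.1 (J.gt2 _ _ _ L ⟨⟨m, hm⟩⟩ G (J.gt1 _ _ _ L G))

/-- The overgroups with property (PW). -/
theorem O3M.le_T (J : OJ.{u}) (H : O3M B M) (pw : PW M (IsoV B)) : M ≤ TT 3 t F := by
  suffices h : ∀ I, MI M I ≤ TT 3 t F from fun g hg => h Finset.univ ⟨hg, by simp⟩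
  intro I
  induction I using Finset.strongInduction with | H I ih => ?_
  have ht : 0 < t := by have := H.t2; omega
  rcases I.eq_empty_or_nonempty with rfl | hI
  · exact fun g hg => (T4 (i := ⟨0, ht⟩) fun j _ => hg.2 j (by simp)).mem_T (by norm_num)
  obtain ⟨w, hw⟩ := H.f.ex
  obtain ⟨w', hw', h1⟩ := H.f.hyp w hw
  obtain ⟨v, -, -, hv, -⟩ := H.f.frame w hw w' hw' h1
  refine fun g hg => CS_le J H pw (fun m hm => ih _ (Finset.erase_ssubset hm)) (fun g hg i hi j h => ?_)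
    I subset_rfl hI (fun _ => v) (fun _ => hv) ⟨hg, fun l hl => hg.2 l hl _⟩
  refine mem_T_of (by norm_num) ht fun l => ?_
  by_cases hl : l ∈ I
  swap
  · exact ⟨l, (hg.2 l hl).nm⟩
  by_cases e : l = i
  · exact ⟨j, e ▸ h⟩
  have hj : j ∈ I := by
    by_contra hj
    exact hj (h.inv.unique (by norm_num) (hg.2 j hj).nm.inv ▸ hi)
  refine J.fl J.rig2 F t B g l H.f fun s hs => ih (I.erase j) (Finset.erase_ssubset hj) ?_
  have h3 := mul_mem (mul_mem hg (H.emG_mem (e := fun _ => v) subset_rfl hl hs).1) (inv_mem hg)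
  refine ⟨h3.1, fun q hq => ?_⟩
  by_cases e' : q = j
  · rw [e', ← cj_coe]; exact h.inC (InC.emG (Ne.symm e) s)
  · exact h3.2 q fun h => hq (Finset.mem_erase.2 ⟨e', h⟩)

theorem max_O3 (J : OJ.{u}) {Q : QuadraticForm F (VV 3 t F)} (h : QF B Q) (o : O3 B) (ht : 2 ≤ t) :
    IsMaximalIn (omegaGL ⇑Q) (TT 3 t F ⊓ omegaGL ⇑Q) := by
  have f := J.g F B (J.l F B o)
  obtain ⟨x, hx⟩ := f.ex
  refine h.max_of o.sig ht (by omega) hx fun M h1 h2 => ?_
  have lq := h2.trans (omega_le _)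
  have c : O3M B M := ⟨f, ht, lq.trans h.iso_le, h.gam (Or.inl o.two) (by omega) (by omega) h1,
    h.cyc (Or.inl o.two) (by omega) h1⟩
  by_cases q : QQ M (RN B)
  · exact Or.inl (c.le_T J (J.pw F t B M c (J.ql J.iso F t B M c q)))
  · exact Or.inr (J.fin F t B M Q c h lq (J.q J.iso F t B M c q))

end H60.Wr
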