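/- C7-O4 tower: fusion of the involutions of the factors. -/
import Cfsg.Agent.H60.WrO4Kit

set_option autoImplicit false

namespace H60.Wr
open Cfsg Cfsg.Geo Matrix H19 Module
open scoped MatrixGroups commutatorElement

universe u

variable {F : Type u} [Field F] {t : ℕ} {B : Frm (Fin 4) F} {G : Subgroup (GG 4 t F)}
  {R : Finset (Fin t)} {g x y : GG 4 t F} {i j k l m : Fin t} {ξ η ζ s : GL (Fin 4) F}
  {v w : Fin 4 → F}

theorem GC.ru' (C : GC B G R) (hg : g ∈ G) (hj : j ∈ R) (hw : w ∈ IsoV B) (hv : B.f v w = 0)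
    (hn : v ∉ F ∙ w) (e : (s : Mk 4 F) = eu B w v) (h : g * emG j s * g⁻¹ ∈ TT 4 t F) :
    g ∈ TT 4 t F :=
  C.ru g hg j hj w hw v hv hn ⟨_, h, by rw [← cj_coe, coe_emG, e]⟩

theorem GC.of_all (C : GC B G R) (hg : g ∈ G) (hj : j ∈ R)
    (h : ∀ s ∈ G0 B, g * emG j s * g⁻¹ ∈ TT 4 t F) : g ∈ TT 4 t F := by
  obtain ⟨w, hw, v, hv, hn⟩ := C.f.exu
  obtain ⟨s, hs, e⟩ := C.f.eich w hw v hv
  exact C.ru' hg hj hw hv hn e (h s hs)

theorem R2.ex (h : R2 R) (i : Fin t) : ∃ l ∈ R, l ≠ i := by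
  obtain ⟨a, ha, b, hb, ab⟩ := h
  by_cases h : a = i
  · exact ⟨b, hb, h ▸ ab.symm⟩
  · exact ⟨a, ha, h⟩

theorem nm_of_comm (hx : x ∈ TT 4 t F) (hs : ¬ Sc (s : Mk 4 F)) (h : Commute x (emG i s)) :
    Nm x i i :=
  nm_of_cj hx hs ⟨_, (cj_eq_iff _ _ _).2 (congrArg Units.val h.eq)⟩

/-- Two commuting cyclic matrices from different factors do not lie in a conjugate factor. -/
theorem not_both {c c' : Mk 4 F} (jk : j ≠ k) (hc : LinearIndependent F fun r : Fin 4 => c ^ (r : ℕ))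
    (hc' : LinearIndependent F fun r : Fin 4 => c' ^ (r : ℕ)) (h : InA m (cj g (em j c)))
    (h' : InA m (cj g (em k c'))) : False := by
  obtain ⟨a, ha⟩ := h
  obtain ⟨b, hb⟩ := h'
  have li : LinearIndependent F fun p : Fin 4 × Fin 4 => b ^ (p.2 : ℕ) * a ^ (p.1 : ℕ) := by
    refine Fintype.linearIndependent_iff.2 fun α h p => ?_
    have h1 := congrArg (fun X => cj g⁻¹ (em m X : EE 4 t F)) h
    simp only [map_sum, map_smul, map_mul, map_pow, ← ha, ← hb, cj_inv_cj, map_zero] at h1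
    refine Fintype.linearIndependent_iff.1 hc' (fun s => α (p.1, s))
      ((Module.forall_dual_apply_eq_zero_iff F _).1 fun l => ?_) p.2
    obtain ⟨L, -, hL⟩ := exists_lam (t := t) k l
    have h2 := congrArg L h1
    simp only [map_sum, map_smul, ← map_pow, hL _ _ (InC.em jk.symm _), map_zero, smul_smul,
      Fintype.sum_prod_type, ← Finset.sum_smul] at h2
    simp only [← map_smul, ← map_sum, em_eq_zero] at h2
    simpa using Fintype.linearIndependent_iff.1 hc _ h2 p.1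
  have sp := li.span_eq_top_of_card_eq_finrank (by simp [Module.finrank_matrix])
  have ab : Commute a b := (em_inj (t := t) (i := m)).1 (by
    rw [map_mul, map_mul, ← ha, ← hb, ← map_mul, ← map_mul, em_comm jk])
  have h1 : InC m (em m a : EE 4 t F) := fun X => by
    have hX : X ∈ Submodule.span F (Set.range fun p : Fin 4 × Fin 4 =>
      b ^ (p.2 : ℕ) * a ^ (p.1 : ℕ)) := by rw [sp]; trivial
    rw [← map_mul, ← map_mul, em_inj]
    induction hX using Submodule.span_induction with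
    | mem _ h =>
      obtain ⟨p, rfl⟩ := h
      exact ((ab.pow_right _).mul_right ((Commute.refl a).pow_right _)).symm
    | zero => simp
    | add _ _ _ _ p q => rw [add_mul, mul_add, p, q]
    | smul _ _ _ p => rw [smul_mul_assoc, mul_smul_comm, p]
  have h2 := (InA.em m a).sc h1
  rw [← ha, sc_cj, sc_em] at h2
  obtain ⟨r, hr⟩ := h2
  simpa using Fintype.linearIndependent_iff.1 hc ![r, -1, 0, 0] (by
    simp [Fin.sum_univ_four, hr]) 1

theorem grp_swap {H : Type*} [Group H] {a y : H} (hy : y * y = 1) (h : Commute a (y * a * y⁻¹)) :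
    Commute (a * (y * a * y⁻¹)) y := by
  have yi : y⁻¹ = y := inv_eq_of_mul_eq_one_right hy
  change a * (y * a * y⁻¹) * y = y * (a * (y * a * y⁻¹))
  conv_lhs => rw [h.eq]
  simp only [yi, mul_assoc]

theorem comm_conj {H : Type*} [Group H] {a z g : H} (h : Commute a (g * z * g⁻¹)) :
    Commute (g⁻¹ * a * g) z := by
  have := h.map (MulAut.conj g⁻¹)
  simpa [mul_assoc] using this

theorem cj_cj {H : Type*} [Group H] (a b e : H) :
    a * b * e * (a * b)⁻¹ = a * (b * e * b⁻¹) * a⁻¹ := by group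

theorem inv_sw {H : Type*} [Group H] {y a : H} (h : y * a * y⁻¹ = a⁻¹) : a * y = y * a⁻¹ := by
  rw [eq_comm, ← mul_inv_eq_iff_eq_mul, ← conj_inv, h, inv_inv]

theorem swap_id {H : Type*} [Group H] {a z g : H} (a4 : a * a * (a * a) = 1)
    (h : Commute a (g * z * g⁻¹ * a * (g * z * g⁻¹)⁻¹)) :
    g⁻¹ * (a * a) * g⁻¹⁻¹ * z * (g⁻¹ * (a * a) * g⁻¹⁻¹)⁻¹ =
      g⁻¹ * (a * (g * z * g⁻¹ * a * (g * z * g⁻¹)⁻¹)) * g *
        (g⁻¹ * (a * (g * z * g⁻¹ * a * (g * z * g⁻¹)⁻¹)) * g) * z := by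
  have e1 : ∀ b : H, g⁻¹ * b * g * (g⁻¹ * b * g) = g⁻¹ * (b * b) * g := fun b => by group
  rw [e1, h.symm.mul_mul_mul_comm, conj_mul]
  nth_rw 4 [← inv_eq_of_mul_eq_one_right a4]
  group

theorem comm_sq {H : Type*} [Group H] {x e : H} (h : x * e * x⁻¹ = e ∨ x * e * x⁻¹ = e⁻¹) :
    Commute (x * x) e := by
  rw [Commute, SemiconjBy, ← mul_inv_eq_iff_eq_mul, cj_cj]
  rcases h with h | h
  · rw [h, h]
  · rw [h, ← conj_inv, h, inv_inv]

variable [Finite F]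

section
variable (hR : JobO4Rig4.{u}) (C : GC B G R) (r2 : R2 R) (cz : CZ B G R)
include hR C r2 cz

/-- Lemma B of the blueprint. -/
theorem lemB (hi : i ∈ R) (hl : l ∈ R) (hξ : Xi B ξ) (hη : Xi B η) (hg : g ∈ G)
    (h : Commute (emG l η) (g * emG i (ξ * ξ) * g⁻¹)) : g ∈ TT 4 t F := by
  have xG : g⁻¹ * emG l η * g ∈ G := mul_mem (mul_mem (inv_mem hg) (C.mem l hl η hη.1)) hg
  have h1 := comm_conj h
  obtain ⟨ε, e1, e2⟩ := hη.poly
  have e3 : g⁻¹ * emG l η * g * (g⁻¹ * emG l η * g) = g⁻¹ * emG l (η * η) * g := by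
    simp [mul_assoc]
  have h2 := hR F t B _ i ε C.f.toO4L (C.le xG)
    (nm_of_comm (cz i hi ξ hξ _ xG h1) (hξ.not_sc C.f.toO4) h1) e1 (by
      have := congrArg (fun X => cj g⁻¹ (em l X : EE 4 t F)) e2
      simp only [map_mul (cj g⁻¹), map_mul (em l), map_sub, map_add, map_one, map_smul, map_zero,
        ← coe_emG, cj_coe, inv_inv] at this
      rwa [e3])
  rw [e3] at h2
  obtain ⟨a, ha, h3⟩ : ∃ a ∈ R, InC a ((g⁻¹ * emG l (η * η) * g : GG 4 t F) : EE 4 t F) := by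
    obtain ⟨a, ha, ai⟩ := r2.ex i
    exact h2.elim (fun h => ⟨i, hi, h⟩) fun h => ⟨a, ha, h.inC ai⟩
  refine C.of_all hg ha fun s hs => cz l hl η hη _
    (mul_mem (mul_mem hg (C.mem a ha s hs)) (inv_mem hg)) ?_
  have := comm_conj (g := g⁻¹) (a := emG a s) (z := emG l (η * η))
    (by rw [inv_inv]; exact h3.comm4 s)
  rwa [inv_inv] at this

variable (nx : NX B G R) (hi : i ∈ R) (hξ : Xi B ξ) (hg : g ∈ G) (hn : g ∉ TT 4 t F)
include nx hi hξ hg hn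

theorem fus_swap (hj : j ∈ R) (h : Nm (g * emG i (ξ * ξ) * g⁻¹) j k) : j = k := by
  by_contra jk
  have z2 : emG i (ξ * ξ) * emG i (ξ * ξ) = (1 : GG 4 t F) := by rw [← map_mul, hξ.four, map_one]
  have yG := mul_mem (mul_mem hg (C.mem i hi _ (mul_mem hξ.1 hξ.1))) (inv_mem hg)
  have y2 : g * emG i (ξ * ξ) * g⁻¹ * (g * emG i (ξ * ξ) * g⁻¹) = 1 := by
    rw [conj_mul, z2, mul_one, mul_inv_cancel]
  refine hn (inv_mem_iff.1 (C.of_all (inv_mem hg) hj fun s hs => C.f.geninv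
    (((TT 4 t F).comap (MulAut.conj g⁻¹).toMonoidHom).comap (emG j)) (fun η hη => ?_) hs))
  have aG := C.mem j hj η hη.1
  have cm : Commute (emG j η) (g * emG i (ξ * ξ) * g⁻¹ * emG j η * (g * emG i (ξ * ξ) * g⁻¹)⁻¹) :=
    InC.comm4 (cj_coe _ (emG j η) ▸ (h _).inC jk) η
  have h1 := comm_sq (nx i hi ξ hξ _ (mul_mem (mul_mem (inv_mem hg)
    (mul_mem aG (mul_mem (mul_mem yG aG) (inv_mem yG)))) hg) (comm_conj (grp_swap y2 cm)))
  have a4 : emG j η * emG j η * (emG j η * emG j η) = (1 : GG 4 t F) := by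
    simpa only [map_mul, map_one] using congrArg (emG (t := t) j) hη.four
  refine lemB hR C r2 cz hi hi hξ hξ (mul_mem (mul_mem (inv_mem hg)
    (C.mem j hj _ (mul_mem hη.1 hη.1))) (inv_mem (inv_mem hg))) ?_
  have h2 : Commute (emG i ξ) (emG i (ξ * ξ) : GG 4 t F) := by
    rw [map_mul]; exact (Commute.refl _).mul_right (Commute.refl _)
  rw [map_mul (emG j)]
  exact (swap_id a4 cm).symm ▸ h1.symm.mul_right h2

theorem fus_inv (hj : j ∈ R) (hη : Xi B η)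
    (h : g * emG i (ξ * ξ) * g⁻¹ * emG j η * (g * emG i (ξ * ξ) * g⁻¹)⁻¹ = (emG j η)⁻¹) :
    Commute (g⁻¹ * emG j (η * η) * g) (emG i (ξ * ξ)) ∧
      g⁻¹ * emG j (η * η) * g * emG i ξ * (g⁻¹ * emG j (η * η) * g)⁻¹ = (emG i ξ)⁻¹ := by
  have h1 : Commute (g⁻¹ * emG j (η * η) * g) (emG i (ξ * ξ)) := comm_conj (by
    rw [Commute, SemiconjBy, eq_comm, ← mul_inv_eq_iff_eq_mul, map_mul (emG j), ← conj_mul, h,
      ← _root_.mul_inv_rev, ← map_mul, ← map_inv, inv_eq_of_mul_eq_one_right hη.four])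
  refine ⟨h1, (nx i hi ξ hξ _ (mul_mem (mul_mem (inv_mem hg)
    (C.mem j hj _ (mul_mem hη.1 hη.1))) hg) h1).resolve_left fun e => hn (inv_mem_iff.1 ?_)⟩
  refine lemB hR C r2 cz hj hi hη hξ (inv_mem hg) ?_
  rw [inv_inv]
  exact (mul_inv_eq_iff_eq_mul.1 e).symm

theorem fus_pair (hj : j ∈ R) (hk : k ∈ R) (jk : j ≠ k) (hη : Xi B η) (hζ : Xi B ζ)
    (h : g * emG i (ξ * ξ) * g⁻¹ * emG j η * (g * emG i (ξ * ξ) * g⁻¹)⁻¹ = (emG j η)⁻¹)
    (h' : g * emG i (ξ * ξ) * g⁻¹ * emG k ζ * (g * emG i (ξ * ξ) * g⁻¹)⁻¹ = (emG k ζ)⁻¹) :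
    ∃ m, InA m ((emG i (ξ * ξ) * (g⁻¹ * emG j (η * η) * g) * (g⁻¹ * emG k (ζ * ζ) * g) :
      GG 4 t F) : EE 4 t F) := by
  obtain ⟨-, a2⟩ := fus_inv hR C r2 cz nx hi hξ hg hn hj hη h
  obtain ⟨-, b2⟩ := fus_inv hR C r2 cz nx hi hξ hg hn hk hζ h'
  have e : g⁻¹ * (emG j η * emG k ζ) * g * emG i (ξ * ξ) * (g⁻¹ * (emG j η * emG k ζ) * g)⁻¹ =
      emG i (ξ * ξ) * (g⁻¹ * emG j (η * η) * g) * (g⁻¹ * emG k (ζ * ζ) * g) := by
    have c : Commute (emG j η : GG 4 t F) (emG k ζ) := emG_comm jk η ζ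
    rw [← inv_eq_of_mul_eq_one_right hη.four, ← inv_eq_of_mul_eq_one_right hζ.four, map_inv,
      map_inv, map_mul (emG j), map_mul (emG k)]
    generalize emG j η = a, emG k ζ = b, emG i (ξ * ξ) = z at *
    have h1 := inv_sw h
    have h2 := inv_sw h'
    calc _ = g⁻¹ * (a * (b * (g * z * g⁻¹)) * b⁻¹ * a⁻¹) * g := by group
      _ = g⁻¹ * (g * z * g⁻¹ * (a⁻¹ * ((b * b)⁻¹ * a⁻¹))) * g := by
        rw [h2, ← mul_assoc a, h1]; group
      _ = _ := by rw [← ((c.mul_right c).inv_left.inv_right).eq]; group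
  have nT := lemB hR C r2 cz hi hi hξ hξ (mul_mem (mul_mem (inv_mem hg)
    (mul_mem (C.mem j hj η hη.1) (C.mem k hk ζ hζ.1))) hg) (by
      rw [e, mul_assoc]
      refine Commute.mul_right (by rw [map_mul]; exact (Commute.refl _).mul_right (Commute.refl _))
        (Commute.symm ?_)
      rw [Commute, SemiconjBy, ← mul_inv_eq_iff_eq_mul, cj_cj, b2, ← conj_inv, a2, inv_inv])
  obtain ⟨σ, hσ⟩ := exists_perm nT
  exact ⟨σ i, by rw [← e, ← cj_coe]; exact hσ i _⟩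

end

theorem jobO4Fus : JobO4Fus.{u} := by
  intro hR F _ _ t B G R x3 C r2 cz nx i hi ξ hξ g hg hy
  by_contra hn
  have yG := mul_mem (mul_mem hg (C.mem i hi _ (mul_mem hξ.1 hξ.1))) (inv_mem hg)
  have z2 : emG i (ξ * ξ) * emG i (ξ * ξ) = (1 : GG 4 t F) := by rw [← map_mul, hξ.four, map_one]
  obtain ⟨σ, hσ⟩ := exists_perm hy
  have key : ∀ j ∈ R, ∃ η η', Xi B η ∧ Xi B η' ∧
      g * emG i (ξ * ξ) * g⁻¹ * emG j η * (g * emG i (ξ * ξ) * g⁻¹)⁻¹ = (emG j η)⁻¹ ∧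
      g * emG i (ξ * ξ) * g⁻¹ * emG j η' * (g * emG i (ξ * ξ) * g⁻¹)⁻¹ = (emG j η')⁻¹ ∧
      LinearIndependent F fun r : Fin 4 =>
        ((η * η * (η' * η') : GL (Fin 4) F) : Mk 4 F) ^ (r : ℕ) := fun j hj => by
    have h1 := hσ j
    rw [← fus_swap hR C r2 cz nx hi hξ hg hn hj h1] at h1
    obtain ⟨b, d, hd, e, hb⟩ := sim_split (C.le yG) h1
    have e1 : ∀ s, g * emG i (ξ * ξ) * g⁻¹ * emG j s * (g * emG i (ξ * ξ) * g⁻¹)⁻¹ =
        emG j (b * s * b⁻¹) := fun s => by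
      rw [e, mul_assoc (emG j b), ← hd.comm4, map_mul, map_mul, map_inv]; group
    have e2 : ∀ s, b * s = s * b → Commute (emG j s) (g * emG i (ξ * ξ) * g⁻¹) := fun s h =>
      (mul_inv_eq_iff_eq_mul.1 (by rw [e1, h, mul_inv_cancel_right])).symm
    have b2 : Sc ((b : Mk 4 F) * (b : Mk 4 F)) := by
      have := congrArg Units.val (show emG j b * d * (emG j b * d) = 1 by
        rw [← e, conj_mul, z2, mul_one, mul_inv_cancel])
      rw [Units.val_mul, Units.val_mul, coe_emG, em_mul_mul _ _ _ hd, Units.val_one,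
        ← one_smul F (1 : EE 4 t F)] at this
      exact (sc_of_em_mul (hd.mul hd) one_ne_zero this).1
    rcases x3 b hb b2 with ⟨w, hw, v, hv, h2, h3⟩ | ⟨η, hη, h2⟩ | ⟨η, η', h2, h3, h4, h5, h6⟩
    · obtain ⟨s, hs, es⟩ := C.f.eich w hw v hv
      refine absurd (inv_mem_iff.1 (C.ru' (inv_mem hg) hj hw hv h2 es ?_)) hn
      rw [inv_inv]
      exact cz i hi ξ hξ _ (mul_mem (mul_mem (inv_mem hg) (C.mem j hj s hs)) hg)
        (comm_conj (e2 s (Units.ext (by rw [Units.val_mul, Units.val_mul, es, h3]))))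
    · exact absurd (lemB hR C r2 cz hi hj hξ hη hg (e2 η h2)) hn
    · exact ⟨η, η', h2, h3, by rw [e1, h4, map_inv], by rw [e1, h5, map_inv], h6⟩
  have two : ∀ j ∈ R, ∀ k ∈ R, j ≠ k → ∀ η η' ζ, Xi B η → Xi B η' → Xi B ζ →
      g * emG i (ξ * ξ) * g⁻¹ * emG j η * (g * emG i (ξ * ξ) * g⁻¹)⁻¹ = (emG j η)⁻¹ →
      g * emG i (ξ * ξ) * g⁻¹ * emG j η' * (g * emG i (ξ * ξ) * g⁻¹)⁻¹ = (emG j η')⁻¹ →
      g * emG i (ξ * ξ) * g⁻¹ * emG k ζ * (g * emG i (ξ * ξ) * g⁻¹)⁻¹ = (emG k ζ)⁻¹ →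
      (LinearIndependent F fun r : Fin 4 =>
        ((η * η * (η' * η') : GL (Fin 4) F) : Mk 4 F) ^ (r : ℕ)) →
      ∀ m, InA m ((emG i (ξ * ξ) * (g⁻¹ * emG j (η * η) * g * (g⁻¹ * emG k (ζ * ζ) * g)) :
        GG 4 t F) : EE 4 t F) →
      InA m (cj g⁻¹ (em j ((η * η * (η' * η') : GL (Fin 4) F) : Mk 4 F))) := by
    intro j hj k hk jk η η' ζ h1 h2 h3 a1 a2 a3 li m hm
    obtain ⟨m', hm'⟩ := fus_pair hR C r2 cz nx hi hξ hg hn hj hk jk h2 h3 a2 a3
    have c1 := (fus_inv hR C r2 cz nx hi hξ hg hn hj h1 a1).1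
    have c2 := (fus_inv hR C r2 cz nx hi hξ hg hn hj h2 a2).1
    have c3 := (fus_inv hR C r2 cz nx hi hξ hg hn hk h3 a3).1
    have sq : ∀ {l η}, Xi B η → g⁻¹ * emG l (η * η) * g * (g⁻¹ * emG l (η * η) * g) = 1 :=
      fun {l η} h => by
        rw [mul_assoc, mul_assoc, mul_assoc g⁻¹, mul_inv_cancel_left, ← mul_assoc (emG l _), ← map_mul,
          h.four, map_one, one_mul, inv_mul_cancel]
    have cc : ∀ η, Commute (g⁻¹ * emG j η * g) (g⁻¹ * emG k (ζ * ζ) * g) := fun η => by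
      simpa using (show Commute (emG j η : GG 4 t F) (emG k (ζ * ζ)) from
        emG_comm jk _ _).map (MulAut.conj g⁻¹)
    have e0 : cj g⁻¹ (em j ((η * η * (η' * η') : GL (Fin 4) F) : Mk 4 F)) =
        ((g⁻¹ * emG j (η * η) * g * (g⁻¹ * emG j (η' * η') * g) : GG 4 t F) : EE 4 t F) := by
      rw [← coe_emG, cj_coe, map_mul (emG j) (η * η), ← conj_mul, inv_inv]
    have s1 := sq (l := j) h1
    have s2 := sq (l := j) h2
    have s3 := sq (l := k) h3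
    have d1 := cc (η * η)
    have d2 := cc (η' * η')
    rw [mul_assoc] at hm'
    generalize g⁻¹ * emG j (η * η) * g = a, g⁻¹ * emG j (η' * η') * g = a',
      g⁻¹ * emG k (ζ * ζ) * g = b, emG i (ξ * ξ) = z at *
    have e1 : ∀ {a a' : GG 4 t F}, Commute a z → Commute a' b →
        z * (a * b) * (z * (a' * b)) = a * a' := fun {a a'} p q => by
      rw [← (p.mul_left c3).eq, mul_assoc, ← mul_assoc z, z2, one_mul, q.eq, mul_assoc,
        ← mul_assoc b, s3, one_mul]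
    by_cases mm : m = m'
    · rw [e0, ← e1 c1 d2]
      exact hm.mul (mm ▸ hm')
    have e2 : a * a' = a' * a := by
      rw [← e1 c1 d2, ← e1 c2 d1]
      exact Units.ext (hm.comm (hm'.inC mm))
    have e3 : a * a' * (a * a') = 1 := by
      rw [mul_assoc, ← mul_assoc a', ← e2, mul_assoc, s2, mul_one, s1]
    have e4 := congrArg Units.val e3
    rw [Units.val_mul, ← e0, ← map_mul, ← map_mul, Units.val_one, ← map_one (cj g⁻¹),
      (cj g⁻¹).injective.eq_iff, ← map_one (em j), em_inj] at e4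
    exact absurd (li.injective (a₁ := 2) (a₂ := 0) (by simpa [pow_two] using e4)) (by decide)
  obtain ⟨j, hj, k, hk, jk⟩ := id r2
  obtain ⟨η, η', a1, a2, a3, a4, a5⟩ := key j hj
  obtain ⟨ζ, ζ', b1, b2, b3, b4, b5⟩ := key k hk
  obtain ⟨m, hm⟩ := fus_pair hR C r2 cz nx hi hξ hg hn hj hk jk a1 b1 a3 b3
  rw [mul_assoc] at hm
  refine not_both jk a5 b5 (two j hj k hk jk η η' ζ a1 a2 b1 a3 a4 b3 a5 m hm)
    (two k hk j hj jk.symm ζ ζ' η b1 b2 a1 b3 b4 a3 b5 m ?_)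
  have : Commute (g⁻¹ * emG j (η * η) * g) (g⁻¹ * emG k (ζ * ζ) * g) := by
    simpa using (show Commute (emG j (η * η) : GG 4 t F) (emG k (ζ * ζ)) from
      emG_comm jk _ _).map (MulAut.conj g⁻¹)
  rwa [← this.eq]

end H60.Wr
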