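/- C7-O4 tower: the base case over the field of order three. -/
import Cfsg.Agent.H60.WrO4Fus
import Cfsg.Agent.H59.O3CBa

set_option autoImplicit false

namespace H60.Wr
open Cfsg Cfsg.Geo Matrix H19 Module
open scoped MatrixGroups commutatorElement

universe u

variable {F : Type u} [Field F] {t : ℕ} {B : Frm (Fin 4) F} {G : Subgroup (GG 4 t F)}
  {S : Finset (Fin t)} {g h : GG 4 t F} {l m : Fin t} {η : GL (Fin 4) F} {a b c d : Fin 4 → F}
  {ξ : Fin t → GL (Fin 4) F} {π κ X : EE 4 t F} {α β γ δ Y : Mk 4 F}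

theorem Ob.cent (O : Ob B a b c d) (H : O4 B) (e : B.f a a = B.f b b)
    (h1 : Y * pj B c d = pj B c d * Y) (h2 : Y * jj B a b = jj B a b * Y) :
    Y * pj B a b = ((B.f a a)⁻¹ * B.f (Y *ᵥ a) a) • pj B a b +
      ((B.f a a)⁻¹ * B.f (Y *ᵥ a) b) • jj B a b := by
  have O' := O.symm H
  have ja : jj B a b *ᵥ a = b := by simp [jj_mulVec, O.aa, O.ab]
  have jb : jj B a b *ᵥ b = -a := by simp [jj_mulVec, e, O.bb, H.sy b a, O.ab]
  have e1 : Y *ᵥ a = ((B.f a a)⁻¹ * B.f (Y *ᵥ a) a) • a + ((B.f a a)⁻¹ * B.f (Y *ᵥ a) b) • b := by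
    have := congrArg (· *ᵥ a) h1
    simp only [← mulVec_mulVec, O.pj_a, mulVec_zero] at this
    conv_lhs => rw [← one_mulVec (Y *ᵥ a), ← O.one, add_mulVec, ← this, add_zero, pj_mulVec, ← e]
  generalize (B.f a a)⁻¹ * B.f (Y *ᵥ a) a = r, (B.f a a)⁻¹ * B.f (Y *ᵥ a) b = s at e1
  have e2 := congrArg (· *ᵥ a) h2
  simp only [← mulVec_mulVec, ja, e1, mulVec_add, mulVec_smul, jb] at e2
  refine O.mat ?_ ?_ ?_ ?_ <;>
    simp only [← mulVec_mulVec, add_mulVec, smul_mulVec, O'.pj_a, O'.pj_b, O'.pj_c, O'.pj_d, ja, jb,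
      e1, e2, mulVec_zero, smul_zero, zero_add]
  · simp [jj_mulVec, H.sy c, O.ac, O.bc]
  · simp [jj_mulVec, H.sy d, O.ad, O.bd]

/-- A projection with a complex structure, built from the factors in `S`. -/
structure CP (B : Frm (Fin 4) F) (ξ : Fin t → GL (Fin 4) F) (S : Finset (Fin t))
    (π κ : EE 4 t F) : Prop where
  pp : π * π = π
  pk : π * κ = κ
  kp : κ * π = κ
  kk : κ * κ = -π
  ap : (B.pow t).adj π = π
  ak : (B.pow t).adj κ = -κ
  ne : π ≠ 0
  cm : ∀ X, (∀ l ∈ S, em l (ξ l : Mk 4 F) * X = X * em l (ξ l : Mk 4 F)) →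
    π * X = X * π ∧ κ * X = X * κ
  dec : ∀ X, (∀ l ∈ S, em l (ξ l : Mk 4 F) * X = X * em l (ξ l : Mk 4 F)) →
    ∃ Y Z, X * π = Y * π + Z * κ ∧ (∀ l ∈ S, InC l Y ∧ InC l Z) ∧
      ∀ j ∉ S, ∀ a, em j a * X = X * em j a → em j a * Y = Y * em j a ∧ em j a * Z = Z * em j a

theorem CP.inC (P : CP B ξ S π κ) (hl : l ∉ S) : InC l π ∧ InC l κ :=
  have h := fun a => P.cm (em l a) fun _ hj => em_comm (by rintro rfl; exact hl hj) _ _
  ⟨fun a => (h a).1.symm, fun a => (h a).2.symm⟩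

theorem cp_one (H : O4 B) (h : Xi B (ξ l)) : ∃ π κ, CP B ξ {l} π κ ∧
    ∀ X Y, InC l X → InC l Y → π * X = κ * Y → X = 0 := by
  obtain ⟨a, b, c, d, ε, O, e, -, h1, h2, -⟩ := h.ex
  have O' := O.symm H
  have e1 : pj B a b * jj B a b = jj B a b := by rw [O.eq, sub_mul, O.pj_jj, one_mul, sub_zero]
  have e2 : jj B a b * pj B a b = jj B a b := by rw [O.eq, mul_sub, O.jj_pj, mul_one, sub_zero]
  have cm : ∀ X : EE 4 t F, Commute (em l (ξ l : Mk 4 F)) X →
      Commute (em l (pj B c d)) X ∧ Commute (em l (jj B a b)) X := fun X hX => by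
    have c1 : Commute (em l (pj B c d)) X := by
      have := (hX.mul_left hX).add_left (Commute.one_left X)
      rwa [← map_mul, h2, map_sub, map_one, sub_add_cancel, map_smul,
        Commute.smul_left_iff₀ H.two] at this
    refine ⟨c1, ?_⟩
    have := hX.sub_left (c1.smul_left ε)
    rwa [h1, map_add, map_smul, add_sub_cancel_left] at this
  refine ⟨em l (pj B a b), em l (jj B a b), ⟨by rw [← map_mul, O'.pj_sq], by rw [← map_mul, e1],
    by rw [← map_mul, e2], by rw [← map_mul, O.jj_sq e, O.eq, ← map_neg, neg_sub],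
    by rw [adj_em, H.adj_pj], by rw [adj_em, H.adj_jj, map_neg], em_eq_zero.not.2 O'.pj_ne,
    fun X hX => ?_, fun X hX => ?_⟩, fun X Y hX hY h => ?_⟩
  · obtain ⟨c1, c2⟩ := cm X (hX l (by simp))
    exact ⟨by rw [O.eq, map_sub, map_one]; exact (Commute.one_left X).sub_left c1, c2⟩
  · obtain ⟨c1, c2⟩ := cm X (hX l (by simp))
    refine ⟨(B.f a a)⁻¹ • ct l (ph B a) a X, (B.f a a)⁻¹ • ct l (ph B b) a X, ?_, fun j hj => ?_,
      fun j hj x hx => ?_⟩
    · rw [← sub_eq_zero]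
      refine eq_zero_of_ct (i := l) fun φ x =>
        (Module.forall_dual_apply_eq_zero_iff F _).1 fun r => ?_
      rw [← (ct_inC _ _ _ _).smul _, ← (ct_inC _ _ _ _).smul _, ct_sub, ct_add,
        ct_em_mul ((ct_inC _ _ _ _).smul _), ct_em_mul ((ct_inC _ _ _ _).smul _), ct_em_right,
        map_sub, map_add, ← cpt_spec, mulVec_mulVec,
        O.cent H e (H59.O3.cpt_comm r c1) (H59.O3.cpt_comm r c2)]
      simp only [map_smul, ← cpt_spec, ph_dot, add_mulVec, smul_mulVec, dotProduct_add,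
        dotProduct_smul, smul_eq_mul]
      ring
    · rw [Finset.mem_singleton.1 hj]
      exact ⟨(ct_inC _ _ _ _).smul _, (ct_inC _ _ _ _).smul _⟩
    · have jl : l ≠ j := fun e => hj (by simp [e])
      simp only [mul_smul_comm, smul_mul_assoc, ← ct_inC_left (InC.em jl _),
        ← ct_inC_right (InC.em jl _), hx, and_self]
  · have := congrArg (ct l (ph B a) a) h
    rw [ct_em_mul hX, ct_em_mul hY, ph_dot, ph_dot, O'.pj_c] at this
    simpa [jj_mulVec, O.aa, O.ab, H.sy b a] using this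

theorem CP.step (H : O4 B) (P : CP B ξ S π κ) (h : Xi B (ξ l)) (hl : l ∉ S) :
    ∃ π κ, CP B ξ (insert l S) π κ := by
  obtain ⟨p, j, Q, hQ⟩ := cp_one (t := t) H h
  have h2 := H.two
  obtain ⟨i1, i2⟩ := P.inC hl
  obtain ⟨c1, c2⟩ := Q.cm π fun x hx => by rw [Finset.mem_singleton.1 hx]; exact i1 _
  obtain ⟨c3, c4⟩ := Q.cm κ fun x hx => by rw [Finset.mem_singleton.1 hx]; exact i2 _
  have mm : ∀ {x y z w : EE 4 t F}, z * y = y * z → x * y * (z * w) = x * z * (y * w) :=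
    fun {x y z w} h => by rw [mul_assoc, ← mul_assoc y, ← h, mul_assoc, mul_assoc]
  have m1 : ∀ {z y w : EE 4 t F}, z * y = y * z → y * (z * w) = z * (y * w) :=
    fun {x y z} h => by rw [← mul_assoc, ← h, mul_assoc]
  refine ⟨(2 : F)⁻¹ • (p * π - j * κ), (2 : F)⁻¹ • (p * κ + j * π), ?_, ?_, ?_, ?_, ?_, ?_,
    fun e => P.ne (hQ π κ i1 i2 (sub_eq_zero.1 ((smul_eq_zero.1 e).resolve_left (inv_ne_zero h2)))),
    fun X hX => ?_, fun X hX => ?_⟩
  iterate 4
    simp only [smul_mul_assoc, mul_smul_comm, mul_sub, sub_mul, mul_add, add_mul, mm c1, mm c2,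
      mm c3, mm c4, Q.pp, Q.pk, Q.kp, Q.kk, P.pp, P.pk, P.kp, P.kk, mul_neg, neg_mul]
    match_scalars <;> field_simp <;> ring1
  · simp only [H.adj_smul', Frm.adj_sub, Frm.adj_mul, P.ap, P.ak, Q.ap, Q.ak, neg_mul_neg, c1, c4]
  · simp only [H.adj_smul', Frm.adj_add, Frm.adj_mul, P.ap, P.ak, Q.ap, Q.ak, neg_mul, mul_neg, c2,
      c3, ← smul_neg, neg_add]
  · obtain ⟨a1, a2⟩ := P.cm X fun x hx => hX x (by simp [hx])
    obtain ⟨a3, a4⟩ := Q.cm X fun x hx => hX x (by simp [Finset.mem_singleton.1 hx])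
    exact ⟨((Commute.mul_left a3 a1).sub_left (Commute.mul_left a4 a2)).smul_left _,
      ((Commute.mul_left a3 a2).add_left (Commute.mul_left a4 a1)).smul_left _⟩
  obtain ⟨X₀, X₁, e, a1, a2⟩ := Q.dec X fun x hx => hX x (by simp [Finset.mem_singleton.1 hx])
  have a3 := fun x (hx : x ∈ S) => a2 x (by simpa using ne_of_mem_of_not_mem hx hl) _
    (hX x (by simp [hx]))
  obtain ⟨Y₀, Y₁, e0, b1, b2⟩ := P.dec X₀ fun x hx => (a3 x hx).1
  obtain ⟨Z₀, Z₁, e1, d1, d2⟩ := P.dec X₁ fun x hx => (a3 x hx).2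
  obtain ⟨a4, a5⟩ := a1 l (by simp)
  refine ⟨Y₀ - Z₁, Y₁ + Z₀, ?_, fun x hx => ?_, fun x hx y hy => ?_⟩
  · have f0 : ∀ W, X * (p * W) = X₀ * (p * W) + X₁ * (j * W) := fun W => by
      simp only [← mul_assoc, e, add_mul]
    have f1 : ∀ W, X₀ * (π * W) = Y₀ * (π * W) + Y₁ * (κ * W) := fun W => by
      simp only [← mul_assoc, e0, add_mul]
    have f2 : ∀ W, X₁ * (π * W) = Z₀ * (π * W) + Z₁ * (κ * W) := fun W => by
      simp only [← mul_assoc, e1, add_mul]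
    have g0 : p * π - j * κ = p * (p * π - j * κ) := by
      simp only [mul_sub, ← mul_assoc, Q.pp, Q.pk]
    have g1 : j * (p * π - j * κ) = π * (p * κ + j * π) := by
      simp only [mul_sub, mul_add, m1 c1, m1 c2, P.pp, P.pk]
      simp only [← mul_assoc, Q.kp, Q.kk, neg_mul, sub_neg_eq_add, add_comm]
    have g2 : p * π - j * κ = π * (p * π - j * κ) := by
      simp only [mul_sub, m1 c1, m1 c2, P.pp, P.pk]
    have g3 : κ * (p * π - j * κ) = p * κ + j * π := by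
      simp only [mul_sub, m1 c3, m1 c4, P.kp, P.kk, mul_neg, sub_neg_eq_add]
    have g4 : κ * (p * κ + j * π) = -(p * π - j * κ) := by
      simp only [mul_add, m1 c3, m1 c4, P.kp, P.kk, mul_neg, neg_sub, neg_add_eq_sub]
    have g5 : π * (p * κ + j * π) = p * κ + j * π := by
      simp only [mul_add, m1 c1, m1 c2, P.pp, P.pk]
    simp only [mul_smul_comm, ← smul_add]
    rw [g0, f0, ← g0, g1, f2, g4, g5, g2, f1, g3, ← g2]
    congr 1
    noncomm_ring
  · rcases Finset.mem_insert.1 hx with rfl | hx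
    · exact ⟨InC.sub (fun y => (b2 x hl y (a4 y)).1) fun y => (d2 x hl y (a5 y)).2,
        InC.add (fun y => (b2 x hl y (a4 y)).2) fun y => (d2 x hl y (a5 y)).1⟩
    · exact ⟨(b1 x hx).1.sub (d1 x hx).2, (b1 x hx).2.add (d1 x hx).1⟩
  · rw [Finset.mem_insert, not_or] at hx
    obtain ⟨u1, u2⟩ := a2 x (by simpa using hx.1) y hy
    exact ⟨Commute.sub_right (b2 x hx.2 y u1).1 (d2 x hx.2 y u2).2,
      Commute.add_right (b2 x hx.2 y u1).2 (d2 x hx.2 y u2).1⟩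

theorem exists_cp (H : O4 B) (h : ∀ l, Xi B (ξ l)) (hS : S.Nonempty) : ∃ π κ, CP B ξ S π κ := by
  induction hS using Finset.Nonempty.cons_induction with
  | singleton l => obtain ⟨π, κ, P, -⟩ := cp_one (t := t) H (h l); exact ⟨π, κ, P⟩
  | cons l S hl _ ih =>
    obtain ⟨π, κ, P⟩ := ih
    rw [Finset.cons_eq_insert]
    exact P.step H (h l) hl

theorem CP.uniq (P : CP B ξ S π κ) (H : O4 B) (h3 : ∀ a : F, a = 0 ∨ a ^ 2 = 1) (hm : m ∉ S)
    (h : em m α * π + em m β * κ = em m γ * π + em m δ * κ) : α = γ ∧ β = δ := by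
  obtain ⟨i1, i2⟩ := P.inC hm
  have key : ∀ φ x, φ ⬝ᵥ (α - γ) *ᵥ x = 0 ∧ φ ⬝ᵥ (δ - β) *ᵥ x = 0 := fun φ x => by
    have h1 : em m (α - γ) * π = em m (δ - β) * κ := by
      rw [map_sub, map_sub, sub_mul, sub_mul, sub_eq_sub_iff_add_eq_add, h, add_comm]
    have h2 := congrArg (ct m φ x) h1
    rw [ct_em_mul i1, ct_em_mul i2] at h2
    generalize φ ⬝ᵥ (α - γ) *ᵥ x = r, φ ⬝ᵥ (δ - β) *ᵥ x = s at h2
    have h4 := congrArg₂ (· * ·) h2 h2
    simp only [smul_mul_smul_comm, P.pp, P.kk, smul_neg, eq_neg_iff_add_eq_zero, ← add_smul,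
      smul_eq_zero, P.ne, or_false] at h4
    rcases h3 r with e | e <;> rcases h3 s with e' | e'
    · exact ⟨e, e'⟩
    · exact absurd (by rw [e] at h4; linear_combination h4 - e') (one_ne_zero (α := F))
    · exact absurd (by rw [e'] at h4; linear_combination h4 - e) (one_ne_zero (α := F))
    · exact absurd (by linear_combination h4 - e - e') H.two
  exact ⟨sub_eq_zero.1 (ext_mulVec fun x => dot_ext fun φ => by
      rw [dotProduct_comm, (key φ x).1]; simp),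
    (sub_eq_zero.1 (ext_mulVec fun x => dot_ext fun φ => by
      rw [dotProduct_comm, (key φ x).2]; simp)).symm⟩

theorem CP.mul (P : CP B ξ S π κ) (hm : m ∉ S) (α β γ δ : Mk 4 F) :
    (em m α * π + em m β * κ) * (em m γ * π + em m δ * κ) =
      em m (α * γ - β * δ) * π + em m (α * δ + β * γ) * κ := by
  obtain ⟨i1, i2⟩ := P.inC hm
  simp only [mul_add, add_mul, em_mul_mul _ _ _ i1, em_mul_mul _ _ _ i2, P.pp, P.pk, P.kp, P.kk,
    map_sub, map_add, sub_mul, mul_neg]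
  abel

theorem bl_mul (α β γ δ : Mk 4 F) : bl α β * bl γ δ = bl (α * γ - β * δ) (α * δ + β * γ) := by
  simp only [bl, fromBlocks_multiply, fromBlocks_inj, Matrix.mul_neg, Matrix.neg_mul]
  refine ⟨?_, ?_, ?_, ?_⟩ <;> abel

theorem bl_one : bl (1 : Mk 4 F) 0 = 1 := by simp [bl]

theorem bl_inj (h : bl α β = bl γ δ) : α = γ ∧ β = δ :=
  have := fromBlocks_inj.1 h
  ⟨this.1, this.2.2.1⟩

theorem jobO4Base : JobO4Base.{u} := by
  intro hK hB F _ _ t B G m ξ C ht h3 hξ hc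
  have H := C.f.toO4
  have hm : m ∉ Finset.univ.erase m := by simp
  have mm : m ∈ ({m} : Finset (Fin t)) := by simp
  obtain ⟨π, κ, P⟩ := exists_cp (S := Finset.univ.erase m) H hξ
    (Finset.card_pos.1 (by simp; omega))
  obtain ⟨i1, i2⟩ := P.inC hm
  have hc' : ∀ g ∈ G, ∀ l ∈ Finset.univ.erase m,
      em l (ξ l : Mk 4 F) * (g : EE 4 t F) = (g : EE 4 t F) * em l (ξ l : Mk 4 F) :=
    fun g hg l hl => congrArg Units.val (hc g hg l (Finset.ne_of_mem_erase hl)).symm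
  have ex : ∀ g : G, ∃ α β, ((g : GG 4 t F) : EE 4 t F) * π = em m α * π + em m β * κ := fun g => by
    obtain ⟨Y, Z, e, h1, -⟩ := P.dec _ (hc' g g.2)
    obtain ⟨α, rfl⟩ : InA m Y := T4 fun j hj => (h1 j (by simp [hj])).1
    obtain ⟨β, rfl⟩ : InA m Z := T4 fun j hj => (h1 j (by simp [hj])).2
    exact ⟨α, β, e⟩
  choose α β e using ex
  have val : ∀ (g : G) γ δ, ((g : GG 4 t F) : EE 4 t F) * π = em m γ * π + em m δ * κ →
      bl (α g) (β g) = bl γ δ := fun g γ δ h => by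
    obtain ⟨h1, h2⟩ := P.uniq H h3 hm ((e g).symm.trans h)
    rw [h1, h2]
  let φ₀ : G →* Matrix (Fin 4 ⊕ Fin 4) (Fin 4 ⊕ Fin 4) F :=
    { toFun := fun g => bl (α g) (β g)
      map_one' := (val 1 1 0 (by simp)).trans bl_one
      map_mul' := fun g h => by
        rw [bl_mul]
        refine val _ _ _ ?_
        rw [← P.mul hm, ← e, ← e, mul_assoc, ← mul_assoc π, (P.cm _ (hc' h h.2)).1, mul_assoc,
          P.pp, Subgroup.coe_mul, Units.val_mul, mul_assoc] }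
  obtain ⟨φ, cv⟩ : ∃ φ : G →* GL (Fin 4 ⊕ Fin 4) F, ∀ g,
      (φ g : Matrix (Fin 4 ⊕ Fin 4) (Fin 4 ⊕ Fin 4) F) = bl (α g) (β g) :=
    ⟨φ₀.toHomUnits, fun _ => rfl⟩
  let K : Subgroup (GG 4 t F) :=
    { carrier := {g | g ∈ G ∧ (g : EE 4 t F) * π = π}
      one_mem' := ⟨one_mem _, by simp⟩
      mul_mem' := fun ha hb => ⟨mul_mem ha.1 hb.1, by rw [Units.val_mul, mul_assoc, hb.2, ha.2]⟩
      inv_mem' := fun ha => ⟨inv_mem ha.1, by rw [Units.inv_mul_eq_iff_eq_mul, ha.2]⟩ }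
  have hK : K ≤ TT 4 t F := by
    refine hK F t B G K {m} m C mm (fun x hx => hx.1) (fun s hs x hx =>
      ⟨mul_mem (mul_mem (C.mem m mm s hs) hx.1) (inv_mem (C.mem m mm s hs)), ?_⟩) fun x hx hT hn => ?_
    · rw [← map_inv, Units.val_mul, Units.val_mul, coe_emG, coe_emG, mul_assoc, i1, mul_assoc,
        ← mul_assoc (x : EE 4 t F), hx.2, ← i1, ← mul_assoc, ← map_mul, Units.mul_inv, map_one,
        one_mul]
    obtain ⟨a, ha⟩ : InA m (x : EE 4 t F) := T4 fun l hl => by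
      obtain ⟨w, hw, v, hv, d, hd, e⟩ := unip_split C.f.toO4L (C.le hx.1) hn
        (C.out x hx.1 hT l (by simpa using hl))
      obtain ⟨a, b, c, d', ε, O, -, -, -, h2, -⟩ := (hξ l).ex
      have h1 := hc' x hx.1 l (by simp [hl])
      rw [e, mul_assoc, ← hd, ← mul_assoc, ← mul_assoc, Units.mul_left_inj, ← map_mul, ← map_mul,
        em_inj] at h1
      have h4 := (Commute.mul_left h1 h1).add_left (Commute.one_left _)
      rw [h2, sub_add_cancel, Commute.smul_left_iff₀ H.two] at h4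
      rwa [e, H.eu_one hw (C.f.uz _ _ _ _ O w hw v hv h4.symm), map_one, one_mul]
    have := (P.uniq H h3 hm (α := a) (β := 0) (γ := 1) (δ := 0) (by simpa [ha] using hx.2)).1
    exact Units.ext (by rw [ha, this, map_one, Units.val_one])
  have back : ∀ x y : G, (y : GG 4 t F) ∈ TT 4 t F → φ y = φ x →
      (x : GG 4 t F) ∈ TT 4 t F := fun x y hy h => by
    have h1 : φ (y⁻¹ * x) = 1 := by rw [map_mul, map_inv, h, inv_mul_cancel]
    obtain ⟨h2, h4⟩ := bl_inj ((cv _).symm.trans ((congrArg Units.val h1).trans bl_one.symm))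
    exact (mul_mem_cancel_left (inv_mem hy)).1
      (hK ⟨(y⁻¹ * x).2, by simpa [h2, h4] using e (y⁻¹ * x)⟩)
  have vs : ∀ s (hs : s ∈ G0 B), (φ ⟨emG m s, C.mem m mm s hs⟩ :
      Matrix (Fin 4 ⊕ Fin 4) (Fin 4 ⊕ Fin 4) F) = bl s 0 := fun s hs =>
    (cv _).trans (val _ _ _ (by simp))
  have key : φ.range ≤ ((TT 4 t F).subgroupOf G).map φ := by
    refine hB F B _ _ C.f h3 (Subgroup.map_le_range _ _) ?_ (fun s hs => ⟨_, Subgroup.mem_map_of_mem φ
      (x := ⟨_, C.mem m mm s hs⟩) (InA.mem_T (by norm_num) (InA.em m _)), vs s hs⟩) ?_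
    · rintro _ ⟨g, rfl⟩
      have h1 := congrArg₂ (· * ·) (congrArg (B.pow t).adj (e g)) (e g)
      simp only [Frm.adj_add, Frm.adj_mul, P.ap, P.ak, adj_em] at h1
      rw [mul_assoc, ← mul_assoc _ _ π, In.adj_mul (In.coe.2 (C.le g.2)), one_mul, P.pp, neg_mul,
        ← i1, ← i2, ← neg_mul, ← map_neg, P.mul hm] at h1
      obtain ⟨h2, h4⟩ := P.uniq H h3 hm (α := 1) (β := 0) (Eq.trans (by simp) h1)
      exact ⟨α g, β g, cv g, by simpa using h2.symm, by simpa [add_neg_eq_zero] using h4.symm⟩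
    rintro _ ⟨g, rfl⟩ w hw v hv hn ⟨_, ⟨y, hy, rfl⟩, h⟩
    obtain ⟨s, hs, es⟩ := C.f.eich w hw v hv
    have h1 := back (g * ⟨_, C.mem m mm s hs⟩ * g⁻¹) y hy (Units.ext (by
      rw [h, map_mul, map_mul, map_inv, ← cj_coe, ← es, ← vs s hs]))
    exact Subgroup.mem_map_of_mem φ (C.ru' g.2 mm hw hv hn es h1)
  intro g hg
  obtain ⟨y, hy, h⟩ := key ⟨⟨g, hg⟩, rfl⟩
  exact back ⟨g, hg⟩ y hy h

end H60.Wr
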