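/- C7-O4 tower: overgroups of `Ω₄⁻(3)` in `GU₄(3)`. -/
import Cfsg.Agent.H60.WrO4Base
import Cfsg.Agent.H2.CoreFree
import Cfsg.Agent.H1.CoprimeGen

set_option autoImplicit false

namespace H60.Wr
open Cfsg Cfsg.Geo Matrix H19 Module
open scoped MatrixGroups commutatorElement

universe u

theorem no_idx {Γ : Type*} [Group Γ] [Finite Γ] [IsSimpleGroup Γ] (hc : Nat.card Γ = 360)
    (h : ∀ x u : Γ, x ^ 5 = 1 → u ^ 3 = 1 → u * x = x * u → x = 1 ∨ u = 1) (S : Subgroup Γ)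
    (hS : S.index = 9 ∨ S.index = 18) : False := by
  have : Fact (Nat.Prime 5) := ⟨by norm_num⟩
  have : Fact (Nat.Prime 3) := ⟨by norm_num⟩
  have h1 := S.card_mul_index
  obtain ⟨P⟩ : Nonempty (Sylow 5 S) := inferInstance
  have h2 : Nat.card P = 5 := by
    rw [P.card_eq_multiplicity]
    rcases hS with e | e
    · rw [show Nat.card S = 40 by rw [e, hc] at h1; omega]; simp [← Nat.primeFactorsList_count_eq]
    · rw [show Nat.card S = 20 by rw [e, hc] at h1; omega]; simp [← Nat.primeFactorsList_count_eq]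
  have h3 : Nat.card (Sylow 5 S) = 1 := by
    have a1 := card_sylow_modEq_one 5 S
    have a2 := P.card_dvd_index
    have a3 := (P : Subgroup S).card_mul_index
    have a4 : (P : Subgroup S).index ∣ 8 := by
      rw [h2] at a3
      rcases hS with e | e <;> rw [e, hc] at h1
      · rw [show (P : Subgroup S).index = 8 by omega]
      · rw [show (P : Subgroup S).index = 4 by omega]; decide
    have a5 := a2.trans a4
    have a6 := Nat.le_of_dvd (by norm_num) a5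
    generalize Nat.card (Sylow 5 S) = n at *
    unfold Nat.ModEq at a1
    interval_cases n <;> omega
  have : Subsingleton (Sylow 5 S) := (Nat.card_eq_one_iff_unique.1 h3).1
  have h4 := P.normal_of_subsingleton
  have h5 : Nat.card ((P : Subgroup S).map S.subtype) = 5 :=
    (Subgroup.card_map_of_injective S.subtype_injective).trans h2
  let Q := Sylow.ofCard (p := 5) ((P : Subgroup S).map S.subtype) (by
    rw [h5, hc]; simp [← Nat.primeFactorsList_count_eq])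
  have hQ : Nat.card (Q : Subgroup Γ) = 5 := h5
  have h6 : S ≤ Subgroup.normalizer (Q : Set Γ) := H1.le_normalizer_of_conj_mem 
    (N := (P : Subgroup S).map S.subtype) (by
      rintro a ha _ ⟨x, hx, rfl⟩
      exact ⟨_, h4.conj_mem x hx ⟨a, ha⟩, rfl⟩)
  have h7 := (Subgroup.index_dvd_of_le h6).trans (show S.index ∣ 18 by
    rcases hS with e | e <;> rw [e]; decide)
  have h8 := card_sylow_modEq_one 5 Γ
  have h9 := (Subgroup.normalizer (Q : Set Γ)).card_mul_index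
  rw [Q.card_eq_index_normalizer] at h8
  have h10 := Nat.le_of_dvd (by norm_num) h7
  by_cases e : (Subgroup.normalizer (Q : Set Γ)).index = 1
  · rcases (Subgroup.normalizer_eq_top_iff.1 (Subgroup.index_eq_one.1 e)).eq_bot_or_eq_top with h | h
    · rw [h] at hQ; simp at hQ
    · rw [h, Subgroup.card_top, hc] at hQ; omega
  obtain ⟨u, hu⟩ := exists_prime_orderOf_dvd_card' (G := Subgroup.normalizer (Q : Set Γ)) 3 (by
    generalize (Subgroup.normalizer (Q : Set Γ)).index = n at *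
    unfold Nat.ModEq at h8
    interval_cases n <;> omega)
  rw [← Subgroup.orderOf_coe] at hu
  have a1 := H2.card_modEq_card_inf_centralizer (q := 3) (Q := Subgroup.zpowers (u : Γ))
    (K := Q) (IsPGroup.of_card (n := 1) (by rw [Nat.card_zpowers, hu, pow_one]))
    ((Subgroup.zpowers_le).2 u.2)
  obtain ⟨x, hx, x1⟩ := (Subgroup.nontrivial_iff_exists_ne_one _).1
    ((Subgroup.nontrivial_iff_ne_bot ((Q : Subgroup Γ) ⊓ Subgroup.centralizer
      (Subgroup.zpowers (u : Γ) : Set Γ))).2 fun e => by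
      rw [e, hQ, Subgroup.card_bot] at a1; exact absurd a1 (by decide))
  have a2 := pow_card_eq_one' (x := (⟨x, hx.1⟩ : (Q : Subgroup Γ)))
  rw [hQ] at a2
  rcases h x u (congrArg Subtype.val a2)
    (hu ▸ pow_orderOf_eq_one _) (hx.2 _ (Subgroup.mem_zpowers _)) with e | e
  · exact x1 e
  · rw [e, orderOf_one] at hu; omega

variable {F : Type u} [Field F] {B : Frm (Fin 4) F} {w v : Fin 4 → F}

/-- The group of the flag `L ≤ P`. -/
def flg {ι : Type} [Fintype ι] [DecidableEq ι] (L P : Submodule F (ι → F)) : Subgroup (GL ι F) where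
  carrier := {y | (∀ z ∈ L, (y : Matrix ι ι F) *ᵥ z - z = 0) ∧
    (∀ z ∈ P, (y : Matrix ι ι F) *ᵥ z - z ∈ L) ∧ ∀ z, (y : Matrix ι ι F) *ᵥ z - z ∈ P}
  one_mem' := by simp
  mul_mem' {a b} ha hb := by
    have e : ∀ z, ((a * b : GL ι F) : Matrix ι ι F) *ᵥ z - z = ((a : Matrix ι ι F) *ᵥ
      ((b : Matrix ι ι F) *ᵥ z) - (b : Matrix ι ι F) *ᵥ z) + ((b : Matrix ι ι F) *ᵥ z - z) :=
      fun z => by simp
    refine ⟨fun z hz => ?_, fun z hz => ?_, fun z => e z ▸ add_mem (ha.2.2 _) (hb.2.2 _)⟩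
    · rw [e, sub_eq_zero.1 (hb.1 z hz), ha.1 z hz, sub_self, add_zero]
    · exact e z ▸ add_mem (ha.2.1 _ (by simpa using add_mem (hb.2.2 z) hz)) (hb.2.1 z hz)
  inv_mem' {a} ha := by
    have e : ∀ z, ((a⁻¹ : GL ι F) : Matrix ι ι F) *ᵥ z - z = -((a : Matrix ι ι F) *ᵥ
      (((a⁻¹ : GL ι F) : Matrix ι ι F) *ᵥ z) - ((a⁻¹ : GL ι F) : Matrix ι ι F) *ᵥ z) :=
      fun z => by rw [mulVec_mulVec, Units.mul_inv, one_mulVec, neg_sub]
    have e3 := fun z => e z ▸ neg_mem (ha.2.2 (((a⁻¹ : GL ι F) : Matrix ι ι F) *ᵥ z))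
    refine ⟨fun z hz => ?_, fun z hz => e z ▸ neg_mem (ha.2.1 _ ?_), e3⟩
    · nth_rw 1 [← sub_eq_zero.1 (ha.1 z hz)]
      rw [mulVec_mulVec, Units.inv_mul, one_mulVec, sub_self]
    · have := add_mem (e3 z) hz
      rwa [sub_add_cancel] at this

/-- Matrices of size eight. -/
abbrev M8 (F : Type u) := Matrix (Fin 4 ⊕ Fin 4) (Fin 4 ⊕ Fin 4) F

/-- The complex line through `w`. -/
def LL (w : Fin 4 → F) : Submodule F (Fin 4 ⊕ Fin 4 → F) where
  carrier := {z | ∃ a b : F, z = Sum.elim (a • w) (b • w)}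
  zero_mem' := ⟨0, 0, by simp⟩
  add_mem' := by
    rintro _ _ ⟨a, b, rfl⟩ ⟨c, d, rfl⟩
    exact ⟨a + c, b + d, by ext (i | i) <;> simp [add_mul]⟩
  smul_mem' := by
    rintro r _ ⟨a, b, rfl⟩
    exact ⟨r * a, r * b, by ext (i | i) <;> simp [mul_assoc]⟩

/-- The real part of the hermitian form. -/
def Ph (B : Frm (Fin 4) F) (z y : Fin 4 ⊕ Fin 4 → F) : F :=
  B.f (z ∘ Sum.inl) (y ∘ Sum.inl) + B.f (z ∘ Sum.inr) (y ∘ Sum.inr)

/-- The complement of the complex line. -/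
def PP (B : Frm (Fin 4) F) (w : Fin 4 → F) : Submodule F (Fin 4 ⊕ Fin 4 → F) :=
  (pp B w).comap (LinearMap.funLeft F F Sum.inl) ⊓ (pp B w).comap (LinearMap.funLeft F F Sum.inr)

theorem mem_PP {z : Fin 4 ⊕ Fin 4 → F} :
    z ∈ PP B w ↔ B.f (z ∘ Sum.inl) w = 0 ∧ B.f (z ∘ Sum.inr) w = 0 := Iff.rfl

theorem mem_PP' (H : O4 B) {z : Fin 4 ⊕ Fin 4 → F} : z ∈ PP B w ↔ ∀ y ∈ LL w, Ph B z y = 0 := by
  refine ⟨?_, fun h => mem_PP.2 ⟨?_, ?_⟩⟩
  · rintro ⟨h1, h2⟩ _ ⟨a, b, rfl⟩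
    simp [Ph, H.smr, mem_PP.1 ⟨h1, h2⟩]
  · simpa [Ph] using h _ ⟨1, 0, rfl⟩
  · simpa [Ph] using h _ ⟨0, 1, rfl⟩

theorem bl_mulVec (α β : Mk 4 F) (x y : Fin 4 → F) :
    bl α β *ᵥ Sum.elim x y = Sum.elim (α *ᵥ x - β *ᵥ y) (β *ᵥ x + α *ᵥ y) := by
  simp [bl, fromBlocks_mulVec, neg_mulVec, sub_eq_add_neg]

theorem Ph_bl {α β : Mk 4 F} (h1 : B.adj α * α + B.adj β * β = 1) (h2 : B.adj α * β = B.adj β * α)
    (z y : Fin 4 ⊕ Fin 4 → F) : Ph B (bl α β *ᵥ z) (bl α β *ᵥ y) = Ph B z y := by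
  rw [← Sum.elim_comp_inl_inr z, ← Sum.elim_comp_inl_inr y]
  generalize z ∘ Sum.inl = a, z ∘ Sum.inr = b, y ∘ Sum.inl = c, y ∘ Sum.inr = d
  have e1 := fun x y => congrArg (fun X => B.f x (X *ᵥ y)) h1
  have e2 := fun x y => congrArg (fun X => B.f x (X *ᵥ y)) h2
  simp only [add_mulVec, B.add_right, ← mulVec_mulVec, ← B.adj_left, one_mulVec] at e1 e2
  simp only [Ph, bl_mulVec, Sum.elim_comp_inl, Sum.elim_comp_inr, B.add_left, B.add_right,
    B.sub_left, B.sub_right]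
  linear_combination e1 a c + e1 b d - e2 a d + e2 b c

theorem sq_add_ne (H : O4 B) (h3 : ∀ a : F, a = 0 ∨ a ^ 2 = 1) {r s : F} (h : r ^ 2 + s ^ 2 = 0) :
    r = 0 ∧ s = 0 := by
  rcases h3 r with e | e <;> rcases h3 s with e' | e'
  · exact ⟨e, e'⟩
  · exact absurd (by rw [e] at h; linear_combination h - e') (one_ne_zero (α := F))
  · exact absurd (by rw [e'] at h; linear_combination h - e) (one_ne_zero (α := F))
  · exact absurd (by linear_combination h - e - e') H.two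

theorem bl_LL (H : O4 B) (h3 : ∀ a : F, a = 0 ∨ a ^ 2 = 1) {α β : Mk 4 F} {x z : Fin 4 ⊕ Fin 4 → F}
    (hx : x ∈ LL w) (x0 : x ≠ 0) (h : bl α β *ᵥ x ∈ LL w) (hz : z ∈ LL w) : bl α β *ᵥ z ∈ LL w := by
  have e : ∀ x y : Fin 4 → F, bl 0 1 *ᵥ Sum.elim x y = Sum.elim (-y) x := fun x y => by
    simp [bl_mulVec]
  have h1 : bl α β *ᵥ (bl 0 1 *ᵥ x) ∈ LL w := by
    rw [mulVec_mulVec, show bl α β * bl 0 1 = bl 0 1 * bl α β by simp [bl_mul], ← mulVec_mulVec]
    obtain ⟨a, b, h⟩ := h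
    exact ⟨-b, a, by rw [h, e, neg_smul]⟩
  obtain ⟨a, b, rfl⟩ := hx
  obtain ⟨c, d, rfl⟩ := hz
  have n : a ^ 2 + b ^ 2 ≠ 0 := fun h => x0 (by simp [sq_add_ne H h3 h])
  convert add_mem ((LL w).smul_mem ((a * c + b * d) / (a ^ 2 + b ^ 2)) h)
    ((LL w).smul_mem ((a * d - b * c) / (a ^ 2 + b ^ 2)) h1) using 1
  rw [← mulVec_smul, ← mulVec_smul, ← mulVec_add, e]
  congr 1
  ext (i | i) <;> simp <;> field_simp <;> ring

theorem card_Ph [Finite F] (h3 : ∀ a : F, a = 0 ∨ a ^ 2 = 1) (h : Nat.card (IsoV B) = 20) :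
    Nat.card {z // Ph B z z = 0} ≤ 2241 := by
  classical
  have := Fintype.ofFinite F
  have h4 : ∀ a : F, a = 0 ∨ a = 1 ∨ a = -1 := fun a => (h3 a).imp_right sq_eq_one_iff.1
  let A : F → Finset (Fin 4 → F) := fun c => Finset.univ.filter fun x => B.f x x = c
  have a0 : (A 0).card = 21 := by
    have : A 0 = insert 0 (IsoV B).toFinset := by
      ext x
      rw [Finset.mem_insert, Set.mem_toFinset]
      by_cases e : x = 0 <;> simp [A, IsoV, e]
    rw [this, Finset.card_insert_of_notMem fun h => (Set.mem_toFinset.1 h).1 rfl, Set.toFinset_card,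
      ← Nat.card_eq_fintype_card, h]
  have a1 : (A 0).card + (A 1).card + (A (-1)).card ≤ 81 := by
    by_cases e : (1 : F) = -1
    · have : Fintype.card F ≤ 2 := (Finset.card_le_card (s := Finset.univ) (t := {0, 1})
        fun a _ => by simpa [← e] using h4 a).trans Finset.card_le_two
      have h5 := (Finset.card_le_univ (A 0)).trans (show _ ≤ 2 ^ 4 by
        simpa using Nat.pow_le_pow_left this 4)
      omega
    have : Fintype.card F ≤ 3 := (Finset.card_le_card (s := Finset.univ) (t := {0, 1, -1})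
      fun a _ => by simpa using h4 a).trans Finset.card_le_three
    rw [← Finset.card_union_of_disjoint, ← Finset.card_union_of_disjoint]
    · exact (Finset.card_le_univ _).trans (show _ ≤ 3 ^ 4 by simpa using Nat.pow_le_pow_left this 4)
    · simp +contextual [Finset.disjoint_left, A, or_imp, e]
    · simp +contextual [Finset.disjoint_left, A]
  have a2 : Nat.card {z // Ph B z z = 0} ≤ (A 0 ×ˢ A 0 ∪ A 1 ×ˢ A (-1) ∪ A (-1) ×ˢ A 1).card := by
    rw [← Nat.card_eq_finsetCard]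
    refine Nat.card_le_card_of_injective (fun z => ⟨(z.1 ∘ Sum.inl, z.1 ∘ Sum.inr), ?_⟩)
      fun z y e => Subtype.ext ?_
    · have := eq_neg_of_add_eq_zero_right z.2
      rcases h4 (B.f (z.1 ∘ Sum.inl) (z.1 ∘ Sum.inl)) with e | e | e <;> simp [A, this, e]
    · obtain ⟨e1, e2⟩ := Prod.mk.inj (congrArg Subtype.val e)
      ext (i | i)
      exacts [congrFun e1 i, congrFun e2 i]
  have a3 := a2.trans ((Finset.card_union_le _ _).trans
    (Nat.add_le_add_right (Finset.card_union_le _ _) _))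
  simp only [Finset.card_product, a0] at a1 a3
  nlinarith [sq_nonneg (((A 1).card : ℤ) - (A (-1)).card)]

theorem comm53 [Finite F] (H : O4F B) (h3 : ∀ a : F, a = 0 ∨ a ^ 2 = 1) (x u : G0 B)
    (hx : x ^ 5 = 1) (hw : w ∈ IsoV B) (hv : B.f v w = 0) (hn : v ∉ F ∙ w)
    (e : ((u : GL (Fin 4) F) : Mk 4 F) = eu B w v) (h : u * x = x * u) : x = 1 := by
  obtain ⟨c1, c2⟩ := H.card3 h3
  have h1 : Commute (eu B w v) ((x : GL (Fin 4) F) : Mk 4 F) :=
    e ▸ congrArg (fun s : G0 B => ((s : GL (Fin 4) F) : Mk 4 F)) h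
  have h2 := (h1.sub_left (Commute.one_left _)).pow_left 2
  rw [H.eu_sq hw.2 hv, Commute.smul_left_iff₀ (neg_ne_zero.2 (H.nz hw hv hn))] at h2
  obtain ⟨w', -, ww⟩ := H.hyp w hw
  have h4 := congrArg (· *ᵥ w') h2.eq
  simp only [← mulVec_mulVec, rf_mulVec, H.sy w', ww, one_smul] at h4
  generalize B.f (_ *ᵥ w') w = c at h4
  have h5 : x ^ 2 ∈ MulAction.stabilizer (G0 B) w := by
    change (((x ^ 2 : G0 B) : GL (Fin 4) F) : Mk 4 F) *ᵥ w = w
    rw [pow_two, Subgroup.coe_mul, Units.val_mul, ← mulVec_mulVec, ← h4, mulVec_smul, ← h4,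
      smul_smul, ← pow_two, (h3 c).resolve_left, one_smul]
    rintro rfl
    exact hw.1 (toLin'_inj (x : GL (Fin 4) F) (by simpa using h4.symm))
  have h6 : MulAction.orbit (G0 B) w = IsoV B := by
    ext y
    refine ⟨?_, fun hy => ?_⟩
    · rintro ⟨s, rfl⟩
      exact ⟨fun e => hw.1 ((smul_eq_zero_iff_eq s).1 e),
        (B.mem_Iso.1 (comm_le _ s.2) w w).trans hw.2⟩
    · obtain ⟨s, hs, e⟩ := H.trx w hw y hy
      exact ⟨⟨s, hs⟩, e⟩
  have h7 := (MulAction.stabilizer (G0 B) w).card_mul_index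
  rw [MulAction.index_stabilizer, h6, ← Nat.card_coe_set_eq, c1, c2] at h7
  have h8 : (x ^ 2) ^ 18 = 1 := by
    have := pow_card_eq_one' (x := (⟨_, h5⟩ : MulAction.stabilizer (G0 B) w))
    rw [show Nat.card (MulAction.stabilizer (G0 B) w) = 18 by omega] at this
    exact congrArg Subtype.val this
  rwa [← pow_mul, show 2 * 18 = 5 * 7 + 1 by norm_num, pow_succ, pow_mul, hx, one_pow, one_mul] at h8

theorem eu_flg (H : O4 B) (hw : w ∈ IsoV B) (hv : B.f v w = 0) {u : GL (Fin 4 ⊕ Fin 4) F}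
    (e : (u : M8 F) = bl (eu B w v) 0) :
    u ∈ flg (LL w) (PP B w) := by
  have k : ∀ z : Fin 4 ⊕ Fin 4 → F, (u : M8 F) *ᵥ z - z =
      Sum.elim (eu B w v *ᵥ (z ∘ Sum.inl) - z ∘ Sum.inl) (eu B w v *ᵥ (z ∘ Sum.inr) - z ∘ Sum.inr) :=
    fun z => by
      conv_lhs => rw [← Sum.elim_comp_inl_inr z, e, bl_mulVec]
      ext (i | i) <;> simp
  refine ⟨?_, fun z hz => ⟨B.f (z ∘ Sum.inl) v, B.f (z ∘ Sum.inr) v, ?_⟩, fun z => mem_PP.2 ?_⟩
  · rintro _ ⟨a, b, rfl⟩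
    simp [k, eu_mulVec4, B.smul_left, hw.2, H.sy w v, hv]
  · simp [k, eu_mulVec4, (mem_PP.1 hz).1, (mem_PP.1 hz).2]
  · simp [k, eu_mulVec4, B.add_left, B.sub_left, B.smul_left, hw.2, hv]

theorem jobO4B3 : JobO4B3.{u} := by
  intro F _ _ B G H f h3 hle hG hΓ ru
  have O := f.toO4
  obtain ⟨c1, c2⟩ := f.card3 h3
  have : Fact (Nat.Prime 3) := ⟨by norm_num⟩
  have t3 : (3 : F) = 0 := by linear_combination (h3 2).resolve_left O.two
  have : CharP F 3 := (CharP.charP_iff_prime_eq_zero Fact.out).2 (by exact_mod_cast t3)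
  have stab : ∀ w ∈ IsoV B, ∀ g ∈ G, ∀ x ∈ LL w, x ≠ 0 →
      (g : M8 F) *ᵥ x ∈ LL w → g ∈ H := by
    intro w hw g hg x hx x0 hgx
    obtain ⟨w', v, v', R⟩ := f.fr hw
    obtain ⟨s, hs, es⟩ := f.eich w hw v R.vw
    obtain ⟨u, hu, eu'⟩ := hΓ s hs
    rw [es] at eu'
    have uY := eu_flg O hw R.vw eu'
    have ru' : ∀ y ∈ G, y * u * y⁻¹ ∈ H → y ∈ H := fun y hy h =>
      ru y hy w hw v R.vw R.notMem ⟨_, h, by rw [← cj_coe, eu']⟩
    have hY : G ⊓ flg (LL w) (PP B w) ≤ H := by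
      by_contra hn
      have h1 : IsPGroup 3 ↥(G ⊓ flg (LL w) (PP B w)) := fun y => ⟨1, Subtype.ext (Units.ext (by
        have : ((y.1 : M8 F) - 1) ^ 3 = 0 := ext_mulVec fun z => by
          simp only [pow_three, ← mulVec_mulVec, sub_mulVec, one_mulVec, zero_mulVec]
          exact y.2.2.1 _ (y.2.2.2.1 _ (y.2.2.2.2 z))
        rwa [sub_pow_char_of_commute _ (Commute.one_right _), one_pow, sub_eq_zero] at this))⟩
      have := h1.isNilpotent
      obtain ⟨y, hy, hy'⟩ := SetLike.exists_of_lt (Group.normalizerCondition_of_isNilpotent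
        (G := ↥(G ⊓ flg (LL w) (PP B w))) (H.subgroupOf _)
        (by rwa [lt_top_iff_ne_top, Ne, Subgroup.subgroupOf_eq_top]))
      exact hy' (ru' y y.2.1 ((Subgroup.mem_normalizer_iff.1 hy ⟨u, hle hu, uY⟩).1 hu))
    have l1 : ∀ g ∈ G, ∀ x ∈ LL w, x ≠ 0 →
        (g : M8 F) *ᵥ x ∈ LL w →
        ∀ z ∈ LL w, (g : M8 F) *ᵥ z ∈ LL w :=
      fun g hg x hx x0 h z hz => by
        obtain ⟨α, β, e, -⟩ := hG g hg
        rw [e] at h ⊢
        exact bl_LL O h3 hx x0 h hz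
    have l2 : ∀ g ∈ G, (∀ z ∈ LL w, ((g⁻¹ : GL _ F) : M8 F) *ᵥ z
        ∈ LL w) → ∀ z ∈ PP B w, (g : M8 F) *ᵥ z ∈ PP B w :=
      fun g hg h z hz => (mem_PP' O).2 fun y hy => by
        obtain ⟨α, β, e, e1, e2⟩ := hG g hg
        rw [← (mem_PP' O).1 hz _ (h y hy), ← Ph_bl e1 e2 z, ← e, mulVec_mulVec, Units.mul_inv,
          one_mulVec]
    have a1 := l1 g hg x hx x0 hgx
    have a2 := l1 g⁻¹ (inv_mem hg) _ hgx (fun e => x0 (toLin'_inj g (by simpa using e)))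
      (by rwa [mulVec_mulVec, Units.inv_mul, one_mulVec])
    have k : ∀ z, ((g * u * g⁻¹ : GL _ F) : M8 F) *ᵥ z - z =
        (g : M8 F) *ᵥ ((u : M8 F) *ᵥ (((g⁻¹ : GL _ F) : M8 F) *ᵥ z) -
          ((g⁻¹ : GL _ F) : M8 F) *ᵥ z) := fun z => by
      rw [mulVec_sub, mulVec_mulVec z (g : M8 F), Units.mul_inv, one_mulVec, Units.val_mul,
        Units.val_mul, ← mulVec_mulVec, ← mulVec_mulVec]
    exact ru' g hg (hY ⟨G.mul_mem (G.mul_mem hg (hle hu)) (G.inv_mem hg),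
      fun z hz => by rw [k, uY.1 _ (a2 z hz), mulVec_zero],
      fun z hz => k z ▸ a1 _ (uY.2.1 _ (l2 g⁻¹ (inv_mem hg) (by rwa [inv_inv]) z hz)),
      fun z => k z ▸ l2 g hg a2 _ (uY.2.2 _)⟩)
  let sh : Fin 4 → F × F := ![(1, 0), (0, 1), (1, 1), (1, -1)]
  let vec : IsoV B × Fin 4 → Fin 4 ⊕ Fin 4 → F := fun p =>
    Sum.elim ((sh p.2).1 • p.1.1) ((sh p.2).2 • p.1.1)
  have vi : Function.Injective vec := by
    rintro ⟨⟨w, hw⟩, r⟩ ⟨⟨x, hx⟩, s⟩ h
    have h1 := congrArg (· ∘ Sum.inl) h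
    have h2 := congrArg (· ∘ Sum.inr) h
    have n : ∀ y : Fin 4 → F, y ≠ 0 → y ≠ -y ∧ -y ≠ y := fun y h => by
      have : y ≠ -y := fun e => by
        rw [eq_neg_iff_add_eq_zero, ← two_smul F, smul_eq_zero] at e
        exact e.elim O.two h
      exact ⟨this, this.symm⟩
    have : ∀ r s, (sh r).1 • w = (sh s).1 • x → (sh r).2 • w = (sh s).2 • x → w = x ∧ r = s := by
      intro r s
      fin_cases r <;> fin_cases s <;>
        simp +contextual [sh, hw.1, hx.1, hx.1.symm, n x hx.1]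
    obtain ⟨rfl, rfl⟩ := this r s h1 h2
    rfl
  have v0 : ∀ p, vec p ≠ 0 := by
    rintro ⟨⟨w, hw⟩, r⟩ h
    have h1 := congrArg (· ∘ Sum.inl) h
    have h2 := congrArg (· ∘ Sum.inr) h
    fin_cases r <;> simp [vec, sh, hw.1] at h1 h2
  have cnt : Nat.card ((G ⧸ H.subgroupOf G) × IsoV B × Fin 4) ≤ Nat.card {z // Ph B z z = 0} := by
    refine Nat.card_le_card_of_injective (fun p => ⟨((p.1.out : G).1 : M8 F) *ᵥ vec p.2, ?_⟩)
      fun p q e => ?_
    · obtain ⟨α, β, e, e1, e2⟩ := hG _ p.1.out.2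
      rw [e, Ph_bl e1 e2]
      simp [Ph, vec, B.smul_left, O.smr, p.2.1.2.2]
    have e1 : ((p.1.out : G).1 : M8 F) *ᵥ vec p.2 =
      ((q.1.out : G).1 : M8 F) *ᵥ vec q.2 := congrArg Subtype.val e
    have e2 : p.1 = q.1 := by
      obtain ⟨s, hs, es⟩ := f.trx _ q.2.1.2 _ p.2.1.2
      obtain ⟨u, hu, eu'⟩ := hΓ s hs
      rw [← p.1.out_eq', ← q.1.out_eq', eq_comm, QuotientGroup.eq]
      refine (mul_mem_cancel_left hu).1 (stab _ p.2.1.2 _
        (mul_mem (hle hu) (q.1.out⁻¹ * p.1.out).2) (vec p.2) ⟨_, _, rfl⟩ (v0 _) ?_)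
      rw [Units.val_mul, Subgroup.coe_subtype, Subgroup.coe_mul, Units.val_mul, ← mulVec_mulVec,
        ← mulVec_mulVec, e1,
        mulVec_mulVec (vec q.2), Subgroup.coe_inv, Units.inv_mul, one_mulVec, eu', bl_mulVec]
      exact ⟨(sh q.2.2).1, (sh q.2.2).2, by simp [mulVec_smul, es]⟩
    rw [e2] at e1
    exact Prod.ext e2 (vi (toLin'_inj _ e1))
  have cnt2 := cnt.trans (card_Ph h3 c1)
  rw [Nat.card_prod, Nat.card_prod, c1, Nat.card_eq_fintype_card (α := Fin 4), Fintype.card_fin] at cnt2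
  choose! ι₀ hι eι using hΓ
  let ι : G0 B →* G := MonoidHom.mk' (fun s => ⟨ι₀ s, hle (hι s s.2)⟩) fun a b =>
    Subtype.ext (Units.ext (by
      simp only [Subgroup.coe_mul, Units.val_mul, eι _ a.2, eι _ b.2, eι _ (mul_mem a.2 b.2), bl_mul]
      simp))
  have key : ∀ u : G0 B, u ^ 3 = 1 → u = 1 ∨ ∃ w ∈ IsoV B, ∃ v, B.f v w = 0 ∧ v ∉ F ∙ w ∧
      ((u : GL (Fin 4) F) : Mk 4 F) = eu B w v := fun u hu => by
    obtain ⟨w, hw, v, hv, e⟩ := f.unip u (comm_le _ u.2) ⟨3, by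
      rw [sub_pow_char_of_commute _ (Commute.one_right _), one_pow, sub_eq_zero]
      exact congrArg (fun s : G0 B => ((s : GL (Fin 4) F) : Mk 4 F)) hu⟩
    by_cases h : v ∈ F ∙ w
    · exact .inl (Subtype.ext (Units.ext (e.trans (O.eu_one hw h))))
    · exact .inr ⟨w, hw, v, hv, h, e⟩
  intro g hg
  by_contra hn
  let _ := MulAction.compHom (G ⧸ H.subgroupOf G) ι
  let q : G ⧸ H.subgroupOf G := (⟨g, hg⟩ : G)
  have mem : ∀ s : G0 B, ∀ x y : G, s • (x : G ⧸ H.subgroupOf G) = y ↔ (ι s * x)⁻¹ * y ∈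
    H.subgroupOf G := fun s x y => QuotientGroup.eq
  have a1 : ¬ 3 ∣ Nat.card (MulAction.stabilizer (G0 B) q) := fun h => by
    obtain ⟨u, hu⟩ := exists_prime_orderOf_dvd_card' 3 h
    rw [← Subgroup.orderOf_coe] at hu
    rcases key u (hu ▸ pow_orderOf_eq_one _) with e | ⟨w, hw, v, hv, h1, e⟩
    · rw [e, orderOf_one] at hu; omega
    refine hn (inv_mem_iff.1 (ru _ (inv_mem hg) w hw v hv h1 ⟨_, inv_mem ((mem _ _ _).1 u.2), ?_⟩))
    rw [← e, ← eι _ u.1.2, cj_coe]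
    simp [ι, mul_assoc]
  have a2 : (MulAction.stabilizer (G0 B) q).index < Nat.card (G ⧸ H.subgroupOf G) := by
    rw [MulAction.index_stabilizer, ← Set.ncard_univ]
    refine Set.ncard_lt_ncard (Set.ssubset_univ_iff.2 fun e => ?_)
    obtain ⟨s, hs⟩ : ((1 : G) : G ⧸ H.subgroupOf G) ∈ MulAction.orbit (G0 B) q := by simp [e]
    have := (mem _ _ _).1 hs
    rw [mul_one, inv_mem_iff] at this
    exact hn ((mul_mem_cancel_left (hι s s.2)).1 this)
  have a3 := (MulAction.stabilizer (G0 B) q).card_mul_index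
  have a4 : 9 ∣ (MulAction.stabilizer (G0 B) q).index :=
    (Nat.Coprime.pow_left 2 ((Nat.Prime.coprime_iff_not_dvd Nat.prime_three).2 a1)).dvd_of_dvd_mul_left
      (by rw [a3, c2]; decide)
  have := f.simple
  refine no_idx c2 (fun x u hx hu h => (key u hu).elim .inr fun ⟨w, hw, v, hv, h1, e⟩ =>
    .inl (comm53 f h3 x u hx hw hv h1 e h)) (MulAction.stabilizer (G0 B) q) ?_
  obtain ⟨c, hc⟩ := a4
  rw [c2, hc] at a3
  have : c < 4 := by omega
  interval_cases c <;> omega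

end H60.Wr
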