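/- C7-O4 tower: property (Q) gives (QL). -/
import Cfsg.Agent.H60.WrO4Kit
import Cfsg.Agent.H49.C7BQL

set_option autoImplicit false

namespace H60.Wr
open Cfsg Cfsg.Geo Matrix H19 Module H49.BQL
open scoped MatrixGroups

universe u

variable {F : Type u} [Field F] {B : Frm (Fin 4) F} {t : ℕ} {M : Subgroup (GG 4 t F)} {i : Fin t}
  {w w' φ v v' : Fin 4 → F} {m : GG 4 t F}

theorem eich4 (H : O4F B) (hw : w ∈ IsoV B) (hv : B.f v w = 0) :
    ∃ s ∈ G0 B, (s : Mk 4 F) = 1 + rf B w v - B.ε • rf B v w - (B.f v v / 2) • rf B w w := by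
  obtain ⟨s, hs, e⟩ := H.eich w hw v hv
  exact ⟨s, hs, by rw [e, eu, H.eps, one_smul, add_sub_assoc 1 (rf B w v)]⟩

theorem shape4 (H : O4K B) {ν : Mk 4 F} (h : ν ∈ RN B ∪ RS B) :
    ∃ (N : Mk 4 F) (s : GL (Fin 4) F), s ∈ B.Iso ∧ N * ν = 0 ∧ N * cj s ν * ν ≠ 0 := by
  have O := H.toO4
  have main : ∀ w ∈ IsoV B, ∃ w' v v', Fr4 B w w' v v' ∧ ∃ s ∈ B.Iso, (s : Mk 4 F) *ᵥ w = w' ∧
      ∀ y, B.f y w = 0 → B.f y w' = 0 → (s : Mk 4 F) *ᵥ y = y := fun w hw => by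
    obtain ⟨w', v, v', R⟩ := H.fr hw
    obtain ⟨s, hs, e⟩ := H.rlI _ (R.ob O).bb
    have := O.two
    refine ⟨w', v, v', R, s, hs, ?_, fun y h1 h2 => by simp [e, rl_mulVec, B.sub_right, h1, h2]⟩
    simp only [e, rl_mulVec, B.sub_left, B.sub_right, R.ww, R.w'w O, R.hw.2, R.hw'.2]
    rw [show (0 : F) - 1 - (1 - 0) = -2 by ring]
    match_scalars <;> field_simp <;> ring1
  rcases h with ⟨w, hw, rfl⟩ | ⟨w, hw, y, h1, h2, rfl⟩ <;>
    obtain ⟨w', v, v', R, s, hs, e1, e2⟩ := main w hw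
  · refine ⟨rf B w w, s, hs, by rw [rf_mul_rf, hw.2, zero_smul], ?_⟩
    simpa [cj_rf hs, e1, rf_mul_rf, R.ww, R.w'w O] using rf_ne_zero hw.1 hw.1
  refine ⟨rf B w w, s, hs, by simp [mul_sub, rf_mul_rf, hw.2, h1], ?_⟩
  obtain ⟨d, a, rfl, d1, d2⟩ : ∃ d a, y = d + (a : F) • w ∧ B.f d w = 0 ∧ B.f d w' = 0 :=
    ⟨y - B.f y w' • w, B.f y w', by simp, by simp [B.sub_left, B.smul_left, h1, hw.2],
      by simp [B.sub_left, B.smul_left, R.ww]⟩
  have d0 := O.nz hw d1 fun h => h2 (add_mem h (Submodule.smul_mem _ _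
    (Submodule.mem_span_singleton_self w)))
  have : rf B w (d + a • w) - rf B (d + a • w) w = rf B w d - rf B d w := by
    simp [rf_add_right, O.rfr, ro_add_left]
  simpa [this, cj_rf hs, e1, e2 d d1 d2, mul_sub, sub_mul, rf_mul_rf, R.w'w O, d1, O.sy w d, d0]
    using rf_ne_zero hw.1 hw.1

variable {hφ : φ ⬝ᵥ w = 1} {κ κ' : EE 4 t F}

theorem KK_adj4 (H : O4M B M) (hQ : QQ M (RN B)) (hw : w ∈ IsoV B) (h : B.f v w = 0)
    (v0 : B.f v v ≠ 0) (h1 : κ ∈ KK B M i w φ hφ v) (h2 : κ' ∈ KK B M i w φ hφ v) :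
    κ' * (B.pow t).adj κ = κ * (B.pow t).adj κ' := by
  obtain ⟨a1, m, a2, a3⟩ := h1
  obtain ⟨b1, m', b2, b3⟩ := h2
  have h3 := hQ i _ ⟨w, hw, rfl⟩ _
    (((b1.mul (a1.adj B)).smul _).sub ((a1.mul (b1.adj B)).smul _))
    (a2.comm_pure H.le b2 hφ h h a1 b1 a3 b3)
  rw [← smul_sub, H.f.sig] at h3
  obtain ⟨c, hc⟩ := h3.of_smul v0
  have h4 := congrArg (B.pow t).adj hc
  rw [Frm.adj_sub, Frm.adj_mul, Frm.adj_mul, Frm.adj_adj, Frm.adj_adj, Frm.adj_smul, pow_sig,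
    H.f.sig, Frm.adj_one, ← hc] at h4
  refine smul_right_injective _ H.f.two ?_
  linear_combination (norm := module) -h4

theorem sc_KK4 (hI : IsoP t B.Iso ∅ (RN B ∪ RS B)) (H : O4M B M) (hG : B.Iso ≤ Gam M) (hQ : QQ M (RN B))
    (hw : w ∈ IsoV B) (h : B.f v w = 0) (v0 : B.f v v ≠ 0) (h1 : κ ∈ KK B M i w φ hφ v) :
    Sc κ := by
  have one : (1 : EE 4 t F) ∈ KK B M i w φ hφ v := by
    obtain ⟨s, hs, e⟩ := eich4 H.f hw h
    obtain ⟨a1, a2⟩ := InQ.eich (i := i) hw.2 h (H.gam hs) e hφ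
    exact ⟨InC.one, _, a1, a2⟩
  have ad : ∀ κ ∈ KK B M i w φ hφ v, (B.pow t).adj κ = κ := fun κ hκ => by
    simpa using KK_adj4 H hQ hw h v0 hκ one
  by_contra hs
  obtain ⟨J, p, r, ⟨j₁, hj₁⟩, hi, hp, hp', r0, hm⟩ := chain hI
    (fun e => by obtain ⟨N, s, -, -, h2⟩ := shape4 H.f.toO4K e; exact h2 (by simp)) i
    (KK B M i w φ hφ v) (fun j hj s hs X hX => cj_mem_KK hj (hG hs) hX) (by simp)
    (fun X hX => hX.1) h1 hs
  have : ∀ j, ∃ (N : Mk 4 F) (s : GL (Fin 4) F), (j ∈ J → s ∈ B.Iso ∧ N * p j = 0) ∧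
      N * (if j ∈ J then cj s (p j) else p j) * p j ≠ 0 := fun j => by
    by_cases hj : j ∈ J
    · obtain ⟨N, s, a1, a2, a3⟩ := shape4 H.f.toO4K (hp j hj)
      exact ⟨N, s, fun _ => ⟨a1, a2⟩, by rwa [if_pos hj]⟩
    · exact ⟨1, 1, fun e => absurd e hj, by simp [hj, hp' j hj]⟩
  choose N s hS hN using this
  have hm' := cj_pure_mem J hi (fun j hj => hG (hS j hj).1) hm
  have h3 := KK_adj4 H hQ hw h v0 hm hm'
  rw [ad _ hm, ad _ hm', pure_smul_mul, pure_smul_mul] at h3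
  have h2 := congrArg (pure N * ·) h3
  simp only [mul_smul_comm, ← pure_mul] at h2
  rw [pure_eq_zero (s := N * (p * _)) (i := j₁) (by
    simp only [Pi.mul_apply, ← mul_assoc, (hS j₁ hj₁).2, zero_mul]), smul_zero] at h2
  exact smul_ne_zero (mul_ne_zero r0 r0) (pure_ne_zero fun j => by
    simpa only [Pi.mul_apply, ← mul_assoc] using hN j) h2

theorem inA_of_sc4 (H : O4M B M) (h : InQ M i w (pp B w) m) (hQ : QQ M (RN B))
    (hw : w ∈ IsoV B) (hφ : φ ⬝ᵥ w = 1) (hs : ∀ v, B.f v w = 0 → Sc (phi i φ m v)) :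
    InA i (m : EE 4 t F) := by
  obtain ⟨p⟩ : Nonempty (Fin t → Fin 4) := inferInstance
  obtain ⟨x, hx⟩ := exists_f_one (B := B) hw.1
  obtain ⟨χ, hχ⟩ := exists_dot
    { toFun := fun v => phi i φ m (v - B.f v w • x) p p
      map_add' := fun a b => by
        rw [B.add_left, add_smul, add_sub_add_comm, phi_add, Matrix.add_apply]
      map_smul' := fun r a => by
        rw [B.smul_left, mul_smul, ← smul_sub, phi_smul, Matrix.smul_apply, RingHom.id_apply] }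
  obtain ⟨u, rfl⟩ := exists_ph B χ
  have e : ∀ v, B.f v w = 0 → phi i φ m v = B.f v u • 1 := fun v hv => by
    obtain ⟨r, hr⟩ := hs v hv
    rw [← ph_dot, hχ]; simp [hv, hr]
  have hu : B.f u w = 0 := by
    have h1 := h.spec hφ (v := w) hw.2 φ
    rw [h.kill, e w hw.2] at h1
    rw [B.eq_zero_comm]
    by_contra h0
    exact ro_ne_of_dot hφ ((em_eq_zero (i := i)).1
      ((smul_eq_zero.1 (by simpa using h1.symm)).resolve_left h0))
  obtain ⟨s, hs, es⟩ := eich4 H.f hw hu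
  obtain ⟨h1, h2⟩ := InQ.eich (i := i) hw.2 hu (H.gam hs) es hφ
  have h3 := h.mul h1.inv
  obtain ⟨γ, g1, g2⟩ := InQ.eq_of_fix H.le (i := i) hw.1 h3.mem fun y hy =>
    (ten 4 F i).LS_induction (p := fun y => ((m * (emG i s)⁻¹ : GG 4 t F) : EE 4 t F) *ᵥ y = y) hy
      (by simp) (fun a z hz => by
        by_cases z0 : z = 0
        · simp [z0]
        obtain ⟨ψ, hψ⟩ := exists_dot_one z0
        have h4 := h3.spec hφ hz ψ
        rw [h.phi_mul h1.inv hφ hz, h1.phi_inv hφ hz, e z hz, h2 z hz, add_neg_cancel, mul_zero,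
          sub_mul, one_mul, sub_eq_zero] at h4
        rw [← em_ro_fix hψ ((ten 4 F i).t_mem_LS a (Submodule.mem_span_singleton_self z)),
          mulVec_mulVec, h4])
      fun a b ha hb => by rw [mulVec_add, ha, hb]
  have g3 := hQ i _ ⟨w, hw, rfl⟩ γ g1 ⟨_, h3.mem, g2⟩
  have g4 : InA i ((m * (emG i s)⁻¹ : GG 4 t F) : EE 4 t F) :=
    g2 ▸ (Sc.one.inA i).add ((InA.em i _).mul (g3.inA i))
  have g5 := g4.mul (InA.em i (s : Mk 4 F))
  rwa [← coe_emG, ← Units.val_mul, inv_mul_cancel_right] at g5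

theorem phi_dec (hm : InQ M i w (pp B w) m) (hφ : φ ⬝ᵥ w = 1) (R : Fr4 B w w' v v') {x : Fin 4 → F}
    (hx : B.f x w = 0) : phi i φ m x = B.f x v • (B.f v v)⁻¹ • phi i φ m v +
      B.f x v' • (B.f v' v')⁻¹ • phi i φ m v' := by
  have h0 : phi i φ m w = 0 := hm.phi_eq hφ R.hw.2 InC.zero (by rw [hm.kill, mul_zero])
  conv_lhs => rw [R.vec x]
  simp only [hx, zero_smul, add_zero, phi_add, phi_smul, h0, smul_zero, zero_add, smul_smul,
    mul_comm]

theorem ql3 (hI : IsoP t B.Iso ∅ (RN B ∪ RS B)) (H : O4M B M) (hG : B.Iso ≤ Gam M)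
    (hQ : QQ M (RN B)) (hm : InQ M i w (pp B w) m) (hφ : φ ⬝ᵥ w = 1) (R : Fr4 B w w' v v') :
    Sc (phi i φ m v) := by
  obtain ⟨s, hs, e⟩ := H.f.rlI _ R.uu
  have h1 : (s : Mk 4 F) *ᵥ w = w := by simp [e, rl_mulVec, R.wu]
  obtain ⟨h2, h3⟩ := hm.conj_fix (hG hs) h1 (mem_pp_iff_of_fix hs h1) hφ
  refine Sc.of_smul (inv_ne_zero R.vv) (Sc.of_smul H.f.two (sc_KK4 (hφ := hφ) hI H hG hQ R.hw R.vw
    R.vv ⟨((phi_inC _ _ _ _).smul _).smul _, _, hm.mul h2, fun x hx => ?_⟩))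
  have := R.uu
  rw [hm.phi_mul h2 hφ hx, h3 x hx, phi_dec hm hφ R hx, phi_dec hm hφ R (x := _ *ᵥ x)
    (by simp [e, rl_mulVec, B.sub_left, B.smul_left, hx, R.uw])]
  simp only [e, rl_mulVec, B.sub_left, B.smul_left, R.uv]
  match_scalars <;> field_simp <;> ring1

theorem ql2 (hI : IsoN t B) (H : O4M B M) (ht : t = 2) (hQ : QQ M (RN B))
    (hm : InQ M i w (pp B w) m) (hφ : φ ⬝ᵥ w = 1) (R : Fr4 B w w' v v') : Sc (phi i φ m v) := by
  have O := H.f.toO4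
  obtain ⟨j, ji, hj⟩ : ∃ j, j ≠ i ∧ ∀ l, l ≠ j → l = i := by
    subst ht
    fin_cases i
    exacts [⟨1, by decide⟩, ⟨0, by decide⟩]
  have A : ∀ y, ∃ a, phi i φ m y = em j a := fun y => T4 fun l hl => hj l hl ▸ phi_inC _ _ _ _
  obtain ⟨a, ha⟩ := A v
  obtain ⟨b, hb⟩ := A v'
  let ℬ : AddSubgroup (EE 4 t F) :=
    { carrier := {X | ∃ m, InQ M i w (pp B w) m ∧
        X = em i (rf B w v) * phi i φ m v + em i (rf B w v') * phi i φ m v'}
      zero_mem' := ⟨1, InQ.one, by simp [phi]⟩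
      add_mem' := by
        rintro _ _ ⟨m, h, rfl⟩ ⟨m', h', rfl⟩
        exact ⟨_, h.mul h', by
          rw [h.phi_mul h' hφ R.vw, h.phi_mul h' hφ R.uw, mul_add, mul_add, add_add_add_comm]⟩
      neg_mem' := by
        rintro _ ⟨m, h, rfl⟩
        exact ⟨_, h.inv, by rw [h.phi_inv hφ R.vw, h.phi_inv hφ R.uw, mul_neg, mul_neg, neg_add]⟩ }
  have h1 := H.f.quad a fun x hx => by
    obtain ⟨c, c0, m', h2, h3⟩ := hI j ℬ (by
      rintro s hs _ ⟨m, h, rfl⟩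
      have hc : InC i (emG j s : EE 4 t F) := InC.emG ji.symm s
      exact ⟨_, h.conj_inC (mem_Gam.1 (H.gam hs) j) hc, by
        simp only [map_add, map_mul, hc.cj_em, InQ.phi_conj_inC hc]⟩) _ ⟨m, hm, rfl⟩ x hx
    rw [ct_add, ct_inC_left (InC.em ji _), ct_inC_left (InC.em ji _), ha, hb, ct_em, ct_em, ph_dot,
      ph_dot] at h3
    simp only [mul_smul_comm, mul_one, smul_add, mul_add, em_comm ji] at h3
    have c1 := InC.em ji.symm (rf B x x)
    have h4 := congrArg (ct i φ v) h3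
    have h5 := congrArg (ct i φ v') h3
    simp only [ct_add, ct_smul, ct_em_mul c1, ct_em_mul (phi_inC _ _ _ _), rf_mulVec, R.vu, R.uv,
      dotProduct_smul, dotProduct_zero, hφ, zero_smul, smul_zero, add_zero, zero_add, smul_eq_mul, mul_one] at h4 h5
    by_contra n
    generalize B.f (a *ᵥ x) x = r, B.f (b *ᵥ x) x = r' at h4 h5 n
    have v0 := R.vv
    have v1 := R.uu
    have u1 : B.f ((c * r / B.f v v) • v + (c * r' / B.f v' v') • v') w = 0 := by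
      simp [B.add_left, B.smul_left, R.vw, R.uw]
    have u2 := O.nz R.hw u1 fun h => by
      obtain ⟨q, h⟩ := Submodule.mem_span_singleton.1 h
      simpa [B.add_left, B.smul_left, R.wv, R.uv, v0, c0, n] using congrArg (B.f · v) h
    have k1 : em j (rf B x x) ∈ KK B M i w φ hφ
        ((c * r / B.f v v) • v + (c * r' / B.f v' v') • v') := ⟨c1, m', h2, fun y hy => by
      rw [phi_dec h2 hφ R hy, ← inv_smul_smul₀ v0 (phi i φ m' v), ← h4,
        ← inv_smul_smul₀ v1 (phi i φ m' v'), ← h5, B.add_right, O.smr, O.smr]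
      match_scalars
      field_simp⟩
    obtain ⟨x', hx', e⟩ := H.f.hyp x hx
    obtain ⟨s, hs, es⟩ := H.f.trx x hx x' hx'
    have k2 := cj_mem_KK ji (H.gam hs) k1
    rw [cj_emG_em, cj_rf (comm_le _ hs), es] at k2
    have k3 := KK_adj4 H hQ R.hw u1 u2 k1 k2
    rw [adj_em, adj_em, O.adj_rf, O.adj_rf, ← map_mul, ← map_mul, em_inj] at k3
    exact hx.1 (by simpa [rf_mul_rf, rf_mulVec, e, O.sy x', hx.2, eq_comm] using congrArg (· *ᵥ x) k3)
  have h2 : In M (1 + em i (rf B w w) * ((B.pow t).adj (phi i φ m v) - B.ε • phi i φ m v)) := by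
    obtain ⟨s, hs, e⟩ := eich4 H.f R.hw R.vw
    obtain ⟨h1, h2⟩ := InQ.eich (i := i) R.hw.2 R.vw (H.gam hs) e hφ
    have := hm.comm h1
    generalize B.f v v / 2 = c at e
    rw [h1.mul_of_pure H.le hm hφ R.vw InC.one h2, coe_emG, e, ← map_one (em i), ← map_sub,
      show 1 + rf B w v - B.ε • rf B v w - c • rf B w w - 1 =
        rf B w v - B.ε • rf B v w - c • rf B w w by abel, map_one] at this
    simp only [map_sub, map_smul, mul_sub, mul_smul_comm, hm.kill, hm.spec hφ R.vw] at this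
    convert this using 2
    rw [mul_sub, mul_smul_comm]; simp; abel
  have h3 := hQ i _ ⟨w, R.hw, rfl⟩ _ (((phi_inC _ _ _ _).adj B).sub ((phi_inC _ _ _ _).smul _)) h2
  rw [ha, adj_em, H.f.eps, one_smul, ← map_sub, sc_em] at h3
  rw [ha, sc_em]
  exact Sc.of_smul O.two (by rw [two_smul]; convert h1.sub h3 using 1; abel)

theorem jobO4QL : JobO4QL.{u} := by
  intro hI F _ _ t B M H hQ i w hw
  obtain ⟨w', v, v', R⟩ := H.f.fr hw
  obtain ⟨φ, hφ⟩ := exists_dot_one hw.1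
  refine QL.of_inQ fun m hm => inA_of_sc4 H hm hQ hw hφ fun x hx => ?_
  have key : ∀ {v v'}, Fr4 B w w' v v' → Sc (phi i φ m v) := fun R => by
    by_cases ht : 3 ≤ t
    · exact ql3 (hI F t B H.f).1 H (H.refl ht) hQ hm hφ R
    · exact ql2 (hI F t B H.f).2 H (by have := H.t2; omega) hQ hm hφ R
  rw [phi_dec hm hφ R hx]
  exact (((key R).smul _).smul _).add (((key (R.swap H.f.toO4)).smul _).smul _)

end H60.Wr
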