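/- C7-O4 tower: similarities whose square is a scalar. -/
import Cfsg.Agent.H60.WrO4Kit
import Cfsg.Agent.H44.O4K

set_option autoImplicit false

namespace H60.Wr
open Cfsg Cfsg.Geo Matrix H19 Module
open scoped MatrixGroups commutatorElement

universe u

variable {F : Type u} [Field F] {B : Frm (Fin 4) F} {w w' v v' e : Fin 4 → F} {b c : Mk 4 F}
  {l : F}

theorem kzero (hb : ¬ Sc b) {r s : F} (h : r • (1 : Mk 4 F) + s • b = 0) : r = 0 ∧ s = 0 := by
  have s0 : s = 0 := by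
    by_contra s0
    exact hb (Sc.of_smul s0 ⟨-r, by rw [neg_smul, eq_neg_iff_add_eq_zero, add_comm, h]⟩)
  exact ⟨by simpa [s0] using h, s0⟩

theorem li_of (hb : ¬ Sc b) (h2 : b * b = l • 1) (hl : ∀ m, m ^ 2 ≠ l) (cb : c * b = b * c) {r s : F}
    (s0 : s ≠ 0) (hc : c * c = r • c + s • (b * c) - 1) (hK : ∀ x y : F, c ≠ x • 1 + y • b) :
    LinearIndependent F fun i : Fin 4 => c ^ (i : ℕ) := by
  refine Fintype.linearIndependent_iff.2 fun α h => ?_
  have e1 : ∀ X, b * (b * X) = l • X := fun X => by rw [← mul_assoc, h2, smul_mul_assoc, one_mul]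
  have e2 : c * (b * c) = b * (c * c) := by rw [← mul_assoc, cb, mul_assoc]
  have h1 : (α 0 - α 2 - α 3 * r) • (1 : Mk 4 F) + (-(α 3 * s)) • b +
      ((α 1 + α 2 * r + α 3 * (r ^ 2 + s ^ 2 * l - 1)) • c +
        (α 2 * s + 2 * α 3 * r * s) • (b * c)) = 0 := by
    rw [← h]
    simp only [Fin.sum_univ_four, Fin.val_zero, Fin.val_one, Fin.val_two, pow_zero, pow_one,
      show ((3 : Fin 4) : ℕ) = 3 from rfl, pow_three, pow_two c, hc, mul_sub, mul_add, mul_smul_comm,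
      e2, e1, mul_one]
    module
  generalize hx : α 1 + α 2 * r + α 3 * (r ^ 2 + s ^ 2 * l - 1) = x at h1
  generalize hy : α 2 * s + 2 * α 3 * r * s = y at h1
  have h3 : x ^ 2 - y ^ 2 * l = 0 := by
    by_contra n
    generalize α 0 - α 2 - α 3 * r = p, -(α 3 * s) = q at h1
    refine hK ((y * q * l - x * p) / (x ^ 2 - y ^ 2 * l)) ((y * p - x * q) / (x ^ 2 - y ^ 2 * l))
      (smul_right_injective _ n ?_)
    have h4 := congrArg (b * ·) h1
    simp only [mul_add, mul_smul_comm, e1, h2, mul_one, mul_zero] at h4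
    simp only [smul_add, smul_smul, mul_div_cancel₀ _ n]
    linear_combination (norm := module) x • h1 - y • h4
  have y0 : y = 0 := by
    by_contra n
    exact hl (x / y) (by field_simp; linear_combination h3)
  have x0 : x = 0 := by simpa [y0] using h3
  obtain ⟨a1, a2⟩ := kzero hb (by simpa only [x0, y0, zero_smul, add_zero] using h1)
  have a3 : α 3 = 0 := by simpa [s0] using a2
  have a4 : α 2 = 0 := by simpa [a3, y0, s0] using hy
  intro i
  fin_cases i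
  · simpa [a3, a4] using a1
  · simpa [a3, a4, x0] using hx
  · exact a4
  · exact a3

theorem exw [Finite F] (H : O4K B) (he : B.f e e ≠ 0) : ∃ w ∈ IsoV B, B.f w e = 0 := by
  obtain ⟨w, hw⟩ := H.ex
  by_cases h : B.f e w = 0
  · exact ⟨w, hw, B.eq_zero_comm.1 h⟩
  obtain ⟨w', v, v', R⟩ := H.fr hw
  have O := H.toO4
  have h2 := H.two
  obtain ⟨x, y, h1⟩ := rep2 H.two R.vv R.uu (B.f e e / B.f e w ^ 2)
  have h3 := R.vec e
  generalize B.f e w' = a, (B.f v v)⁻¹ * B.f e v = c, (B.f v' v')⁻¹ * B.f e v' = d at h3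
  generalize B.f e w = m at h h1 h3
  subst h3
  refine ⟨_, R.xs O (y := (x + c / m) • v + (y + d / m) • v')
    (by simp [B.add_left, B.smul_left, R.vw, R.uw]) (by simp [B.add_left, B.smul_left, R.vw', R.uw']),
    ?_⟩
  simp only [B.add_left, B.add_right, B.sub_left, B.smul_left, O.smr, R.ww, R.w'w O, R.vw, R.vw',
    R.uw, R.uw', R.wv, R.w'v, R.wu, R.w'u, R.vu, R.uv, R.hw.2, R.hw'.2] at h1 ⊢
  field_simp at h1 ⊢
  linear_combination -m * h1

theorem rl_eu [Finite F] (H : O4K B) (he : B.f e e ≠ 0) : ∃ w ∈ IsoV B, ∃ v, B.f v w = 0 ∧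
    v ∉ F ∙ w ∧ Commute (rl B e) (eu B w v) := by
  obtain ⟨w, hw, h⟩ := exw H he
  obtain ⟨w', -, ww⟩ := H.hyp w hw
  obtain ⟨v, v0, v1, v2, v3⟩ := H44.O4K.perp3 B w e w'
  refine ⟨w, hw, v, v1, fun m => ?_, ?_⟩
  · obtain ⟨r, rfl⟩ := Submodule.mem_span_singleton.1 m
    exact v0 (by rw [B.smul_left, ww, mul_one] at v3; rw [v3, zero_smul])
  · simp [Commute, SemiconjBy, rl, eu, mul_sub, sub_mul, mul_add, add_mul, rf_mul_rf, h, v2, H.sy e]
    abel

theorem hh_sq (H : O4 B) (R : Fr4 B w w' v v') : hh B w w' (-1) * hh B w w' (-1) = 1 := by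
  simp only [R.hh_neg, mul_sub, sub_mul, smul_mul_assoc, mul_smul_comm, (R.ob H).pj_sq, mul_one,
    one_mul]
  module

theorem adj_hh (H : O4 B) (R : Fr4 B w w' v v') : B.adj (hh B w w' (-1)) = hh B w w' (-1) := by
  rw [R.hh_neg, B.adj_sub, H.adj_smul, H.adj_pj, B.adj_one]

/-- An involution up to sign is the square of some `ξ`. -/
theorem pm_xi (H : O4F B) {X : Mk 4 F} (h : In (G0 B) X ∨ In (G0 B) (-X)) (h2 : X * X = 1)
    (hs : ¬ Sc X) : ∃ ξ, Xi B ξ ∧ ∃ ε : F, (ε = 1 ∨ ε = -1) ∧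
      ((ξ * ξ : GL (Fin 4) F) : Mk 4 F) = ε • X := by
  rcases h with ⟨s, h, e⟩ | ⟨s, h, e⟩
  · obtain ⟨ξ, h3, rfl⟩ := H.x1 s h (by rintro rfl; exact hs (e ▸ Sc.one))
      (Units.ext (by rw [Units.val_mul, e, h2, Units.val_one]))
    exact ⟨ξ, h3, 1, .inl rfl, by rw [e, one_smul]⟩
  · obtain ⟨ξ, h3, rfl⟩ := H.x1 s h (by rintro rfl; exact hs ⟨-1, by rw [← neg_neg X, ← e]; simp⟩)
      (Units.ext (by rw [Units.val_mul, e, neg_mul_neg, h2, Units.val_one]))
    exact ⟨ξ, h3, -1, .inr rfl, by rw [e, neg_one_smul]⟩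

theorem x3_step (H : O4F B) {g : GL (Fin 4) F} (ha : B.adj g = (g : Mk 4 F))
    (h2 : (g : Mk 4 F) * (g : Mk 4 F) = l • 1) (hl : ∀ m, m ^ 2 ≠ l) (hw : w ∈ IsoV B)
    (hb : ∀ ξ, Xi B ξ → g * ξ ≠ ξ * g) : ∃ w' v v' m, Fr4 B w w' v v' ∧ m ≠ 0 ∧
      (g : Mk 4 F) *ᵥ w = (m : F) • w' ∧ (g : Mk 4 F) *ᵥ w' = (l / m) • w ∧
      Commute (g : Mk 4 F) (hh B w w' (-1)) ∧ ∃ ξ, Xi B ξ ∧ g * ξ * g⁻¹ = ξ⁻¹ ∧ ∃ ε : F,
        (ε = 1 ∨ ε = -1) ∧ ((ξ * ξ : GL (Fin 4) F) : Mk 4 F) = ε • hh B w w' (-1) := by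
  have O := H.toO4
  have gg : ∀ x, (g : Mk 4 F) *ᵥ ((g : Mk 4 F) *ᵥ x) = l • x := fun x => by
    rw [mulVec_mulVec, h2, smul_mulVec, one_mulVec]
  have g0 : B.f ((g : Mk 4 F) *ᵥ w) ((g : Mk 4 F) *ᵥ w) = 0 := by
    rw [B.adj_left, ha, gg, O.smr, hw.2, mul_zero]
  have m0 : B.f w ((g : Mk 4 F) *ᵥ w) ≠ 0 := fun e => by
    obtain ⟨r, hr⟩ := Submodule.mem_span_singleton.1 (H.ns w hw _ (B.eq_zero_comm.1 e) g0)
    have := gg w
    rw [← hr, mulVec_smul, ← hr, smul_smul, ← pow_two] at this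
    exact hl r (smul_left_injective F hw.1 this)
  generalize hm : B.f w ((g : Mk 4 F) *ᵥ w) = m at m0
  have e1 : (g : Mk 4 F) *ᵥ w = m • m⁻¹ • (g : Mk 4 F) *ᵥ w := (smul_inv_smul₀ m0 _).symm
  have e2 : (g : Mk 4 F) *ᵥ (m⁻¹ • (g : Mk 4 F) *ᵥ w) = (l / m) • w := by
    rw [mulVec_smul, gg, smul_smul, div_eq_inv_mul]
  have ww : B.f w (m⁻¹ • (g : Mk 4 F) *ᵥ w) = 1 := by rw [O.smr, hm, inv_mul_cancel₀ m0]
  obtain ⟨v, v', R⟩ := H.frame w hw (m⁻¹ • (g : Mk 4 F) *ᵥ w) ⟨fun e => by simp [e] at ww,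
    by rw [O.smr, B.smul_left, g0, mul_zero, mul_zero]⟩ ww
  generalize m⁻¹ • (g : Mk 4 F) *ᵥ w = w' at e1 e2 R
  have cm : Commute (g : Mk 4 F) (hh B w w' (-1)) := by
    simp only [Commute, SemiconjBy, hh, mul_add, add_mul, mul_smul_comm, smul_mul_assoc, mul_ro,
      rf_mul, ha, e1, e2, ro_smul_left, O.rfr, mul_one, one_mul, inv_neg, inv_one]
    module
  obtain ⟨ξ, hξ, ε, a1, a2⟩ := pm_xi H (H.torpm w hw w' R.hw' R.ww (-1) (by simp)) (hh_sq O R)
    fun h => (R.ob O).not_sc (Sc.of_smul O.two (by simpa [R.hh_neg] using h.add Sc.one))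
  refine ⟨w', v, v', m, R, m0, e1, e2, cm, ξ, hξ, ?_, ε, a1, a2⟩
  have c1 : Commute g (ξ * ξ) := Units.ext (by
    rw [Units.val_mul, Units.val_mul _ g, a2]; exact (cm.smul_right ε).eq)
  have c2 : cj g ((ξ : Mk 4 F) * (ξ : Mk 4 F)) = (ξ : Mk 4 F) * (ξ : Mk 4 F) :=
    (cj_eq_iff _ _ _).2 (congrArg Units.val c1.eq)
  refine (H.x2 ξ hξ _ (mem_Iso_of ?_) ?_ ?_).resolve_left fun e => hb ξ hξ (mul_inv_eq_iff_eq_mul.1 e)
  · rw [← cj_coe, Frm.adj_cj _ ⟨Units.mk0 l fun e => hl 0 (by simp [e]), fun x y => by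
      rw [B.adj_left, ha, gg, O.smr, Units.val_mk0]⟩, ← map_mul,
      In.adj_mul (In.coe.2 hξ.iso), map_one]
  · rw [conj_mul, c1.eq, mul_inv_cancel_right]
  · obtain ⟨a, b, c, d, η, -, -, -, -, b1, b2, -⟩ := hξ.ex
    have b3 : (ξ : Mk 4 F) * (1 + (ξ : Mk 4 F) * (ξ : Mk 4 F)) =
        η • (1 + (ξ : Mk 4 F) * (ξ : Mk 4 F)) := by
      rw [b1, add_sub_cancel, mul_smul_comm, b2, smul_comm]
    rw [b3, ← cj_coe, ← c2, ← map_one (cj g), ← map_add, ← map_mul, b3, map_smul]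

theorem jobO4X3 : JobO4X3.{u} := by
  intro F _ _ B H g ⟨κ, hκ⟩ ⟨l, h2⟩
  have O := H.toO4
  by_cases hs : Sc (g : Mk 4 F)
  · obtain ⟨w, hw, v, hv, hn⟩ := H.exu
    obtain ⟨r, hr⟩ := hs
    exact .inl ⟨w, hw, v, hv, hn, by simp [hr]⟩
  have l0 : l ≠ 0 := by
    rintro rfl
    exact (g * g).ne_zero (by rw [Units.val_mul, h2, zero_smul])
  have ha : B.adj g = (g : Mk 4 F) := by
    have h1 : B.adj g = (κ / l) • (g : Mk 4 F) := (Units.mul_left_inj g).1 (by
      rw [hκ, smul_mul_assoc, h2, smul_smul, div_mul_cancel₀ _ l0])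
    have h3 := congrArg B.adj h1
    rw [B.adj_adj, O.adj_smul, h1, smul_smul, ← pow_two, eq_comm, ← sub_eq_zero] at h3
    rcases sq_eq_one_iff.1 (sub_eq_zero.1 (kzero hs (r := 0) (s := (κ / l) ^ 2 - 1)
      (by rw [← h3]; module)).2) with e | e
    · rw [h1, e, one_smul]
    · exact absurd (H.sim _ ⟨κ, hκ⟩ (by rw [h1, e]; simpa using Sc.zero)) hs
  by_cases hl : ∃ m, m ^ 2 = l
  · obtain ⟨m, rfl⟩ := hl
    have m0 : m ≠ 0 := by rintro rfl; simp at l0
    have e0 : ∀ {X}, m⁻¹ • (g : Mk 4 F) = X → (g : Mk 4 F) = m • X := fun e => by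
      rw [← e, smul_inv_smul₀ m0]
    have e1 : m⁻¹ • (g : Mk 4 F) * m⁻¹ • (g : Mk 4 F) = 1 := by
      rw [smul_mul_smul_comm, h2, smul_smul, ← pow_two, ← mul_pow, inv_mul_cancel₀ m0, one_pow,
        one_smul]
    rcases H.inv _ (by rw [O.adj_smul, ha]) e1 with e | e | ⟨e, he, h⟩ | ⟨a, b, c, d, Q, e⟩
    · exact absurd (e0 e ▸ Sc.one.smul m) hs
    · exact absurd (e0 e ▸ Sc.one.neg.smul m) hs
    · obtain ⟨w, hw, v, hv, hn, cm⟩ := rl_eu H.toO4K he
      refine .inl ⟨w, hw, v, hv, hn, ?_⟩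
      rcases h with h | h <;> rw [e0 h]
      exacts [cm.smul_left m, cm.neg_left.smul_left m]
    obtain ⟨s, hs', es⟩ := in_Iso_of (B := B) (X := m⁻¹ • (g : Mk 4 F))
      (by rw [O.adj_smul, ha, e1])
    obtain ⟨ξ, hξ, ε, a1, a2⟩ := pm_xi H ((H.so s hs' (by
      rw [es, e, ← Q.rl_rl, det_mul, det_rl Q.aa, det_rl Q.bb]; simp)).imp
      (fun h => ⟨s, h, es⟩) fun h => ⟨-s, h, by rw [Units.val_neg, es]⟩) e1
      fun h => hs (Sc.of_smul (inv_ne_zero m0) h)
    refine .inr (.inl ⟨ξ, hξ, Units.ext ?_⟩)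
    have c : Commute (ε • m⁻¹ • (g : Mk 4 F)) (ξ : Mk 4 F) :=
      a2 ▸ (Commute.refl (ξ : Mk 4 F)).mul_left (Commute.refl _)
    rwa [Commute.smul_left_iff₀ (by rcases a1 with rfl | rfl <;> simp),
      Commute.smul_left_iff₀ (inv_ne_zero m0)] at c
  push Not at hl
  by_cases hb : ∃ ξ, Xi B ξ ∧ g * ξ = ξ * g
  · exact .inr (.inl hb)
  push Not at hb
  obtain ⟨w, hw⟩ := H.ex
  obtain ⟨w', v, v', m, R, m0, e1, e2, c1, ξ, hξ, i1, ε, a1, a2⟩ := x3_step H ha h2 hl hw hb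
  obtain ⟨x', y, y', m', R', m0', f1, -, c2, η, hη, i2, ε', b1, b2⟩ :=
    x3_step H ha h2 hl (R.xs O R.vw R.vw') hb
  refine .inr (.inr ⟨ξ, η, hξ, hη, i1, i2, ?_⟩)
  have t2 := O.two
  have s1 := hh_sq O R
  have s2 := hh_sq O R'
  have p1 : hh B w w' (-1) *ᵥ (w' + v - (B.f v v / 2) • w) = v - (w' - (B.f v v / 2) • w) := by
    simp only [hh_mulVec, B.sub_left, B.add_left, B.smul_left, R.ww, R.w'w O, R.vw, R.vw', R.hw.2,
      R.hw'.2, inv_neg, inv_one]
    module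
  have hx : w' + v - (B.f v v / 2) • w = v + (w' - (B.f v v / 2) • w) := by abel
  generalize w' + v - (B.f v v / 2) • w = x at *
  have p2 : hh B x x' (-1) *ᵥ x = -x := by
    simp only [hh_mulVec, R'.ww, R'.hw.2]; module
  have p3 : ∀ z, hh B x x' (-1) *ᵥ z = -z → z = B.f z x' • x + B.f z x • x' := fun z h => by
    rw [hh_mulVec, inv_neg, inv_one] at h
    exact smul_right_injective _ t2 (by linear_combination (norm := module) h)
  have d1 := adj_hh O R
  have d2 := adj_hh O R'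
  generalize hh B w w' (-1) = s at *
  generalize hh B x x' (-1) = s' at *
  have cY : ∀ {X : Mk 4 F}, Commute X s → Commute X s' → Commute X (s * s' + s' * s) :=
    fun p q => (p.mul_right q).add_right (q.mul_right p)
  have y1 : Commute s (s * s' + s' * s) := by
    simp only [Commute, SemiconjBy, mul_add, add_mul, ← mul_assoc, s1, mul_assoc _ s s, mul_one,
      one_mul, add_comm]
  have y2 : Commute s' (s * s' + s' * s) := by
    simp only [Commute, SemiconjBy, mul_add, add_mul, ← mul_assoc, s2, mul_assoc _ s' s', mul_one,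
      one_mul, add_comm]
  obtain ⟨r, r', hY⟩ : ∃ r r' : F, s * s' + s' * s = r • 1 + r' • (g : Mk 4 F) := by
    have h1 := p3 ((s * s' + s' * s) *ᵥ x) (by
      rw [mulVec_mulVec, y2.eq, ← mulVec_mulVec, p2, mulVec_neg])
    generalize B.f _ x' = r, B.f ((s * s' + s' * s) *ᵥ x) x = r' at h1
    refine ⟨r, r' / m', sub_eq_zero.1 ?_⟩
    have n1 : Commute s (s * s' + s' * s - (r • 1 + (r' / m') • (g : Mk 4 F))) :=
      y1.sub_right (((Commute.one_right _).smul_right _).add_right (c1.symm.smul_right _))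
    have n2 : Commute (g : Mk 4 F) (s * s' + s' * s - (r • 1 + (r' / m') • (g : Mk 4 F))) :=
      (cY c1 c2).sub_right (((Commute.one_right _).smul_right _).add_right
        ((Commute.refl _).smul_right _))
    have n3 : (s * s' + s' * s - (r • 1 + (r' / m') • (g : Mk 4 F))) *ᵥ x = 0 := by
      rw [sub_mulVec, h1, add_mulVec, smul_mulVec, smul_mulVec, one_mulVec, f1, smul_smul,
        div_mul_cancel₀ _ m0', sub_self]
    generalize s * s' + s' * s - (r • 1 + (r' / m') • (g : Mk 4 F)) = N at n1 n2 n3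
    have n4 : N *ᵥ (s *ᵥ x) = 0 := by rw [mulVec_mulVec, ← n1.eq, ← mulVec_mulVec, n3, mulVec_zero]
    have n5 : ∀ z, N *ᵥ z = 0 → N *ᵥ ((g : Mk 4 F) *ᵥ z) = 0 := fun z h => by
      rw [mulVec_mulVec, ← n2.eq, ← mulVec_mulVec, h, mulVec_zero]
    rw [p1, mulVec_sub] at n4
    rw [hx, mulVec_add] at n3
    have k1 : N *ᵥ v = 0 := smul_right_injective _ t2 (by linear_combination (norm := module) n3 + n4)
    rw [k1, zero_add] at n3
    have k2 := n5 _ n3
    simp only [mulVec_sub, mulVec_smul, e1, e2] at k2 n3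
    have k3 : N *ᵥ w = 0 := by
      refine smul_right_injective _ (r := l / m - m * (B.f v v / 2) ^ 2) (fun e => hl
        (m * (B.f v v / 2)) (by field_simp at e ⊢; linear_combination -e)) ?_
      linear_combination (norm := module) k2 + (B.f v v / 2 * m) • n3
    have k4 := n5 _ k1
    have k5 := R.vec ((g : Mk 4 F) *ᵥ v)
    rw [B.adj_left, B.adj_left _ v w, ha, e1, e2, O.smr, O.smr, R.vw, R.vw', mul_zero, mul_zero,
      zero_smul, zero_smul, zero_add, zero_add] at k5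
    generalize (B.f v v)⁻¹ * _ = α, (B.f v' v')⁻¹ * _ = β at k5
    have β0 : β ≠ 0 := by
      rintro rfl
      rw [zero_smul, add_zero] at k5
      have := congrArg (· *ᵥ v) h2
      simp only [← mulVec_mulVec, k5, mulVec_smul, smul_smul, smul_mulVec, one_mulVec] at this
      exact hl α (by rw [pow_two]; exact smul_left_injective F (fun e => R.vv (by simp [e])) this)
    refine R.mat (by simpa using k3) (by simpa [k3] using n3) (by simpa using k1) ?_
    simpa [k5, mulVec_add, mulVec_smul, k1, β0] using k4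
  have i3 : s' * s * (s * s') = 1 := by rw [mul_assoc, ← mul_assoc s, s1, one_mul, s2]
  have ad : B.adj (s * s') = s' * s := by rw [B.adj_mul, d1, d2]
  have ns : ¬ Sc (s * s') := fun ⟨q, hq⟩ => by
    have h1 := congrArg (fun X => (s * X) *ᵥ x) hq
    simp only [← mul_assoc, s1, one_mul, p2, mul_smul_comm, mul_one, smul_mulVec, p1] at h1
    rw [hx] at h1
    have h3 := congrArg (B.f · v) h1
    have h4 := congrArg (B.f · w) h1
    simp only [B.neg_left, B.add_left, B.sub_left, B.smul_left, R.w'v, R.wv, R.vw, R.w'w O,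
      R.hw.2] at h3 h4
    exact R.vv (mul_left_cancel₀ t2 (by linear_combination -h3 - B.f v v * h4))
  have r0 : r' ≠ 0 := by
    rintro rfl
    exact ns (H.sim _ (by rw [ad, i3]; exact Sc.one) ⟨r, by rw [ad, hY]; simp⟩)
  have nK : ∀ p q : F, s * s' ≠ p • 1 + q • (g : Mk 4 F) := fun p q e => by
    have h1 : s' * s = p • 1 + q • (g : Mk 4 F) := by
      rw [← ad, e, B.adj_add, O.adj_smul, O.adj_smul, ha, B.adj_one]
    rw [e, h1] at i3
    simp only [mul_add, add_mul, smul_mul_assoc, mul_smul_comm, h2, mul_one, one_mul] at i3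
    obtain ⟨h3, h4⟩ := kzero hs (r := p ^ 2 + q ^ 2 * l - 1) (s := 2 * p * q)
      (by linear_combination (norm := module) i3)
    have q0 : q ≠ 0 := by rintro rfl; exact ns ⟨p, by simpa using e⟩
    obtain rfl : p = 0 := by simpa [t2, q0] using h4
    exact hl q⁻¹ (by field_simp; linear_combination -h3)
  have hc : s * s' * (s * s') = r • (s * s') + r' • ((g : Mk 4 F) * (s * s')) - 1 := by
    have := congrArg (· * (s * s')) hY
    simp only [add_mul, i3, smul_mul_assoc, one_mul] at this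
    exact eq_sub_of_add_eq this
  have cg := (c1.mul_right c2).symm
  rw [Units.val_mul, a2, b2, smul_mul_smul_comm]
  rcases (show ε * ε' = 1 ∨ ε * ε' = -1 by
    rcases a1 with rfl | rfl <;> rcases b1 with rfl | rfl <;> simp) with e | e <;> rw [e]
  · rw [one_smul]; exact li_of hs h2 hl cg r0 hc nK
  · rw [neg_one_smul]
    exact li_of hs h2 hl cg.neg_left (r := -r) (neg_ne_zero.2 r0) (by simpa using hc)
      fun p q e => nK (-p) (-q) (by rw [neg_eq_iff_eq_neg.1 e]; module)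

end H60.Wr
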